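import Cfsg.Agent.Lib.H99.FrB
import Cfsg.Agent.Lib.H7.OA

set_option autoImplicit false
set_option maxHeartbeats 400000
set_option linter.unusedSimpArgs false
set_option linter.unusedVariables false
set_option linter.unusedSectionVars false

/-! Frames: the statements, from the overgroup theorem. -/

namespace H99.FrC

open Matrix Module H96.Fr H48.QuadSplit H95.OImpB H95.OBridge Cfsg Cfsg.Geo H99.FrB

theorem O_eq {F V : Type*} [Field F] [AddCommGroup V] [Module F V] (Q : QuadraticForm F V) : H7.OA.O Q = H17.OrthAbs.O Q := by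
  ext g; rfl

theorem asm' {F : Type*} [Field F] [Fintype F] {κ : Type} [Fintype κ] [DecidableEq κ] (h2 : (2 : F) ≠ 0) {Q' : QuadraticForm F (κ → F)} (hn : 7 ≤ Fintype.card κ) {t : ℕ} {D : Fin t → Submodule F (κ → F)}
    (hD : IsOrthogonalMDecomposition (⇑Q') 1 D)
    (main : ∀ (Q : QuadraticForm F (Fin t → F)) (c : F), c ≠ 0 → (∀ x, Q x = c * (x ⬝ᵥ x)) →
      ∀ K : Subgroup ((Fin t → F) ≃ₗ[F] (Fin t → F)), Dat K → (∃ g ∈ K, ¬ Mon g) → ⁅H7.OA.O Q, H7.OA.O Q⁆ ≤ K) :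
    IsMaximalIn (omegaGL (⇑Q')) (decompositionStabilizer D ⊓ omegaGL (⇑Q')) := by
  apply asm h2 hn hD
  intro Q c hc hQ K hK
  by_cases h : ∃ g ∈ K, ¬ Mon g
  · right
    have := main Q c hc hQ K hK h
    rwa [O_eq] at this
  · left
    intro g hg
    by_contra hm
    exact h ⟨g, hg, hm⟩

theorem t_eq {F : Type*} [Field F] {κ : Type} [Fintype κ] [DecidableEq κ] {Q' : (κ → F) → F} {t : ℕ} {D : Fin t → Submodule F (κ → F)}
    (hD : IsOrthogonalMDecomposition Q' 1 D) : t = Fintype.card κ := by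
  have hcard := card_eq hD.decomp.decomp
  rw [mul_one] at hcard
  exact hcard.symm

/-- The odd-dimensional case (also for `m = 3`, `m ≥ 4`). -/
theorem odd {F : Type*} [Field F] [Fintype F] (hodd : Odd (Fintype.card F)) (m : ℕ) (hm : 3 ≤ m) {t : ℕ} (D : Fin t → Submodule F (Unit ⊕ (Fin m ⊕ Fin m) → F))
    (hD : IsOrthogonalMDecomposition (Cfsg.quadFormOdd m F) 1 D)
    (main : ∀ (Q : QuadraticForm F (Fin t → F)) (c : F), c ≠ 0 → (∀ x, Q x = c * (x ⬝ᵥ x)) →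
      ∀ K : Subgroup ((Fin t → F) ≃ₗ[F] (Fin t → F)), Dat K → (∃ g ∈ K, ¬ Mon g) → ⁅H7.OA.O Q, H7.OA.O Q⁆ ≤ K) :
    IsMaximalIn (omegaGL (Cfsg.quadFormOdd m F)) (decompositionStabilizer D ⊓ omegaGL (Cfsg.quadFormOdd m F)) := by
  have h2 : (2 : F) ≠ 0 := two_ne hodd
  obtain ⟨Q', hQ', -⟩ := quad_odd (F := F) m h2
  rw [← hQ'] at hD ⊢
  apply asm' h2 _ hD main
  simp only [Fintype.card_sum, Fintype.card_unit, Fintype.card_fin]
  omega

/-- The general case. -/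
theorem gen {F : Type*} [Field F] [Fintype F] (hodd : Odd (Fintype.card F)) {n : ℕ} (hn : 7 ≤ n) (Q : (Fin n → F) → F) (hQ : IsNondegenerateQuadraticForm Q)
    {t : ℕ} (D : Fin t → Submodule F (Fin n → F)) (hD : IsOrthogonalMDecomposition Q 1 D)
    (main : ∀ (Q : QuadraticForm F (Fin t → F)) (c : F), c ≠ 0 → (∀ x, Q x = c * (x ⬝ᵥ x)) →
      ∀ K : Subgroup ((Fin t → F) ≃ₗ[F] (Fin t → F)), Dat K → (∃ g ∈ K, ¬ Mon g) → ⁅H7.OA.O Q, H7.OA.O Q⁆ ≤ K) :
    IsMaximalIn (omegaGL Q) (decompositionStabilizer D ⊓ omegaGL Q) := by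
  have h2 : (2 : F) ≠ 0 := two_ne hodd
  obtain ⟨Q', hQ', -⟩ := exists_quad hQ
  subst hQ'
  apply asm' h2 _ hD main
  simpa using hn

end H99.FrC
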