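import Mathlib
import Cfsg.Agent.Lib.H99.Iso2

set_option autoImplicit false
set_option linter.unusedSimpArgs false
set_option linter.unusedSectionVars false
set_option linter.unusedVariables false

/-! Isometries of prime order with small support commuting with a field. -/

namespace H99.Adj

open Module Submodule Polynomial H99.Iso

variable {F : Type*} [Field F] {V : Type*} [AddCommGroup V] [Module F V] {B : LinearMap.BilinForm F V}

theorem exists_irred_sub [Fintype F] [FiniteDimensional F V] {r : ℕ} (hr : r.Prime) (hrq : ¬ r ∣ Fintype.card F) {T : V →ₗ[F] V} (hT : T ^ r = 1) {X : Submodule F V}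
    (hX : ∀ v ∈ X, T v ∈ X) (hfix : ∀ v ∈ X, T v = v → v = 0) (hX0 : X ≠ ⊥) :
    ∃ Y ≤ X, (∀ v ∈ Y, T v ∈ Y) ∧ finrank F Y = orderOf ((Fintype.card F : ℕ) : ZMod r) ∧ 0 < finrank F Y ∧
      (∀ Z ≤ Y, (∀ v ∈ Z, T v ∈ Z) → Z ≠ ⊥ → Z = Y) := by
  classical
  have : Fact r.Prime := ⟨hr⟩
  obtain ⟨w0, hw0X, hw00⟩ := Submodule.exists_mem_ne_zero_of_ne_bot hX0
  obtain ⟨g, h, hg, hgd, hgw, hgw'⟩ := exists_irr T ⊥ (cyclotomic r F) (squarefree_cyclotomic hr hrq) w0
    (cyclotomic_kills hr hT hX hfix w0 hw0X) (by rw [Submodule.mem_bot]; exact hw00)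
  have hwX : aeval T h w0 ∈ X := aeval_mem T X hX h w0 hw0X
  have hwne : aeval T h w0 ≠ 0 := fun h => hgw (by rw [h]; exact Submodule.zero_mem _)
  obtain ⟨Y, h1, h2, h3, h4, h5, -⟩ := exists_min hr hrq hT hX hfix g hg hgd _ hwX hwne hgw'
  refine ⟨Y, h1, h2, h4, ?_, h5⟩
  rw [Nat.pos_iff_ne_zero]
  intro h0
  have : Y = ⊥ := Submodule.finrank_eq_zero.1 h0
  rw [this] at h3
  exact hwne ((Submodule.mem_bot F).1 h3)

theorem aeval_frob [Fintype F] (T : V →ₗ[F] V) (h : F[X]) (m : ℕ) :
    (aeval T h) ^ (Fintype.card F ^ m) = aeval (T ^ (Fintype.card F ^ m)) h := by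
  induction m with
  | zero => rw [pow_zero, pow_one, pow_one]
  | succ m ih =>
    rw [pow_succ, pow_mul, ih, ← map_pow, ← FiniteField.expand_card, expand_aeval, ← pow_mul]

theorem adj_aeval {T S : V →ₗ[F] V} (hB : ∀ u v, B (T u) (T v) = B u v) (hS : ∀ v, T (S v) = v) (h : F[X]) :
    ∀ u v, B (aeval T h u) v = B u (aeval S h v) := by
  have h1 : ∀ u v, B (T u) v = B u (S v) := by
    intro u v
    conv_lhs => rw [← hS v]
    exact hB _ _
  have h2 : ∀ (n : ℕ) u v, B ((T ^ n) u) v = B u ((S ^ n) v) := by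
    intro n
    induction n with
    | zero => intro u v; rfl
    | succ n ih =>
      intro u v
      rw [pow_succ', Module.End.mul_apply, h1, ih, pow_succ, Module.End.mul_apply]
  intro u v
  induction h using Polynomial.induction_on' with
  | add p q hp hq => rw [map_add, map_add, LinearMap.add_apply, LinearMap.add_apply, map_add, LinearMap.add_apply, map_add, hp, hq]
  | monomial n a =>
    rw [aeval_monomial, aeval_monomial, Module.End.mul_apply, Module.End.mul_apply, Module.algebraMap_end_apply,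
      Module.algebraMap_end_apply, map_smul, LinearMap.smul_apply, map_smul, h2]

/-- `T` with irreducible support of even dimension `i`: on the support the adjoint of a commuting endomorphism `δ`
is its power `δ ^ (q ^ (i / 2))` -/
theorem adj_pow [Fintype F] [FiniteDimensional F V] {r : ℕ} (hr : r.Prime) (hr2 : r ≠ 2) (hrq : ¬ r ∣ Fintype.card F)
    {T δ : V →ₗ[F] V} (hB : ∀ u v, B (T u) (T v) = B u v) (hT : T ^ r = 1) (hT1 : T ≠ 1)
    {i : ℕ} (hi : i = orderOf ((Fintype.card F : ℕ) : ZMod r)) (hi0 : 0 < i) (hie : Even i)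
    (hdim : finrank F (LinearMap.range (T - 1)) ≤ i) (hδ : ∀ v, δ (T v) = T (δ v)) :
    ∀ u ∈ LinearMap.range (T - 1), ∀ v ∈ LinearMap.range (T - 1), B (δ u) v = B u ((δ ^ (Fintype.card F ^ (i / 2))) v) := by
  have hrF := natCast_ne_zero hr hrq
  set W := LinearMap.range (T - 1) with hW
  have hWT : ∀ v ∈ W, T v ∈ W := by
    rintro _ ⟨v, rfl⟩
    refine ⟨T v, ?_⟩
    show T (T v) - T v = T (T v - v)
    rw [map_sub]
  have hWδ : ∀ v ∈ W, δ v ∈ W := by
    rintro _ ⟨v, rfl⟩
    refine ⟨δ v, ?_⟩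
    show T (δ v) - δ v = δ (T v - v)
    rw [map_sub, hδ]
  have hW0 : W ≠ ⊥ := by
    intro h
    apply hT1
    apply LinearMap.ext
    intro v
    have : (T - 1) v ∈ W := ⟨v, rfl⟩
    rw [h, Submodule.mem_bot] at this
    exact sub_eq_zero.1 this
  obtain ⟨w, hwW, hw0⟩ := Submodule.exists_mem_ne_zero_of_ne_bot hW0
  let L : F[X] →ₗ[F] V :=
    { toFun := fun h => aeval T h w
      map_add' := fun a b => by rw [map_add, LinearMap.add_apply]
      map_smul' := fun c a => by rw [map_smul, LinearMap.smul_apply]; rfl }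
  have hY := RElt.irred hr hrq hrF T hT (by rw [← hi]; exact hdim) (LinearMap.range L) (by
      rintro _ ⟨h, rfl⟩
      exact aeval_mem T W hWT h w hwW) (by
      rintro _ ⟨h, rfl⟩
      refine ⟨Polynomial.X * h, ?_⟩
      show aeval T (Polynomial.X * h) w = T (aeval T h w)
      rw [map_mul, aeval_X, Module.End.mul_apply]) (by
      intro h
      have h1 : L 1 ∈ LinearMap.range L := ⟨1, rfl⟩
      rw [h, Submodule.mem_bot] at h1
      apply hw0
      have h2 : L 1 = w := by
        show aeval T (1 : F[X]) w = w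
        rw [map_one]; rfl
      rw [← h2]; exact h1)
  have hcyc : ∀ v ∈ W, ∃ g : F[X], aeval T g w = v := by
    intro v hv
    rw [hW, ← hY] at hv
    exact hv
  have hδg : ∀ (g : F[X]) v, δ (aeval T g v) = aeval T g (δ v) := by
    intro g v
    have hc : Commute δ T := LinearMap.ext hδ
    have : Commute δ (aeval T g) := by
      rw [aeval_eq_sum_range]
      exact Commute.sum_right _ _ _ (fun i _ => (Commute.pow_right hc i).smul_right _)
    exact LinearMap.congr_fun this.eq v
  obtain ⟨h, hh⟩ := hcyc (δ w) (hWδ w hwW)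
  have hδh : ∀ v ∈ W, δ v = aeval T h v := by
    intro v hv
    obtain ⟨g, rfl⟩ := hcyc v hv
    rw [hδg, ← hh, ← Module.End.mul_apply, ← Module.End.mul_apply, ← map_mul, ← map_mul, mul_comm]
  have hpow : ∀ (n : ℕ) v, v ∈ W → (δ ^ n) v = ((aeval T h) ^ n) v := by
    intro n
    induction n with
    | zero => intro v _; rfl
    | succ n ih =>
      intro v hv
      rw [pow_succ, pow_succ, Module.End.mul_apply, Module.End.mul_apply, ih _ (hWδ v hv), hδh v hv]
  have hS : ∀ v, T ((T ^ (Fintype.card F ^ (i / 2))) v) = v := by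
    intro v
    rw [← Module.End.mul_apply, ← pow_succ']
    obtain ⟨t, ht⟩ := pow_half hr hr2 hi hi0 hie
    rw [ht, pow_mul, hT, one_pow]; rfl
  intro u hu v hv
  rw [hδh u hu, adj_aeval hB hS, hpow _ v hv, aeval_frob]

/-- odd dimension: nondegenerate forms have fixed vectors -/
theorem exists_fix_of_odd [FiniteDimensional F V] (h2 : (2 : F) ≠ 0) {T : V →ₗ[F] V} {r : ℕ} (hr : Odd r) (hT : T ^ r = 1)
    {B : LinearMap.BilinForm F V} (hB : ∀ u v, B (T u) (T v) = B u v) (hN : ∀ u, (∀ v, B u v = 0) → u = 0) (hodd : Odd (finrank F V)) :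
    ∃ v ≠ 0, T v = v := by
  classical
  let b := Module.finBasis F V
  set A := LinearMap.toMatrix b b T with hA
  set S : Matrix (Fin (finrank F V)) (Fin (finrank F V)) F := Matrix.of fun i j => B (b i) (b j) with hS
  have hTb : ∀ j, T (b j) = ∑ k, A k j • b k := by
    intro j
    conv_lhs => rw [← b.sum_repr (T (b j))]
    refine Finset.sum_congr rfl fun k _ => ?_
    rw [hA, LinearMap.toMatrix_apply]
  have hASA : A.transpose * S * A = S := by
    ext i j
    rw [hS, Matrix.of_apply, ← hB, hTb, hTb]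
    simp only [map_sum, LinearMap.sum_apply, map_smul, LinearMap.smul_apply, smul_eq_mul]
    rw [Matrix.mul_apply]
    refine Finset.sum_congr rfl fun l _ => ?_
    rw [Matrix.mul_apply, Finset.sum_mul, Finset.mul_sum]
    refine Finset.sum_congr rfl fun k _ => ?_
    rw [Matrix.transpose_apply, Matrix.of_apply]; ring
  have hSdet : S.det ≠ 0 := by
    intro h0
    obtain ⟨v, hv, hvS⟩ := Matrix.exists_vecMul_eq_zero_iff.2 h0
    have h1 : ∑ i, v i • b i = 0 := by
      apply hN
      intro y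
      obtain ⟨c, rfl⟩ : ∃ c : Fin (finrank F V) → F, y = ∑ j, c j • b j := ⟨fun j => b.repr y j, (b.sum_repr y).symm⟩
      have h2 : ∀ j, B (∑ i, v i • b i) (b j) = 0 := by
        intro j
        have := congrFun hvS j
        rw [Matrix.vecMul, dotProduct] at this
        simp only [map_sum, LinearMap.sum_apply, map_smul, LinearMap.smul_apply, smul_eq_mul]
        exact this
      rw [map_sum]
      refine Finset.sum_eq_zero fun j _ => ?_
      rw [map_smul, h2, smul_zero]
    apply hv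
    funext i
    have := congrArg (fun z => b.repr z i) h1
    simpa [Finsupp.single_apply] using this
  have hAr : A ^ r = 1 := by
    have h1 : LinearMap.toMatrixAlgEquiv b (T ^ r) = (LinearMap.toMatrixAlgEquiv b T) ^ r := map_pow _ _ _
    rw [hT, map_one] at h1
    exact h1.symm
  have hdet1 : A.det = 1 := by
    have h1 : A.det ^ 2 = 1 := by
      have := congrArg Matrix.det hASA
      rw [Matrix.det_mul, Matrix.det_mul, Matrix.det_transpose] at this
      apply mul_right_cancel₀ hSdet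
      linear_combination this
    have h2 : A.det ^ r = 1 := by rw [← Matrix.det_pow, hAr, Matrix.det_one]
    have h3 : A.det ^ (Nat.gcd 2 r) = 1 := pow_gcd_eq_one.2 ⟨h1, h2⟩
    have h4 : Nat.gcd 2 r = 1 := (Nat.coprime_two_left).2 hr
    rwa [h4, pow_one] at h3
  have hdet : (A - 1).det = 0 := by
    have h1 : S * (A - 1) = (1 - A.transpose) * S * A := by
      rw [Matrix.mul_sub, Matrix.sub_mul, Matrix.sub_mul, Matrix.one_mul, hASA, Matrix.mul_one]
    have h2' := congrArg Matrix.det h1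
    rw [Matrix.det_mul, Matrix.det_mul, Matrix.det_mul, hdet1, mul_one] at h2'
    have h3 : (1 - A.transpose).det = - (A - 1).det := by
      have : (1 - A.transpose) = -((A - 1).transpose) := by
        rw [Matrix.transpose_sub, Matrix.transpose_one, neg_sub]
      rw [this, Matrix.det_neg, Matrix.det_transpose, Fintype.card_fin, hodd.neg_one_pow]; ring
    rw [h3] at h2'
    have h4 : (2 : F) * ((A - 1).det * S.det) = 0 := by linear_combination h2'
    rcases mul_eq_zero.1 h4 with h | h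
    · exact absurd h h2
    · exact (mul_eq_zero.1 h).resolve_right hSdet
  obtain ⟨v, hv, hvA⟩ := Matrix.exists_mulVec_eq_zero_iff.2 hdet
  refine ⟨∑ i, v i • b i, ?_, ?_⟩
  · intro h0
    apply hv
    funext i
    have := congrArg (fun z => b.repr z i) h0
    simpa [Finsupp.single_apply] using this
  · rw [Matrix.sub_mulVec, Matrix.one_mulVec, sub_eq_zero] at hvA
    rw [map_sum]
    have h1 : ∀ j, T (v j • b j) = ∑ k, (A k j * v j) • b k := by
      intro j
      rw [map_smul, hTb, Finset.smul_sum]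
      refine Finset.sum_congr rfl fun k _ => ?_
      rw [smul_smul, mul_comm]
    rw [Finset.sum_congr rfl (fun j _ => h1 j), Finset.sum_comm]
    refine Finset.sum_congr rfl fun k _ => ?_
    rw [← Finset.sum_smul]
    congr 1
    exact congrFun hvA k

/-- `i` odd, support of dimension at most `2i`: an irreducible subspace of the support is stable under commuting `e`,
or `B (·, e ·)` is nondegenerate on it -/
theorem pair_nd [Fintype F] [FiniteDimensional F V] {r : ℕ} (hr : r.Prime) (hrq : ¬ r ∣ Fintype.card F) (hRef : B.IsRefl) (hA : ∀ v, B v v = 0)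
    (hN : ∀ u, (∀ v, B u v = 0) → u = 0)
    {T e : V →ₗ[F] V} (hB : ∀ u v, B (T u) (T v) = B u v) (hT : T ^ r = 1)
    {i : ℕ} (hodd : Odd i)
    (hdim : finrank F (LinearMap.range (T - 1)) ≤ 2 * i) (heT : ∀ v, e (T v) = T (e v)) (hinj : Function.Injective e)
    {Y : Submodule F V} (hYW : Y ≤ LinearMap.range (T - 1)) (hYT : ∀ v ∈ Y, T v ∈ Y) (hYi : finrank F Y = i)
    (hmin : ∀ Z ≤ Y, (∀ v ∈ Z, T v ∈ Z) → Z ≠ ⊥ → Z = Y) (hne : Y.map e ≠ Y) :
    ∀ u ∈ Y, (∀ v ∈ Y, B u (e v) = 0) → u = 0 := by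
  set W := LinearMap.range (T - 1) with hW
  have hr0 : 0 < r := hr.pos
  have hrad : ∀ Z : Submodule F V, (∀ v ∈ Z, T v ∈ Z) → finrank F Z = i → (∀ Z' ≤ Z, (∀ v ∈ Z', T v ∈ Z') → Z' ≠ ⊥ → Z' = Z) →
      ∀ u ∈ Z, ∀ v ∈ Z, B u v = 0 := by
    intro Z hZT hZi hZm
    have h1 : ¬ ND B Z := fun h => (Nat.not_even_iff_odd.2 hodd) (even_of_alt hRef i Z hZi h (fun x _ => hA x))
    have h2 : Z ⊓ B.orthogonal Z ≠ ⊥ := by
      intro h
      exact h1 (nd_of_disjoint hRef (disjoint_iff.2 h))
    have h3 := hZm (Z ⊓ B.orthogonal Z) inf_le_left (fun v hv => ⟨hZT v hv.1, inv_orth hT hr0 hB hZT v hv.2⟩) h2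
    intro u hu v hv
    rw [← h3] at hv
    exact hv.2 u hu
  have heYT : ∀ v ∈ Y.map e, T v ∈ Y.map e := by
    rintro _ ⟨v, hv, rfl⟩
    exact ⟨T v, hYT v hv, heT v⟩
  have heYi : finrank F (Y.map e) = i := by
    rw [← hYi]; exact (Submodule.equivMapOfInjective e hinj Y).finrank_eq.symm
  have heYW : Y.map e ≤ W := by
    rintro _ ⟨v, hv, rfl⟩
    obtain ⟨w, rfl⟩ := hYW hv
    refine ⟨e w, ?_⟩
    show T (e w) - e w = e (T w - w)
    rw [map_sub, heT]
  have heYm : ∀ Z' ≤ Y.map e, (∀ v ∈ Z', T v ∈ Z') → Z' ≠ ⊥ → Z' = Y.map e := by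
    intro Z' hZ' hZT hZ0
    have h1 : (Y ⊓ Z'.comap e) = Y := by
      apply hmin _ inf_le_left
      · intro v hv
        refine ⟨hYT v hv.1, ?_⟩
        show e (T v) ∈ Z'
        rw [heT]; exact hZT _ hv.2
      · obtain ⟨z, hz, hz0⟩ := Submodule.exists_mem_ne_zero_of_ne_bot hZ0
        obtain ⟨v, hv, rfl⟩ := hZ' hz
        intro h
        have : v ∈ Y ⊓ Z'.comap e := ⟨hv, hz⟩
        rw [h, Submodule.mem_bot] at this
        exact hz0 (by rw [this, map_zero])
    apply le_antisymm hZ'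
    rintro _ ⟨v, hv, rfl⟩
    rw [← h1] at hv
    exact hv.2
  have hinf : Y ⊓ Y.map e = ⊥ := by
    by_contra h
    have h1 := hmin (Y ⊓ Y.map e) inf_le_left (fun v hv => ⟨hYT v hv.1, heYT v hv.2⟩) h
    apply hne
    have h2 : Y ≤ Y.map e := inf_eq_left.1 h1
    exact (Submodule.eq_of_le_of_finrank_eq h2 (by rw [hYi, heYi])).symm
  have hsup : Y ⊔ Y.map e = W := by
    apply Submodule.eq_of_le_of_finrank_le (sup_le hYW heYW)
    have := Submodule.finrank_sup_add_finrank_inf_eq Y (Y.map e)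
    rw [hinf, finrank_bot, hYi, heYi] at this
    omega
  have hY0 := hrad Y hYT hYi hmin
  intro u hu h
  apply hN
  intro v
  have hrF := natCast_ne_zero hr hrq
  obtain ⟨a, c, ha, hc, rfl⟩ := (Submodule.codisjoint_iff_exists_add_eq.1 (RElt.isCompl hrF T hT).codisjoint) v
  rw [map_add, (RElt.orth T hB u c (hYW hu) hc).1, add_zero]
  have ha' : a ∈ Y ⊔ Y.map e := by rw [hsup]; exact ha
  obtain ⟨y, hy, z, ⟨y', hy', rfl⟩, rfl⟩ := Submodule.mem_sup.1 ha'
  rw [map_add, hY0 u hu y hy, h y' hy', add_zero]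

end H99.Adj
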