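import Mathlib
import Cfsg.Prelude.Def_GeometricClasses
import Cfsg.Agent.Lib.H99.Alt

set_option autoImplicit false
set_option linter.unusedSimpArgs false
set_option linter.unusedSectionVars false
set_option linter.unusedVariables false

/-! Subfields of a matrix algebra: the structure of a vector space over the subfield, embeddings of general linear groups,
and forms over the subfield. -/

namespace H99.FieldEmb

open Matrix Module

universe u

variable {F : Type u} [Field F] {α : Type} [Fintype α] [DecidableEq α]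

theorem exists_field [Nonempty α] {k : ℕ} (K : Subalgebra F (Matrix α α F)) (hK : Cfsg.Geo.IsFieldSubalgebra k K) :
    ∃ (E : Type u) (_ : Field E) (_ : Algebra F E) (ρ : E →ₐ[F] Matrix α α F),
      (∀ M, M ∈ K ↔ ∃ e, ρ e = M) ∧ finrank F E = k := by
  have hf : IsField K := by
    refine ⟨⟨0, 1, ?_⟩, ?_, ?_⟩
    · exact zero_ne_one
    · intro x y
      exact Subtype.ext (hK.comm x x.2 y y.2)
    · intro a ha
      obtain ⟨y, hy, hxy⟩ := hK.inv a a.2 (fun h => ha (Subtype.ext h))
      exact ⟨⟨y, hy⟩, Subtype.ext hxy⟩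
  let _ : Field K := hf.toField
  refine ⟨K, inferInstance, (inferInstance : Algebra F K), K.val, ?_, hK.finrank_eq⟩
  intro M
  constructor
  · intro hM
    exact ⟨⟨M, hM⟩, rfl⟩
  · rintro ⟨e, rfl⟩
    exact e.2

variable {E : Type u} [Field E] [Algebra F E] (ρ : E →ₐ[F] Matrix α α F)

theorem mulVec_eq_zero {e : E} {v : α → F} (hv : v ≠ 0) (h : ρ e *ᵥ v = 0) : e = 0 := by
  by_contra he
  apply hv
  have : ρ e⁻¹ *ᵥ (ρ e *ᵥ v) = v := by
    rw [Matrix.mulVec_mulVec, ← map_mul, inv_mul_cancel₀ he, map_one, Matrix.one_mulVec]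
  rw [← this, h, Matrix.mulVec_zero]

/-- the space with its structure over the subfield -/
def VE (_ρ : E →ₐ[F] Matrix α α F) : Type u := α → F

noncomputable instance : AddCommGroup (VE ρ) := inferInstanceAs (AddCommGroup (α → F))
noncomputable instance : Module F (VE ρ) := inferInstanceAs (Module F (α → F))
theorem e1 (v : α → F) : ρ 1 *ᵥ v = v := by rw [map_one, Matrix.one_mulVec]
theorem e2 (a b : E) (v : α → F) : ρ (a * b) *ᵥ v = ρ a *ᵥ (ρ b *ᵥ v) := by rw [map_mul, Matrix.mulVec_mulVec]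
theorem e3 (a b : E) (v : α → F) : ρ (a + b) *ᵥ v = ρ a *ᵥ v + ρ b *ᵥ v := by rw [map_add, Matrix.add_mulVec]
theorem e4 (v : α → F) : ρ 0 *ᵥ v = 0 := by rw [map_zero, Matrix.zero_mulVec]
theorem e5 (c : F) (e : E) (v : α → F) : ρ (c • e) *ᵥ v = c • (ρ e *ᵥ v) := by rw [map_smul, Matrix.smul_mulVec]

noncomputable instance : Module E (VE ρ) where
  smul e v := (ρ e *ᵥ (v : α → F) : α → F)
  one_smul v := e1 ρ v
  mul_smul a b v := e2 ρ a b v
  smul_zero a := Matrix.mulVec_zero (ρ a)
  smul_add a v w := Matrix.mulVec_add (ρ a) v w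
  add_smul a b v := e3 ρ a b v
  zero_smul v := e4 ρ v

instance : IsScalarTower F E (VE ρ) := ⟨fun c e v => e5 ρ c e v⟩

theorem exists_emb [FiniteDimensional F E] :
    ∃ (n : ℕ) (Φ : (Fin n → E) ≃ₗ[F] (α → F)), finrank F E * n = Fintype.card α ∧ ∀ e u, Φ (e • u) = ρ e *ᵥ Φ u := by
  have : FiniteDimensional F (VE ρ) := inferInstanceAs (FiniteDimensional F (α → F))
  have : FiniteDimensional E (VE ρ) := FiniteDimensional.right F E (VE ρ)
  let b := Module.finBasis E (VE ρ)
  let Φ0 : (Fin (finrank E (VE ρ)) → E) ≃ₗ[F] VE ρ := b.equivFun.symm.restrictScalars F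
  refine ⟨finrank E (VE ρ), Φ0, ?_, ?_⟩
  · rw [Module.finrank_mul_finrank F E (VE ρ)]
    exact Module.finrank_fintype_fun_eq_card F
  · intro e u
    exact b.equivFun.symm.map_smul e u

section emb

variable {n : ℕ} (Φ : (Fin n → E) ≃ₗ[F] (α → F))

/-- restriction of scalars for matrices -/
noncomputable def embM : Matrix (Fin n) (Fin n) E →* Matrix α α F where
  toFun M := LinearMap.toMatrix' (Φ.toLinearMap ∘ₗ (Matrix.toLin' M).restrictScalars F ∘ₗ Φ.symm.toLinearMap)
  map_one' := by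
    have : (Φ.toLinearMap ∘ₗ (Matrix.toLin' (1 : Matrix (Fin n) (Fin n) E)).restrictScalars F ∘ₗ Φ.symm.toLinearMap) = LinearMap.id := by
      apply LinearMap.ext
      intro v
      simp
    rw [this, LinearMap.toMatrix'_id]
  map_mul' M N := by
    rw [← LinearMap.toMatrix'_comp]
    congr 1
    apply LinearMap.ext
    intro v
    simp [Matrix.mulVec_mulVec]

theorem embM_apply (M : Matrix (Fin n) (Fin n) E) (u : Fin n → E) : embM Φ M *ᵥ (Φ u) = Φ (M *ᵥ u) := by
  show LinearMap.toMatrix' _ *ᵥ _ = _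
  rw [← Matrix.toLin'_apply, Matrix.toLin'_toMatrix']
  simp

/-- restriction of scalars -/
noncomputable def emb : GL (Fin n) E →* GL α F := Units.map (embM Φ)

theorem emb_apply (M : GL (Fin n) E) (u : Fin n → E) :
    ((emb Φ M : GL α F) : Matrix α α F) *ᵥ (Φ u) = Φ ((M : Matrix (Fin n) (Fin n) E) *ᵥ u) := embM_apply Φ _ u

theorem emb_injective : Function.Injective (emb Φ) := by
  rw [injective_iff_map_eq_one]
  intro M hM
  apply Units.ext
  apply Matrix.ext_of_mulVec_single
  intro i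
  apply Φ.injective
  rw [← emb_apply, hM, Units.val_one, Matrix.one_mulVec, Units.val_one, Matrix.one_mulVec]

theorem emb_comm (hΦ : ∀ e u, Φ (e • u) = ρ e *ᵥ Φ u) (M : GL (Fin n) E) (e : E) :
    ((emb Φ M : GL α F) : Matrix α α F) * ρ e = ρ e * ((emb Φ M : GL α F) : Matrix α α F) := by
  apply Matrix.toLin'.injective
  apply LinearMap.ext
  intro v
  obtain ⟨u, rfl⟩ := Φ.surjective v
  rw [Matrix.toLin'_apply, Matrix.toLin'_apply, ← Matrix.mulVec_mulVec, ← Matrix.mulVec_mulVec, ← hΦ, emb_apply, emb_apply, ← hΦ,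
    Matrix.mulVec_smul]

theorem mem_of_comm {K : Subalgebra F (Matrix α α F)} (hmem : ∀ M, M ∈ K ↔ ∃ e, ρ e = M) (g : GL α F)
    (hg : ∀ e, (g : Matrix α α F) * ρ e = ρ e * (g : Matrix α α F)) : g ∈ Cfsg.Geo.subalgebraNormalizer K := by
  have hgg : (g : Matrix α α F) * ((g⁻¹ : GL α F) : Matrix α α F) = 1 := by
    rw [← Units.val_mul, mul_inv_cancel, Units.val_one]
  have hgg' : ((g⁻¹ : GL α F) : Matrix α α F) * (g : Matrix α α F) = 1 := by
    rw [← Units.val_mul, inv_mul_cancel, Units.val_one]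
  have h1 : ∀ k ∈ K, (g : Matrix α α F) * k * ((g⁻¹ : GL α F) : Matrix α α F) = k := by
    intro k hk
    obtain ⟨e, rfl⟩ := (hmem _).1 hk
    rw [hg, Matrix.mul_assoc, hgg, Matrix.mul_one]
  intro k
  constructor
  · intro hk
    rw [h1 k hk]; exact hk
  · intro hk
    obtain ⟨e, he⟩ := (hmem _).1 hk
    have h2 : k = ρ e := by
      calc k = (((g⁻¹ : GL α F) : Matrix α α F) * (g : Matrix α α F)) * k * (((g⁻¹ : GL α F) : Matrix α α F) * (g : Matrix α α F)) := by
            rw [hgg', Matrix.one_mul, Matrix.mul_one]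
        _ = ((g⁻¹ : GL α F) : Matrix α α F) * ((g : Matrix α α F) * k * ((g⁻¹ : GL α F) : Matrix α α F)) * (g : Matrix α α F) := by
            simp only [Matrix.mul_assoc]
        _ = ((g⁻¹ : GL α F) : Matrix α α F) * (ρ e * (g : Matrix α α F)) := by rw [← he, Matrix.mul_assoc]
        _ = ρ e := by rw [← hg, ← Matrix.mul_assoc, hgg', Matrix.one_mul]
    rw [h2]; exact (hmem _).2 ⟨e, rfl⟩

end emb

section gal

variable {K : Subalgebra F (Matrix α α F)} (hmem : ∀ M, M ∈ K ↔ ∃ e, ρ e = M)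

include hmem

theorem exists_of_mem_norm (g : GL α F) (hg : g ∈ Cfsg.Geo.subalgebraNormalizer K) (e : E) :
    ∃ e', (g : Matrix α α F) * ρ e = ρ e' * (g : Matrix α α F) := by
  obtain ⟨e', he'⟩ := (hmem _).1 ((hg (ρ e)).1 ((hmem _).2 ⟨e, rfl⟩))
  refine ⟨e', ?_⟩
  rw [he', Matrix.mul_assoc _ _ (g : Matrix α α F), ← Units.val_mul, inv_mul_cancel, Units.val_one, Matrix.mul_one]

/-- an element with a large fixed space centralizes the field -/
theorem comm_of_fix (g : GL α F) (hg : g ∈ Cfsg.Geo.subalgebraNormalizer K)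
    (hfix : Fintype.card α < 2 * finrank F (LinearMap.ker (Matrix.toLin' (g : Matrix α α F) - 1))) (e : E) :
    (g : Matrix α α F) * ρ e = ρ e * (g : Matrix α α F) := by
  classical
  by_cases he : e = 0
  · rw [he, map_zero, Matrix.mul_zero, Matrix.zero_mul]
  obtain ⟨e', he'⟩ := exists_of_mem_norm ρ hmem g hg e
  set U := LinearMap.ker (Matrix.toLin' (g : Matrix α α F) - 1) with hU
  have hUm : ∀ v, v ∈ U ↔ (g : Matrix α α F) *ᵥ v = v := by
    intro v
    rw [hU, LinearMap.mem_ker, LinearMap.sub_apply, sub_eq_zero, Matrix.toLin'_apply]; rfl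
  let L : (α → F) →ₗ[F] (α → F) := Matrix.toLin' (ρ e)
  have hLinj : Function.Injective L := by
    rw [← LinearMap.ker_eq_bot, eq_bot_iff]
    intro v hv
    by_contra hv0
    exact he (mulVec_eq_zero ρ hv0 hv)
  have hdim : finrank F (U.map L) = finrank F U := (Submodule.equivMapOfInjective L hLinj U).finrank_eq.symm
  obtain ⟨w, hw, hw0⟩ : ∃ w ∈ U ⊓ U.map L, w ≠ 0 := by
    by_contra h
    push Not at h
    have hb : U ⊓ U.map L = ⊥ := by
      rw [eq_bot_iff]
      intro w hw
      rw [Submodule.mem_bot]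
      by_contra hw0
      exact hw0 (h w hw)
    have h1 := Submodule.finrank_sup_add_finrank_inf_eq U (U.map L)
    rw [hb, finrank_bot, hdim, add_zero] at h1
    have h2 := Submodule.finrank_le (U ⊔ U.map L)
    rw [Module.finrank_fintype_fun_eq_card] at h2
    omega
  obtain ⟨hwU, v, hvU, rfl⟩ := hw
  have h3 : (g : Matrix α α F) *ᵥ (ρ e *ᵥ v) = ρ e *ᵥ v := (hUm _).1 hwU
  have h4 : (g : Matrix α α F) *ᵥ v = v := (hUm _).1 hvU
  have hv0 : v ≠ 0 := by
    rintro rfl
    exact hw0 (map_zero L)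
  rw [Matrix.mulVec_mulVec, he', ← Matrix.mulVec_mulVec, h4] at h3
  have h5 : ρ (e' - e) *ᵥ v = 0 := by rw [map_sub, Matrix.sub_mulVec, h3, sub_self]
  have h6 := mulVec_eq_zero ρ hv0 h5
  rw [he', sub_eq_zero.1 h6]

/-- elements of order prime to the degree centralize the field -/
theorem comm_of_pow [Fintype F] {k : ℕ} (hk : finrank F E = k) [Nonempty α] (g : GL α F)
    (hg : g ∈ Cfsg.Geo.subalgebraNormalizer K) {r : ℕ} (hgr : g ^ r = 1) (hrk : Nat.Coprime r k) (hk0 : 0 < k) (e : E) :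
    (g : Matrix α α F) * ρ e = ρ e * (g : Matrix α α F) := by
  classical
  have hfin : FiniteDimensional F E := Module.finite_of_finrank_pos (by omega)
  have hinj : Function.Injective ρ := ρ.toRingHom.injective
  choose τ hτ using exists_of_mem_norm ρ hmem g hg
  have hgu : IsUnit (g : Matrix α α F) := g.isUnit
  have huniq : ∀ a b : E, ρ a * (g : Matrix α α F) = ρ b * (g : Matrix α α F) → a = b := fun a b h =>
    hinj (hgu.mul_right_cancel h)
  let T : E →ₐ[F] E :=
    { toFun := τ
      map_one' := by apply huniq; rw [← hτ, map_one, Matrix.one_mul, Matrix.mul_one]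
      map_mul' := fun a b => by
        apply huniq
        rw [← hτ, map_mul, map_mul, Matrix.mul_assoc (ρ (τ a)), ← hτ, ← Matrix.mul_assoc, ← Matrix.mul_assoc, ← hτ]
      map_zero' := by apply huniq; rw [← hτ, map_zero, Matrix.zero_mul, Matrix.mul_zero]
      map_add' := fun a b => by
        apply huniq
        rw [← hτ, map_add, map_add, Matrix.add_mul, ← hτ, ← hτ, Matrix.mul_add]
      commutes' := fun c => by
        apply huniq
        rw [← hτ, AlgHom.commutes, ← Algebra.commutes] }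
  have hT : ∀ j : ℕ, ∀ a, ((g ^ j : GL α F) : Matrix α α F) * ρ a = ρ ((T ^ j) a) * ((g ^ j : GL α F) : Matrix α α F) := by
    intro j
    induction j with
    | zero => intro a; rw [pow_zero, Units.val_one, Matrix.one_mul, Matrix.mul_one, pow_zero]; rfl
    | succ j ih =>
      intro a
      rw [pow_succ, Units.val_mul, Matrix.mul_assoc]
      have h1 : (g : Matrix α α F) * ρ a = ρ (T a) * (g : Matrix α α F) := hτ a
      rw [h1, ← Matrix.mul_assoc, ih, Matrix.mul_assoc]
      rfl
  have hTr : T ^ r = 1 := by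
    apply AlgHom.ext
    intro a
    have := hT r a
    rw [hgr, Units.val_one, Matrix.one_mul, Matrix.mul_one] at this
    exact (hinj this).symm
  let Te : E ≃ₐ[F] E := AlgEquiv.ofBijective T (Algebra.IsAlgebraic.algHom_bijective T)
  have hTe : ∀ j : ℕ, ∀ a, (Te ^ j) a = (T ^ j) a := by
    intro j
    induction j with
    | zero => intro a; rfl
    | succ j ih => intro a; rw [pow_succ, pow_succ]; exact ih _
  have hTer : Te ^ r = 1 := by
    apply AlgEquiv.ext
    intro a
    rw [hTe, hTr]; rfl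
  have hTek : Te ^ k = 1 := by
    have : Finite E := Module.finite_of_finite F
    have h1 : Nat.card (E ≃ₐ[F] E) = k := by
      rw [IsGalois.card_aut_eq_finrank, hk]
    rw [← h1]; exact pow_card_eq_one'
  have h1 : Te ^ (Nat.gcd r k) = 1 := pow_gcd_eq_one.2 ⟨hTer, hTek⟩
  rw [hrk, pow_one] at h1
  have h2 : τ e = e := by
    have := AlgEquiv.congr_fun h1 e
    exact this
  rw [hτ, h2]

end gal

section form

variable [FiniteDimensional F E] [Algebra.IsSeparable F E] {n : ℕ} (Φ : (Fin n → E) ≃ₗ[F] (α → F))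

omit [FiniteDimensional F E] in
theorem tr_inj [FiniteDimensional F E] {c c' : E} (h : ∀ a, Algebra.trace F E (c * a) = Algebra.trace F E (c' * a)) : c = c' := by
  have h1 := traceForm_nondegenerate F E
  have h2 : c - c' = 0 := by
    apply h1.1
    intro a
    rw [Algebra.traceForm_apply, sub_mul, map_sub, h, sub_self]
  exact sub_eq_zero.1 h2

theorem exists_form (B : LinearMap.BilinForm F (α → F)) (hΦ : ∀ e u, Φ (e • u) = ρ e *ᵥ Φ u) :
    ∃ f : (Fin n → E) → (Fin n → E) → E, ∀ a u v, Algebra.trace F E (f u v * a) = B (Φ (a • u)) (Φ v) := by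
  have h1 := traceForm_nondegenerate F E
  let D := LinearMap.BilinForm.toDual (Algebra.traceForm F E) h1
  have hD : ∀ (ψ : Dual F E) (a : E), Algebra.trace F E (D.symm ψ * a) = ψ a := by
    intro ψ a
    have : D (D.symm ψ) a = Algebra.traceForm F E (D.symm ψ) a := LinearMap.BilinForm.toDual_def h1
    rw [← Algebra.traceForm_apply, ← this, LinearEquiv.apply_symm_apply]
  let L : (Fin n → E) → (Fin n → E) → Dual F E := fun u v =>
    { toFun := fun a => B (Φ (a • u)) (Φ v)
      map_add' := fun a b => by rw [add_smul, map_add, map_add, LinearMap.add_apply]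
      map_smul' := fun c a => by
        rw [smul_assoc, map_smul, map_smul, LinearMap.smul_apply]; rfl }
  exact ⟨fun u v => D.symm (L u v), fun a u v => hD _ _⟩

variable {B : LinearMap.BilinForm F (α → F)} {f : (Fin n → E) → (Fin n → E) → E}
  (hf : ∀ a u v, Algebra.trace F E (f u v * a) = B (Φ (a • u)) (Φ v))
  (hΦ : ∀ e u, Φ (e • u) = ρ e *ᵥ Φ u) (σ : E ≃ₐ[F] E) (hσ : ∀ e, σ (σ e) = e)
  (hadj : ∀ e u v, B (ρ e *ᵥ u) v = B u (ρ (σ e) *ᵥ v))

include hf

theorem form_add_left (x y v : Fin n → E) : f (x + y) v = f x v + f y v := by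
  apply tr_inj (F := F)
  intro a
  rw [hf, smul_add, map_add, map_add, LinearMap.add_apply, add_mul, map_add, hf, hf]

theorem form_smul_left (c : E) (x v : Fin n → E) : f (c • x) v = c * f x v := by
  apply tr_inj (F := F)
  intro a
  rw [hf, smul_smul, mul_right_comm, mul_comm _ (f x v), mul_comm c a, hf]

theorem form_add_right (v x y : Fin n → E) : f v (x + y) = f v x + f v y := by
  apply tr_inj (F := F)
  intro a
  rw [hf, map_add, map_add, add_mul, map_add, hf, hf]

include hΦ hσ hadj in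
theorem form_smul_right (c : E) (v x : Fin n → E) : f v (c • x) = σ c * f v x := by
  apply tr_inj (F := F)
  intro a
  rw [hf, hΦ c x]
  have h1 := hadj (σ c) (Φ (a • v)) (Φ x)
  rw [hσ] at h1
  rw [← h1, ← hΦ, smul_smul, mul_right_comm, mul_comm _ (f v x), hf]

include hΦ hσ hadj in
theorem form_swap (hA : B.IsAlt) (u v : Fin n → E) : f v u = - σ (f u v) := by
  apply tr_inj (F := F)
  intro a
  rw [hf, Alt.swap hA, hΦ]
  have h1 := hadj (σ a) (Φ u) (Φ v)
  rw [hσ] at h1
  rw [← h1, ← hΦ, ← hf, neg_mul, map_neg]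
  congr 1
  rw [← Algebra.trace_eq_of_algEquiv σ, map_mul, hσ]

include hΦ hσ hadj in
theorem form_alt (hB : ∀ e v, B (ρ e *ᵥ v) v = 0) (v : Fin n → E) : f v v = 0 := by
  apply tr_inj (F := F)
  intro a
  rw [hf, hΦ, hB, zero_mul, map_zero]

theorem form_nd (hN : Alt.ND B) (u : Fin n → E) (h : ∀ v, f u v = 0) : u = 0 := by
  apply Φ.injective
  rw [map_zero]
  apply hN
  intro y
  obtain ⟨v, rfl⟩ := Φ.surjective y
  have := hf 1 u v
  rw [h, zero_mul, map_zero, one_smul] at this
  exact this.symm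

/-- preservation -/
theorem form_preserve (M : GL (Fin n) E) (hM : ∀ u v, f ((M : Matrix (Fin n) (Fin n) E) *ᵥ u) ((M : Matrix (Fin n) (Fin n) E) *ᵥ v) = f u v)
    (x y : α → F) : B (((emb Φ M : GL α F) : Matrix α α F) *ᵥ x) (((emb Φ M : GL α F) : Matrix α α F) *ᵥ y) = B x y := by
  obtain ⟨u, rfl⟩ := Φ.surjective x
  obtain ⟨v, rfl⟩ := Φ.surjective y
  rw [emb_apply, emb_apply]
  have h1 := hf 1 ((M : Matrix (Fin n) (Fin n) E) *ᵥ u) ((M : Matrix (Fin n) (Fin n) E) *ᵥ v)
  have h2 := hf 1 u v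
  rw [one_smul] at h1 h2
  rw [← h1, ← h2, hM]

end form

end H99.FieldEmb
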