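import Mathlib
import Cfsg.Agent.Lib.H99.Iso2
import Cfsg.Agent.Lib.H99.Frame
import Cfsg.Agent.Lib.H99.SpIdx

set_option autoImplicit false
set_option linter.unusedSimpArgs false
set_option linter.unusedSectionVars false
set_option linter.unusedVariables false

/-! Symplectic isometries of prime order supported on a subspace; counting decompositions. -/

namespace H99.Iso

open Module Submodule Matrix

variable {F : Type*} [Field F] {V : Type*} [AddCommGroup V] [Module F V] [FiniteDimensional F V]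
variable {B : LinearMap.BilinForm F V}

/-- the form on coordinates obtained from a parametrization of a subspace is symplectic -/
theorem symp_of_equiv {α : Type} [Fintype α] [DecidableEq α] (hB : B.IsRefl) (hA : ∀ v, B v v = 0) {X : Submodule F V} (hX : ND B X)
    (e : (α → F) ≃ₗ[F] X) : Cfsg.Geo.IsSymplecticForm (fun u v : α → F => B (e u) (e v)) where
  bilinear :=
    { add_left := fun x y v => by simp only [map_add, Submodule.coe_add, LinearMap.add_apply]
      smul_left := fun c x v => by simp only [map_smul, Submodule.coe_smul, LinearMap.smul_apply, smul_eq_mul]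
      add_right := fun v x y => by simp only [map_add, Submodule.coe_add]
      smul_right := fun c v x => by simp only [map_smul, Submodule.coe_smul, smul_eq_mul] }
  skew v w := by
    have h := hA ((e v : V) + e w)
    simp only [map_add, LinearMap.add_apply, hA, zero_add, add_zero] at h
    linear_combination h
  alternating v := hA _
  nondegenerate := by
    have key : ∀ v : α → F, v ≠ 0 → ∃ w, B (e v) (e w) ≠ 0 := by
      intro v hv
      by_contra h
      push Not at h
      apply hv
      apply e.injective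
      apply Subtype.ext
      rw [map_zero]
      apply hX _ (e v).2
      intro y hy
      have := h (e.symm ⟨y, hy⟩)
      rwa [LinearEquiv.apply_symm_apply] at this
    intro v hv
    obtain ⟨w, hw⟩ := key v hv
    exact ⟨⟨w, fun h => hw (hB _ _ h)⟩, ⟨w, hw⟩⟩

/-- extension of an endomorphism of a nondegenerate subspace by the identity -/
theorem exists_extend (hB : B.IsRefl) {X : Submodule F V} (hX : ND B X) (S : X →ₗ[F] X) (hS : ∀ u v : X, B (S u) (S v) = B u v) :
    ∃ T : V →ₗ[F] V, (∀ u v, B (T u) (T v) = B u v) ∧ (∀ v : X, T v = S v) ∧ (∀ v ∈ B.orthogonal X, T v = v) := by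
  have hc := hX.isCompl hB
  let T : V →ₗ[F] V := X.subtype ∘ₗ S ∘ₗ X.projectionOnto _ hc +
    (B.orthogonal X).subtype ∘ₗ (B.orthogonal X).projectionOnto _ hc.symm
  have h1 : ∀ v : X, T v = S v := by
    intro v
    show ((S (X.projectionOnto _ hc (v : V)) : X) : V) + ((B.orthogonal X).projectionOnto _ hc.symm (v : V) : V) = _
    rw [Submodule.projectionOnto_apply_left, Submodule.projectionOnto_apply_of_mem_right hc.symm v.2]
    simp
  have h2 : ∀ v ∈ B.orthogonal X, T v = v := by
    intro v hv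
    show ((S (X.projectionOnto _ hc v) : X) : V) + ((B.orthogonal X).projectionOnto _ hc.symm v : V) = _
    rw [Submodule.projectionOnto_apply_of_mem_right hc hv]
    have := Submodule.projectionOnto_apply_left hc.symm ⟨v, hv⟩
    rw [show ((B.orthogonal X).projectionOnto _ hc.symm v : V) = v from congrArg Subtype.val this, map_zero]
    simp
  refine ⟨T, ?_, h1, h2⟩
  intro u v
  obtain ⟨a, b, ha, hb, rfl⟩ := (Submodule.codisjoint_iff_exists_add_eq.1 hc.codisjoint) u
  obtain ⟨a', b', ha', hb', rfl⟩ := (Submodule.codisjoint_iff_exists_add_eq.1 hc.codisjoint) v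
  have e1 := h1 ⟨a, ha⟩
  have e2 := h1 ⟨a', ha'⟩
  simp only at e1 e2
  rw [map_add T, map_add T, h2 b hb, h2 b' hb', e1, e2]
  simp only [map_add, LinearMap.add_apply]
  have f1 : B ((S ⟨a, ha⟩ : X) : V) ((S ⟨a', ha'⟩ : X) : V) = B a a' := hS _ _
  rw [f1, hb' _ (S ⟨a, ha⟩).2, hb' _ ha, hB _ _ (hb _ (S ⟨a', ha'⟩).2), hB _ _ (hb _ ha')]

variable [Fintype F]

/-- an element of order `r` supported on a nondegenerate subspace -/
theorem exists_isom_on {r : ℕ} (hr : r.Prime) (hB : B.IsRefl) (hA : ∀ v, B v v = 0) {X : Submodule F V} (hX : ND B X) {j l : ℕ}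
    (hXd : finrank F X = 2 * j) (hl1 : 1 ≤ l) (hlj : l ≤ j) (hrl : r ∣ Fintype.card F ^ (2 * l) - 1) :
    ∃ S : V →ₗ[F] V, (∀ u v, B (S u) (S v) = B u v) ∧ S ^ r = 1 ∧ S ≠ 1 ∧ (∀ v ∈ B.orthogonal X, S v = v) ∧ (∀ v ∈ X, S v ∈ X) := by
  classical
  have : Fact r.Prime := ⟨hr⟩
  let e0 : ((Fin j ⊕ Fin j) → F) ≃ₗ[F] X := LinearEquiv.ofFinrankEq _ _ (by
    rw [Module.finrank_fintype_fun_eq_card, Fintype.card_sum, Fintype.card_fin, hXd]; ring)
  obtain ⟨φ, hφ, hφf⟩ := SpIdx.exists_hom (Equiv.refl (Fin j ⊕ Fin j)) _ (symp_of_equiv hB hA hX e0)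
  have hcard : r ∣ Nat.card (symplecticGroup (Fin j) F) := by
    rw [H6.SympCard.card_symplecticGroup, Nat.card_eq_fintype_card, Fintype.card_fin]
    apply Dvd.dvd.mul_left
    refine (Dvd.dvd.trans ?_ (Finset.dvd_prod_of_mem _ (Finset.mem_range.2 (show l - 1 < j by omega))))
    rw [show 2 * (l - 1 + 1) = 2 * l by omega]
    exact hrl
  obtain ⟨y, hy⟩ := exists_prime_orderOf_dvd_card' (G := symplecticGroup (Fin j) F) r hcard
  set A := φ y with hAdef
  have hAr : A ^ r = 1 := by
    rw [hAdef, ← map_pow, ← hy, pow_orderOf_eq_one, map_one]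
  have hA1 : A ≠ 1 := by
    intro h
    rw [hAdef, ← map_one φ] at h
    rw [hφ h, orderOf_one] at hy
    exact hr.one_lt.ne hy
  let S0 : X →ₗ[F] X := e0.toLinearMap ∘ₗ Matrix.toLin' (A : Matrix (Fin j ⊕ Fin j) (Fin j ⊕ Fin j) F) ∘ₗ e0.symm.toLinearMap
  have hS0 : ∀ u v : X, B (S0 u) (S0 v) = B u v := by
    intro u v
    have := hφf y (e0.symm u) (e0.symm v)
    simp only [LinearEquiv.apply_symm_apply] at this
    exact this
  obtain ⟨S, hS1, hS2, hS3⟩ := exists_extend hB hX S0 hS0
  have hc := hX.isCompl hB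
  have hk : ∀ (k : ℕ) (v : X), (S ^ k) (v : V) = e0 (((A : Matrix (Fin j ⊕ Fin j) (Fin j ⊕ Fin j) F) ^ k) *ᵥ (e0.symm v)) := by
    intro k
    induction k with
    | zero => intro v; simp
    | succ k ih =>
      intro v
      rw [pow_succ, Module.End.mul_apply, hS2, ih, pow_succ, ← Matrix.mulVec_mulVec]
      have : e0.symm (S0 v) = (A : Matrix (Fin j ⊕ Fin j) (Fin j ⊕ Fin j) F) *ᵥ (e0.symm v) := by
        show e0.symm (e0 _) = _
        rw [LinearEquiv.symm_apply_apply]; rfl
      rw [this]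
  refine ⟨S, hS1, ?_, ?_, hS3, fun v hv => ?_⟩
  · ext v
    obtain ⟨a, b, ha, hb, rfl⟩ := (Submodule.codisjoint_iff_exists_add_eq.1 hc.codisjoint) v
    have hb' : ∀ k : ℕ, (S ^ k) b = b := by
      intro k
      induction k with
      | zero => rfl
      | succ k ih => rw [pow_succ', Module.End.mul_apply, ih, hS3 b hb]
    have h1 := hk r ⟨a, ha⟩
    have h2 : (A : Matrix (Fin j ⊕ Fin j) (Fin j ⊕ Fin j) F) ^ r = 1 := congrArg Units.val hAr
    rw [h2, Matrix.one_mulVec, LinearEquiv.apply_symm_apply] at h1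
    rw [map_add, h1, hb']; rfl
  · intro h
    apply hA1
    apply Units.ext
    apply Matrix.toLin'.injective
    apply LinearMap.ext
    intro w
    have h1 := hS2 (e0 w)
    rw [h] at h1
    have h2 : S0 (e0 w) = e0 (Matrix.toLin' (A : Matrix (Fin j ⊕ Fin j) (Fin j ⊕ Fin j) F) w) := by
      show e0 (Matrix.toLin' (A : Matrix (Fin j ⊕ Fin j) (Fin j ⊕ Fin j) F) (e0.symm (e0 w))) = _
      rw [LinearEquiv.symm_apply_apply]
    rw [h2] at h1
    have h3 := e0.injective (Subtype.ext h1)
    rw [← h3]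
    show w = Matrix.toLin' (1 : Matrix (Fin j ⊕ Fin j) (Fin j ⊕ Fin j) F) w
    rw [Matrix.toLin'_one]; rfl
  · have h1 := hS2 ⟨v, hv⟩
    simp only at h1
    rw [h1]; exact (S0 _).2

end H99.Iso
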