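import Mathlib
import Cfsg.Agent.Lib.H99.Iso3

set_option autoImplicit false
set_option linter.unusedSimpArgs false
set_option linter.unusedSectionVars false
set_option linter.unusedVariables false

/-! Maximal elements of prime order; counting decompositions. -/

namespace H99.Iso

open Module Submodule Matrix

/-- `t!` divides the number of ordered families of distinct objects closed under reordering -/
theorem factorial_dvd {X : Type*} {t : ℕ} (P : (Fin t → X) → Prop) (hinj : ∀ D, P D → Function.Injective D)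
    (hperm : ∀ D (σ : Equiv.Perm (Fin t)), P D → P (D ∘ σ)) : t.factorial ∣ Nat.card {D // P D} := by
  classical
  let act : MulAction (Equiv.Perm (Fin t)) {D // P D} :=
    { smul := fun σ D => ⟨D.1 ∘ (σ⁻¹ : Equiv.Perm (Fin t)), hperm _ _ D.2⟩
      one_smul := fun D => Subtype.ext (by show D.1 ∘ ((1 : Equiv.Perm (Fin t))⁻¹ : Equiv.Perm (Fin t)) = D.1; rw [inv_one]; rfl)
      mul_smul := fun σ τ D => Subtype.ext (by
        show D.1 ∘ ((σ * τ)⁻¹ : Equiv.Perm (Fin t)) = (D.1 ∘ (τ⁻¹ : Equiv.Perm (Fin t))) ∘ (σ⁻¹ : Equiv.Perm (Fin t))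
        rw [_root_.mul_inv_rev]; rfl) }
  have hfree : ∀ D : {D // P D}, MulAction.stabilizer (Equiv.Perm (Fin t)) D = ⊥ := by
    intro D
    rw [eq_bot_iff]
    intro σ hσ
    rw [MulAction.mem_stabilizer_iff] at hσ
    rw [Subgroup.mem_bot]
    have h1 : D.1 ∘ (σ⁻¹ : Equiv.Perm (Fin t)) = D.1 := congrArg Subtype.val hσ
    have h2 : σ⁻¹ = 1 := by
      apply Equiv.ext
      intro k
      exact hinj D.1 D.2 (congrFun h1 k)
    rw [← inv_inv σ, h2, inv_one]
  have h1 := Nat.card_congr (MulAction.selfEquivOrbitsQuotientProd hfree)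
  rw [h1, Nat.card_prod, Nat.card_eq_fintype_card (α := Equiv.Perm (Fin t)), Fintype.card_perm, Fintype.card_fin]
  exact Dvd.intro_left _ rfl

theorem card_dvd_of_transitive {G X : Type*} [Group G] [Finite G] (act : G → X → X) (h1 : ∀ x, act 1 x = x)
    (hmul : ∀ g h x, act (g * h) x = act g (act h x)) (x0 : X) (htr : ∀ x, ∃ g, act g x0 = x) : Nat.card X ∣ Nat.card G := by
  let K : Subgroup G :=
    { carrier := {g | act g x0 = x0}
      one_mem' := h1 x0
      mul_mem' := by
        intro a b ha hb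
        show act (a * b) x0 = x0
        rw [hmul, hb, ha]
      inv_mem' := by
        intro a ha
        show act a⁻¹ x0 = x0
        have : act a x0 = x0 := ha
        conv_lhs => rw [← this]
        rw [← hmul, inv_mul_cancel, h1] }
  have h2 := H6.SympCard.card_eq_of_fiber K (fun g => act g x0) htr (by
    intro g h
    constructor
    · intro heq
      show act (g⁻¹ * h) x0 = x0
      have heq' : act g x0 = act h x0 := heq
      rw [hmul, ← heq', ← hmul, inv_mul_cancel, h1]
    · intro heq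
      have heq' : act (g⁻¹ * h) x0 = x0 := heq
      show act g x0 = act h x0
      conv_lhs => rw [← heq', ← hmul, mul_inv_cancel_left])
  rw [h2]
  exact Dvd.intro _ rfl

variable {F : Type*} [Field F] {V : Type*} [AddCommGroup V] [Module F V] [FiniteDimensional F V]
variable {B : LinearMap.BilinForm F V}

theorem exists_std (hB : B.IsRefl) (hA : ∀ v, B v v = 0) {X : Submodule F V} (hX : ND B X) {j : ℕ} (hXd : finrank F X = 2 * j) :
    ∃ e : ((Fin j ⊕ Fin j) → F) ≃ₗ[F] X, ∀ u v, B (e u) (e v) = Frame.Jf (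
      (Equiv.refl (Fin 2 × Fin j)).trans ((Equiv.prodComm _ _).trans ((Equiv.prodCongr (Equiv.refl (Fin j)) finTwoEquiv).trans
        ((Equiv.prodComm _ _).trans (Equiv.boolProdEquivSum (Fin j)))))) u v := by
  classical
  let e0 : ((Fin j ⊕ Fin j) → F) ≃ₗ[F] X := LinearEquiv.ofFinrankEq _ _ (by
    rw [Module.finrank_fintype_fun_eq_card, Fintype.card_sum, Fintype.card_fin, hXd]; ring)
  obtain ⟨Q, hQ, hQf⟩ := Frame.exists_frame _ (symp_of_equiv hB hA hX e0)
    ((Equiv.refl (Fin 2 × Fin j)).trans ((Equiv.prodComm _ _).trans ((Equiv.prodCongr (Equiv.refl (Fin j)) finTwoEquiv).trans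
        ((Equiv.prodComm _ _).trans (Equiv.boolProdEquivSum (Fin j))))))
  have hbij : Function.Bijective (Matrix.toLin' Q) := by
    have h1 : Q * Q⁻¹ = 1 := Matrix.mul_nonsing_inv Q hQ.isUnit
    have h2 : Q⁻¹ * Q = 1 := Matrix.nonsing_inv_mul Q hQ.isUnit
    constructor
    · intro u v huv
      have h3 : Q *ᵥ u = Q *ᵥ v := huv
      have h4 := congrArg (fun w => Q⁻¹ *ᵥ w) h3
      simp only [Matrix.mulVec_mulVec, h2, Matrix.one_mulVec] at h4
      exact h4
    · intro u
      exact ⟨Q⁻¹ *ᵥ u, by rw [Matrix.toLin'_apply, Matrix.mulVec_mulVec, h1, Matrix.one_mulVec]⟩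
  exact ⟨(LinearEquiv.ofBijective _ hbij).trans e0, fun u v => hQf u v⟩

/-- nondegenerate alternating spaces of the same dimension are isometric -/
theorem exists_isometry (hB : B.IsRefl) (hA : ∀ v, B v v = 0) {X Y : Submodule F V} (hX : ND B X) (hY : ND B Y)
    (hXY : finrank F X = finrank F Y) : ∃ f : X ≃ₗ[F] Y, ∀ u v : X, B (f u) (f v) = B u v := by
  obtain ⟨j, hj⟩ := even_of_alt hB _ X rfl hX (fun x _ => hA x)
  obtain ⟨e, he⟩ := exists_std hB hA hX (j := j) (by omega)
  obtain ⟨e', he'⟩ := exists_std hB hA hY (j := j) (by omega)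
  refine ⟨e.symm.trans e', fun u v => ?_⟩
  show B (e' (e.symm u)) (e' (e.symm v)) = B u v
  rw [he', ← he, LinearEquiv.apply_symm_apply, LinearEquiv.apply_symm_apply]

variable [Fintype F]

/-- existence of an isometry of order `r` with small fixed space -/
theorem exists_max {r : ℕ} (hr : r.Prime) (hr2 : r ≠ 2) (hrq : ¬ r ∣ Fintype.card F) (hB : B.IsRefl) (hA : ∀ v, B v v = 0)
    (hN : ND B ⊤) {c : ℕ} (hce : Even c) (hc0 : 0 < c) (hrc : r ∣ Fintype.card F ^ c - 1) :
    ∀ k : ℕ, ∀ T : V →ₗ[F] V, (∀ u v, B (T u) (T v) = B u v) → T ^ r = 1 → finrank F (LinearMap.ker (T - 1)) = k →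
      ∃ T' : V →ₗ[F] V, (∀ u v, B (T' u) (T' v) = B u v) ∧ T' ^ r = 1 ∧ finrank F (LinearMap.ker (T' - 1)) < c := by
  intro k
  induction k using Nat.strong_induction_on with
  | _ k ih =>
    intro T hT1 hT2 hk
    by_cases hkc : k < c
    · exact ⟨T, hT1, hT2, by omega⟩
    obtain ⟨-, hC, -⟩ := nd_mov hr hrq hB hT2 hT1 (X := ⊤) (fun _ _ => trivial) hN
    rw [top_inf_eq] at hC
    obtain ⟨j, hj⟩ := even_of_alt hB _ _ rfl hC (fun x _ => hA x)
    obtain ⟨l, hl⟩ := hce
    obtain ⟨S, hS1, hS2, hS3, hS4, hS5⟩ := exists_isom_on hr hB hA hC (j := j) (l := l) (by omega) (by omega) (by omega)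
      (by rw [show 2 * l = c by omega]; exact hrc)
    have hTC : ∀ v ∈ LinearMap.ker (T - 1), T v = v := fun v hv => by
      rw [LinearMap.mem_ker] at hv; exact sub_eq_zero.1 hv
    have hc := hC.isCompl hB
    have hTi : ∀ v ∈ B.orthogonal (LinearMap.ker (T - 1)), T v ∈ B.orthogonal (LinearMap.ker (T - 1)) :=
      inv_orth hT2 hr.pos hT1 (fun v hv => by rw [hTC v hv]; exact hv)
    have hcomm : T * S = S * T := by
      apply LinearMap.ext
      intro v
      obtain ⟨a, b, ha, hb, rfl⟩ := (Submodule.codisjoint_iff_exists_add_eq.1 hc.codisjoint) v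
      rw [Module.End.mul_apply, Module.End.mul_apply, map_add, map_add, map_add, map_add, hTC _ (hS5 a ha), hTC a ha, hS4 b hb,
        hS4 _ (hTi b hb)]
    have hle : LinearMap.ker (T * S - 1) < LinearMap.ker (T - 1) := by
      rw [lt_iff_le_and_ne]
      constructor
      · intro v hv
        have hv' : T (S v) = v := by
          rw [LinearMap.mem_ker] at hv; exact sub_eq_zero.1 hv
        obtain ⟨a, b, ha, hb, rfl⟩ := (Submodule.codisjoint_iff_exists_add_eq.1 hc.codisjoint) v
        rw [map_add, map_add, hTC _ (hS5 a ha), hS4 b hb] at hv'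
        have h1 : S a - a = -(T b - b) := by
          rw [neg_sub, sub_eq_sub_iff_add_eq_add, hv']; abel
        have h2 : T b - b ∈ LinearMap.ker (T - 1) := by
          rw [← neg_neg (T b - b), ← h1]
          exact Submodule.neg_mem _ (Submodule.sub_mem _ (hS5 a ha) ha)
        have h3 := (Submodule.disjoint_def.1 hc.disjoint) _ h2 (Submodule.sub_mem _ (hTi b hb) hb)
        have h4 : b ∈ LinearMap.ker (T - 1) := by rw [LinearMap.mem_ker]; exact h3
        exact Submodule.add_mem _ ha h4
      · intro h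
        apply hS3
        apply LinearMap.ext
        intro v
        obtain ⟨a, b, ha, hb, rfl⟩ := (Submodule.codisjoint_iff_exists_add_eq.1 hc.codisjoint) v
        rw [map_add, hS4 b hb]
        have h5 : a ∈ LinearMap.ker (T * S - 1) := by rw [h]; exact ha
        rw [LinearMap.mem_ker] at h5
        have h6 : T (S a) = a := sub_eq_zero.1 h5
        rw [hTC _ (hS5 a ha)] at h6
        rw [h6]; rfl
    have hlt := Submodule.finrank_lt_finrank_of_lt hle
    have hpow : (T * S) ^ r = 1 := by
      have : Commute T S := hcomm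
      rw [this.mul_pow, hT2, hS2, mul_one]
    exact ih _ (by omega) (T * S) (fun u v => by
      rw [Module.End.mul_apply, Module.End.mul_apply, hT1, hS1]) hpow rfl

section Sp

/-- isometries as symplectic matrices -/
theorem exists_sp_of_isom {d : ℕ} (T : (Fin d ⊕ Fin d → F) →ₗ[F] (Fin d ⊕ Fin d → F))
    (h : ∀ u v, RElt.sympB d F (T u) (T v) = RElt.sympB d F u v) :
    ∃ x : symplecticGroup (Fin d) F, Matrix.toLin' (x : Matrix (Fin d ⊕ Fin d) (Fin d ⊕ Fin d) F) = T := by
  refine ⟨⟨LinearMap.toMatrix' T, ?_⟩, Matrix.toLin'_toMatrix' T⟩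
  rw [H6.Symp.mem_iff_bf]
  intro u v
  have h1 : ∀ u, LinearMap.toMatrix' T *ᵥ u = T u := by
    intro u
    rw [← Matrix.toLin'_apply, Matrix.toLin'_toMatrix']
  rw [h1, h1]
  exact h u v

theorem sympB_refl (d : ℕ) : (RElt.sympB d F).IsRefl := (RElt.sympB_alt d).isRefl

theorem sympB_top (d : ℕ) : ND (RElt.sympB d F) ⊤ := fun x _ h => RElt.sympB_nd d x (fun y => h y trivial)

end Sp

end H99.Iso
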