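import Mathlib
import Cfsg.Agent.Lib.H99.Alt
import Cfsg.Agent.Lib.H99.RElt
import Cfsg.Prelude.Def_GeometricClasses

set_option autoImplicit false

namespace H99.SpInv

open Module Submodule H99.Alt

universe u

variable {F : Type*} [Field F]

/-- General induction: a basis of hyperbolic planes stable under the isometry `T`, from the existence of one such plane
in every nonzero space with an isometry satisfying the same quadratic equation. -/
theorem exists_basis_sim (Pr : F → F → F → F → Prop) (ε δ lam : F) (hlam : lam ≠ 0)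
    (step : ∀ (V : Type u) [AddCommGroup V] [Module F V] [FiniteDimensional F V]
      (B : LinearMap.BilinForm F V) (T : V →ₗ[F] V), B.IsAlt → ND B →
      (∀ x y, B (T x) (T y) = lam * B x y) → (∀ x, T (T x) = ε • T x + δ • x) → (∃ x : V, x ≠ 0) →
      ∃ (u v : V) (a b c d : F), B u v = 1 ∧ T u = a • u + c • v ∧ T v = b • u + d • v ∧ Pr a b c d)
    (n : ℕ) : ∀ (V : Type u) [AddCommGroup V] [Module F V] [FiniteDimensional F V]
      (B : LinearMap.BilinForm F V) (T : V →ₗ[F] V), B.IsAlt → ND B →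
      (∀ x y, B (T x) (T y) = lam * B x y) → (∀ x, T (T x) = ε • T x + δ • x) → finrank F V = n →
      ∃ (ι : Type) (_ : Fintype ι) (_ : DecidableEq ι) (bs : Basis (Fin 2 × ι) F V),
        (∀ i j, B (bs (0, i)) (bs (0, j)) = 0) ∧ (∀ i j, B (bs (1, i)) (bs (1, j)) = 0) ∧
        (∀ i j, B (bs (0, i)) (bs (1, j)) = if i = j then 1 else 0) ∧
        (∀ i, ∃ a b c d, Pr a b c d ∧ T (bs (0, i)) = a • bs (0, i) + c • bs (1, i) ∧
          T (bs (1, i)) = b • bs (0, i) + d • bs (1, i)) := by
  induction n using Nat.strong_induction_on with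
  | _ n ih =>
    intro V _ _ _ B T hA hN hiso hT hn
    by_cases hV : ∃ x : V, x ≠ 0
    · obtain ⟨u, v, a, b, c, d, huv, hTu, hTv, hPr⟩ := step V B T hA hN hiso hT hV
      obtain ⟨hli, hc⟩ := split_plane B hA u v huv
      set W := perp2 B u v with hWdef
      have hTinj : Function.Injective T := by
        intro x y hxy
        have : ∀ z, B (x - y) z = 0 := by
          intro z
          apply (mul_eq_zero.1 _).resolve_left hlam
          rw [← hiso, map_sub, hxy, sub_self]; simp
        exact sub_eq_zero.1 (hN _ this)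
      have hTsurj : Function.Surjective T := LinearMap.injective_iff_surjective.1 hTinj
      have hW : ∀ w ∈ W, T w ∈ W := by
        intro w hw
        rw [hWdef, mem_perp2] at hw ⊢
        -- span is T-invariant, and T restricted to the span is onto it
        have hspan : ∀ p ∈ span F {u, v}, B p w = 0 := by
          intro p hp
          obtain ⟨s, t, rfl⟩ := Submodule.mem_span_pair.1 hp
          simp [hw.1, hw.2]
        have hTsp : ∀ p ∈ span F {u, v}, T p ∈ span F {u, v} := by
          intro p hp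
          obtain ⟨s, t, rfl⟩ := Submodule.mem_span_pair.1 hp
          rw [Submodule.mem_span_pair]
          refine ⟨s * a + t * b, s * c + t * d, ?_⟩
          rw [map_add, map_smul, map_smul, hTu, hTv]; module
        let TP : span F {u, v} →ₗ[F] span F {u, v} := T.restrict hTsp
        have hTPinj : Function.Injective TP := by
          intro x y hxy
          apply Subtype.ext
          apply hTinj
          exact congrArg Subtype.val hxy
        have hTPs : Function.Surjective TP := LinearMap.injective_iff_surjective.1 hTPinj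
        have key : ∀ p ∈ span F {u, v}, B p (T w) = 0 := by
          intro p hp
          obtain ⟨⟨p', hp'⟩, hpp⟩ := hTPs ⟨p, hp⟩
          have h1 : T p' = p := congrArg Subtype.val hpp
          rw [← h1, hiso, hspan p' hp', mul_zero]
        exact ⟨key u (Submodule.mem_span_pair.2 ⟨1, 0, by simp⟩),
          key v (Submodule.mem_span_pair.2 ⟨0, 1, by simp⟩)⟩
      let TW : W →ₗ[F] W := T.restrict hW
      have hsum := Submodule.finrank_add_eq_of_isCompl hc
      have hr : Set.range ![u, v] = {u, v} := by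
        ext x; simp [Matrix.range_cons, or_comm]
      have hspan2 : finrank F (span F {u, v}) = 2 := by
        have h1 := finrank_span_eq_card hli
        rw [hr] at h1
        simpa using h1
      obtain ⟨ι, fι, dι, bs, h1, h2, h3, h4⟩ := ih (finrank F W) (by omega) W (B.restrict W) TW
        (fun x => hA (x : V)) (nd_perp2 B hA hN u v huv) (fun x y => hiso (x : V) (y : V))
        (fun x => Subtype.ext (by simp [TW, hT])) rfl
      let bP0 : Basis (Fin 2) F (span F (Set.range ![u, v])) := Basis.span hli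
      let bP : Basis (Fin 2) F (span F {u, v}) := bP0.map (LinearEquiv.ofEq _ _ (by rw [hr]))
      have hbP0 : (bP 0 : V) = u := by
        simp only [bP, bP0, Basis.map_apply, LinearEquiv.coe_ofEq_apply]
        rw [Basis.span_apply]; rfl
      have hbP1 : (bP 1 : V) = v := by
        simp only [bP, bP0, Basis.map_apply, LinearEquiv.coe_ofEq_apply]
        rw [Basis.span_apply]; rfl
      let Bs := ((bP.prod bs).map (Submodule.prodEquivOfIsCompl _ _ hc)).reindex (idxEquiv ι)
      have B0 : Bs (0, none) = u := by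
        simp [Bs, idxEquiv, hbP0]
      have B1 : Bs (1, none) = v := by
        simp [Bs, idxEquiv, hbP1]
      have B2 : ∀ i a, Bs (a, some i) = bs (a, i) := by
        intro i a; simp [Bs, idxEquiv]
      have hW0 : ∀ w : W, B u (w : V) = 0 ∧ B v (w : V) = 0 := fun w => (mem_perp2 B u v w).1 w.2
      have hW1 : ∀ w : W, B (w : V) u = 0 ∧ B (w : V) v = 0 := fun w =>
        ⟨by rw [swap hA, (hW0 w).1, neg_zero], by rw [swap hA, (hW0 w).2, neg_zero]⟩
      have huu : B u u = 0 := hA u
      have hvv : B v v = 0 := hA v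
      refine ⟨Option ι, inferInstance, inferInstance, Bs, ?_, ?_, ?_, ?_⟩
      · rintro (_ | i) (_ | j)
        · rw [B0]; exact huu
        · rw [B0, B2]; exact (hW0 _).1
        · rw [B0, B2]; exact (hW1 _).1
        · rw [B2, B2]; exact h1 i j
      · rintro (_ | i) (_ | j)
        · rw [B1]; exact hvv
        · rw [B1, B2]; exact (hW0 _).2
        · rw [B1, B2]; exact (hW1 _).2
        · rw [B2, B2]; exact h2 i j
      · rintro (_ | i) (_ | j)
        · rw [B0, B1, if_pos rfl]; exact huv
        · rw [B0, B2, if_neg (by simp)]; exact (hW0 _).1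
        · rw [B1, B2, if_neg (by simp)]; exact (hW1 _).2
        · rw [B2, B2]
          have := h3 i j
          rw [LinearMap.BilinForm.restrict_apply] at this
          simp only [LinearMap.domRestrict_apply] at this
          rw [this]
          simp only [Option.some_inj]
      · rintro (_ | i)
        · exact ⟨a, b, c, d, hPr, by rw [B0, B1]; exact hTu, by rw [B0, B1]; exact hTv⟩
        · obtain ⟨a', b', c', d', hp, hq1, hq2⟩ := h4 i
          refine ⟨a', b', c', d', hp, ?_, ?_⟩
          · rw [B2, B2]; exact congrArg Subtype.val hq1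
          · rw [B2, B2]; exact congrArg Subtype.val hq2
    · push Not at hV
      have : Subsingleton V := ⟨fun x y => by rw [hV x, hV y]⟩
      refine ⟨Empty, inferInstance, inferInstance, Basis.empty V, ?_, ?_, ?_, ?_⟩
      · intro i; exact i.elim
      · intro i; exact i.elim
      · intro i; exact i.elim
      · intro i; exact i.elim


/-- `T` skew-adjoint with `T² = c` -/
theorem exists_basis_skew [Fintype F] (h2 : (2 : F) ≠ 0) {c : F} (hc : c ≠ 0) (V : Type u) [AddCommGroup V] [Module F V]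
    [FiniteDimensional F V]
    (B : LinearMap.BilinForm F V) (hA : B.IsAlt) (hN : ND B) (T : V →ₗ[F] V)
    (hskew : ∀ x y, B (T x) y = - B x (T y)) (hT : ∀ x, T (T x) = c • x) :
    ∃ (ι : Type) (_ : Fintype ι) (_ : DecidableEq ι) (bs : Basis (Fin 2 × ι) F V),
        (∀ i j, B (bs (0, i)) (bs (0, j)) = 0) ∧ (∀ i j, B (bs (1, i)) (bs (1, j)) = 0) ∧
        (∀ i j, B (bs (0, i)) (bs (1, j)) = if i = j then 1 else 0) ∧
        (∀ i, T (bs (0, i)) = bs (1, i) ∧ T (bs (1, i)) = c • bs (0, i)) := by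
  have hsim : ∀ x y, B (T x) (T y) = (-c) * B x y := by
    intro x y
    rw [hskew, hT, map_smul, smul_eq_mul]; ring
  obtain ⟨ι, fι, dι, bs, h1, h2, h3, h4⟩ := exists_basis_sim (F := F)
    (fun a b c' d => a = 0 ∧ b = c ∧ c' = 1 ∧ d = 0) 0 c (-c) (neg_ne_zero.2 hc) (by
    intro V _ _ _ B T hA hN hsim hT ⟨x, hx⟩
    have hT' : ∀ x, T (T x) = c • x := by intro x; rw [hT]; simp
    have hskew : ∀ x y, B (T x) y = - B x (T y) := by
      intro x y
      have h := hsim x (T y)
      rw [hT', map_smul, smul_eq_mul] at h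
      have h' : c * (B (T x) y + B x (T y)) = 0 := by linear_combination h
      rcases mul_eq_zero.1 h' with h'' | h''
      · exact absurd h'' hc
      · linear_combination h''
    obtain ⟨w, hw⟩ : ∃ w, B w (T w) ≠ 0 := by
      by_contra h
      push Not at h
      apply hx
      apply hN
      intro y
      have key : ∀ y, B x (T y) = 0 := by
        intro y
        have h5 := h (x + y)
        simp only [map_add, LinearMap.add_apply, h x, h y, zero_add, add_zero] at h5
        have h6 : B (T x) y = - B x (T y) := hskew x y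
        have h7 : B y (T x) = - B (T x) y := swap hA _ _
        rw [h7, h6, neg_neg] at h5
        have h8 : (2 : F) * B x (T y) = 0 := by linear_combination h5
        rcases mul_eq_zero.1 h8 with h | h
        · exact absurd h h2
        · exact h
      have := key (T y)
      rw [hT', map_smul, smul_eq_mul] at this
      exact (mul_eq_zero.1 this).resolve_left hc
    obtain ⟨α, β, hαβ⟩ := SqScalar.exists_sq_sub c hc (B w (T w))⁻¹
    have hww : B w w = 0 := hA w
    have htt : B (T w) (T w) = 0 := hA (T w)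
    have htw : B (T w) w = - B w (T w) := swap hA _ _
    refine ⟨α • w + β • T w, T (α • w + β • T w), 0, c, 1, 0, ?_, by simp, ?_, rfl, rfl, rfl, rfl⟩
    · simp only [map_add, map_smul, hT', LinearMap.add_apply, LinearMap.smul_apply, map_neg, hww, htt, htw, smul_eq_mul]
      have : (α ^ 2 - c * β ^ 2) * B w (T w) = 1 := by
        rw [hαβ, inv_mul_cancel₀ hw]
      linear_combination this
    · rw [hT']; simp)
    (finrank F V) V B T hA hN hsim (fun x => by rw [hT]; simp) rfl
  refine ⟨ι, fι, dι, bs, h1, h2, h3, ?_⟩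
  intro i
  obtain ⟨a, b, c', d, ⟨ha, hb, hc', hd⟩, hT0, hT1⟩ := h4 i
  refine ⟨?_, ?_⟩
  · rw [hT0, ha, hc', zero_smul, zero_add, one_smul]
  · rw [hT1, hb, hd, zero_smul, add_zero]

/-- an isometry matching two symplectic bases -/
theorem match_isom {V : Type*} [AddCommGroup V] [Module F V] {B : LinearMap.BilinForm F V} (hA : B.IsAlt)
    {ι₁ ι₂ : Type} [DecidableEq ι₁] [DecidableEq ι₂] (bs₁ : Basis (Fin 2 × ι₁) F V) (bs₂ : Basis (Fin 2 × ι₂) F V)
    (h1 : ∀ i j, B (bs₁ (0, i)) (bs₁ (0, j)) = 0) (h2 : ∀ i j, B (bs₁ (1, i)) (bs₁ (1, j)) = 0)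
    (h3 : ∀ i j, B (bs₁ (0, i)) (bs₁ (1, j)) = if i = j then 1 else 0)
    (h1' : ∀ i j, B (bs₂ (0, i)) (bs₂ (0, j)) = 0) (h2' : ∀ i j, B (bs₂ (1, i)) (bs₂ (1, j)) = 0)
    (h3' : ∀ i j, B (bs₂ (0, i)) (bs₂ (1, j)) = if i = j then 1 else 0)
    (e : ι₁ ≃ ι₂) : ∃ g : V ≃ₗ[F] V, (∀ u v, B (g u) (g v) = B u v) ∧ ∀ a i, g (bs₁ (a, i)) = bs₂ (a, e i) := by
  let g := bs₁.equiv bs₂ (Equiv.prodCongr (Equiv.refl _) e)
  have hg : ∀ a i, g (bs₁ (a, i)) = bs₂ (a, e i) := by
    intro a i
    rw [Basis.equiv_apply]; rfl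
  refine ⟨g, ?_, hg⟩
  have key : B.compl₁₂ g.toLinearMap g.toLinearMap = B := by
    apply bs₁.ext
    intro x
    apply bs₁.ext
    intro y
    obtain ⟨a, i⟩ := x
    obtain ⟨b, j⟩ := y
    show B (g (bs₁ (a, i))) (g (bs₁ (b, j))) = B (bs₁ (a, i)) (bs₁ (b, j))
    rw [hg, hg]
    have hab : ∀ a : Fin 2, a = 0 ∨ a = 1 := by decide
    rcases hab a with rfl | rfl <;> rcases hab b with rfl | rfl
    · rw [h1, h1']
    · rw [h3, h3']; simp
    · rw [swap hA, swap hA (bs₁ (1, i)), h3, h3']; simp
    · rw [h2, h2']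
  intro u v
  have := LinearMap.congr_fun (LinearMap.congr_fun key u) v
  exact this

theorem card_idx {d : ℕ} {ι : Type} [Fintype ι] (bs : Basis (Fin 2 × ι) F (Fin d ⊕ Fin d → F)) : Fintype.card ι = d := by
  have h1 := Module.finrank_eq_card_basis bs
  rw [Module.finrank_fintype_fun_eq_card, Fintype.card_sum, Fintype.card_fin, Fintype.card_prod, Fintype.card_fin] at h1
  omega

/-- isometries as elements of `spGL` -/
theorem exists_gl {d : ℕ} (T : (Fin d ⊕ Fin d → F) →ₗ[F] (Fin d ⊕ Fin d → F))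
    (h : ∀ u v, RElt.sympB d F (T u) (T v) = RElt.sympB d F u v) :
    ∃ g ∈ Cfsg.spGL d F, ∀ v, (g : Matrix (Fin d ⊕ Fin d) (Fin d ⊕ Fin d) F).mulVec v = T v := by
  have hinj : Function.Injective T := by
    intro x y hxy
    have : ∀ z, RElt.sympB d F (x - y) z = 0 := by
      intro z
      rw [← h, map_sub, hxy, sub_self]; simp
    exact sub_eq_zero.1 (RElt.sympB_nd d _ this)
  have hmv : ∀ v, (LinearMap.toMatrix' T).mulVec v = T v := by
    intro v
    rw [← Matrix.toLin'_apply, Matrix.toLin'_toMatrix']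
  have hdet : (LinearMap.toMatrix' T).det ≠ 0 := by
    intro h0
    obtain ⟨v, hv, hv0⟩ := Matrix.exists_mulVec_eq_zero_iff.2 h0
    rw [hmv] at hv0
    exact hv (hinj (by rw [hv0, map_zero]))
  refine ⟨Matrix.GeneralLinearGroup.mkOfDetNeZero _ hdet, ?_, hmv⟩
  intro u v
  show Cfsg.sympForm d F ((LinearMap.toMatrix' T).mulVec u) ((LinearMap.toMatrix' T).mulVec v) = Cfsg.sympForm d F u v
  rw [hmv, hmv]
  exact h u v

theorem gl_isom {d : ℕ} {g : GL (Fin d ⊕ Fin d) F} (hg : g ∈ Cfsg.spGL d F) (u v : Fin d ⊕ Fin d → F) :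
    RElt.sympB d F (Matrix.toLin' (g : Matrix (Fin d ⊕ Fin d) (Fin d ⊕ Fin d) F) u) (Matrix.toLin' (g : Matrix (Fin d ⊕ Fin d) (Fin d ⊕ Fin d) F) v) =
      RElt.sympB d F u v := hg u v

/-- conjugacy from an intertwining isometry -/
theorem conj_of_isom {d : ℕ} (x y : GL (Fin d ⊕ Fin d) F) (G : (Fin d ⊕ Fin d → F) ≃ₗ[F] (Fin d ⊕ Fin d → F))
    (hG : ∀ u v, RElt.sympB d F (G u) (G v) = RElt.sympB d F u v)
    (h : ∀ v, (x : Matrix (Fin d ⊕ Fin d) (Fin d ⊕ Fin d) F).mulVec (G v) = G ((y : Matrix (Fin d ⊕ Fin d) (Fin d ⊕ Fin d) F).mulVec v)) :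
    ∃ g ∈ Cfsg.spGL d F, g⁻¹ * x * g = y := by
  obtain ⟨g, hg, hgv⟩ := exists_gl G.toLinearMap hG
  refine ⟨g, hg, ?_⟩
  rw [mul_assoc, inv_mul_eq_iff_eq_mul]
  apply Units.ext
  apply Matrix.toLin'.injective
  apply LinearMap.ext
  intro v
  rw [Units.val_mul, Units.val_mul, Matrix.toLin'_apply, Matrix.toLin'_apply, ← Matrix.mulVec_mulVec, ← Matrix.mulVec_mulVec, hgv, hgv]
  exact h v

/-- a transvection -/
theorem exists_transvection {d : ℕ} (hd : 0 < d) :
    ∃ (a x0 : Fin d ⊕ Fin d → F) (T : (Fin d ⊕ Fin d → F) →ₗ[F] (Fin d ⊕ Fin d → F)), a ≠ 0 ∧ T x0 = x0 + a ∧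
      (∀ v, T v = v + (RElt.sympB d F v a) • a) ∧ (∀ u v, RElt.sympB d F (T u) (T v) = RElt.sympB d F u v) := by
  have : Nonempty (Fin d) := ⟨⟨0, hd⟩⟩
  obtain ⟨a, ha⟩ := exists_ne (0 : Fin d ⊕ Fin d → F)
  have hA := RElt.sympB_alt (F := F) d
  obtain ⟨w, hw⟩ : ∃ w, RElt.sympB d F w a ≠ 0 := by
    by_contra h
    push Not at h
    apply ha
    apply RElt.sympB_nd d
    intro y
    rw [swap hA, h, neg_zero]
  let T : (Fin d ⊕ Fin d → F) →ₗ[F] (Fin d ⊕ Fin d → F) := LinearMap.id + ((RElt.sympB d F).flip a).smulRight a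
  have hT : ∀ v, T v = v + (RElt.sympB d F v a) • a := fun v => rfl
  refine ⟨a, (RElt.sympB d F w a)⁻¹ • w, T, ha, ?_, hT, ?_⟩
  · rw [hT, map_smul, LinearMap.smul_apply, smul_eq_mul, inv_mul_cancel₀ hw, one_smul]
  · intro u v
    rw [hT, hT]
    have haa : RElt.sympB d F a a = 0 := hA a
    have h1 : RElt.sympB d F a v = - RElt.sympB d F v a := swap hA _ _
    simp only [map_add, map_smul, LinearMap.add_apply, LinearMap.smul_apply, smul_eq_mul, haa, h1]
    ring

end H99.SpInv
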