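import Mathlib
import Cfsg.Agent.Lib.H99.SpInv
import Cfsg.Agent.Lib.H99.FieldEmb
import Cfsg.Agent.Lib.H99.Adj
import Cfsg.Agent.Lib.H99.Iso4
import Cfsg.Agent.Lib.H99.Herm
import Cfsg.Agent.Lib.H7.UnitOrd
import Cfsg.Prelude.Def_LieClassical

set_option autoImplicit false
set_option linter.unusedSimpArgs false
set_option linter.unusedSectionVars false
set_option linter.unusedVariables false

/-! Quadratic subfields of the matrix algebra closed under adjoints, symplectic case. -/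

namespace H99.Skew

open Matrix Module H99.FieldEmb H99.RElt

universe u

variable {F : Type u} [Field F]

theorem matrix_ext {α : Type} [Fintype α] [DecidableEq α] {M N : Matrix α α F} (h : ∀ v, M *ᵥ v = N *ᵥ v) : M = N :=
  Matrix.ext_of_mulVec_single fun i => h _

/-- the data of an adjoint closed quadratic field -/
theorem exists_data (h2 : (2 : F) ≠ 0) {d : ℕ} (hd : 0 < d) (K : Subalgebra F (Matrix (Fin d ⊕ Fin d) (Fin d ⊕ Fin d) F))
    (hK : Cfsg.Geo.IsFieldSubalgebra 2 K)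
    (hKf : Cfsg.Geo.IsAdjointClosedFor (Cfsg.sympForm d F) K) (hKns : ¬ Cfsg.Geo.IsSelfAdjointFor (Cfsg.sympForm d F) K) :
    ∃ (E : Type u) (_ : Field E) (_ : Algebra F E) (ρ : E →ₐ[F] Matrix (Fin d ⊕ Fin d) (Fin d ⊕ Fin d) F) (δ : E) (c : F),
      (∀ M, M ∈ K ↔ ∃ e, ρ e = M) ∧ finrank F E = 2 ∧ δ * δ = algebraMap F E c ∧ ¬ IsSquare c ∧
      (∀ e : E, ∃ α β : F, e = algebraMap F E α + algebraMap F E β * δ) ∧
      (∀ u v, sympB d F (ρ δ *ᵥ u) v = - sympB d F u (ρ δ *ᵥ v)) := by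
  classical
  have : Nonempty (Fin d ⊕ Fin d) := ⟨.inl ⟨0, hd⟩⟩
  obtain ⟨E, fE, aE, ρ, hmem, hE⟩ := exists_field K hK
  have hfd : FiniteDimensional F E := Module.finite_of_finrank_pos (by omega)
  have hinj : Function.Injective ρ := ρ.toRingHom.injective
  have hA := sympB_alt (F := F) d
  have hN := sympB_nd (F := F) d
  have hadj : ∀ e : E, ∃ e' : E, ∀ u v, sympB d F (ρ e *ᵥ u) v = sympB d F u (ρ e' *ᵥ v) := by
    intro e
    obtain ⟨k', hk', h⟩ := hKf (ρ e) ((hmem _).2 ⟨e, rfl⟩)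
    obtain ⟨e', rfl⟩ := (hmem _).1 hk'
    exact ⟨e', h⟩
  choose τ hτ using hadj
  have hτ' : ∀ e u v, sympB d F (ρ (τ e) *ᵥ u) v = sympB d F u (ρ e *ᵥ v) := by
    intro e u v
    rw [Alt.swap hA, ← hτ, Alt.swap hA, neg_neg]
  have huniq : ∀ a b : E, (∀ u v, sympB d F u (ρ a *ᵥ v) = sympB d F u (ρ b *ᵥ v)) → a = b := by
    intro a b h
    apply hinj
    apply matrix_ext
    intro v
    rw [← sub_eq_zero]
    apply hN
    intro y
    rw [Alt.swap hA, map_sub, h, sub_self, neg_zero]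
  obtain ⟨e₀, he₀⟩ : ∃ e₀ : E, τ e₀ ≠ e₀ := by
    by_contra h
    push Not at h
    apply hKns
    intro k hk
    obtain ⟨e, rfl⟩ := (hmem _).1 hk
    intro u v
    have := hτ e u v
    rw [h] at this
    exact this
  set δ := e₀ - τ e₀ with hδ
  have hδ0 : δ ≠ 0 := sub_ne_zero.2 (Ne.symm he₀)
  have hskew : ∀ u v, sympB d F (ρ δ *ᵥ u) v = - sympB d F u (ρ δ *ᵥ v) := by
    intro u v
    rw [hδ, map_sub, Matrix.sub_mulVec, Matrix.sub_mulVec, map_sub, map_sub, LinearMap.sub_apply, hτ, hτ']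
    ring
  have hnz : ∃ u v, sympB d F u (ρ δ *ᵥ v) ≠ 0 := by
    by_contra h
    push Not at h
    apply hδ0
    apply huniq
    intro u v
    rw [h, map_zero, Matrix.zero_mulVec, map_zero]
  have hnF : ∀ a : F, δ ≠ algebraMap F E a := by
    intro a ha
    obtain ⟨u, v, huv⟩ := hnz
    have h1 := hskew u v
    rw [ha, AlgHom.commutes, Algebra.algebraMap_eq_smul_one, Matrix.smul_mulVec, Matrix.one_mulVec, Matrix.smul_mulVec,
      Matrix.one_mulVec, map_smul, map_smul, LinearMap.smul_apply, smul_eq_mul] at h1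
    rw [ha, AlgHom.commutes, Algebra.algebraMap_eq_smul_one, Matrix.smul_mulVec, Matrix.one_mulVec, map_smul, smul_eq_mul] at huv
    have h3 : (2 : F) * (a * sympB d F u v) = 0 := by linear_combination h1
    rcases mul_eq_zero.1 h3 with h | h
    · exact h2 h
    · exact huv h
  have hli : LinearIndependent F ![(1 : E), δ] := by
    rw [LinearIndependent.pair_iff]
    intro s t h
    by_cases ht : t = 0
    · rw [ht, zero_smul, add_zero] at h
      exact ⟨(smul_eq_zero.1 h).resolve_right one_ne_zero, ht⟩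
    · exfalso
      apply hnF (-(t⁻¹ * s))
      have h3 : t⁻¹ • (s • (1 : E) + t • δ) = 0 := by rw [h, smul_zero]
      rw [smul_add, smul_smul, smul_smul, inv_mul_cancel₀ ht, one_smul] at h3
      rw [map_neg, Algebra.algebraMap_eq_smul_one, eq_neg_iff_add_eq_zero, add_comm]
      exact h3
  have hspan : ∀ e : E, ∃ α β : F, e = algebraMap F E α + algebraMap F E β * δ := by
    intro e
    have h3 := hli.span_eq_top_of_card_eq_finrank' (by rw [hE]; rfl)
    have h4 : e ∈ Submodule.span F (Set.range ![(1 : E), δ]) := by rw [h3]; trivial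
    rw [Matrix.range_cons, Matrix.range_cons, Matrix.range_empty, Set.union_empty, Set.singleton_union] at h4
    obtain ⟨α, β, h5⟩ := Submodule.mem_span_pair.1 h4
    refine ⟨α, β, ?_⟩
    rw [← h5, Algebra.smul_def, Algebra.smul_def, mul_one]
  obtain ⟨a, b, hab⟩ := hspan (δ * δ)
  have hb : b = 0 := by
    obtain ⟨u, v, huv⟩ := hnz
    have h3 : sympB d F (ρ (δ * δ) *ᵥ u) v = sympB d F u (ρ (δ * δ) *ᵥ v) := by
      rw [map_mul, ← Matrix.mulVec_mulVec, ← Matrix.mulVec_mulVec, hskew, hskew, neg_neg]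
    have h4 : ∀ w : Fin d ⊕ Fin d → F, ρ (δ * δ) *ᵥ w = a • w + b • (ρ δ *ᵥ w) := by
      intro w
      rw [hab, map_add, map_mul, AlgHom.commutes, AlgHom.commutes, Matrix.add_mulVec, Algebra.algebraMap_eq_smul_one,
        Algebra.algebraMap_eq_smul_one, Matrix.smul_mulVec, Matrix.one_mulVec, Matrix.smul_mul, Matrix.one_mul, Matrix.smul_mulVec]
    rw [h4, h4, map_add, map_add, LinearMap.add_apply, map_smul, map_smul, map_smul, map_smul, LinearMap.smul_apply,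
      LinearMap.smul_apply, hskew, smul_eq_mul, smul_eq_mul, smul_eq_mul] at h3
    have h5 : (2 : F) * (b * sympB d F u (ρ δ *ᵥ v)) = 0 := by linear_combination -h3
    rcases mul_eq_zero.1 h5 with h | h
    · exact absurd h h2
    · exact (mul_eq_zero.1 h).resolve_right huv
  rw [hb, map_zero, zero_mul, add_zero] at hab
  refine ⟨E, fE, aE, ρ, δ, a, hmem, hE, hab, ?_, hspan, hskew⟩
  rintro ⟨s, hs⟩
  have h6 : (δ - algebraMap F E s) * (δ + algebraMap F E s) = 0 := by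
    have : algebraMap F E a = algebraMap F E s * algebraMap F E s := by rw [hs, map_mul]
    linear_combination hab + this
  rcases mul_eq_zero.1 h6 with h | h
  · exact hnF s (sub_eq_zero.1 h)
  · exact hnF (-s) (by rw [map_neg]; exact eq_neg_of_add_eq_zero_left h)

section

variable {E : Type u} [Field E] [Algebra F E] {d : ℕ} {ρ : E →ₐ[F] Matrix (Fin d ⊕ Fin d) (Fin d ⊕ Fin d) F} {δ : E} {c : F}

theorem comm_all (hspan : ∀ e : E, ∃ α β : F, e = algebraMap F E α + algebraMap F E β * δ)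
    {g : Matrix (Fin d ⊕ Fin d) (Fin d ⊕ Fin d) F} (h : g * ρ δ = ρ δ * g) (e : E) : g * ρ e = ρ e * g := by
  obtain ⟨α, β, rfl⟩ := hspan e
  rw [map_add, map_mul, AlgHom.commutes, AlgHom.commutes, Algebra.algebraMap_eq_smul_one, Algebra.algebraMap_eq_smul_one,
    Matrix.mul_add, Matrix.add_mul, Matrix.mul_smul, Matrix.smul_mul, Matrix.mul_one, Matrix.one_mul, Matrix.smul_mul, Matrix.one_mul,
    Matrix.mul_smul, Matrix.smul_mul, h]

/-- anticommuting elements normalize the field -/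
theorem mem_of_anti {K : Subalgebra F (Matrix (Fin d ⊕ Fin d) (Fin d ⊕ Fin d) F)} (hmem : ∀ M, M ∈ K ↔ ∃ e, ρ e = M)
    (hspan : ∀ e : E, ∃ α β : F, e = algebraMap F E α + algebraMap F E β * δ)
    (g : GL (Fin d ⊕ Fin d) F) (h : (g : Matrix (Fin d ⊕ Fin d) (Fin d ⊕ Fin d) F) * ρ δ = - (ρ δ * (g : Matrix (Fin d ⊕ Fin d) (Fin d ⊕ Fin d) F))) :
    g ∈ Cfsg.Geo.subalgebraNormalizer K := by
  set G := (g : Matrix (Fin d ⊕ Fin d) (Fin d ⊕ Fin d) F) with hG
  have hgg : G * ((g⁻¹ : GL (Fin d ⊕ Fin d) F) : Matrix (Fin d ⊕ Fin d) (Fin d ⊕ Fin d) F) = 1 := by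
    rw [hG, ← Units.val_mul, mul_inv_cancel, Units.val_one]
  have hgg' : ((g⁻¹ : GL (Fin d ⊕ Fin d) F) : Matrix (Fin d ⊕ Fin d) (Fin d ⊕ Fin d) F) * G = 1 := by
    rw [hG, ← Units.val_mul, inv_mul_cancel, Units.val_one]
  have key : ∀ α β : F, G * ρ (algebraMap F E α + algebraMap F E β * δ) = ρ (algebraMap F E α + algebraMap F E (-β) * δ) * G := by
    intro α β
    rw [map_add, map_mul, map_add, map_mul, AlgHom.commutes, AlgHom.commutes, AlgHom.commutes, Algebra.algebraMap_eq_smul_one,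
      Algebra.algebraMap_eq_smul_one, Algebra.algebraMap_eq_smul_one,
      Matrix.mul_add, Matrix.add_mul, Matrix.mul_smul, Matrix.smul_mul, Matrix.mul_one, Matrix.one_mul, Matrix.smul_mul, Matrix.one_mul,
      Matrix.mul_smul, Matrix.smul_mul, h, Matrix.one_mul, Matrix.smul_mul, smul_neg, neg_smul]
  have key2 : ∀ α β : F, G * ρ (algebraMap F E α + algebraMap F E β * δ) * ((g⁻¹ : GL (Fin d ⊕ Fin d) F) : Matrix (Fin d ⊕ Fin d) (Fin d ⊕ Fin d) F) =
      ρ (algebraMap F E α + algebraMap F E (-β) * δ) := by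
    intro α β
    rw [key, Matrix.mul_assoc, hgg, Matrix.mul_one]
  intro k
  constructor
  · intro hk
    obtain ⟨e, rfl⟩ := (hmem _).1 hk
    obtain ⟨α, β, rfl⟩ := hspan e
    rw [key2]
    exact (hmem _).2 ⟨_, rfl⟩
  · intro hk
    obtain ⟨e, he⟩ := (hmem _).1 hk
    obtain ⟨α, β, rfl⟩ := hspan e
    have h2 : k = ρ (algebraMap F E α + algebraMap F E (-β) * δ) := by
      have h3 : G * k = G * ρ (algebraMap F E α + algebraMap F E (-β) * δ) := by
        calc G * k = (G * k * ((g⁻¹ : GL (Fin d ⊕ Fin d) F) : Matrix (Fin d ⊕ Fin d) (Fin d ⊕ Fin d) F)) * G := by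
              rw [Matrix.mul_assoc (G * k), hgg', Matrix.mul_one]
          _ = ρ (algebraMap F E α + algebraMap F E β * δ) * G := by rw [← he]
          _ = _ := by rw [key, neg_neg]
      exact g.isUnit.mul_left_cancel h3
    rw [h2]; exact (hmem _).2 ⟨_, rfl⟩

/-- involutions -/
theorem two_pos [Fintype F] (h2 : (2 : F) ≠ 0) {K : Subalgebra F (Matrix (Fin d ⊕ Fin d) (Fin d ⊕ Fin d) F)} (hmem : ∀ M, M ∈ K ↔ ∃ e, ρ e = M)
    (hspan : ∀ e : E, ∃ α β : F, e = algebraMap F E α + algebraMap F E β * δ) (hc : c ≠ 0) (hδ : δ * δ = algebraMap F E c)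
    (hskew : ∀ u v, sympB d F (ρ δ *ᵥ u) v = - sympB d F u (ρ δ *ᵥ v))
    (x : GL (Fin d ⊕ Fin d) F) (hx : x ∈ Cfsg.spGL d F) (hx2 : ∀ v, (x : Matrix (Fin d ⊕ Fin d) (Fin d ⊕ Fin d) F) *ᵥ ((x : Matrix (Fin d ⊕ Fin d) (Fin d ⊕ Fin d) F) *ᵥ v) = v) :
    ∃ g ∈ Cfsg.spGL d F, g⁻¹ * x * g ∈ Cfsg.Geo.subalgebraNormalizer K := by
  classical
  have hA := sympB_alt (F := F) d
  have hN := sympB_nd (F := F) d
  have hδδ : ∀ v, ρ δ *ᵥ (ρ δ *ᵥ v) = c • v := by
    intro v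
    rw [Matrix.mulVec_mulVec, ← map_mul, hδ, AlgHom.commutes, Algebra.algebraMap_eq_smul_one, Matrix.smul_mulVec, Matrix.one_mulVec]
  obtain ⟨ι₁, f₁, d₁, bs, h1, h2', h3, h4⟩ := SpInv.exists_basis_skew h2 hc _ (sympB d F) hA hN (Matrix.toLin' (ρ δ)) hskew hδδ
  obtain ⟨ι₂, f₂, d₂, bx, k1, k2, k3, k4⟩ := Alt.exists_symp_basis_pos h2 _ (sympB d F) hA hN
    (Matrix.toLin' (x : Matrix (Fin d ⊕ Fin d) (Fin d ⊕ Fin d) F)) (SpInv.gl_isom hx) hx2
  let e : ι₁ ≃ ι₂ := Fintype.equivOfCardEq (by rw [SpInv.card_idx bs, SpInv.card_idx bx])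
  obtain ⟨G, hG, hGb⟩ := SpInv.match_isom hA bs bx h1 h2' h3 k1 k2 k3 e
  obtain ⟨g, hg, hgv⟩ := SpInv.exists_gl G.toLinearMap hG
  have hgv' : ∀ v, (g : Matrix (Fin d ⊕ Fin d) (Fin d ⊕ Fin d) F) *ᵥ v = G v := hgv
  refine ⟨g, hg, mem_of_comm ρ hmem _ (comm_all hspan ?_)⟩
  set y := g⁻¹ * x * g with hy
  have hgy : g * y = x * g := by rw [hy]; group
  have hyv : ∀ v, G ((y : Matrix (Fin d ⊕ Fin d) (Fin d ⊕ Fin d) F) *ᵥ v) = (x : Matrix (Fin d ⊕ Fin d) (Fin d ⊕ Fin d) F) *ᵥ (G v) := by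
    intro v
    rw [← hgv', ← hgv', Matrix.mulVec_mulVec, Matrix.mulVec_mulVec, ← Units.val_mul, hgy, Units.val_mul]
  have hyb : ∀ i, ∃ s : F, ∀ a, (y : Matrix (Fin d ⊕ Fin d) (Fin d ⊕ Fin d) F) *ᵥ (bs (a, i)) = s • bs (a, i) := by
    intro i
    obtain ⟨s, -, hs0, hs1⟩ := k4 (e i)
    refine ⟨s, fun a => ?_⟩
    apply G.injective
    rw [hyv, hGb, map_smul, hGb]
    have ha : ∀ a : Fin 2, a = 0 ∨ a = 1 := by decide
    rcases ha a with rfl | rfl
    · exact hs0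
    · exact hs1
  apply Matrix.toLin'.injective
  apply bs.ext
  rintro ⟨a, i⟩
  obtain ⟨s, hs⟩ := hyb i
  have hb0 : ρ δ *ᵥ bs (0, i) = bs (1, i) := (h4 i).1
  have hb1 : ρ δ *ᵥ bs (1, i) = c • bs (0, i) := (h4 i).2
  rw [Matrix.toLin'_apply, Matrix.toLin'_apply, ← Matrix.mulVec_mulVec, ← Matrix.mulVec_mulVec, hs, Matrix.mulVec_smul]
  have ha : ∀ a : Fin 2, a = 0 ∨ a = 1 := by decide
  rcases ha a with rfl | rfl
  · rw [hb0, hs]
  · rw [hb1, Matrix.mulVec_smul, hs, smul_comm]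

/-- elements of square `-1` -/
theorem two_neg [Fintype F] (h2 : (2 : F) ≠ 0) {K : Subalgebra F (Matrix (Fin d ⊕ Fin d) (Fin d ⊕ Fin d) F)} (hmem : ∀ M, M ∈ K ↔ ∃ e, ρ e = M)
    (hspan : ∀ e : E, ∃ α β : F, e = algebraMap F E α + algebraMap F E β * δ) (hc : c ≠ 0) (hδ : δ * δ = algebraMap F E c)
    (hskew : ∀ u v, sympB d F (ρ δ *ᵥ u) v = - sympB d F u (ρ δ *ᵥ v))
    (x : GL (Fin d ⊕ Fin d) F) (hx : x ∈ Cfsg.spGL d F) (hx2 : ∀ v, (x : Matrix (Fin d ⊕ Fin d) (Fin d ⊕ Fin d) F) *ᵥ ((x : Matrix (Fin d ⊕ Fin d) (Fin d ⊕ Fin d) F) *ᵥ v) = -v) :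
    ∃ g ∈ Cfsg.spGL d F, g⁻¹ * x * g ∈ Cfsg.Geo.subalgebraNormalizer K := by
  classical
  have hA := sympB_alt (F := F) d
  have hN := sympB_nd (F := F) d
  have hδδ : ∀ v, ρ δ *ᵥ (ρ δ *ᵥ v) = c • v := by
    intro v
    rw [Matrix.mulVec_mulVec, ← map_mul, hδ, AlgHom.commutes, Algebra.algebraMap_eq_smul_one, Matrix.smul_mulVec, Matrix.one_mulVec]
  obtain ⟨ι₁, f₁, d₁, bs, h1, h2', h3, h4⟩ := SpInv.exists_basis_skew h2 hc _ (sympB d F) hA hN (Matrix.toLin' (ρ δ)) hskew hδδ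
  -- the reflection-like map
  let Δ := Matrix.toLin' (ρ δ)
  have hΔ0 : ∀ i, Δ (bs (0, i)) = bs (1, i) := fun i => (h4 i).1
  have hΔ1 : ∀ i, Δ (bs (1, i)) = c • bs (0, i) := fun i => (h4 i).2
  have hΔΔ : ∀ v, Δ (Δ v) = c • v := hδδ
  have hΔs : ∀ u v, sympB d F (Δ u) v = - sympB d F u (Δ v) := hskew
  let τ : (Fin d ⊕ Fin d → F) →ₗ[F] (Fin d ⊕ Fin d → F) := bs.constr F (fun x => (if x.1 = 0 then (1 : F) else -1) • bs x)
  have hτ0 : ∀ i, τ (bs (0, i)) = bs (0, i) := by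
    intro i
    show bs.constr F _ (bs (0, i)) = _
    rw [Basis.constr_basis]; simp
  have hτ1 : ∀ i, τ (bs (1, i)) = - bs (1, i) := by
    intro i
    show bs.constr F _ (bs (1, i)) = _
    rw [Basis.constr_basis]; simp
  have ha : ∀ a : Fin 2, a = 0 ∨ a = 1 := by decide
  have hττ : ∀ v, τ (τ v) = v := by
    intro v
    have : τ ∘ₗ τ = LinearMap.id := by
      apply bs.ext
      rintro ⟨a, i⟩
      rcases ha a with rfl | rfl
      · rw [LinearMap.comp_apply, hτ0, hτ0]; rfl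
      · rw [LinearMap.comp_apply, hτ1, map_neg, hτ1, neg_neg]; rfl
    exact LinearMap.congr_fun this v
  have hτΔ : ∀ v, τ (Δ v) = - Δ (τ v) := by
    intro v
    have : τ ∘ₗ Δ = - (Δ ∘ₗ τ) := by
      apply bs.ext
      rintro ⟨a, i⟩
      rcases ha a with rfl | rfl
      · rw [LinearMap.comp_apply, LinearMap.neg_apply, LinearMap.comp_apply, hΔ0, hτ0, hτ1, hΔ0]
      · rw [LinearMap.comp_apply, LinearMap.neg_apply, LinearMap.comp_apply, hΔ1, hτ1, map_smul, hτ0, map_neg, hΔ1, neg_neg]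
    exact LinearMap.congr_fun this v
  have hτB : ∀ u v, sympB d F (τ u) (τ v) = - sympB d F u v := by
    have key : (sympB d F).compl₁₂ τ τ = - sympB d F := by
      apply bs.ext
      rintro ⟨a, i⟩
      apply bs.ext
      rintro ⟨b, j⟩
      show sympB d F (τ (bs (a, i))) (τ (bs (b, j))) = - sympB d F (bs (a, i)) (bs (b, j))
      rcases ha a with rfl | rfl <;> rcases ha b with rfl | rfl
      · rw [hτ0, hτ0, h1, neg_zero]
      · rw [hτ0, hτ1, map_neg]
      · rw [hτ0, hτ1, map_neg, LinearMap.neg_apply]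
      · rw [hτ1, hτ1, map_neg, map_neg, LinearMap.neg_apply, neg_neg, h2', neg_zero]
    intro u v
    exact LinearMap.congr_fun (LinearMap.congr_fun key u) v
  obtain ⟨a, b, hab⟩ := SqScalar.exists_sq_sub c hc (-1)
  let Y : (Fin d ⊕ Fin d → F) →ₗ[F] (Fin d ⊕ Fin d → F) := a • τ + b • (Δ ∘ₗ τ)
  have hYv : ∀ v, Y v = a • τ v + b • Δ (τ v) := fun v => rfl
  have hYB : ∀ u v, sympB d F (Y u) (Y v) = sympB d F u v := by
    intro u v
    rw [hYv, hYv]
    simp only [map_add, map_smul, LinearMap.add_apply, LinearMap.smul_apply, smul_eq_mul, hΔs, hΔΔ, hτB]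
    linear_combination (- sympB d F u v) * hab
  have hYY : ∀ v, Y (Y v) = - v := by
    intro v
    rw [hYv (Y v), hYv v]
    simp only [map_add, map_smul, hτΔ, hττ, map_neg, hΔΔ, smul_add, smul_neg, smul_smul]
    have : (a * a) • v + -((b * (b * c)) • v) = - v := by
      rw [← sub_eq_add_neg, ← sub_smul]
      have : a * a - b * (b * c) = -1 := by linear_combination hab
      rw [this, neg_smul, one_smul]
    have e1 : (a * b) • Δ v = (b * a) • Δ v := by rw [mul_comm]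
    rw [e1, ← this]
    abel
  have hYΔ : ∀ v, Y (Δ v) = - Δ (Y v) := by
    intro v
    rw [hYv, hYv, hτΔ]
    simp only [map_add, map_smul, map_neg, smul_neg]
    abel
  obtain ⟨ι₂, f₂, d₂, by', l1, l2, l3, l4⟩ := Alt.exists_symp_basis_neg h2 _ (sympB d F) hA hN Y hYB hYY
  obtain ⟨ι₃, f₃, d₃, bx, k1, k2, k3, k4⟩ := Alt.exists_symp_basis_neg h2 _ (sympB d F) hA hN
    (Matrix.toLin' (x : Matrix (Fin d ⊕ Fin d) (Fin d ⊕ Fin d) F)) (SpInv.gl_isom hx) hx2
  let e : ι₂ ≃ ι₃ := Fintype.equivOfCardEq (by rw [SpInv.card_idx by', SpInv.card_idx bx])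
  obtain ⟨G, hG, hGb⟩ := SpInv.match_isom hA by' bx l1 l2 l3 k1 k2 k3 e
  obtain ⟨y, -, hyv⟩ := SpInv.exists_gl Y hYB
  obtain ⟨g, hg, hgy⟩ := SpInv.conj_of_isom x y G hG (by
    intro v
    rw [hyv]
    have key : (Matrix.toLin' (x : Matrix (Fin d ⊕ Fin d) (Fin d ⊕ Fin d) F)) ∘ₗ G.toLinearMap = G.toLinearMap ∘ₗ Y := by
      apply by'.ext
      rintro ⟨a, i⟩
      show Matrix.toLin' (x : Matrix (Fin d ⊕ Fin d) (Fin d ⊕ Fin d) F) (G (by' (a, i))) = G (Y (by' (a, i)))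
      rcases ha a with rfl | rfl
      · rw [hGb, (k4 _).1, (l4 _).1, hGb]
      · rw [hGb, (k4 _).2, (l4 _).2, map_neg, hGb]
    exact LinearMap.congr_fun key v)
  refine ⟨g, hg, ?_⟩
  rw [hgy]
  apply mem_of_anti hmem hspan
  apply matrix_ext
  intro v
  rw [Matrix.neg_mulVec, ← Matrix.mulVec_mulVec, ← Matrix.mulVec_mulVec, hyv, hyv]
  exact hYΔ v

end


theorem det_ne {d : ℕ} (A : symplecticGroup (Fin d) F) : (A : Matrix (Fin d ⊕ Fin d) (Fin d ⊕ Fin d) F).det ≠ 0 := by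
  intro h
  have h1 : (A : Matrix (Fin d ⊕ Fin d) (Fin d ⊕ Fin d) F) * ((A⁻¹ : symplecticGroup (Fin d) F) : Matrix (Fin d ⊕ Fin d) (Fin d ⊕ Fin d) F) = 1 :=
    congrArg Subtype.val (mul_inv_cancel A)
  have h2 := congrArg Matrix.det h1
  rw [Matrix.det_mul, h, zero_mul, Matrix.det_one] at h2
  exact zero_ne_one h2

theorem card_spGL {d : ℕ} [Fintype F] : Nat.card (Cfsg.spGL d F) = Nat.card (symplecticGroup (Fin d) F) := by
  refine Nat.card_congr
    { toFun := fun g => ⟨((g : GL (Fin d ⊕ Fin d) F) : Matrix (Fin d ⊕ Fin d) (Fin d ⊕ Fin d) F), H6.Symp.mem_iff_bf.2 fun u v => g.2 u v⟩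
      invFun := fun A => ⟨Matrix.GeneralLinearGroup.mkOfDetNeZero (A : Matrix (Fin d ⊕ Fin d) (Fin d ⊕ Fin d) F) (det_ne A),
        fun u v => H6.Symp.mem_iff_bf.1 A.2 u v⟩
      left_inv := fun g => by
        apply Subtype.ext
        apply Units.ext
        rfl
      right_inv := fun A => rfl }

theorem card_sp [Fintype F] (d : ℕ) : Nat.card (Cfsg.spGL d F) =
    Fintype.card F ^ (d ^ 2) * ∏ i ∈ Finset.range d, (Fintype.card F ^ (2 * (i + 1)) - 1) := by
  rw [card_spGL, H6.SympCard.card_symplecticGroup, Fintype.card_fin, Nat.card_eq_fintype_card]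

theorem pow_q [Fintype F] (h2 : (2 : F) ≠ 0) {E : Type u} [Field E] [Algebra F E] {δ : E} {c : F} (hδ : δ * δ = algebraMap F E c)
    (hns : ¬ IsSquare c) : δ ^ Fintype.card F = -δ := by
  have hch : ringChar F ≠ 2 := by
    intro h
    apply h2
    have := ringChar.spec F 2
    rw [h] at this
    exact_mod_cast this.2 dvd_rfl
  have hc0 : c ≠ 0 := by rintro rfl; exact hns ⟨0, by simp⟩
  have h1 : c ^ (Fintype.card F / 2) = -1 := by
    rcases FiniteField.pow_dichotomy hch hc0 with h | h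
    · exact absurd ((FiniteField.isSquare_iff hch hc0).2 h) hns
    · exact h
  have hodd := FiniteField.odd_card_of_char_ne_two hch
  have h3 : Fintype.card F = 2 * (Fintype.card F / 2) + 1 := by omega
  rw [h3, pow_succ, pow_mul, pow_two, hδ, ← map_pow, h1, map_neg, map_one, neg_one_mul]

/-- hermitian forms: embedding of the unitary group -/
theorem card_gu_dvd {F : Type u} [Field F] [Fintype F] (h2 : (2 : F) ≠ 0) {d : ℕ} {E : Type u} [Field E] [Algebra F E]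
    {ρ : E →ₐ[F] Matrix (Fin d ⊕ Fin d) (Fin d ⊕ Fin d) F} {δ : E} {c : F}
    {K : Subalgebra F (Matrix (Fin d ⊕ Fin d) (Fin d ⊕ Fin d) F)} (hmem : ∀ M, M ∈ K ↔ ∃ e, ρ e = M)
    (hE : finrank F E = 2)
    (hspan : ∀ e : E, ∃ α β : F, e = algebraMap F E α + algebraMap F E β * δ) (hns : ¬ IsSquare c) (hδ : δ * δ = algebraMap F E c)
    (hskew : ∀ u v, sympB d F (ρ δ *ᵥ u) v = - sympB d F u (ρ δ *ᵥ v)) :
    Nat.card E = Fintype.card F ^ 2 ∧ Nat.card (Cfsg.GU d E (Fintype.card F)) ∣ Nat.card (Cfsg.Geo.subalgebraNormalizer K ⊓ Cfsg.spGL d F : Subgroup (GL (Fin d ⊕ Fin d) F)) := by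
  classical
  set q := Fintype.card F with hq
  have hfd : FiniteDimensional F E := Module.finite_of_finrank_pos (by omega)
  have hfin : Finite E := Module.finite_of_finite F
  have hcE : Nat.card E = q ^ 2 := by
    rw [Module.natCard_eq_pow_finrank (K := F), hE, Nat.card_eq_fintype_card]
  refine ⟨hcE, ?_⟩
  have hc0 : c ≠ 0 := by rintro rfl; exact hns ⟨0, by simp⟩
  have hδ0 : δ ≠ 0 := by
    rintro rfl
    rw [zero_mul] at hδ
    exact hc0 ((map_eq_zero (algebraMap F E)).1 hδ.symm)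
  have hA := sympB_alt (F := F) d
  have hN := sympB_nd (F := F) d
  have hpq := pow_q h2 hδ hns
  obtain ⟨n, Φ, hn, hΦ⟩ := exists_emb ρ
  have hnd : n = d := by
    rw [hE, Fintype.card_sum, Fintype.card_fin] at hn; omega
  subst hnd
  let σ : E ≃ₐ[F] E := FiniteField.frobeniusAlgEquivOfAlgebraic F E
  have hσq : ∀ e, σ e = e ^ q := fun e => rfl
  have hσδ : σ δ = -δ := by rw [hσq, hpq]
  have hσσ : ∀ e, σ (σ e) = e := by
    intro e
    obtain ⟨α, β, rfl⟩ := hspan e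
    rw [map_add, map_mul, AlgEquiv.commutes, AlgEquiv.commutes, hσδ, map_add, map_mul, AlgEquiv.commutes, AlgEquiv.commutes,
      map_neg, hσδ, neg_neg]
  have hadj : ∀ e u v, sympB n F (ρ e *ᵥ u) v = sympB n F u (ρ (σ e) *ᵥ v) := by
    intro e u v
    obtain ⟨α, β, rfl⟩ := hspan e
    have e1 : ∀ (α β : F) (w : Fin n ⊕ Fin n → F), ρ (algebraMap F E α + algebraMap F E β * δ) *ᵥ w = α • w + β • (ρ δ *ᵥ w) := by
      intro α β w
      rw [map_add, map_mul, AlgHom.commutes, AlgHom.commutes, Algebra.algebraMap_eq_smul_one, Algebra.algebraMap_eq_smul_one,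
        Matrix.smul_mul, Matrix.one_mul, Matrix.add_mulVec, Matrix.smul_mulVec, Matrix.smul_mulVec, Matrix.one_mulVec]
    have e2 : σ (algebraMap F E α + algebraMap F E β * δ) = algebraMap F E α + algebraMap F E (-β) * δ := by
      rw [map_add, map_mul, AlgEquiv.commutes, AlgEquiv.commutes, hσδ, map_neg]; ring
    rw [e2, e1, e1, map_add, map_add, LinearMap.add_apply, map_smul, map_smul, map_smul, map_smul, LinearMap.smul_apply,
      LinearMap.smul_apply, hskew, smul_eq_mul, smul_eq_mul, smul_eq_mul]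
    ring
  obtain ⟨f, hf⟩ := exists_form ρ Φ (sympB n F) hΦ
  have hff : Cfsg.Geo.IsUnitaryFormPow q (fun u v => δ * f u v) := by
    refine ⟨fun x y v => ?_, fun c x v => ?_, fun v w => ?_, fun v hv => ⟨?_, ?_⟩⟩
    · show δ * f (x + y) v = δ * f x v + δ * f y v
      rw [form_add_left Φ hf, mul_add]
    · show δ * f (c • x) v = c * (δ * f x v)
      rw [form_smul_left Φ hf]; ring
    · show δ * f v w = (δ * f w v) ^ q
      rw [form_swap ρ Φ hf hΦ σ hσσ hadj hA w v, hσq, mul_pow, hpq]; ring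
    · by_contra h
      push Not at h
      apply hv
      apply form_nd Φ hf hN
      intro w
      rw [form_swap ρ Φ hf hΦ σ hσσ hadj hA w v, (mul_eq_zero.1 (h w)).resolve_left hδ0, map_zero, neg_zero]
    · by_contra h
      push Not at h
      apply hv
      apply form_nd Φ hf hN
      intro w
      exact (mul_eq_zero.1 (h w)).resolve_left hδ0
  have hs := Herm.ses hcE hff
  obtain ⟨y, hy, hyH, -⟩ := H49.Unitary.herm_eq_ct_mul hcE (Herm.gram fun u v => δ * f u v) (Herm.isUnit_gram hcE hs) (Herm.ct_gram hcE hff)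
  obtain ⟨y, rfl⟩ := hy
  -- the conjugated unitary group preserves f
  have hpres : ∀ g ∈ Cfsg.GU n E q, ∀ u v, f (((y⁻¹ * g * y : GL (Fin n) E) : Matrix (Fin n) (Fin n) E) *ᵥ u)
      (((y⁻¹ * g * y : GL (Fin n) E) : Matrix (Fin n) (Fin n) E) *ᵥ v) = f u v := by
    intro g hg
    have hg' := (H49.Unitary.mem_GU hcE g).1 hg
    have key : H49.Unitary.ct hcE ((y⁻¹ * g * y : GL (Fin n) E) : Matrix (Fin n) (Fin n) E) * Herm.gram (fun u v => δ * f u v) *
        ((y⁻¹ * g * y : GL (Fin n) E) : Matrix (Fin n) (Fin n) E) = (1 : E) • Herm.gram (fun u v => δ * f u v) := by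
      rw [Units.val_mul, Units.val_mul, hyH, one_smul, H49.Unitary.ct_mul, H49.Unitary.ct_mul]
      have h3 : H49.Unitary.ct hcE ((y⁻¹ : GL (Fin n) E) : Matrix (Fin n) (Fin n) E) * H49.Unitary.ct hcE (y : Matrix (Fin n) (Fin n) E) = 1 := by
        rw [← H49.Unitary.ct_mul, ← Units.val_mul, mul_inv_cancel, Units.val_one, H49.Unitary.ct_one]
      have h4 : (y : Matrix (Fin n) (Fin n) E) * ((y⁻¹ : GL (Fin n) E) : Matrix (Fin n) (Fin n) E) = 1 := by
        rw [← Units.val_mul, mul_inv_cancel, Units.val_one]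
      calc _ = H49.Unitary.ct hcE (y : Matrix (Fin n) (Fin n) E) * (H49.Unitary.ct hcE (g : Matrix (Fin n) (Fin n) E) *
            (H49.Unitary.ct hcE ((y⁻¹ : GL (Fin n) E) : Matrix (Fin n) (Fin n) E) * H49.Unitary.ct hcE (y : Matrix (Fin n) (Fin n) E)) *
            ((y : Matrix (Fin n) (Fin n) E) * ((y⁻¹ : GL (Fin n) E) : Matrix (Fin n) (Fin n) E)) * (g : Matrix (Fin n) (Fin n) E)) *
            (y : Matrix (Fin n) (Fin n) E) := by simp only [Matrix.mul_assoc]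
        _ = H49.Unitary.ct hcE (y : Matrix (Fin n) (Fin n) E) * (H49.Unitary.ct hcE (g : Matrix (Fin n) (Fin n) E) * (g : Matrix (Fin n) (Fin n) E)) *
            (y : Matrix (Fin n) (Fin n) E) := by rw [h3, h4]; simp only [Matrix.mul_one, Matrix.mul_assoc]
        _ = _ := by rw [hg', Matrix.mul_one]
    intro u v
    have h5 := (Herm.sim_iff hcE hs _ _).2 key u v
    rw [one_mul] at h5
    exact mul_left_cancel₀ hδ0 h5
  let ψ : GL (Fin n) E →* GL (Fin n ⊕ Fin n) F := (emb Φ).comp (MulAut.conj y⁻¹ : GL (Fin n) E ≃* GL (Fin n) E).toMonoidHom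
  have hψ : Function.Injective ψ := (emb_injective Φ).comp (MulEquiv.injective _)
  have hψv : ∀ g, ψ g = emb Φ (y⁻¹ * g * y) := by
    intro g
    show emb Φ (y⁻¹ * g * y⁻¹⁻¹) = _
    rw [inv_inv]
  have hle : (Cfsg.GU n E q).map ψ ≤ Cfsg.Geo.subalgebraNormalizer K ⊓ Cfsg.spGL n F := by
    rintro _ ⟨g, hg, rfl⟩
    rw [hψv]
    refine Subgroup.mem_inf.2 ⟨mem_of_comm ρ hmem _ (emb_comm ρ Φ hΦ _), ?_⟩
    intro u v
    exact form_preserve Φ hf _ (hpres g hg) u v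
  have h7 := Subgroup.card_dvd_of_le hle
  have h8 : Nat.card ((Cfsg.GU n E q).map ψ) = Nat.card (Cfsg.GU n E q) := Nat.card_congr (Subgroup.equivMapOfInjective _ ψ hψ).symm.toEquiv
  rw [h8] at h7
  exact h7

/-- arithmetic of the index -/
theorem index {F : Type u} [Field F] [Fintype F] (h2 : (2 : F) ≠ 0) {d : ℕ} {E : Type u} [Field E] [Algebra F E]
    {ρ : E →ₐ[F] Matrix (Fin d ⊕ Fin d) (Fin d ⊕ Fin d) F} {δ : E} {c : F}
    {K : Subalgebra F (Matrix (Fin d ⊕ Fin d) (Fin d ⊕ Fin d) F)} (hmem : ∀ M, M ∈ K ↔ ∃ e, ρ e = M)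
    (hE : finrank F E = 2)
    (hspan : ∀ e : E, ∃ α β : F, e = algebraMap F E α + algebraMap F E β * δ) (hns : ¬ IsSquare c) (hδ : δ * δ = algebraMap F E c)
    (hskew : ∀ u v, sympB d F (ρ δ *ᵥ u) v = - sympB d F u (ρ δ *ᵥ v)) {r : ℕ} (hr : r.Prime) (hrq : ¬ r ∣ Fintype.card F)
    (hΩ : r ∣ (Cfsg.Geo.subalgebraNormalizer K).relIndex (Cfsg.spGL d F)) :
    ∃ j < d, (Even j ∧ r ∣ Fintype.card F ^ (j + 1) - 1) ∨ (Odd j ∧ r ∣ Fintype.card F ^ (j + 1) + 1) := by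
  classical
  obtain ⟨hcE, hdvd⟩ := card_gu_dvd h2 hmem hE hspan hns hδ hskew
  set q := Fintype.card F with hq
  have hfd : FiniteDimensional F E := Module.finite_of_finrank_pos (by omega)
  have hfin : Finite E := Module.finite_of_finite F
  have : Fintype E := Fintype.ofFinite E
  have hq1 : 1 < q := Fintype.one_lt_card
  rw [H7.UnitOrd.card_GU (by rw [← Nat.card_eq_fintype_card]; exact hcE)] at hdvd
  obtain ⟨t, ht⟩ := hdvd
  have h1 : (Cfsg.Geo.subalgebraNormalizer K).relIndex (Cfsg.spGL d F) *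
      Nat.card (Cfsg.Geo.subalgebraNormalizer K ⊓ Cfsg.spGL d F : Subgroup (GL (Fin d ⊕ Fin d) F)) = Nat.card (Cfsg.spGL d F) := by
    have h4 := Subgroup.card_mul_index ((Cfsg.Geo.subalgebraNormalizer K).subgroupOf (Cfsg.spGL d F))
    have h5 : Nat.card ((Cfsg.Geo.subalgebraNormalizer K).subgroupOf (Cfsg.spGL d F)) =
        Nat.card (Cfsg.Geo.subalgebraNormalizer K ⊓ Cfsg.spGL d F : Subgroup (GL (Fin d ⊕ Fin d) F)) := by
      rw [← Subgroup.inf_subgroupOf_right]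
      exact Nat.card_congr (Subgroup.subgroupOfEquivOfLe inf_le_right).toEquiv
    rw [h5] at h4
    rw [mul_comm]; exact h4
  rw [ht, card_sp, ← hq] at h1
  have hsplit : ∏ i ∈ Finset.range d, (q ^ (2 * (i + 1)) - 1) =
      (∏ i ∈ Finset.range d, (if Even i then q ^ (i + 1) + 1 else q ^ (i + 1) - 1)) *
        ∏ i ∈ Finset.range d, (if Even i then q ^ (i + 1) - 1 else q ^ (i + 1) + 1) := by
    rw [← Finset.prod_mul_distrib]
    refine Finset.prod_congr rfl fun i _ => ?_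
    have h3 : q ^ (2 * (i + 1)) - 1 = (q ^ (i + 1) + 1) * (q ^ (i + 1) - 1) := by
      have : q ^ (2 * (i + 1)) = q ^ (i + 1) * q ^ (i + 1) := by rw [← pow_add]; ring_nf
      rw [this]
      have h4 : 1 ≤ q ^ (i + 1) := Nat.one_le_pow _ _ (by omega)
      obtain ⟨m, hm⟩ : ∃ m, q ^ (i + 1) = m + 1 := ⟨_, (Nat.sub_add_cancel h4).symm⟩
      rw [hm]
      simp
      ring_nf
      omega
    split_ifs
    · exact h3
    · rw [h3, mul_comm]
  rw [hsplit] at h1
  have hpos : 0 < ∏ i ∈ Finset.range d, (if Even i then q ^ (i + 1) + 1 else q ^ (i + 1) - 1) := by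
    apply Finset.prod_pos
    intro i _
    have : q ≤ q ^ (i + 1) := Nat.le_self_pow (by omega) q
    split_ifs <;> omega
  have h2' : (Cfsg.Geo.subalgebraNormalizer K).relIndex (Cfsg.spGL d F) * (q ^ (d * (d - 1) / 2) * t) =
      q ^ (d ^ 2) * ∏ i ∈ Finset.range d, (if Even i then q ^ (i + 1) - 1 else q ^ (i + 1) + 1) := by
    apply Nat.eq_of_mul_eq_mul_left hpos
    linarith [h1]
  have h3 : r ∣ q ^ (d ^ 2) * ∏ i ∈ Finset.range d, (if Even i then q ^ (i + 1) - 1 else q ^ (i + 1) + 1) := by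
    rw [← h2']
    exact hΩ.mul_right _
  rcases hr.dvd_mul.1 h3 with h4 | h4
  · exact absurd (hr.dvd_of_dvd_pow h4) hrq
  · obtain ⟨j, hj, hj2⟩ := (hr.prime.dvd_finsetProd_iff _).1 h4
    refine ⟨j, Finset.mem_range.1 hj, ?_⟩
    by_cases he : Even j
    · rw [if_pos he] at hj2
      exact Or.inl ⟨he, hj2⟩
    · rw [if_neg he] at hj2
      exact Or.inr ⟨Nat.not_even_iff_odd.1 he, hj2⟩


theorem even_of_stable {V : Type*} [AddCommGroup V] [Module F V] [FiniteDimensional F V] {c : F} (hns : ¬ IsSquare c)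
    (Δ : V →ₗ[F] V) (hΔ : ∀ v, Δ (Δ v) = c • v) (Y : Submodule F V) (hY : ∀ v ∈ Y, Δ v ∈ Y) : Even (finrank F Y) := by
  by_contra h
  rw [Nat.not_even_iff_odd] at h
  obtain ⟨m, hm⟩ := h
  apply hns
  let D : Y →ₗ[F] Y := Δ.restrict hY
  have hDD : D ∘ₗ D = c • LinearMap.id := by
    apply LinearMap.ext
    intro v
    exact Subtype.ext (hΔ v)
  have h1 := congrArg LinearMap.det hDD
  rw [LinearMap.det_comp, LinearMap.det_smul, LinearMap.det_id, mul_one, hm] at h1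
  have hc0 : c ≠ 0 := by rintro rfl; exact hns ⟨0, by simp⟩
  refine ⟨LinearMap.det D / c ^ m, ?_⟩
  have : c ^ m ≠ 0 := pow_ne_zero _ hc0
  field_simp
  rw [← pow_two] at h1
  rw [h1]; ring

theorem top_nd {d : ℕ} : Iso.ND (sympB d F) ⊤ := fun x _ h => sympB_nd d x (fun y => h y trivial)

/-- the key contradiction -/
theorem neg_core {F : Type u} [Field F] [Fintype F] (h2 : (2 : F) ≠ 0) {d : ℕ} {c : F} (hns : ¬ IsSquare c)
    (Δ : (Fin d ⊕ Fin d → F) →ₗ[F] (Fin d ⊕ Fin d → F)) (hΔ : ∀ v, Δ (Δ v) = c • v)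
    (hΔq : ∀ v, (Δ ^ (Fintype.card F ^ 2)) v = Δ v)
    (hskew : ∀ u v, sympB d F (Δ u) v = - sympB d F u (Δ v)) {r : ℕ} (hr : r.Prime) (hr2 : r ≠ 2) (hrq : ¬ r ∣ Fintype.card F)
    (T : (Fin d ⊕ Fin d → F) →ₗ[F] (Fin d ⊕ Fin d → F)) (hB : ∀ u v, sympB d F (T u) (T v) = sympB d F u v)
    (hT : T ^ r = 1) (hT1 : T ≠ 1) (hcomm : ∀ v, Δ (T v) = T (Δ v))
    {i : ℕ} (hi : i = orderOf ((Fintype.card F : ℕ) : ZMod r)) (hi0 : 0 < i)
    (hcase : (Odd i ∧ finrank F (LinearMap.range (T - 1)) ≤ 2 * i) ∨ (4 ∣ i ∧ finrank F (LinearMap.range (T - 1)) ≤ i)) : False := by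
  have hA := sympB_alt (F := F) d
  have hN := sympB_nd (F := F) d
  have hRef : (sympB d F).IsRefl := hA.isRefl
  have hrF := Iso.natCast_ne_zero hr hrq
  set W := LinearMap.range (T - 1) with hW
  have hWT : ∀ v ∈ W, T v ∈ W := by
    rintro _ ⟨v, rfl⟩
    refine ⟨T v, ?_⟩
    show T (T v) - T v = T (T v - v)
    rw [map_sub]
  have hWΔ : ∀ v ∈ W, Δ v ∈ W := by
    rintro _ ⟨v, rfl⟩
    refine ⟨Δ v, ?_⟩
    show T (Δ v) - Δ v = Δ (T v - v)
    rw [map_sub, hcomm]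
  have hW0 : W ≠ ⊥ := by
    intro h
    apply hT1
    apply LinearMap.ext
    intro v
    have : (T - 1) v ∈ W := ⟨v, rfl⟩
    rw [h, Submodule.mem_bot] at this
    exact sub_eq_zero.1 this
  have hfpf : ∀ v ∈ W, T v = v → v = 0 := by
    intro v hv h
    exact Iso.mov_fpf hr hrq hT (X := ⊤) v ⟨trivial, hv⟩ h
  have hWn : Iso.ND (sympB d F) W := by
    have := (Iso.nd_mov hr hrq hRef hT hB (X := ⊤) (fun v _ => trivial) top_nd).1
    rwa [top_inf_eq] at this
  have hc0 : c ≠ 0 := by rintro rfl; exact hns ⟨0, by simp⟩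
  have hΔinj : Function.Injective Δ := by
    intro u v huv
    have : Δ (Δ u) = Δ (Δ v) := by rw [huv]
    rw [hΔ, hΔ] at this
    exact smul_right_injective _ hc0 this
  rcases hcase with ⟨hodd, hdim⟩ | ⟨h4, hdim⟩
  · obtain ⟨Y, hYW, hYT, hYi, hYpos, hmin⟩ := Adj.exists_irred_sub hr hrq hT hWT hfpf hW0
    rw [← hi] at hYi
    by_cases hYΔ : Y.map Δ = Y
    · have h5 := even_of_stable hns Δ hΔ Y (fun v hv => by
        rw [← hYΔ]; exact ⟨v, hv, rfl⟩)
      rw [hYi] at h5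
      exact (Nat.not_even_iff_odd.2 hodd) h5
    · have h5 := Adj.pair_nd hr hrq hRef (fun v => hA v) hN hB hT hodd hdim hcomm hΔinj hYW hYT hYi hmin hYΔ
      -- restrict to Y
      let TY : Y →ₗ[F] Y := T.restrict hYT
      let s : LinearMap.BilinForm F Y := ((sympB d F).compl₁₂ Y.subtype (Δ ∘ₗ Y.subtype))
      have hs : ∀ u v : Y, s u v = sympB d F u (Δ v) := fun u v => rfl
      have hTYr : TY ^ r = 1 := by
        have : ∀ (k : ℕ) (v : Y), (((TY ^ k) v : Y) : Fin d ⊕ Fin d → F) = (T ^ k) v := by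
          intro k
          induction k with
          | zero => intro v; rfl
          | succ k ih => intro v; rw [pow_succ', pow_succ', Module.End.mul_apply, Module.End.mul_apply, ← ih]; rfl
        apply LinearMap.ext
        intro v
        apply Subtype.ext
        rw [this, hT]; rfl
      obtain ⟨v, hv0, hv⟩ := Adj.exists_fix_of_odd h2 (hr.odd_of_ne_two hr2) hTYr (B := s) (by
        intro u v
        rw [hs, hs]
        show sympB d F (T u) (Δ (T v)) = _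
        rw [hcomm, hB]) (by
        intro u hu
        apply Subtype.ext
        exact h5 u u.2 (fun v hv => hu ⟨v, hv⟩)) (by rw [hYi]; exact hodd)
      apply hv0
      apply Subtype.ext
      exact hfpf v (hYW v.2) (congrArg Subtype.val hv)
  · have hie : Even i := (even_iff_two_dvd).2 ((by norm_num : (2 : ℕ) ∣ 4).trans h4)
    have h5 := Adj.adj_pow hr hr2 hrq hB hT hT1 hi hi0 hie hdim hcomm
    -- Δ ^ (q ^ (i / 2)) = Δ
    have hpow : ∀ m : ℕ, ∀ v, (Δ ^ (Fintype.card F ^ (2 * m))) v = Δ v := by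
      intro m
      induction m with
      | zero => intro v; simp
      | succ m ih =>
        intro v
        have e : Fintype.card F ^ (2 * (m + 1)) = Fintype.card F ^ (2 * m) * Fintype.card F ^ 2 := by rw [← pow_add]; ring_nf
        rw [e, pow_mul]
        have : (Δ ^ (Fintype.card F ^ (2 * m))) = Δ := LinearMap.ext ih
        rw [this, hΔq]
    obtain ⟨m, hm⟩ := h4
    have hm2 : i / 2 = 2 * m := by omega
    obtain ⟨w, hw, hw0⟩ := Submodule.exists_mem_ne_zero_of_ne_bot hW0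
    apply hw0
    apply hΔinj
    rw [map_zero]
    apply hWn _ (hWΔ w hw)
    intro y hy
    have h6 := h5 w hw y hy
    rw [hm2, hpow, hskew] at h6
    rw [hskew]
    have h7 : (2 : F) * sympB d F w (Δ y) = 0 := by linear_combination -h6
    rw [(mul_eq_zero.1 h7).resolve_left h2, neg_zero]

/-- from symplectic matrices to `spGL` -/
theorem exists_spGL {d : ℕ} (A : symplecticGroup (Fin d) F) : ∃ x ∈ Cfsg.spGL d F,
    (x : Matrix (Fin d ⊕ Fin d) (Fin d ⊕ Fin d) F) = A :=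
  ⟨Matrix.GeneralLinearGroup.mkOfDetNeZero _ (det_ne A), fun u v => H6.Symp.mem_iff_bf.1 A.2 u v, rfl⟩

theorem rank_conj_le {α : Type} [Fintype α] [DecidableEq α] (x g : GL α F) :
    finrank F (LinearMap.range (Matrix.toLin' ((g⁻¹ * x * g : GL α F) : Matrix α α F) - 1)) ≤
      finrank F (LinearMap.range (Matrix.toLin' (x : Matrix α α F) - 1)) := by
  have h1 : ∀ M : Matrix α α F, Matrix.toLin' M - 1 = Matrix.toLin' (M - 1) := by
    intro M
    rw [map_sub, Matrix.toLin'_one]; rfl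
  have h2 : ((g⁻¹ * x * g : GL α F) : Matrix α α F) - 1 = ((g⁻¹ : GL α F) : Matrix α α F) * ((x : Matrix α α F) - 1) * (g : Matrix α α F) := by
    rw [Matrix.mul_sub, Matrix.mul_one, Matrix.sub_mul, ← Units.val_mul, ← Units.val_mul, ← Units.val_mul, inv_mul_cancel, Units.val_one]
  rw [h1, h1, h2]
  have h3 := Matrix.rank_mul_le_left (((g⁻¹ : GL α F) : Matrix α α F) * ((x : Matrix α α F) - 1)) (g : Matrix α α F)
  have h4 := Matrix.rank_mul_le_right ((g⁻¹ : GL α F) : Matrix α α F) ((x : Matrix α α F) - 1)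
  exact h3.trans h4

theorem not_scalar {d : ℕ} (hd : 0 < d) {r : ℕ} (hr : Odd r) (x : GL (Fin d ⊕ Fin d) F) (hx : x ∈ Cfsg.spGL d F) (hxr : x ^ r = 1) (hx1 : x ≠ 1)
    (z : F) : (x : Matrix (Fin d ⊕ Fin d) (Fin d ⊕ Fin d) F) ≠ z • (1 : Matrix (Fin d ⊕ Fin d) (Fin d ⊕ Fin d) F) := by
  intro hz
  have : Nonempty (Fin d ⊕ Fin d) := ⟨.inl ⟨0, hd⟩⟩
  obtain ⟨a, ha⟩ := exists_ne (0 : Fin d ⊕ Fin d → F)
  obtain ⟨w, hw⟩ : ∃ w, sympB d F a w ≠ 0 := by
    by_contra h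
    push Not at h
    exact ha (sympB_nd d _ h)
  have h1 := SpInv.gl_isom hx a w
  have hv : ∀ v, Matrix.toLin' (x : Matrix (Fin d ⊕ Fin d) (Fin d ⊕ Fin d) F) v = z • v := by
    intro v
    rw [Matrix.toLin'_apply, hz, Matrix.smul_mulVec, Matrix.one_mulVec]
  rw [hv, hv, map_smul, map_smul, LinearMap.smul_apply, smul_eq_mul, smul_eq_mul] at h1
  have hz2 : z ^ 2 = 1 := by
    apply mul_right_cancel₀ hw
    linear_combination h1
  have hzr : z ^ r = 1 := by
    have h3 : (x : Matrix (Fin d ⊕ Fin d) (Fin d ⊕ Fin d) F) ^ r = 1 := congrArg Units.val hxr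
    rw [hz, _root_.smul_pow, one_pow] at h3
    have i0 : Fin d ⊕ Fin d := .inl ⟨0, hd⟩
    have h4 := congrFun (congrFun h3 i0) i0
    simpa using h4
  have h5 : z ^ (Nat.gcd 2 r) = 1 := pow_gcd_eq_one.2 ⟨hz2, hzr⟩
  have h6 : Nat.gcd 2 r = 1 := (Nat.coprime_two_left).2 hr
  rw [h6, pow_one] at h5
  apply hx1
  apply Units.ext
  rw [hz, h5, one_smul]; rfl

end H99.Skew
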