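import Mathlib
import Cfsg.Agent.Lib.H25.SL2Card
import Cfsg.Agent.Lib.H99.Skew

set_option autoImplicit false
set_option linter.unusedSimpArgs false
set_option linter.unusedSectionVars false
set_option linter.unusedVariables false

/-! Elements of order three and five in `SL_2` and their block embeddings. -/

namespace H99.BlockW

open Matrix Module

variable {F : Type*} [Field F]

theorem cayley {w : Matrix (Fin 2) (Fin 2) F} (hdet : w.det = 1) : w * w = w.trace • w - 1 := by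
  rw [Matrix.det_fin_two] at hdet
  ext i j
  fin_cases i <;> fin_cases j <;>
    simp [Matrix.mul_apply, Fin.sum_univ_two, Matrix.trace_fin_two, Matrix.sub_apply, Matrix.smul_apply] <;>
      first | linear_combination -hdet | ring

theorem not_scalar {w : Matrix (Fin 2) (Fin 2) F} (hdet : w.det = 1) {r : ℕ} (hr : Odd r) (hw : w ^ r = 1) (h1 : w ≠ 1) (c : F) :
    w ≠ c • 1 := by
  intro h
  apply h1
  have h2 : c ^ 2 = 1 := by
    rw [h, Matrix.det_smul, Fintype.card_fin, Matrix.det_one, mul_one] at hdet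
    exact hdet
  have h3 : c ^ r = 1 := by
    rw [h, _root_.smul_pow, one_pow] at hw
    have := congrFun (congrFun hw 0) 0
    simpa using this
  have h4 : c = 1 := by
    obtain ⟨k, hk⟩ := hr
    rw [hk, pow_succ, pow_mul, h2, one_pow, one_mul] at h3
    exact h3
  rw [h, h4, one_smul]

theorem coef {w : Matrix (Fin 2) (Fin 2) F} (hns : ∀ c : F, w ≠ c • 1) {α β : F} (h : α • w = β • 1) : α = 0 ∧ β = 0 := by
  have hα : α = 0 := by
    by_contra hα
    apply hns (α⁻¹ * β)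
    rw [← smul_smul, ← h, smul_smul, inv_mul_cancel₀ hα, one_smul]
  refine ⟨hα, ?_⟩
  rw [hα, zero_smul] at h
  have := congrFun (congrFun h 0) 0
  simpa using this.symm

theorem tr_three {w : Matrix (Fin 2) (Fin 2) F} (hdet : w.det = 1) (hw : w ^ 3 = 1) (h1 : w ≠ 1) : w.trace = -1 := by
  have hc := cayley hdet
  have h3 : w ^ 3 = (w.trace ^ 2 - 1) • w - w.trace • 1 := by
    rw [pow_succ, pow_two, hc, sub_mul, Matrix.smul_mul, hc, one_mul, smul_sub, smul_smul, sub_smul, one_smul]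
    rw [pow_two]; abel
  rw [hw] at h3
  have h4 : (w.trace ^ 2 - 1) • w = (1 + w.trace) • (1 : Matrix (Fin 2) (Fin 2) F) := by
    rw [add_smul, one_smul]; exact (sub_eq_iff_eq_add.1 h3.symm)
  obtain ⟨-, h5⟩ := coef (not_scalar hdet (by decide) hw h1) h4
  linear_combination h5

theorem tr_five {w : Matrix (Fin 2) (Fin 2) F} (hdet : w.det = 1) (hw : w ^ 5 = 1) (h1 : w ≠ 1) : w.trace ^ 2 + w.trace - 1 = 0 := by
  have hc := cayley hdet
  have h2 : w ^ 2 = w.trace • w - 1 := by rw [pow_two, hc]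
  have h3 : w ^ 3 = (w.trace ^ 2 - 1) • w - w.trace • 1 := by
    rw [pow_succ, pow_two, hc, sub_mul, Matrix.smul_mul, hc, one_mul, smul_sub, smul_smul, sub_smul, one_smul]
    rw [pow_two]; abel
  have h5 : w ^ 5 = (w.trace ^ 4 - 3 * w.trace ^ 2 + 1) • w - (w.trace ^ 3 - 2 * w.trace) • 1 := by
    have : w ^ 5 = w ^ 3 * w ^ 2 := by rw [← pow_add]
    rw [this, h3, h2, sub_mul, Matrix.smul_mul, mul_sub, Matrix.mul_smul, hc, mul_one, Matrix.smul_mul, one_mul]
    module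
  rw [hw] at h5
  have h4 : (w.trace ^ 4 - 3 * w.trace ^ 2 + 1) • w = (1 + (w.trace ^ 3 - 2 * w.trace)) • (1 : Matrix (Fin 2) (Fin 2) F) := by
    rw [add_smul (1 : F) (w.trace ^ 3 - 2 * w.trace), one_smul]; exact (sub_eq_iff_eq_add.1 h5.symm)
  obtain ⟨h6, h7⟩ := coef (not_scalar hdet (by decide) hw h1) h4
  linear_combination w.trace * h7 - h6


theorem tr_adj {w : Matrix (Fin 2) (Fin 2) F} : (adjugate w).trace = w.trace := by
  rw [Matrix.adjugate_fin_two]
  simp [Matrix.trace_fin_two, add_comm]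

theorem exists_w [Fintype F] {r : ℕ} (hr : r.Prime) (hrq : ¬ r ∣ Fintype.card F) (hdvd : r ∣ Fintype.card F ^ 2 - 1) :
    ∃ w : Matrix.SpecialLinearGroup (Fin 2) F, w ^ r = 1 ∧ w ≠ 1 := by
  classical
  haveI : Fact r.Prime := ⟨hr⟩
  have hcard : r ∣ Nat.card (Matrix.SpecialLinearGroup (Fin 2) F) := by
    rw [H25.SL2Card.card_SL2]
    exact hdvd.mul_left _
  obtain ⟨w, hw⟩ := exists_prime_orderOf_dvd_card' r hcard
  refine ⟨w, ?_, ?_⟩
  · rw [← hw]; exact pow_orderOf_eq_one w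
  · rintro rfl
    rw [orderOf_one] at hw
    exact hr.one_lt.ne hw

/-- the block embedding into the symplectic group -/
def emb (w : Matrix (Fin 2) (Fin 2) F) : Matrix (Fin 2 ⊕ Fin 2) (Fin 2 ⊕ Fin 2) F :=
  Matrix.fromBlocks (Matrix.diagonal ![w 0 0, 1]) (Matrix.diagonal ![w 0 1, 0]) (Matrix.diagonal ![w 1 0, 0]) (Matrix.diagonal ![w 1 1, 1])

theorem emb_one : emb (1 : Matrix (Fin 2) (Fin 2) F) = 1 := by
  ext i j
  rcases i with i | i <;> rcases j with j | j <;> fin_cases i <;> fin_cases j <;> simp [emb, Matrix.one_apply]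

theorem emb_mul (w v : Matrix (Fin 2) (Fin 2) F) : emb (w * v) = emb w * emb v := by
  unfold emb
  rw [Matrix.fromBlocks_multiply]
  simp only [Matrix.diagonal_mul_diagonal, Matrix.diagonal_add]
  congr 1 <;> congr 1 <;> ext i <;> fin_cases i <;> simp [Matrix.mul_apply, Fin.sum_univ_two]

theorem emb_trace (w : Matrix (Fin 2) (Fin 2) F) : (emb w).trace = w.trace + 2 := by
  simp [emb, Matrix.trace, Matrix.diag, Fin.sum_univ_two]
  ring

theorem emb_inj {w v : Matrix (Fin 2) (Fin 2) F} (h : emb w = emb v) : w = v := by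
  ext i j
  fin_cases i <;> fin_cases j
  · have := congrFun (congrFun h (.inl 0)) (.inl 0)
    simpa [emb] using this
  · have := congrFun (congrFun h (.inl 0)) (.inr 0)
    simpa [emb] using this
  · have := congrFun (congrFun h (.inr 0)) (.inl 0)
    simpa [emb] using this
  · have := congrFun (congrFun h (.inr 0)) (.inr 0)
    simpa [emb] using this

theorem emb_symp {w : Matrix (Fin 2) (Fin 2) F} (hdet : w.det = 1) : emb w ∈ Matrix.symplecticGroup (Fin 2) F := by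
  rw [Matrix.det_fin_two] at hdet
  rw [SymplecticGroup.mem_iff]
  unfold emb
  rw [Matrix.J, Matrix.fromBlocks_transpose, Matrix.fromBlocks_multiply, Matrix.fromBlocks_multiply]
  simp only [Matrix.diagonal_transpose, Matrix.mul_zero, Matrix.mul_one, Matrix.mul_neg, zero_add, add_zero, Matrix.neg_mul, Matrix.diagonal_mul_diagonal]
  congr 1
  · ext i j
    fin_cases i <;> fin_cases j <;> simp <;> ring
  · ext i j
    fin_cases i <;> fin_cases j <;> simp
    linear_combination -hdet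
  · ext i j
    fin_cases i <;> fin_cases j <;> simp
    linear_combination hdet
  · ext i j
    fin_cases i <;> fin_cases j <;> simp <;> ring

/-- the element of `spGL 2` -/
theorem exists_block {r : ℕ} {w : Matrix.SpecialLinearGroup (Fin 2) F} (hw : w ^ r = 1) (hw1 : w ≠ 1) :
    ∃ x ∈ Cfsg.spGL 2 F, x ^ r = 1 ∧ x ≠ 1 ∧ (x : Matrix (Fin 2 ⊕ Fin 2) (Fin 2 ⊕ Fin 2) F).trace = (w : Matrix (Fin 2) (Fin 2) F).trace + 2 ∧
      ((x⁻¹ : GL (Fin 2 ⊕ Fin 2) F) : Matrix (Fin 2 ⊕ Fin 2) (Fin 2 ⊕ Fin 2) F).trace = (w : Matrix (Fin 2) (Fin 2) F).trace + 2 := by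
  obtain ⟨x, hx, hxw⟩ := Skew.exists_spGL ⟨emb (w : Matrix (Fin 2) (Fin 2) F), emb_symp w.2⟩
  have hxw' : (x : Matrix (Fin 2 ⊕ Fin 2) (Fin 2 ⊕ Fin 2) F) = emb (w : Matrix (Fin 2) (Fin 2) F) := hxw
  have hpow : ∀ k : ℕ, (x : Matrix (Fin 2 ⊕ Fin 2) (Fin 2 ⊕ Fin 2) F) ^ k = emb ((w ^ k : Matrix.SpecialLinearGroup (Fin 2) F) : Matrix (Fin 2) (Fin 2) F) := by
    intro k
    induction k with
    | zero => rw [pow_zero, pow_zero, Matrix.SpecialLinearGroup.coe_one, emb_one]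
    | succ k ih => rw [pow_succ, ih, hxw', ← emb_mul, pow_succ, Matrix.SpecialLinearGroup.coe_mul]
  have hinv : ((x⁻¹ : GL (Fin 2 ⊕ Fin 2) F) : Matrix (Fin 2 ⊕ Fin 2) (Fin 2 ⊕ Fin 2) F) = emb ((w⁻¹ : Matrix.SpecialLinearGroup (Fin 2) F) : Matrix (Fin 2) (Fin 2) F) := by
    have h1 : (x : Matrix (Fin 2 ⊕ Fin 2) (Fin 2 ⊕ Fin 2) F) * emb ((w⁻¹ : Matrix.SpecialLinearGroup (Fin 2) F) : Matrix (Fin 2) (Fin 2) F) = 1 := by
      rw [hxw', ← emb_mul, ← Matrix.SpecialLinearGroup.coe_mul, mul_inv_cancel, Matrix.SpecialLinearGroup.coe_one, emb_one]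
    calc _ = ((x⁻¹ : GL (Fin 2 ⊕ Fin 2) F) : Matrix (Fin 2 ⊕ Fin 2) (Fin 2 ⊕ Fin 2) F) * ((x : Matrix (Fin 2 ⊕ Fin 2) (Fin 2 ⊕ Fin 2) F) *
          emb ((w⁻¹ : Matrix.SpecialLinearGroup (Fin 2) F) : Matrix (Fin 2) (Fin 2) F)) := by rw [h1, mul_one]
      _ = _ := by rw [← mul_assoc, ← Units.val_mul, inv_mul_cancel, Units.val_one, one_mul]
  refine ⟨x, hx, ?_, ?_, ?_, ?_⟩
  · apply Units.ext
    rw [Units.val_pow_eq_pow_val, hpow, hw, Matrix.SpecialLinearGroup.coe_one, emb_one, Units.val_one]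
  · rintro rfl
    apply hw1
    apply Subtype.ext
    apply emb_inj
    rw [← hxw']
    exact emb_one.symm
  · rw [hxw', emb_trace]
  · rw [hinv, emb_trace, Matrix.SpecialLinearGroup.coe_inv, tr_adj]

end H99.BlockW
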