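import Cfsg.Agent.Lib.H99.Cyclic

set_option autoImplicit false
set_option linter.unusedSimpArgs false

/-! Conjugacy from cyclic decompositions; determinants on the centralizer. -/

namespace H99.Cyclic

open Module Polynomial

universe u v

variable {F : Type u} [Field F]

namespace Data

/-- change the indexing -/
noncomputable def reindex {V : Type v} [AddCommGroup V] [Module F V] {T : V →ₗ[F] V} {m m' : ℕ} {f : Fin m → F[X]}
    (D : Data T f) (e : Fin m' ≃ Fin m) : Data T (fun i => f (e i)) where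
  v i := D.v (e i)
  b := D.b.reindex (Equiv.sigmaCongrLeft (β := fun i => Fin (f i).natDegree) e).symm
  monic i := D.monic _
  pos i := D.pos _
  b_eq i j := by
    rw [Basis.reindex_apply, Equiv.symm_symm]
    exact D.b_eq _ _
  ann i := D.ann _

theorem conj_same {V V' : Type v} [AddCommGroup V] [Module F V] [AddCommGroup V'] [Module F V'] {T : V →ₗ[F] V}
    {T' : V' →ₗ[F] V'} {m : ℕ} {f : Fin m → F[X]} (D : Data T f) (D' : Data T' f) :
    ∃ P : V ≃ₗ[F] V', ∀ v, P (T v) = T' (P v) := by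
  let P := D.b.equiv D'.b (Equiv.refl _)
  have hP : ∀ x, P (D.b x) = D'.b x := fun x => Basis.equiv_apply _ _ _ _
  refine ⟨P, ?_⟩
  have : P.toLinearMap ∘ₗ T = T' ∘ₗ P.toLinearMap := by
    apply D.b.ext
    rintro ⟨i, j⟩
    rw [LinearMap.comp_apply, LinearMap.comp_apply]
    show P (T _) = T' (P _)
    rw [hP, D.apply_b, D'.apply_b]
    split_ifs with h
    · rw [hP]
    · rw [map_neg, map_sum]
      congr 1
      refine Finset.sum_congr rfl fun k _ => ?_
      rw [map_smul, hP]
  exact fun v => LinearMap.congr_fun this v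

theorem conj {V V' : Type v} [AddCommGroup V] [Module F V] [AddCommGroup V'] [Module F V'] {T : V →ₗ[F] V}
    {T' : V' →ₗ[F] V'} {m m' : ℕ} {f : Fin m → F[X]} {f' : Fin m' → F[X]} (D : Data T f) (D' : Data T' f')
    (e : Fin m ≃ Fin m') (he : ∀ i, f' (e i) = f i) :
    ∃ P : V ≃ₗ[F] V', ∀ v, P (T v) = T' (P v) := by
  have h : (fun i => f' (e i)) = f := funext he
  have D'' := D'.reindex e
  rw [h] at D''
  exact conj_same D D''

theorem exists_equiv {α : Type*} [DecidableEq α] {m m' : ℕ} {f : Fin m → α} {f' : Fin m' → α}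
    (h : ∀ g, Fintype.card {i // f i = g} = Fintype.card {i // f' i = g}) :
    ∃ e : Fin m ≃ Fin m', ∀ i, f' (e i) = f i := by
  let E : ∀ g, {i // f i = g} ≃ {i // f' i = g} := fun g => Fintype.equivOfCardEq (h g)
  refine ⟨(Equiv.sigmaFiberEquiv f).symm.trans ((Equiv.sigmaCongrRight E).trans (Equiv.sigmaFiberEquiv f')), ?_⟩
  intro i
  exact ((E (f i)) ⟨i, rfl⟩).2

theorem exists_comm_det {V : Type v} [AddCommGroup V] [Module F V] {T : V →ₗ[F] V} {m : ℕ} {f : Fin m → F[X]}
    (D : Data T f) (i0 : Fin m) (d : F) :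
    ∃ c : V →ₗ[F] V, (∀ v, c (T v) = T (c v)) ∧ LinearMap.det c = d ^ (f i0).natDegree := by
  classical
  set C : Matrix (Σ i : Fin m, Fin (f i).natDegree) (Σ i : Fin m, Fin (f i).natDegree) F :=
    Matrix.diagonal (fun x => if x.1 = i0 then d else 1) with hC
  have hCdet : C.det = d ^ (f i0).natDegree := by
    rw [hC, Matrix.det_diagonal, Fintype.prod_sigma, Finset.prod_eq_single i0]
    · simp
    · intro i _ hi
      refine Finset.prod_eq_one fun j _ => ?_
      rw [if_neg hi]
    · intro h; exact absurd (Finset.mem_univ _) h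
  have hCJ : LinearMap.toMatrix D.b D.b T * C = C * LinearMap.toMatrix D.b D.b T := by
    rw [D.toMatrix_eq]
    ext x y
    rw [hC, Matrix.mul_diagonal, Matrix.diagonal_mul]
    obtain ⟨i, a⟩ := x
    obtain ⟨i', b⟩ := y
    rw [Matrix.blockDiagonal'_apply]
    split_ifs with h1 h2 h3 h3
    · ring
    · exact absurd (h1.trans h2) h3
    · exact absurd (h1.symm.trans h3) h2
    · ring
    · ring
    · ring
    · ring
    · ring
  refine ⟨Matrix.toLin D.b D.b C, ?_, ?_⟩
  · have h1 : Matrix.toLin D.b D.b C ∘ₗ T = T ∘ₗ Matrix.toLin D.b D.b C := by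
      apply (LinearMap.toMatrix D.b D.b).injective
      rw [LinearMap.toMatrix_comp D.b D.b D.b, LinearMap.toMatrix_comp D.b D.b D.b, LinearMap.toMatrix_toLin, hCJ]
    exact fun v => LinearMap.congr_fun h1 v
  · rw [LinearMap.det_toLin, hCdet]

end Data

/-- matrix form of the conjugacy criterion -/
theorem conj_matrix {n m m' : ℕ} {x y : Matrix (Fin n) (Fin n) F} {f : Fin m → F[X]} {f' : Fin m' → F[X]}
    (D : Data (Matrix.toLin' x) f) (D' : Data (Matrix.toLin' y) f')
    (e : Fin m ≃ Fin m') (he : ∀ i, f' (e i) = f i) :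
    ∃ R : Matrix (Fin n) (Fin n) F, R.det ≠ 0 ∧ x * R = R * y := by
  obtain ⟨P, hP⟩ := D'.conj D e.symm (fun i => by rw [← he, Equiv.apply_symm_apply])
  refine ⟨LinearMap.toMatrix' P.toLinearMap, ?_, ?_⟩
  · rw [LinearMap.det_toMatrix']
    exact (LinearEquiv.isUnit_det' P).ne_zero
  · apply Matrix.toLin'.injective
    rw [Matrix.toLin'_mul, Matrix.toLin'_mul, Matrix.toLin'_toMatrix']
    apply LinearMap.ext
    intro v
    exact (hP v).symm

/-- conjugacy by a matrix of determinant one -/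
theorem conj_det_one {n m m' : ℕ} {x y : Matrix (Fin n) (Fin n) F} {f : Fin m → F[X]} {f' : Fin m' → F[X]}
    (D : Data (Matrix.toLin' x) f) (D' : Data (Matrix.toLin' y) f')
    (e : Fin m ≃ Fin m') (he : ∀ i, f' (e i) = f i) (i0 : Fin m) (hi0 : (f i0).natDegree = 1) :
    ∃ R : Matrix (Fin n) (Fin n) F, R.det = 1 ∧ x * R = R * y := by
  obtain ⟨R, hR, hxR⟩ := conj_matrix D D' e he
  obtain ⟨c, hc, hcd⟩ := D.exists_comm_det i0 (R.det)⁻¹
  rw [hi0, pow_one] at hcd
  refine ⟨LinearMap.toMatrix' c * R, ?_, ?_⟩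
  · rw [Matrix.det_mul, LinearMap.det_toMatrix', hcd, inv_mul_cancel₀ hR]
  · have h1 : LinearMap.toMatrix' c * x = x * LinearMap.toMatrix' c := by
      apply Matrix.toLin'.injective
      rw [Matrix.toLin'_mul, Matrix.toLin'_mul, Matrix.toLin'_toMatrix']
      exact LinearMap.ext hc
    rw [← Matrix.mul_assoc, ← h1, Matrix.mul_assoc, hxR, Matrix.mul_assoc]

end H99.Cyclic
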