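import Mathlib
import Cfsg.Agent.Lib.H99.SqScalar

set_option autoImplicit false
set_option linter.unusedSimpArgs false

/-! Matrices with square `μ²`, odd characteristic: diagonal form. -/

namespace H99.Diag

open Module Submodule

variable {F : Type*} [Field F]

theorem isCompl_ker {V : Type*} [AddCommGroup V] [Module F V] (h2 : (2 : F) ≠ 0) (T : V →ₗ[F] V) (μ : F)
    (hμ : μ ≠ 0) (hT : ∀ v, T (T v) = (μ * μ) • v) :
    IsCompl (LinearMap.ker (T + μ • LinearMap.id)) (LinearMap.ker (T - μ • LinearMap.id)) := by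
  rw [isCompl_iff]
  constructor
  · rw [Submodule.disjoint_def]
    intro x hx hx'
    rw [LinearMap.mem_ker, LinearMap.add_apply, LinearMap.smul_apply, LinearMap.id_apply] at hx
    rw [LinearMap.mem_ker, LinearMap.sub_apply, LinearMap.smul_apply, LinearMap.id_apply] at hx'
    have h3 : (2 * μ) • x = 0 := by
      have : (T x + μ • x) - (T x - μ • x) = (2 * μ) • x := by module
      rw [← this, hx, hx', sub_zero]
    rcases smul_eq_zero.1 h3 with h | h
    · exact absurd h (mul_ne_zero h2 hμ)
    · exact h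
  · rw [codisjoint_iff, eq_top_iff]
    intro v _
    rw [Submodule.mem_sup]
    refine ⟨(2 * μ)⁻¹ • (μ • v - T v), ?_, (2 * μ)⁻¹ • (μ • v + T v), ?_, ?_⟩
    · rw [LinearMap.mem_ker, LinearMap.add_apply, LinearMap.smul_apply, LinearMap.id_apply]
      simp only [map_smul, map_sub, hT]; module
    · rw [LinearMap.mem_ker, LinearMap.sub_apply, LinearMap.smul_apply, LinearMap.id_apply]
      simp only [map_smul, map_add, hT]; module
    · rw [← smul_add]
      have : μ • v - T v + (μ • v + T v) = (2 * μ) • v := by module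
      rw [this, smul_smul, inv_mul_cancel₀ (mul_ne_zero h2 hμ), one_smul]

/-- the diagonal matrix with `k` entries `-μ` and `m` entries `μ` -/
def dg (k m : ℕ) (μ : F) : Matrix (Fin k ⊕ Fin m) (Fin k ⊕ Fin m) F :=
  Matrix.diagonal (Sum.elim (fun _ => -μ) (fun _ => μ))

theorem det_dg (k m : ℕ) (μ : F) : (dg k m μ).det = (-1) ^ k * μ ^ (k + m) := by
  rw [dg, Matrix.det_diagonal]
  simp
  rw [neg_pow, pow_add]; ring

theorem exists_diag_matrix {α : Type} [Fintype α] [DecidableEq α] (h2 : (2 : F) ≠ 0) (x : Matrix α α F) (μ : F)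
    (hμ : μ ≠ 0) (hx : x * x = (μ * μ) • (1 : Matrix α α F)) :
    ∃ k m : ℕ, k + m = Fintype.card α ∧ (k = 0 → x = μ • (1 : Matrix α α F)) ∧
      (m = 0 → x = (-μ) • (1 : Matrix α α F)) ∧ x.det = (-1) ^ k * μ ^ (k + m) ∧
      ∀ e : (Fin k ⊕ Fin m) ≃ α, ∃ P : Matrix α α F, P.det ≠ 0 ∧
        x * P = P * Matrix.reindex e e (dg k m μ) := by
  have hT : ∀ v, Matrix.toLin' x (Matrix.toLin' x v) = (μ * μ) • v := by
    intro v
    rw [← LinearMap.comp_apply, ← Matrix.toLin'_mul, hx]; simp
  set T := Matrix.toLin' x with hTdef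
  have hc := isCompl_ker h2 T μ hμ hT
  set E1 := LinearMap.ker (T + μ • LinearMap.id) with hE1
  set E2 := LinearMap.ker (T - μ • LinearMap.id) with hE2
  let b1 := finBasis F E1
  let b2 := finBasis F E2
  let b := (b1.prod b2).map (Submodule.prodEquivOfIsCompl _ _ hc)
  have hb1 : ∀ i, b (.inl i) = (b1 i : α → F) := by intro i; simp [b]
  have hb2 : ∀ i, b (.inr i) = (b2 i : α → F) := by intro i; simp [b]
  have hm1 : ∀ v ∈ E1, T v = (-μ) • v := by
    intro v hv
    rw [hE1, LinearMap.mem_ker, LinearMap.add_apply, LinearMap.smul_apply, LinearMap.id_apply] at hv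
    rw [neg_smul]; exact eq_neg_of_add_eq_zero_left hv
  have hm2 : ∀ v ∈ E2, T v = μ • v := by
    intro v hv
    rw [hE2, LinearMap.mem_ker, LinearMap.sub_apply, LinearMap.smul_apply, LinearMap.id_apply] at hv
    exact sub_eq_zero.1 hv
  have hTb1 : ∀ i, T (b (.inl i)) = (-μ) • b (.inl i) := by
    intro i
    rw [hb1]
    exact hm1 _ (b1 i).2
  have hTb2 : ∀ i, T (b (.inr i)) = μ • b (.inr i) := by
    intro i
    rw [hb2]
    exact hm2 _ (b2 i).2
  have hM : LinearMap.toMatrix b b T = dg _ _ μ := by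
    ext i j
    rw [LinearMap.toMatrix_apply, dg, Matrix.diagonal_apply]
    rcases j with j | j
    · rw [hTb1, map_smul, Basis.repr_self, Finsupp.smul_apply, Finsupp.single_apply]
      by_cases h : i = .inl j
      · rw [h]; simp
      · rw [if_neg h, if_neg (Ne.symm h)]; simp
    · rw [hTb2, map_smul, Basis.repr_self, Finsupp.smul_apply, Finsupp.single_apply]
      by_cases h : i = .inr j
      · rw [h]; simp
      · rw [if_neg h, if_neg (Ne.symm h)]; simp
  refine ⟨finrank F E1, finrank F E2, ?_, ?_, ?_, ?_, ?_⟩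
  · rw [Submodule.finrank_add_eq_of_isCompl hc, Module.finrank_fintype_fun_eq_card]
  · intro h
    have h3 : E1 = ⊥ := Submodule.finrank_eq_zero.1 h
    have h4 : E2 = ⊤ := by rw [h3] at hc; exact eq_top_of_bot_isCompl hc
    apply Matrix.toLin'.injective
    apply LinearMap.ext
    intro v
    have : v ∈ E2 := by rw [h4]; trivial
    rw [hE2, LinearMap.mem_ker, LinearMap.sub_apply, LinearMap.smul_apply, LinearMap.id_apply] at this
    rw [← hTdef, sub_eq_zero.1 this]; simp
  · intro h
    have h3 : E2 = ⊥ := Submodule.finrank_eq_zero.1 h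
    have h4 : E1 = ⊤ := by rw [h3] at hc; exact eq_top_of_isCompl_bot hc
    apply Matrix.toLin'.injective
    apply LinearMap.ext
    intro v
    have : v ∈ E1 := by rw [h4]; trivial
    rw [hE1, LinearMap.mem_ker, LinearMap.add_apply, LinearMap.smul_apply, LinearMap.id_apply] at this
    rw [← hTdef, eq_neg_of_add_eq_zero_left this]; simp
  · rw [← LinearMap.det_toLin', ← LinearMap.det_toMatrix b, hM, det_dg]
  · intro e
    let b' := b.reindex e
    let P := (Pi.basisFun F α).toMatrix b'
    refine ⟨P, ?_, ?_⟩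
    · have h5 : P * b'.toMatrix (Pi.basisFun F α) = 1 := Basis.toMatrix_mul_toMatrix_flip _ _
      intro h
      have := congrArg Matrix.det h5
      rw [Matrix.det_mul, h, zero_mul, Matrix.det_one] at this
      exact zero_ne_one this
    · have h6 : LinearMap.toMatrix b' b' T = Matrix.reindex e e (dg (finrank F E1) (finrank F E2) μ) := by
        rw [← hM]
        ext i j
        simp [b', LinearMap.toMatrix_apply]
      rw [← h6]
      have h7 := linearMap_toMatrix_mul_basis_toMatrix b' (Pi.basisFun F α) (Pi.basisFun F α) T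
      have h8 := basis_toMatrix_mul_linearMap_toMatrix b' (Pi.basisFun F α) b' T
      have h9 : LinearMap.toMatrix (Pi.basisFun F α) (Pi.basisFun F α) T = x := by
        rw [hTdef, ← Matrix.toLin_eq_toLin', LinearMap.toMatrix_toLin]
      rw [h9] at h7
      show x * P = P * _
      rw [h7, h8]

end H99.Diag
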