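import Mathlib
import Cfsg.Agent.Lib.H99.Cyclic
import Cfsg.Agent.Lib.H99.Elts

set_option autoImplicit false
set_option linter.unusedSimpArgs false
set_option linter.unusedSectionVars false

/-! Eigenbases of elements of order `r` when the field contains the `r`-th roots of unity. -/

namespace H99.Eig

open Matrix Polynomial

variable {F : Type*} [Field F]

theorem exists_eig {r n : ℕ} (hr0 : 0 < r) {ω : F} (hω : IsPrimitiveRoot ω r) (hr : ((r : ℕ) : F) ≠ 0)
    {V : Type*} [AddCommGroup V] [Module F V] [FiniteDimensional F V] (hV : Module.finrank F V = n) (T : V →ₗ[F] V)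
    (hT : T ^ r = 1) : ∃ (b : Module.Basis (Fin n) F V) (l : Fin n → Fin r), ∀ i, T (b i) = (ω ^ (l i : ℕ)) • b i := by
  classical
  obtain ⟨m, f, D, hf⟩ := H99.Cyclic.exists_cyclic_basis T
  have hfi : ∀ i, ∃ j : Fin r, f i = Polynomial.X - C (ω ^ (j : ℕ)) := by
    intro i
    obtain ⟨p, e, hp, hpm, he, hpe⟩ := hf i
    have hdvd : f i ∣ Polynomial.X ^ r - 1 := by
      apply D.dvd_of_aeval
      rw [map_sub, map_pow, aeval_X, map_one, hT, sub_self]
    have he1 : e = 1 := by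
      by_contra hne1
      have h2 : 2 ≤ e := by omega
      have h3' : p * p ∣ Polynomial.X ^ r - 1 := by
        rw [← pow_two]
        exact (pow_dvd_pow p h2).trans (hpe ▸ hdvd)
      exact hp.not_isUnit (H99.Blk.squarefree_X_pow r hr p h3')
    have hfac := X_pow_sub_one_eq_prod hr0 hω
    have hp' : p ∣ ∏ ζ ∈ nthRootsFinset r (1 : F), (Polynomial.X - C ζ) := by
      rw [← hfac]
      exact (dvd_pow_self p he.ne').trans (hpe ▸ hdvd)
    obtain ⟨ζ, hζ1, hj⟩ := (hp.prime.dvd_finsetProd_iff _).1 hp'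
    have hζ : ζ ^ r = 1 := (Polynomial.mem_nthRootsFinset hr0 1).1 hζ1
    have : NeZero r := ⟨hr0.ne'⟩
    obtain ⟨j, hjr, rfl⟩ := hω.eq_pow_of_pow_eq_one hζ
    refine ⟨⟨j, hjr⟩, ?_⟩
    rw [hpe, he1, pow_one]
    exact eq_of_monic_of_associated hpm (monic_X_sub_C _) (hp.associated_of_dvd (irreducible_X_sub_C _) hj)
  choose l hl using hfi
  have hdeg : ∀ i, (f i).natDegree = 1 := fun i => by rw [hl, natDegree_X_sub_C]
  have hm : m = n := by
    have := Module.finrank_eq_card_basis D.b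
    rw [hV, Fintype.card_sigma] at this
    simp only [Fintype.card_fin] at this
    rw [Finset.sum_congr rfl (fun i _ => hdeg i)] at this
    simpa using this.symm
  subst hm
  let e : (Σ i : Fin m, Fin (f i).natDegree) ≃ Fin m :=
    { toFun := fun x => x.1
      invFun := fun i => ⟨i, ⟨0, by rw [hdeg]; exact one_pos⟩⟩
      left_inv := by
        rintro ⟨i, j⟩
        have : j = ⟨0, by rw [hdeg]; exact one_pos⟩ := by
          apply Fin.ext
          have := j.2
          have h := hdeg i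
          simp only; omega
        rw [this]
      right_inv := fun i => rfl }
  refine ⟨D.b.reindex e, l, ?_⟩
  intro i
  have h0 : (0 : ℕ) < (f i).natDegree := by rw [hdeg]; exact one_pos
  have h1 : D.b.reindex e i = D.v i := by
    rw [Module.Basis.reindex_apply]
    have : D.b (e.symm i) = (T ^ 0) (D.v i) := D.b_eq i ⟨0, h0⟩
    rw [this]; rfl
  rw [h1]
  have h2 : aeval T (Polynomial.X - C (ω ^ (l i : ℕ)) : F[X]) (D.v i) = 0 := by
    rw [D.ann_iff, hl i]
  rw [map_sub, aeval_X, aeval_C, LinearMap.sub_apply, sub_eq_zero] at h2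
  rw [h2]; rfl

/-- matrix form of an eigenbasis -/
theorem diag_of_basis {n : ℕ} (x : Matrix (Fin n) (Fin n) F) (b : Module.Basis (Fin n) F (Fin n → F)) (D : Fin n → F)
    (hb : ∀ i, Matrix.toLin' x (b i) = D i • b i) :
    ∃ P : Matrix (Fin n) (Fin n) F, P.det ≠ 0 ∧ x * P = P * Matrix.diagonal D := by
  obtain ⟨P, hP, h⟩ := H99.Cyclic.conj_of_basis x b (Equiv.refl _)
  refine ⟨P, hP, ?_⟩
  rw [h]
  congr 1
  ext i j
  rw [Matrix.reindex_apply, Matrix.submatrix_apply, LinearMap.toMatrix_apply]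
  simp only [Equiv.refl_symm, Equiv.refl_apply]
  rw [hb, map_smul, Module.Basis.repr_self,
    Finsupp.smul_single, Finsupp.single_apply, Matrix.diagonal_apply]
  by_cases h : i = j
  · subst h; simp
  · rw [if_neg h, if_neg (fun h' => h h'.symm)]

theorem det_of_diag {n : ℕ} (x P : Matrix (Fin n) (Fin n) F) (D : Fin n → F) (hP : P.det ≠ 0)
    (h : x * P = P * Matrix.diagonal D) : x.det = ∏ i, D i := by
  have := congrArg Matrix.det h
  rw [Matrix.det_mul, Matrix.det_mul, Matrix.det_diagonal, mul_comm] at this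
  exact mul_left_cancel₀ hP this

/-- a matrix of prime degree with scalar `r`-th power which is not an `r`-th power -/
theorem det_of_not_pow {r : ℕ} (hr : r.Prime) (hodd : Odd r) (X : Matrix (Fin r) (Fin r) F) (z : F)
    (hX : X ^ r = z • (1 : Matrix (Fin r) (Fin r) F)) (hz : ∀ b : F, b ^ r ≠ z) : X.det = z := by
  have hirr : Irreducible (Polynomial.X ^ r - C z : F[X]) := X_pow_sub_C_irreducible_of_prime hr hz
  have hmon : (Polynomial.X ^ r - C z : F[X]).Monic := monic_X_pow_sub_C _ hr.ne_zero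
  have h1 : minpoly F X ∣ (Polynomial.X ^ r - C z : F[X]) := by
    apply minpoly.dvd
    rw [map_sub, map_pow, aeval_X, aeval_C, hX, Algebra.algebraMap_eq_smul_one, sub_self]
  have hint : IsIntegral F X := Matrix.isIntegral X
  have : Nonempty (Fin r) := ⟨⟨0, hr.pos⟩⟩
  have h2 : minpoly F X = Polynomial.X ^ r - C z := by
    rcases (hirr.dvd_iff).1 h1 with h | h
    · exact absurd h (minpoly.not_isUnit F X)
    · exact eq_of_monic_of_associated (minpoly.monic hint) hmon h.symm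
  have h3 : X.charpoly = Polynomial.X ^ r - C z := by
    have h4 : minpoly F X ∣ X.charpoly := Matrix.minpoly_dvd_charpoly X
    rw [h2] at h4
    apply Polynomial.eq_of_monic_of_dvd_of_natDegree_le hmon (Matrix.charpoly_monic X) h4
    rw [Matrix.charpoly_natDegree_eq_dim, natDegree_X_pow_sub_C, Fintype.card_fin]
  rw [Matrix.det_eq_sign_charpoly_coeff, h3, Fintype.card_fin, hodd.neg_one_pow]
  simp [hr.ne_zero.symm]

theorem not_pow_of_val [Fintype F] {r : ℕ} [Fact r.Prime] (hv : padicValNat r (Fintype.card F - 1) = 1) (z : F)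
    (hz : z ^ r = 1) (hz1 : z ≠ 1) (b : F) : b ^ r ≠ z := by
  have hr : r.Prime := Fact.out
  intro hb
  have hq1 : 1 < Fintype.card F := Fintype.one_lt_card
  have hb2 : b ^ (r * r) = 1 := by rw [pow_mul, hb, hz]
  have hb0 : b ≠ 0 := by
    rintro rfl
    rw [zero_pow hr.ne_zero] at hb
    rw [← hb, zero_pow hr.ne_zero] at hz
    exact zero_ne_one hz
  have h1 : b ^ (Fintype.card F - 1) = 1 := FiniteField.pow_card_sub_one_eq_one b hb0
  have h2 : b ^ (Nat.gcd (r * r) (Fintype.card F - 1)) = 1 := pow_gcd_eq_one.2 ⟨hb2, h1⟩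
  have h3 : Nat.gcd (r * r) (Fintype.card F - 1) ∣ r := by
    have hd : Nat.gcd (r * r) (Fintype.card F - 1) ∣ r ^ 2 := by rw [pow_two]; exact Nat.gcd_dvd_left _ _
    obtain ⟨k, hk, hk2⟩ := (Nat.dvd_prime_pow hr).1 hd
    have hk1 : k ≤ 1 := by
      by_contra hk1
      have hkk : k = 2 := by omega
      subst hkk
      have h4 : r ^ 2 ∣ Fintype.card F - 1 := by rw [← hk2]; exact Nat.gcd_dvd_right _ _
      have h5 := (padicValNat_dvd_iff_le (by omega)).1 h4
      omega
    rw [hk2]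
    interval_cases k
    · rw [pow_zero]; exact one_dvd _
    · rw [pow_one]
  obtain ⟨t, ht⟩ := h3
  apply hz1
  rw [← hb]
  have : b ^ r = (b ^ (Nat.gcd (r * r) (Fintype.card F - 1))) ^ t := by rw [← pow_mul, ← ht]
  rw [this, h2, one_pow]

/-- elements of prime order `r` of `PSL_r(q)` when `r` divides `q - 1` exactly once are diagonalizable -/
theorem exists_diag_sl [Fintype F] {r : ℕ} [Fact r.Prime] (hodd : Odd r) (hv : padicValNat r (Fintype.card F - 1) = 1)
    (hrF : ((r : ℕ) : F) ≠ 0)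
    (X : Matrix (Fin r) (Fin r) F) (hdet : X.det = 1) (z : F) (hX : X ^ r = z • (1 : Matrix (Fin r) (Fin r) F)) :
    ∃ ω : F, IsPrimitiveRoot ω r ∧ ∃ (P : Matrix (Fin r) (Fin r) F) (l : Fin r → Fin r), P.det ≠ 0 ∧
      X * P = P * Matrix.diagonal (fun i => ω ^ (l i : ℕ)) ∧ r ∣ ∑ i, (l i : ℕ) := by
  have hr : r.Prime := Fact.out
  have hq1 : 1 < Fintype.card F := Fintype.one_lt_card
  have hdvd : r ∣ Fintype.card F - 1 := by
    by_contra h
    rw [padicValNat.eq_zero_of_not_dvd h] at hv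
    exact zero_ne_one hv
  have hzr : z ^ r = 1 := by
    have := congrArg Matrix.det hX
    rw [Matrix.det_pow, hdet, one_pow, Matrix.det_smul, Matrix.det_one, mul_one, Fintype.card_fin] at this
    exact this.symm
  have hz1 : z = 1 := by
    by_contra hz1
    have h1 := det_of_not_pow hr hodd X z hX (fun b => not_pow_of_val hv z hzr hz1 b)
    exact hz1 (h1.symm.trans hdet)
  subst hz1
  rw [one_smul] at hX
  obtain ⟨ω, hω⟩ := Elts.exists_root (F := F) r hr.pos hdvd
  obtain ⟨b, l, hbl⟩ := exists_eig hr.pos hω hrF (n := r) (by simp) (Matrix.toLin' X)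
    (by rw [← Matrix.toLin'_pow, hX, Matrix.toLin'_one]; rfl)
  obtain ⟨P, hP, hXP⟩ := diag_of_basis X b (fun i => ω ^ (l i : ℕ)) hbl
  refine ⟨ω, hω, P, l, hP, hXP, ?_⟩
  have h1 := det_of_diag X P _ hP hXP
  rw [hdet, Finset.prod_pow_eq_pow_sum] at h1
  exact hω.dvd_of_pow_eq_one _ h1.symm

/-- a prime power of `r` dividing `q - 1` -/
theorem sq_dvd_of_val [Fintype F] {r : ℕ} [Fact r.Prime] (hdvd : r ∣ Fintype.card F - 1)
    (hv : padicValNat r (Fintype.card F - 1) ≠ 1) : r ^ 2 ∣ Fintype.card F - 1 := by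
  have hq1 : 1 < Fintype.card F := Fintype.one_lt_card
  rw [padicValNat_dvd_iff_le (by omega)]
  have : padicValNat r (Fintype.card F - 1) ≠ 0 := by
    have := one_le_padicValNat_of_dvd (by omega) hdvd
    omega
  omega

/-- making the conjugating matrix have determinant one -/
theorem det_one_of_diag {n : ℕ} (hn : 0 < n) (x P : Matrix (Fin n) (Fin n) F) (D : Fin n → F) (hP : P.det ≠ 0)
    (h : x * P = P * Matrix.diagonal D) (R Y : Matrix (Fin n) (Fin n) F) (hR : R.det ≠ 0) (hRY : x * R = R * Y) :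
    ∃ R' : Matrix (Fin n) (Fin n) F, R'.det = 1 ∧ x * R' = R' * Y := by
  let i0 : Fin n := ⟨0, hn⟩
  let C : Matrix (Fin n) (Fin n) F := Matrix.diagonal (fun i => if i = i0 then (R.det)⁻¹ else 1)
  have hCdet : C.det = (R.det)⁻¹ := by
    show (Matrix.diagonal (fun i => if i = i0 then (R.det)⁻¹ else 1)).det = _
    rw [Matrix.det_diagonal, Finset.prod_ite_eq' Finset.univ i0 (fun _ => (R.det)⁻¹)]
    simp
  have hCD : Matrix.diagonal D * C = C * Matrix.diagonal D := by
    show Matrix.diagonal D * Matrix.diagonal _ = Matrix.diagonal _ * Matrix.diagonal D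
    rw [Matrix.diagonal_mul_diagonal, Matrix.diagonal_mul_diagonal]
    congr 1; funext i; ring
  have hu : IsUnit P.det := isUnit_iff_ne_zero.2 hP
  refine ⟨P * C * P⁻¹ * R, ?_, ?_⟩
  · rw [Matrix.det_mul, Matrix.det_mul, Matrix.det_mul, hCdet, Matrix.det_nonsing_inv, Ring.inverse_eq_inv]
    field_simp
  · have h1 : x * (P * C * P⁻¹) = (P * C * P⁻¹) * x := by
      have hx : x = P * Matrix.diagonal D * P⁻¹ := by
        rw [← h, Matrix.mul_assoc, Matrix.mul_nonsing_inv _ hu, Matrix.mul_one]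
      calc x * (P * C * P⁻¹) = (x * P) * C * P⁻¹ := by simp only [Matrix.mul_assoc]
        _ = P * (Matrix.diagonal D * C) * P⁻¹ := by rw [h]; simp only [Matrix.mul_assoc]
        _ = P * C * (P⁻¹ * P) * Matrix.diagonal D * P⁻¹ := by
            rw [hCD, Matrix.nonsing_inv_mul _ hu]; simp only [Matrix.mul_assoc, Matrix.one_mul]
        _ = (P * C * P⁻¹) * x := by
            rw [hx]
            simp only [Matrix.mul_assoc]
    rw [← Matrix.mul_assoc, h1, Matrix.mul_assoc, hRY]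
    simp only [Matrix.mul_assoc]

theorem comb5a : ∀ a b c d e : Fin 5, 5 ∣ (a + b + c + d + (e : ℕ)) →
    ∃ i j k : Fin 5, i ≠ j ∧ i ≠ k ∧ j ≠ k ∧ 5 ∣ ((![a, b, c, d, e] j : ℕ) + ![a, b, c, d, e] k + 3 * ![a, b, c, d, e] i) := by
  decide +kernel

theorem comb5b : ∀ i j k : Fin 5, i ≠ j → i ≠ k → j ≠ k → ∃ a b : Fin 5, Function.Bijective ![i, j, k, a, b] := by
  decide +kernel

theorem comb5 (l : Fin 5 → Fin 5) (h : 5 ∣ ∑ i, (l i : ℕ)) : ∃ f : Fin 5 → Fin 5, Function.Bijective f ∧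
    ((l (f 1) : ℕ) + l (f 2)) % 5 = ((l (f 0) : ℕ) + l (f 0)) % 5 ∧ ((l (f 3) : ℕ) + l (f 4)) % 5 = ((l (f 0) : ℕ) + l (f 0)) % 5 := by
  have h' := h
  rw [Fin.sum_univ_five] at h'
  obtain ⟨i, j, k, hij, hik, hjk, h1⟩ := comb5a (l 0) (l 1) (l 2) (l 3) (l 4) h'
  have hl : ![l 0, l 1, l 2, l 3, l 4] = l := by
    funext t
    fin_cases t <;> rfl
  rw [hl] at h1
  obtain ⟨a, b, hb⟩ := comb5b i j k hij hik hjk
  refine ⟨![i, j, k, a, b], hb, ?_, ?_⟩
  · show ((l j : ℕ) + l k) % 5 = ((l i : ℕ) + l i) % 5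
    omega
  · show ((l a : ℕ) + l b) % 5 = ((l i : ℕ) + l i) % 5
    have h2 : ∑ t, (l (![i, j, k, a, b] t) : ℕ) = ∑ t, (l t : ℕ) := hb.sum_comp (fun t => (l t : ℕ))
    rw [← h2, Fin.sum_univ_five] at h
    have h3 : 5 ∣ (l i : ℕ) + l j + l k + l a + l b := h
    omega

theorem exists_pairing {n : ℕ} (hn : n = 3 ∨ n = 5) (l : Fin n → Fin n) (hsum : n ∣ ∑ i, (l i : ℕ)) :
    ∃ m, n = 2 * m + 1 ∧ ∃ e : Fin n ≃ (Unit ⊕ (Fin m ⊕ Fin m)), ∀ i,
      (l (e.symm (.inr (.inl i))) : ℕ) + l (e.symm (.inr (.inr i))) ≡ l (e.symm (.inl ())) + l (e.symm (.inl ())) [MOD n] := by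
  rcases hn with rfl | rfl
  · let f : Unit ⊕ (Fin 1 ⊕ Fin 1) → Fin 3 := Sum.elim (fun _ => 0) (Sum.elim (fun _ => 1) (fun _ => 2))
    have hf : Function.Bijective f := by decide
    refine ⟨1, rfl, (Equiv.ofBijective f hf).symm, fun i => ?_⟩
    rw [Fin.sum_univ_three] at hsum
    show ((l 1 : ℕ) + l 2) % 3 = ((l 0 : ℕ) + l 0) % 3
    omega
  · obtain ⟨g, hg, h1, h2⟩ := comb5 l hsum
    let f : Unit ⊕ (Fin 2 ⊕ Fin 2) → Fin 5 := Sum.elim (fun _ => 0) (Sum.elim ![1, 3] ![2, 4])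
    have hf : Function.Bijective f := by decide
    refine ⟨2, rfl, (Equiv.ofBijective (g ∘ f) (hg.comp hf)).symm, fun i => ?_⟩
    fin_cases i
    · exact h1
    · exact h2

theorem pow_mul_eq {ω : F} {r : ℕ} (hω : IsPrimitiveRoot ω r) {a b c d : ℕ} (h : a + b ≡ c + d [MOD r]) :
    ω ^ a * ω ^ b = ω ^ c * ω ^ d := by
  rw [← pow_add, ← pow_add, ← pow_mod_orderOf ω (a + b), ← pow_mod_orderOf ω (c + d), ← hω.eq_orderOf, h]

end H99.Eig
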