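import Mathlib
import Cfsg.Prelude.Def_GeometricClasses
import Cfsg.Agent.Lib.H99.NormFix
import Cfsg.Agent.Lib.H99.Diag
import Cfsg.Agent.Lib.H99.Eig

set_option autoImplicit false

namespace H99.Ext27

open Matrix Module

variable {F : Type*} [Field F]

/-- generators of a nonabelian group of order 27 and exponent 3 -/
theorem exists_gen {G : Type*} [Group G] (R : Subgroup G) (hR : Nat.card R = 27) (hRe : Monoid.exponent R = 3)
    (hna : ¬ IsMulCommutative R) :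
    ∃ a ∈ R, ∃ b ∈ R, Subgroup.closure {a, b} = R ∧ a ^ 3 = 1 ∧ b ^ 3 = 1 ∧ ∃ z ∈ R, z ^ 3 = 1 ∧ z ≠ 1 ∧
      a * b = z * (b * a) ∧ z * a = a * z ∧ z * b = b * z := by
  have hcube : ∀ x ∈ R, x ^ 3 = 1 := by
    intro x hx
    have := Monoid.pow_exponent_eq_one (⟨x, hx⟩ : R)
    rw [hRe] at this
    exact congrArg Subtype.val this
  have : Finite R := Nat.finite_of_card_ne_zero (by omega)
  obtain ⟨a, ha, b, hb, hab⟩ : ∃ a ∈ R, ∃ b ∈ R, a * b ≠ b * a := by
    by_contra h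
    push Not at h
    exact hna ⟨⟨fun x y => Subtype.ext (h x x.2 y y.2)⟩⟩
  have hcl : Subgroup.closure {a, b} ≤ R := by
    rw [Subgroup.closure_le]
    rintro x (rfl | rfl)
    · exact ha
    · exact hb
  have hcl2 : Subgroup.closure {a, b} = R := by
    set K := Subgroup.closure {a, b} with hK
    have hfin : Finite K := Finite.of_injective _ (Subgroup.inclusion_injective hcl)
    have hnc : ¬ IsMulCommutative K := by
      intro h
      apply hab
      have := h.is_comm.comm (⟨a, Subgroup.subset_closure (by simp)⟩ : K) ⟨b, Subgroup.subset_closure (by simp)⟩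
      exact congrArg Subtype.val this
    have hdvd : Nat.card K ∣ 3 ^ 3 := by
      have := Subgroup.card_dvd_of_le hcl
      rw [hR] at this
      exact this
    obtain ⟨k, hk, hk2⟩ := (Nat.dvd_prime_pow Nat.prime_three).1 hdvd
    have hk3 : k = 3 := by
      by_contra hk3
      apply hnc
      have hkc : k = 0 ∨ k = 1 ∨ k = 2 := by omega
      have : Fact (Nat.Prime 3) := ⟨Nat.prime_three⟩
      rcases hkc with rfl | rfl | rfl
      · have hs : Subsingleton K := (Nat.card_eq_one_iff_unique.1 (by rw [hk2]; norm_num)).1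
        exact ⟨⟨fun x y => Subsingleton.elim _ _⟩⟩
      · have hcyc : IsCyclic K := isCyclic_of_prime_card (p := 3) (by rw [hk2]; norm_num)
        obtain ⟨g, hg⟩ := hcyc
        refine ⟨⟨fun x y => ?_⟩⟩
        obtain ⟨m, rfl⟩ := hg x
        obtain ⟨n, rfl⟩ := hg y
        exact ((Commute.refl g).zpow_zpow m n).eq
      · exact IsPGroup.isMulCommutative_of_card_eq_prime_sq (p := 3) hk2
    apply Subgroup.eq_of_le_of_card_ge hcl
    rw [hR, hk2, hk3]; norm_num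
  have hz : (a * b) * (b * a)⁻¹ ∈ R := R.mul_mem (R.mul_mem ha hb) (R.inv_mem (R.mul_mem hb ha))
  -- centrality
  have hcen : ∀ x ∈ R, ((a * b) * (b * a)⁻¹) * x = x * ((a * b) * (b * a)⁻¹) := by
    have hp : IsPGroup 3 R := IsPGroup.of_card (n := 3) (by rw [hR]; norm_num)
    have : Fact (Nat.Prime 3) := ⟨Nat.prime_three⟩
    have hnt : Nontrivial R := by
      rw [← Finite.one_lt_card_iff_nontrivial]; omega
    have hcn : Nontrivial (Subgroup.center R) := hp.center_nontrivial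
    have hQ : IsMulCommutative (R ⧸ Subgroup.center R) := by
      have h1 : Nat.card (Subgroup.center R) * Nat.card (R ⧸ Subgroup.center R) = 3 ^ 3 := by
        have := Subgroup.card_mul_index (Subgroup.center R)
        rw [hR] at this
        rw [← Subgroup.index_eq_card]
        exact this.trans (by norm_num)
      have h2 : 1 < Nat.card (Subgroup.center R) := Finite.one_lt_card_iff_nontrivial.2 hcn
      obtain ⟨k, hk, hk2⟩ := (Nat.dvd_prime_pow Nat.prime_three).1 (Dvd.intro_left _ h1)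
      have hkc : k = 0 ∨ k = 1 ∨ k = 2 := by
        by_contra hc
        have : k = 3 := by omega
        subst this
        rw [hk2] at h1
        nlinarith
      rcases hkc with rfl | rfl | rfl
      · have hs : Subsingleton (R ⧸ Subgroup.center R) := (Nat.card_eq_one_iff_unique.1 (by rw [hk2]; norm_num)).1
        exact ⟨⟨fun x y => Subsingleton.elim _ _⟩⟩
      · have hcyc : IsCyclic (R ⧸ Subgroup.center R) := isCyclic_of_prime_card (p := 3) (by rw [hk2]; norm_num)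
        obtain ⟨g, hg⟩ := hcyc
        refine ⟨⟨fun x y => ?_⟩⟩
        obtain ⟨m, rfl⟩ := hg x
        obtain ⟨n, rfl⟩ := hg y
        exact ((Commute.refl g).zpow_zpow m n).eq
      · exact IsPGroup.isMulCommutative_of_card_eq_prime_sq (p := 3) hk2
    have h3 : (⟨(a * b) * (b * a)⁻¹, hz⟩ : R) ∈ Subgroup.center R := by
      rw [← QuotientGroup.eq_one_iff]
      have e : (⟨(a * b) * (b * a)⁻¹, hz⟩ : R) = ((⟨a, ha⟩ : R) * ⟨b, hb⟩) * ((⟨b, hb⟩ : R) * ⟨a, ha⟩)⁻¹ := rfl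
      rw [e, QuotientGroup.mk_mul, QuotientGroup.mk_inv, QuotientGroup.mk_mul, QuotientGroup.mk_mul,
        hQ.is_comm.comm ((⟨a, ha⟩ : R) : R ⧸ Subgroup.center R), mul_inv_cancel]
    intro x hx
    have := Subgroup.mem_center_iff.1 h3 ⟨x, hx⟩
    exact (congrArg Subtype.val this).symm
  refine ⟨a, ha, b, hb, hcl2, hcube a ha, hcube b hb, _, hz, hcube _ hz, ?_, ?_, hcen a ha, hcen b hb⟩
  · intro h
    exact hab (mul_inv_eq_one.1 h)
  · rw [inv_mul_cancel_right]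


/-- an eigenvector of a matrix of order three in an invariant subspace (given by a commuting matrix) -/
theorem exists_ev {n : ℕ} {ω : F} (hω : IsPrimitiveRoot ω 3) (a : Matrix (Fin n) (Fin n) F) (ha : a ^ 3 = 1)
    (v : Fin n → F) (hv : v ≠ 0) :
    ∃ (g : Polynomial F) (μ : F), μ ^ 3 = 1 ∧ (Polynomial.aeval a g) *ᵥ v ≠ 0 ∧
      a *ᵥ ((Polynomial.aeval a g) *ᵥ v) = μ • ((Polynomial.aeval a g) *ᵥ v) := by
  have h1 : (a - 1) * ((a - ω • (1 : Matrix (Fin n) (Fin n) F)) * (a - (ω ^ 2) • (1 : Matrix (Fin n) (Fin n) F))) = 0 := by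
    have hs : 1 + ω + ω ^ 2 = 0 := by
      have := hω.geom_sum_eq_zero (by norm_num)
      rw [Finset.sum_range_succ, Finset.sum_range_succ, Finset.sum_range_one] at this
      simpa using this
    have h3 : ω ^ 3 = 1 := hω.pow_eq_one
    have e1 : (a - ω • (1 : Matrix (Fin n) (Fin n) F)) * (a - (ω ^ 2) • (1 : Matrix (Fin n) (Fin n) F)) =
        a * a + a + 1 := by
      rw [Matrix.sub_mul, Matrix.mul_sub, Matrix.mul_sub, Matrix.mul_smul, Matrix.mul_one, Matrix.smul_mul, Matrix.one_mul,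
        Matrix.smul_mul, Matrix.one_mul, smul_smul, ← pow_succ', h3, one_smul]
      have : -(ω ^ 2 • a) - ω • a = a := by
        rw [← neg_smul, ← sub_smul]
        have : -ω ^ 2 - ω = 1 := by linear_combination -hs
        rw [this, one_smul]
      calc a * a - ω ^ 2 • a - (ω • a - 1) = a * a + (-(ω ^ 2 • a) - ω • a) + 1 := by abel
        _ = _ := by rw [this]
    rw [e1]
    have : (a - 1) * (a * a + a + 1) = a ^ 3 - 1 := by noncomm_ring
    rw [this, ha, sub_self]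
  by_cases h2 : (a - (ω ^ 2) • (1 : Matrix (Fin n) (Fin n) F)) *ᵥ v = 0
  · refine ⟨1, ω ^ 2, by rw [← pow_mul, mul_comm, pow_mul, hω.pow_eq_one, one_pow], ?_, ?_⟩
    · rw [map_one, Matrix.one_mulVec]; exact hv
    · rw [map_one, Matrix.one_mulVec]
      rw [Matrix.sub_mulVec, Matrix.smul_mulVec, Matrix.one_mulVec, sub_eq_zero] at h2
      exact h2
  · by_cases h3 : (a - ω • (1 : Matrix (Fin n) (Fin n) F)) *ᵥ ((a - (ω ^ 2) • (1 : Matrix (Fin n) (Fin n) F)) *ᵥ v) = 0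
    · refine ⟨Polynomial.X - Polynomial.C (ω ^ 2), ω, hω.pow_eq_one, ?_, ?_⟩
      · rw [map_sub, Polynomial.aeval_X, Polynomial.aeval_C, Algebra.algebraMap_eq_smul_one]; exact h2
      · rw [map_sub, Polynomial.aeval_X, Polynomial.aeval_C, Algebra.algebraMap_eq_smul_one]
        rw [Matrix.sub_mulVec, Matrix.smul_mulVec, Matrix.one_mulVec, sub_eq_zero] at h3
        exact h3
    · refine ⟨(Polynomial.X - Polynomial.C ω) * (Polynomial.X - Polynomial.C (ω ^ 2)), 1, one_pow _, ?_, ?_⟩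
      · rw [map_mul, map_sub, map_sub, Polynomial.aeval_X, Polynomial.aeval_C, Polynomial.aeval_C,
          Algebra.algebraMap_eq_smul_one, Algebra.algebraMap_eq_smul_one, ← Matrix.mulVec_mulVec]; exact h3
      · rw [map_mul, map_sub, map_sub, Polynomial.aeval_X, Polynomial.aeval_C, Polynomial.aeval_C,
          Algebra.algebraMap_eq_smul_one, Algebra.algebraMap_eq_smul_one, one_smul]
        have : ((a - 1) * ((a - ω • (1 : Matrix (Fin n) (Fin n) F)) * (a - (ω ^ 2) • (1 : Matrix (Fin n) (Fin n) F)))) *ᵥ v = 0 *ᵥ v := by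
          rw [h1]
        rw [← Matrix.mulVec_mulVec, Matrix.zero_mulVec, Matrix.sub_mulVec, Matrix.one_mulVec, sub_eq_zero] at this
        exact this

/-- the standard diagonal matrix -/
def dg (l : F) : Matrix (Fin 3) (Fin 3) F := Matrix.diagonal ![1, l, l ^ 2]

/-- the standard cyclic permutation matrix `e_i ↦ e_{i+1}` -/
def cyc : Matrix (Fin 3) (Fin 3) F := Matrix.of ![![0, 0, 1], ![1, 0, 0], ![0, 1, 0]]

/-- basis of eigenvectors -/
theorem exists_vec {ω : F} (hω : IsPrimitiveRoot ω 3) (a b z : Matrix (Fin 3) (Fin 3) F) (ha : a ^ 3 = 1)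
    (hb : b ^ 3 = 1) (hz : z ^ 3 = 1) (hz1 : z ≠ 1) (hab : a * b = z * (b * a)) (hza : z * a = a * z) (hzb : z * b = b * z) :
    ∃ (l : F) (u : Fin 3 → F), IsPrimitiveRoot l 3 ∧ u ≠ 0 ∧ a *ᵥ u = u ∧ z *ᵥ u = l • u := by
  have hs : 1 + ω + ω ^ 2 = 0 := by
    have := hω.geom_sum_eq_zero (by norm_num)
    rw [Finset.sum_range_succ, Finset.sum_range_succ, Finset.sum_range_one] at this
    simpa using this
  have h3 : ω ^ 3 = 1 := hω.pow_eq_one
  -- an eigenvector of z with nontrivial eigenvalue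
  obtain ⟨l, v, hl, hv, hzv⟩ : ∃ (l : F) (v : Fin 3 → F), IsPrimitiveRoot l 3 ∧ v ≠ 0 ∧ z *ᵥ v = l • v := by
    obtain ⟨w, hw⟩ : ∃ w, z *ᵥ w ≠ w := by
      by_contra h
      push Not at h
      apply hz1
      apply Matrix.ext_of_mulVec_single
      intro i
      rw [h, Matrix.one_mulVec]
    have hw2 : z *ᵥ w - w ≠ 0 := sub_ne_zero.2 hw
    have hq : z *ᵥ (z *ᵥ (z *ᵥ w)) = w := by
      rw [Matrix.mulVec_mulVec, Matrix.mulVec_mulVec, ← pow_two, ← pow_succ, hz, Matrix.one_mulVec]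
    by_cases h4 : z *ᵥ (z *ᵥ w - w) = ω • (z *ᵥ w - w)
    · exact ⟨ω, _, hω, hw2, h4⟩
    · refine ⟨ω ^ 2, z *ᵥ (z *ᵥ w - w) - ω • (z *ᵥ w - w), hω.pow_of_coprime 2 (by norm_num), sub_ne_zero.2 h4, ?_⟩
      simp only [Matrix.mulVec_sub, Matrix.mulVec_smul, hq, smul_sub, smul_smul]
      have e1 : ω ^ 2 * ω = 1 := by rw [← pow_succ]; exact h3
      rw [e1, one_smul, one_smul]
      have e2 : ω ^ 2 • (z *ᵥ (z *ᵥ w)) = - (z *ᵥ (z *ᵥ w)) - ω • (z *ᵥ (z *ᵥ w)) := by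
        have : ω ^ 2 = -1 - ω := by linear_combination hs
        rw [this, sub_smul, neg_smul, one_smul]
      have e3 : ω ^ 2 • (z *ᵥ w) = - (z *ᵥ w) - ω • (z *ᵥ w) := by
        have : ω ^ 2 = -1 - ω := by linear_combination hs
        rw [this, sub_smul, neg_smul, one_smul]
      rw [e2, e3]
      abel
  obtain ⟨g, μ, hμ, hgv, hagv⟩ := exists_ev hω a ha v hv
  set u := (Polynomial.aeval a g) *ᵥ v with hu
  have hzu : z *ᵥ u = l • u := by
    have hc : Commute z (Polynomial.aeval a g) := by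
      rw [Polynomial.aeval_eq_sum_range]
      exact Commute.sum_right _ _ _ (fun i _ => (Commute.pow_right hza i).smul_right _)
    rw [hu, Matrix.mulVec_mulVec, hc.eq, ← Matrix.mulVec_mulVec, hzv, Matrix.mulVec_smul]
  have hbu : ∀ w : Fin 3 → F, ∀ κ : F, z *ᵥ w = l • w → a *ᵥ w = κ • w →
      z *ᵥ (b *ᵥ w) = l • (b *ᵥ w) ∧ a *ᵥ (b *ᵥ w) = (l * κ) • (b *ᵥ w) := by
    intro w κ h1 h2
    have hzb' : z *ᵥ (b *ᵥ w) = l • (b *ᵥ w) := by
      rw [Matrix.mulVec_mulVec, hzb, ← Matrix.mulVec_mulVec, h1, Matrix.mulVec_smul]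
    refine ⟨hzb', ?_⟩
    rw [Matrix.mulVec_mulVec, hab, ← Matrix.mulVec_mulVec, ← Matrix.mulVec_mulVec, h2, Matrix.mulVec_smul, Matrix.mulVec_smul, hzb',
      smul_smul, mul_comm]
  have hbn : ∀ w : Fin 3 → F, w ≠ 0 → b *ᵥ w ≠ 0 := by
    intro w hw h
    apply hw
    have : b ^ 3 *ᵥ w = 0 := by
      rw [pow_succ, ← Matrix.mulVec_mulVec, h, Matrix.mulVec_zero]
    rwa [hb, Matrix.one_mulVec] at this
  obtain ⟨i, hi, hμi⟩ := hl.eq_pow_of_pow_eq_one hμ
  have hi3 : i = 0 ∨ i = 1 ∨ i = 2 := by omega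
  rcases hi3 with rfl | rfl | rfl
  · refine ⟨l, u, hl, hgv, ?_, hzu⟩
    rw [hagv, ← hμi, pow_zero, one_smul]
  · obtain ⟨p1, p2⟩ := hbu u μ hzu hagv
    obtain ⟨p3, p4⟩ := hbu _ _ p1 p2
    refine ⟨l, _, hl, hbn _ (hbn _ hgv), ?_, p3⟩
    rw [p4, ← hμi]
    have : l * (l * l ^ 1) = 1 := by rw [← hl.pow_eq_one]; ring
    rw [this, one_smul]
  · obtain ⟨p1, p2⟩ := hbu u μ hzu hagv
    refine ⟨l, _, hl, (hbn _ hgv), ?_, p1⟩
    rw [p2, ← hμi]
    have : l * l ^ 2 = 1 := by rw [← hl.pow_eq_one]; ring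
    rw [this, one_smul]

/-- standard form -/
theorem std_form {l : F} (hl : IsPrimitiveRoot l 3) (a b z : Matrix (Fin 3) (Fin 3) F)
    (hb : b ^ 3 = 1) (hab : a * b = z * (b * a)) (hzb : z * b = b * z)
    (u : Fin 3 → F) (hu : u ≠ 0) (hau : a *ᵥ u = u) (hzu : z *ᵥ u = l • u) :
    ∃ P : Matrix (Fin 3) (Fin 3) F, P.det ≠ 0 ∧ (∀ i, P i 0 = u i) ∧ (∀ i, P i 1 = (b *ᵥ u) i) ∧ (∀ i, P i 2 = (b *ᵥ (b *ᵥ u)) i) ∧
      a * P = P * dg l ∧ b * P = P * cyc ∧ z = l • (1 : Matrix (Fin 3) (Fin 3) F) := by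
  have hbu : ∀ w : Fin 3 → F, ∀ κ : F, z *ᵥ w = l • w → a *ᵥ w = κ • w →
      z *ᵥ (b *ᵥ w) = l • (b *ᵥ w) ∧ a *ᵥ (b *ᵥ w) = (l * κ) • (b *ᵥ w) := by
    intro w κ h1 h2
    have hzb' : z *ᵥ (b *ᵥ w) = l • (b *ᵥ w) := by
      rw [Matrix.mulVec_mulVec, hzb, ← Matrix.mulVec_mulVec, h1, Matrix.mulVec_smul]
    refine ⟨hzb', ?_⟩
    rw [Matrix.mulVec_mulVec, hab, ← Matrix.mulVec_mulVec, ← Matrix.mulVec_mulVec, h2, Matrix.mulVec_smul, Matrix.mulVec_smul, hzb',
      smul_smul, mul_comm]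
  have hbn : ∀ w : Fin 3 → F, w ≠ 0 → b *ᵥ w ≠ 0 := by
    intro w hw h
    apply hw
    have : b ^ 3 *ᵥ w = 0 := by
      rw [pow_succ, ← Matrix.mulVec_mulVec, h, Matrix.mulVec_zero]
    rwa [hb, Matrix.one_mulVec] at this
  obtain ⟨p1, p2⟩ := hbu u 1 hzu (by rw [one_smul]; exact hau)
  obtain ⟨p3, p4⟩ := hbu _ _ p1 p2
  rw [mul_one] at p2 p4
  have hbbb : b *ᵥ (b *ᵥ (b *ᵥ u)) = u := by
    rw [Matrix.mulVec_mulVec, Matrix.mulVec_mulVec, ← pow_two, ← pow_succ, hb, Matrix.one_mulVec]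
  let v : Fin 3 → (Fin 3 → F) := ![u, b *ᵥ u, b *ᵥ (b *ᵥ u)]
  let e : Fin 3 → F := ![1, l, l * l]
  have hinj : Function.Injective e := by
    have h1 : l ≠ 1 := hl.ne_one (by norm_num)
    have h0 : l ≠ 0 := hl.ne_zero (by norm_num)
    have h2 : l * l ≠ 1 := by
      intro h
      have := hl.pow_ne_one_of_pos_of_lt (l := 2) (by norm_num) (by norm_num)
      exact this (by rw [pow_two]; exact h)
    have h3 : l * l ≠ l := fun h => h1 (mul_left_cancel₀ h0 (by rw [h, mul_one]))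
    intro i j hij
    fin_cases i <;> fin_cases j <;> simp [e] at hij ⊢
    · exact h1 hij.symm
    · exact h2 hij.symm
    · exact h1 hij
    · exact h3 (by rw [← hij])
    · exact h2 hij
    · exact h3 hij
  have hev : ∀ i, Module.End.HasEigenvector (Matrix.toLin' a) (e i) (v i) := by
    intro i
    fin_cases i
    · exact ⟨Module.End.mem_eigenspace_iff.2 (by show Matrix.toLin' a u = (1 : F) • u; rw [Matrix.toLin'_apply, hau, one_smul]), hu⟩
    · exact ⟨Module.End.mem_eigenspace_iff.2 (by show Matrix.toLin' a (b *ᵥ u) = l • (b *ᵥ u); rw [Matrix.toLin'_apply, p2]), hbn _ hu⟩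
    · exact ⟨Module.End.mem_eigenspace_iff.2 (by
        show Matrix.toLin' a (b *ᵥ (b *ᵥ u)) = (l * l) • (b *ᵥ (b *ᵥ u)); rw [Matrix.toLin'_apply, p4]), hbn _ (hbn _ hu)⟩
  have hli : LinearIndependent F v := Module.End.eigenvectors_linearIndependent' (Matrix.toLin' a) e hinj v hev
  let P : Matrix (Fin 3) (Fin 3) F := Matrix.of fun i j => v j i
  have hPdet : P.det ≠ 0 := by
    have h1 : LinearIndependent F P.col := hli
    have := Matrix.linearIndependent_cols_iff_isUnit.1 h1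
    exact ((Matrix.isUnit_iff_isUnit_det _).1 this).ne_zero
  have hPc : ∀ j, P *ᵥ Pi.single j 1 = v j := by
    intro j
    rw [Matrix.mulVec_single_one]; rfl
  refine ⟨P, hPdet, fun i => rfl, fun i => rfl, fun i => rfl, ?_, ?_, ?_⟩
  · apply Matrix.ext_of_mulVec_single
    intro j
    rw [← Matrix.mulVec_mulVec, ← Matrix.mulVec_mulVec, hPc, dg, Matrix.diagonal_mulVec_single]
    have : (Pi.single j ((![1, l, l ^ 2] : Fin 3 → F) j * 1) : Fin 3 → F) = (![1, l, l ^ 2] : Fin 3 → F) j • Pi.single j 1 := by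
      rw [← Pi.single_smul, smul_eq_mul]
    rw [this, Matrix.mulVec_smul, hPc]
    fin_cases j
    · show a *ᵥ u = (1 : F) • u; rw [hau, one_smul]
    · exact p2
    · show a *ᵥ (b *ᵥ (b *ᵥ u)) = (l ^ 2) • _; rw [p4, pow_two]; rfl
  · apply Matrix.ext_of_mulVec_single
    intro j
    rw [← Matrix.mulVec_mulVec, ← Matrix.mulVec_mulVec, hPc]
    have hc : ∀ j : Fin 3, (cyc : Matrix (Fin 3) (Fin 3) F) *ᵥ Pi.single j 1 = Pi.single (j + 1) 1 := by
      intro j
      rw [Matrix.mulVec_single_one]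
      ext i
      fin_cases j <;> fin_cases i <;> simp [cyc, Matrix.col]
    rw [hc, hPc]
    fin_cases j
    · rfl
    · rfl
    · exact hbbb
  · have h1 : z * P = (l • (1 : Matrix (Fin 3) (Fin 3) F)) * P := by
      apply Matrix.ext_of_mulVec_single
      intro j
      rw [← Matrix.mulVec_mulVec, ← Matrix.mulVec_mulVec, hPc, Matrix.smul_mulVec, Matrix.one_mulVec]
      fin_cases j
      · exact hzu
      · exact p1
      · exact p3
    have hu : IsUnit P := (Matrix.isUnit_iff_isUnit_det _).2 (isUnit_iff_ne_zero.2 hPdet)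
    exact hu.mul_right_cancel h1


theorem conj_eq {P t A A' : Matrix (Fin 3) (Fin 3) F} (hP : P.det ≠ 0) {s a a' : GL (Fin 3) F}
    (hs : (s : Matrix (Fin 3) (Fin 3) F) * P = P * t) (ha : (a : Matrix (Fin 3) (Fin 3) F) * P = P * A)
    (ha' : (a' : Matrix (Fin 3) (Fin 3) F) * P = P * A') (h : t * A = A' * t) : s * a * s⁻¹ = a' := by
  have hu : IsUnit P := (Matrix.isUnit_iff_isUnit_det _).2 (isUnit_iff_ne_zero.2 hP)
  have h1 : s * a = a' * s := by
    apply Units.ext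
    apply hu.mul_right_cancel
    rw [Units.val_mul, Units.val_mul, Matrix.mul_assoc, ha, ← Matrix.mul_assoc, hs, Matrix.mul_assoc, h,
      Matrix.mul_assoc, hs, ← Matrix.mul_assoc, ← Matrix.mul_assoc, ha']
  rw [h1, mul_inv_cancel_right]

/-- the data attached to `R` -/
structure Std (R : Subgroup (GL (Fin 3) F)) (l : F) (a b z : GL (Fin 3) F) (P : Matrix (Fin 3) (Fin 3) F) : Prop where
  hl : IsPrimitiveRoot l 3
  fin : Finite R
  ha : a ∈ R
  hb : b ∈ R
  hz : z ∈ R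
  hcl : Subgroup.closure {a, b} = R
  hP : P.det ≠ 0
  haP : (a : Matrix (Fin 3) (Fin 3) F) * P = P * dg l
  hbP : (b : Matrix (Fin 3) (Fin 3) F) * P = P * cyc
  hzl : (z : Matrix (Fin 3) (Fin 3) F) = l • (1 : Matrix (Fin 3) (Fin 3) F)

variable {R : Subgroup (GL (Fin 3) F)} {l : F} {a b z : GL (Fin 3) F} {P : Matrix (Fin 3) (Fin 3) F}

theorem Std.mem_norm (h : Std R l a b z P) (s : GL (Fin 3) F) (h1 : s * a * s⁻¹ ∈ R) (h2 : s * b * s⁻¹ ∈ R) :
    s ∈ Cfsg.Geo.subgroupNormalizer R := by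
  have := h.fin
  apply Subgroup.mem_normalizer_fintype
  intro n hn
  have hn' : n ∈ Subgroup.closure {a, b} := by rw [h.hcl]; exact hn
  induction hn' using Subgroup.closure_induction with
  | mem x hx =>
    rcases hx with rfl | rfl
    · exact h1
    · exact h2
  | one => rw [mul_one, mul_inv_cancel]; exact R.one_mem
  | mul x y hx hy ihx ihy =>
    have e : s * (x * y) * s⁻¹ = (s * x * s⁻¹) * (s * y * s⁻¹) := by group
    show s * (x * y) * s⁻¹ ∈ R
    rw [e]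
    rw [h.hcl] at hx hy
    exact R.mul_mem (ihx hx) (ihy hy)
  | inv x hx ihx =>
    have e : s * x⁻¹ * s⁻¹ = (s * x * s⁻¹)⁻¹ := by group
    show s * x⁻¹ * s⁻¹ ∈ R
    rw [e]
    rw [h.hcl] at hx
    exact R.inv_mem (ihx hx)

/-- the involution -/
def t2 : Matrix (Fin 3) (Fin 3) F := Matrix.of ![![-1, 0, 0], ![0, 0, -1], ![0, -1, 0]]

theorem t2_sq : (t2 : Matrix (Fin 3) (Fin 3) F) * t2 = 1 := by
  ext i j; fin_cases i <;> fin_cases j <;> simp [t2, Matrix.mul_apply, Fin.sum_univ_three]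

theorem t2_det : (t2 : Matrix (Fin 3) (Fin 3) F).det = 1 := by
  rw [t2, Matrix.det_fin_three]; simp

theorem Std.norm_t2 (h : Std R l a b z P) (s : GL (Fin 3) F) (hs : (s : Matrix (Fin 3) (Fin 3) F) * P = P * t2) :
    s ∈ Cfsg.Geo.subgroupNormalizer R := by
  have h3 : l ^ 3 = 1 := h.hl.pow_eq_one
  apply h.mem_norm
  · rw [conj_eq (a' := a * a) (A' := dg l * dg l) h.hP hs h.haP ?_ ?_]
    · exact R.mul_mem h.ha h.ha
    · rw [Units.val_mul, Matrix.mul_assoc, h.haP, ← Matrix.mul_assoc, h.haP, Matrix.mul_assoc]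
    · ext i j
      fin_cases i <;> fin_cases j <;> simp [t2, dg, Matrix.mul_apply, Fin.sum_univ_three]
      · ring
      · linear_combination -l * h3
  · rw [conj_eq (a' := b * b) (A' := cyc * cyc) h.hP hs h.hbP ?_ ?_]
    · exact R.mul_mem h.hb h.hb
    · rw [Units.val_mul, Matrix.mul_assoc, h.hbP, ← Matrix.mul_assoc, h.hbP, Matrix.mul_assoc]
    · ext i j
      fin_cases i <;> fin_cases j <;> simp [t2, cyc, Matrix.mul_apply, Fin.sum_univ_three]

theorem Std.norm_diag (h : Std R l a b z P) (D : Fin 3 → F) (ζ : F) (hζ : ζ ≠ 0) (hD : ∀ i, D i ^ 3 = ζ)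
    (s : GL (Fin 3) F) (hs : (s : Matrix (Fin 3) (Fin 3) F) * P = P * Matrix.diagonal D) :
    s ∈ Cfsg.Geo.subgroupNormalizer R := by
  have h3 : l ^ 3 = 1 := h.hl.pow_eq_one
  have hD0 : ∀ i, D i ≠ 0 := fun i h0 => hζ (by rw [← hD i, h0]; norm_num)
  apply h.mem_norm
  · rw [conj_eq (a' := a) (A' := dg l) h.hP hs h.haP h.haP ?_]
    · exact h.ha
    · rw [dg, Matrix.diagonal_mul_diagonal, Matrix.diagonal_mul_diagonal]
      congr 1
      funext i
      exact mul_comm _ _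
  · obtain ⟨c, hc, hc2⟩ := h.hl.eq_pow_of_pow_eq_one (ξ := D 1 / D 0) (by
      rw [div_pow, hD, hD, div_self hζ])
    obtain ⟨d, hd, hd2⟩ := h.hl.eq_pow_of_pow_eq_one (ξ := (D 2 / D 1) / (D 1 / D 0)) (by
      rw [div_pow, div_pow, div_pow, hD, hD, hD, div_self hζ, div_self one_ne_zero])
    have hl0 : l ≠ 0 := h.hl.ne_zero (by norm_num)
    have e1 : D 1 = l ^ c * D 0 := by
      rw [hc2, div_mul_cancel₀ _ (hD0 0)]
    have e2 : D 2 = l ^ c * l ^ d * D 1 := by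
      rw [hd2, hc2]
      field_simp [hD0 0, hD0 1]
    have e3 : D 0 = l ^ c * l ^ (2 * d) * D 2 := by
      rw [e2, e1]
      have : (l ^ c) ^ 3 = 1 := by rw [← pow_mul, mul_comm, pow_mul, h3, one_pow]
      have h' : (l ^ d) ^ 3 = 1 := by rw [← pow_mul, mul_comm, pow_mul, h3, one_pow]
      have h'' : l ^ (2 * d) = l ^ d * l ^ d := by rw [two_mul, pow_add]
      rw [h'']
      linear_combination (-D 0 * (l ^ d) ^ 3) * this - D 0 * h'
    have hap : ∀ k : ℕ, ((a ^ k : GL (Fin 3) F) : Matrix (Fin 3) (Fin 3) F) * P = P * (dg l) ^ k := by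
      intro k
      induction k with
      | zero => rw [pow_zero, pow_zero, Units.val_one, Matrix.one_mul, Matrix.mul_one]
      | succ k ih =>
        rw [pow_succ, pow_succ, Units.val_mul, Matrix.mul_assoc, h.haP, ← Matrix.mul_assoc, ih, Matrix.mul_assoc]
    rw [conj_eq (a' := b * (z ^ c * a ^ d)) (A' := cyc * ((l ^ c) • (dg l) ^ d)) h.hP hs h.hbP ?_ ?_]
    · exact R.mul_mem h.hb (R.mul_mem (R.pow_mem h.hz _) (R.pow_mem h.ha _))
    · have hzc : ((z ^ c : GL (Fin 3) F) : Matrix (Fin 3) (Fin 3) F) = (l ^ c) • 1 := by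
        rw [Units.val_pow_eq_pow_val, h.hzl, _root_.smul_pow, one_pow]
      rw [Units.val_mul, Units.val_mul, hzc, Matrix.smul_mul, Matrix.one_mul, Matrix.mul_smul, Matrix.smul_mul,
        Matrix.mul_assoc, hap, ← Matrix.mul_assoc, h.hbP, Matrix.mul_assoc, Matrix.mul_smul, Matrix.mul_smul]
    · have hpow : (![1, l, l ^ 2] : Fin 3 → F) ^ d = ![1, l ^ d, l ^ (2 * d)] := by
        funext i; fin_cases i <;> simp [pow_mul]
      rw [dg, Matrix.diagonal_pow, hpow]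
      ext i j
      rw [Matrix.mul_smul, Matrix.smul_mul, Matrix.smul_apply, Matrix.mul_diagonal, Matrix.mul_diagonal, Matrix.diagonal_mul]
      fin_cases i <;> fin_cases j <;> simp [cyc]
      · rw [e3]; ring
      · exact e1
      · rw [e2]; ring

theorem scalar_of_comm_std {l : F} (hl : IsPrimitiveRoot l 3) (Y : Matrix (Fin 3) (Fin 3) F)
    (c1 : Y * dg l = dg l * Y) (c2 : Y * cyc = cyc * Y) : Y = (Y 0 0) • (1 : Matrix (Fin 3) (Fin 3) F) := by
  have h1 : l ≠ 1 := hl.ne_one (by norm_num)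
  have h0 : l ≠ 0 := hl.ne_zero (by norm_num)
  have h2 : l ^ 2 ≠ 1 := hl.pow_ne_one_of_pos_of_lt (l := 2) (by norm_num) (by norm_num)
  have h3 : l ^ 2 ≠ l := fun h' => h1 (mul_left_cancel₀ h0 (by rw [← pow_two, h', mul_one]))
  have off : ∀ i j, Y i j * (![1, l, l ^ 2] : Fin 3 → F) j = (![1, l, l ^ 2] : Fin 3 → F) i * Y i j := by
    intro i j
    have := congrFun (congrFun c1 i) j
    rw [dg, Matrix.mul_diagonal, Matrix.diagonal_mul] at this
    exact this
  have hne : ∀ i j : Fin 3, i ≠ j → Y i j = 0 := by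
    intro i j hij
    have e := off i j
    have e' : Y i j * ((![1, l, l ^ 2] : Fin 3 → F) j - (![1, l, l ^ 2] : Fin 3 → F) i) = 0 := by
      rw [mul_sub, e]; ring
    rcases mul_eq_zero.1 e' with h4 | h4
    · exact h4
    · exfalso
      rw [sub_eq_zero] at h4
      have q1 : ![1, l, l ^ 2] 0 = (1 : F) := rfl
      have q2 : ![1, l, l ^ 2] 1 = (l : F) := rfl
      have q3 : ![1, l, l ^ 2] 2 = (l ^ 2 : F) := rfl
      have key : ∀ i j : Fin 3, i ≠ j →
          (i = 0 ∧ j = 1) ∨ (i = 0 ∧ j = 2) ∨ (i = 1 ∧ j = 0) ∨ (i = 1 ∧ j = 2) ∨ (i = 2 ∧ j = 0) ∨ (i = 2 ∧ j = 1) := by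
        decide
      have hij3 := key i j hij
      rcases hij3 with ⟨rfl, rfl⟩ | ⟨rfl, rfl⟩ | ⟨rfl, rfl⟩ | ⟨rfl, rfl⟩ | ⟨rfl, rfl⟩ | ⟨rfl, rfl⟩ <;>
        simp only [q1, q2, q3] at h4
      · exact h1 h4
      · exact h2 h4
      · exact h1 h4.symm
      · exact h3 h4
      · exact h2 h4.symm
      · exact h3 h4.symm
  have e1 : Y 1 1 = Y 0 0 := by
    have := congrFun (congrFun c2 1) 0
    simp only [cyc, Matrix.mul_apply, Fin.sum_univ_three] at this
    simpa using this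
  have e2 : Y 2 2 = Y 1 1 := by
    have := congrFun (congrFun c2 2) 1
    simp only [cyc, Matrix.mul_apply, Fin.sum_univ_three] at this
    simpa using this
  ext i j
  by_cases hij : i = j
  · subst hij
    fin_cases i
    · simp
    · simp [e1]
    · simp [e2, e1]
  · rw [hne i j hij, Matrix.smul_apply, Matrix.one_apply_ne hij, smul_zero]

theorem Std.scalar_of_comm (h : Std R l a b z P) (y : GL (Fin 3) F) (ha : y * a = a * y) (hb : y * b = b * y) :
    ∃ c : F, (y : Matrix (Fin 3) (Fin 3) F) = c • (1 : Matrix (Fin 3) (Fin 3) F) := by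
  have hu : IsUnit P := (Matrix.isUnit_iff_isUnit_det _).2 (isUnit_iff_ne_zero.2 h.hP)
  have hPP : P * P⁻¹ = 1 := Matrix.mul_nonsing_inv P (isUnit_iff_ne_zero.2 h.hP)
  set Y := P⁻¹ * (y : Matrix (Fin 3) (Fin 3) F) * P with hY
  have hyP : (y : Matrix (Fin 3) (Fin 3) F) * P = P * Y := by
    rw [hY, ← Matrix.mul_assoc, ← Matrix.mul_assoc, hPP, Matrix.one_mul]
  have hcomm : ∀ (g : GL (Fin 3) F) (G : Matrix (Fin 3) (Fin 3) F), (g : Matrix (Fin 3) (Fin 3) F) * P = P * G →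
      y * g = g * y → Y * G = G * Y := by
    intro g G hG hyg
    apply hu.mul_left_cancel
    have hyg' := congrArg Units.val hyg
    rw [Units.val_mul, Units.val_mul] at hyg'
    rw [← Matrix.mul_assoc, ← hyP, Matrix.mul_assoc, ← hG, ← Matrix.mul_assoc, hyg', Matrix.mul_assoc, hyP,
      ← Matrix.mul_assoc, hG, Matrix.mul_assoc]
  have hYs := scalar_of_comm_std h.hl Y (hcomm a _ h.haP ha) (hcomm b _ h.hbP hb)
  refine ⟨Y 0 0, hu.mul_right_cancel ?_⟩
  rw [hyP]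
  conv_lhs => rw [hYs]
  rw [Matrix.mul_smul, Matrix.mul_one, Matrix.smul_mul, Matrix.one_mul]

/-- no elements of order `r ≥ 5` in the normalizer -/
theorem Std.scalar_of_norm (h : Std R l a b z P) (hR : Nat.card R = 27) {r : ℕ} [Fact r.Prime] (hr : 5 ≤ r)
    (y : GL (Fin 3) F) (hy : y ∈ Cfsg.Geo.subgroupNormalizer R) (hyr : y ^ r = 1) :
    ∃ c : F, (y : Matrix (Fin 3) (Fin 3) F) = c • (1 : Matrix (Fin 3) (Fin 3) F) := by
  have := h.fin
  have hrp : r.Prime := Fact.out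
  have h1 := H99.NormFix.card_modEq R y hy r hyr
  set C : Subgroup (GL (Fin 3) F) := R ⊓ Subgroup.centralizer {y} with hC
  have hCR : C ≤ R := inf_le_left
  have hfin : Finite C := Finite.of_injective _ (Subgroup.inclusion_injective hCR)
  have hdvd : Nat.card C ∣ 3 ^ 3 := by
    have := Subgroup.card_dvd_of_le hCR
    rw [hR] at this
    exact this
  obtain ⟨k, hk, hk2⟩ := (Nat.dvd_prime_pow Nat.prime_three).1 hdvd
  have hz1 : z ≠ 1 := by
    intro hz
    have := h.hzl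
    rw [hz, Units.val_one] at this
    have e := congrFun (congrFun this 0) 0
    simp at e
    exact h.hl.ne_one (by norm_num) e.symm
  have hzC : z ∈ C := by
    refine Subgroup.mem_inf.2 ⟨h.hz, ?_⟩
    rw [Subgroup.mem_centralizer_iff]
    rintro _ rfl
    apply Units.ext
    rw [Units.val_mul, Units.val_mul, h.hzl, Matrix.mul_smul, Matrix.smul_mul, Matrix.one_mul, Matrix.mul_one]
  have hk0 : k ≠ 0 := by
    rintro rfl
    rw [pow_zero, Nat.card_eq_one_iff_unique] at hk2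
    have := hk2.1
    exact hz1 (congrArg Subtype.val (Subsingleton.elim (⟨z, hzC⟩ : C) 1))
  have hk3 : k = 3 := by
    by_contra hk3
    have hkc : k = 1 ∨ k = 2 := by omega
    rw [hR, hk2] at h1
    rcases hkc with rfl | rfl
    · have h2 : r ∣ 24 := by
        have := (Nat.modEq_iff_dvd' (by norm_num)).1 h1.symm
        simpa using this
      have h3 : r ∣ 2 ^ 3 * 3 := by simpa using h2
      rcases (hrp.dvd_mul.1 h3) with h4 | h4
      · have := (Nat.prime_dvd_prime_iff_eq hrp Nat.prime_two).1 (hrp.dvd_of_dvd_pow h4); omega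
      · have := (Nat.prime_dvd_prime_iff_eq hrp Nat.prime_three).1 h4; omega
    · have h2 : r ∣ 18 := by
        have := (Nat.modEq_iff_dvd' (by norm_num)).1 h1.symm
        simpa using this
      have h3 : r ∣ 2 * 3 ^ 2 := by simpa using h2
      rcases (hrp.dvd_mul.1 h3) with h4 | h4
      · have := (Nat.prime_dvd_prime_iff_eq hrp Nat.prime_two).1 h4; omega
      · have := (Nat.prime_dvd_prime_iff_eq hrp Nat.prime_three).1 (hrp.dvd_of_dvd_pow h4); omega
  have hCeq : C = R := by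
    apply Subgroup.eq_of_le_of_card_ge hCR
    rw [hR, hk2, hk3]; norm_num
  have hc : ∀ x ∈ R, y * x = x * y := by
    intro x hx
    rw [← hCeq] at hx
    have := (Subgroup.mem_inf.1 hx).2
    rw [Subgroup.mem_centralizer_iff] at this
    exact this y rfl
  exact h.scalar_of_comm y (hc a h.ha) (hc b h.hb)


/-- the ambient group -/
structure Amb (U : Subgroup (GL (Fin 3) F)) (S : Set F) : Prop where
  t2U : ∀ t : GL (Fin 3) F, (t : Matrix (Fin 3) (Fin 3) F) = t2 → t ∈ U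
  diagU : ∀ (t : GL (Fin 3) F) (D : Fin 3 → F), (∀ i, D i ∈ S) → (t : Matrix (Fin 3) (Fin 3) F) = Matrix.diagonal D → t ∈ U
  star : ∀ x ∈ U, ∀ D : Fin 3 → F, (∀ i, D i ∈ S) → ∀ Q : Matrix (Fin 3) (Fin 3) F, Q.det ≠ 0 →
    (x : Matrix (Fin 3) (Fin 3) F) * Q = Q * Matrix.diagonal D →
    ∃ g ∈ U ⊓ Cfsg.Geo.specialLinear (Fin 3) F, ((g⁻¹ * x * g : GL (Fin 3) F) : Matrix (Fin 3) (Fin 3) F) = Matrix.diagonal D
  cubes : ∀ w : F, w ^ 3 = 1 → w ∈ S ∧ -w ∈ S

theorem inv_diag (h2 : (2 : F) ≠ 0) (w : F) (hw3 : w ^ 3 = 1) (X : Matrix (Fin 3) (Fin 3) F) (hX : X * X = (w * w) • (1 : Matrix (Fin 3) (Fin 3) F))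
    (hdet : X.det = 1) (hns : ∀ c : F, X ≠ c • (1 : Matrix (Fin 3) (Fin 3) F)) :
    ∃ Q : Matrix (Fin 3) (Fin 3) F, Q.det ≠ 0 ∧ X * Q = Q * Matrix.diagonal ![-w, -w, w] := by
  have hw0 : w ≠ 0 := by rintro rfl; norm_num at hw3
  obtain ⟨k, m, hkm, hk0, hm0, hd, hconj⟩ := H99.Diag.exists_diag_matrix h2 X w hw0 hX
  rw [Fintype.card_fin] at hkm
  rw [hkm, hw3, mul_one, hdet] at hd
  have hm1 : (1 : F) ≠ -1 := by
    intro h
    apply h2
    linear_combination h
  have hk2 : k = 2 := by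
    have h3 : k = 0 ∨ k = 1 ∨ k = 2 ∨ k = 3 := by omega
    rcases h3 with rfl | rfl | rfl | rfl
    · exact absurd (hk0 rfl) (hns _)
    · exact absurd (hd.trans (by norm_num)) hm1
    · rfl
    · exact absurd (hd.trans (by norm_num)) hm1
  obtain rfl : m = 1 := by omega
  subst hk2
  obtain ⟨Q, hQ, hXQ⟩ := hconj (finSumFinEquiv : Fin 2 ⊕ Fin 1 ≃ Fin 3)
  refine ⟨Q, hQ, ?_⟩
  rw [hXQ]
  congr 1
  rw [H99.Diag.dg, Matrix.reindex_apply, Matrix.submatrix_diagonal_equiv]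
  congr 1
  funext i
  fin_cases i <;> rfl

theorem conj_of_both {U : Subgroup (GL (Fin 3) F)} {S : Set F} (hA : Amb U S) {x s : GL (Fin 3) F} (hx : x ∈ U) (hs : s ∈ U)
    (D : Fin 3 → F) (hD : ∀ i, D i ∈ S) {Q Q' : Matrix (Fin 3) (Fin 3) F} (hQ : Q.det ≠ 0) (hQ' : Q'.det ≠ 0)
    (hxQ : (x : Matrix (Fin 3) (Fin 3) F) * Q = Q * Matrix.diagonal D)
    (hsQ : (s : Matrix (Fin 3) (Fin 3) F) * Q' = Q' * Matrix.diagonal D) :
    ∃ g ∈ U ⊓ Cfsg.Geo.specialLinear (Fin 3) F, g⁻¹ * x * g = s := by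
  obtain ⟨g1, hg1, h1⟩ := hA.star x hx D hD Q hQ hxQ
  obtain ⟨g2, hg2, h2⟩ := hA.star s hs D hD Q' hQ' hsQ
  refine ⟨g1 * g2⁻¹, Subgroup.mul_mem _ hg1 (Subgroup.inv_mem _ hg2), ?_⟩
  have h3 : g1⁻¹ * x * g1 = g2⁻¹ * s * g2 := Units.ext (h1.trans h2.symm)
  have e1 : (g1 * g2⁻¹)⁻¹ * x * (g1 * g2⁻¹) = g2 * (g1⁻¹ * x * g1) * g2⁻¹ := by group
  rw [e1, h3]
  group

/-- unit with given matrix -/
theorem exists_unit (X : Matrix (Fin 3) (Fin 3) F) (hX : X.det ≠ 0) : ∃ g : GL (Fin 3) F, (g : Matrix (Fin 3) (Fin 3) F) = X :=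
  ⟨Matrix.GeneralLinearGroup.mkOfDetNeZero X hX, rfl⟩

theorem Std.two (h : Std R l a b z P) (h2 : (2 : F) ≠ 0) {U : Subgroup (GL (Fin 3) F)} {S : Set F} (hA : Amb U S)
    (hPU : ∀ p : GL (Fin 3) F, (p : Matrix (Fin 3) (Fin 3) F) = P → p ∈ U)
    (x : GL (Fin 3) F) (hx : x ∈ U ⊓ Cfsg.Geo.specialLinear (Fin 3) F) (ζ : F)
    (hx2 : ((x ^ 2 : GL (Fin 3) F) : Matrix (Fin 3) (Fin 3) F) = ζ • (1 : Matrix (Fin 3) (Fin 3) F))
    (hns : ∀ c : F, (x : Matrix (Fin 3) (Fin 3) F) ≠ c • (1 : Matrix (Fin 3) (Fin 3) F)) :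
    ∃ g ∈ U ⊓ Cfsg.Geo.specialLinear (Fin 3) F, g⁻¹ * x * g ∈ Cfsg.Geo.subgroupNormalizer R := by
  have hdx : (x : Matrix (Fin 3) (Fin 3) F).det = 1 := by
    have := hx.2
    exact congrArg Units.val this
  have hζ : ζ ^ 3 = 1 := by
    have := congrArg Matrix.det hx2
    rw [Units.val_pow_eq_pow_val, Matrix.det_pow, hdx, Matrix.det_smul, Matrix.det_one, one_pow, mul_one, Fintype.card_fin] at this
    exact this.symm
  set w := ζ ^ 2 with hw
  have hw3 : w ^ 3 = 1 := by rw [hw, ← pow_mul, mul_comm, pow_mul, hζ, one_pow]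
  have hww : w * w = ζ := by rw [hw]; linear_combination ζ * hζ
  have hw0 : w ≠ 0 := by intro h0; rw [h0] at hw3; norm_num at hw3
  obtain ⟨Q, hQ, hxQ⟩ := inv_diag h2 w hw3 x (by rw [hww, ← hx2, pow_two]; rfl) hdx hns
  obtain ⟨p, hp⟩ := exists_unit P h.hP
  obtain ⟨t, ht⟩ := exists_unit (t2 : Matrix (Fin 3) (Fin 3) F) (by rw [t2_det]; exact one_ne_zero)
  obtain ⟨c, hc⟩ := exists_unit (Matrix.diagonal (fun _ => w) : Matrix (Fin 3) (Fin 3) F) (by
    rw [Matrix.det_diagonal, Finset.prod_const]; exact pow_ne_zero _ hw0)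
  have hcw : (c : Matrix (Fin 3) (Fin 3) F) = w • 1 := by
    rw [hc, Matrix.smul_one_eq_diagonal]
  have hcomm : ∀ g : GL (Fin 3) F, c * g = g * c := by
    intro g
    apply Units.ext
    rw [Units.val_mul, Units.val_mul, hcw, Matrix.mul_smul, Matrix.smul_mul, Matrix.one_mul, Matrix.mul_one]
  have hs2 : p * t * p⁻¹ ∈ Cfsg.Geo.subgroupNormalizer R := by
    apply h.norm_t2
    have : (p * t * p⁻¹) * p = p * t := by group
    have := congrArg Units.val this
    rw [Units.val_mul, Units.val_mul p t, hp, ht] at this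
    exact this
  have hcN : c ∈ Cfsg.Geo.subgroupNormalizer R := by
    apply h.mem_norm
    · rw [hcomm, mul_inv_cancel_right]; exact h.ha
    · rw [hcomm, mul_inv_cancel_right]; exact h.hb
  set s := c * (p * t * p⁻¹) with hs
  have hsN : s ∈ Cfsg.Geo.subgroupNormalizer R := Subgroup.mul_mem _ hcN hs2
  have hsU : s ∈ U := by
    refine U.mul_mem (hA.diagU c _ (fun _ => (hA.cubes w hw3).1) hc) ?_
    exact U.mul_mem (U.mul_mem (hPU p hp) (hA.t2U t ht)) (U.inv_mem (hPU p hp))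
  have htt : t * t = 1 := by
    apply Units.ext; rw [Units.val_mul, ht, t2_sq]; rfl
  have hss : (s : Matrix (Fin 3) (Fin 3) F) * s = (w * w) • (1 : Matrix (Fin 3) (Fin 3) F) := by
    have e : s * s = c * c := by
      calc s * s = c * (p * t * p⁻¹) * (c * (p * t * p⁻¹)) := rfl
        _ = c * ((p * t * p⁻¹) * c) * (p * t * p⁻¹) := by group
        _ = c * (c * (p * t * p⁻¹)) * (p * t * p⁻¹) := by rw [← hcomm (p * t * p⁻¹)]
        _ = c * c * (p * (t * t) * p⁻¹) := by group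
        _ = c * c := by rw [htt]; group
    have e2 : (s : Matrix (Fin 3) (Fin 3) F) * s = (c : Matrix (Fin 3) (Fin 3) F) * c := congrArg Units.val e
    rw [e2, hcw, Matrix.smul_mul, Matrix.one_mul, smul_smul]
  have hsd : (s : Matrix (Fin 3) (Fin 3) F).det = 1 := by
    rw [hs, Units.val_mul, Matrix.det_mul, hcw, Matrix.det_smul, Matrix.det_one, Fintype.card_fin, hw3, one_mul, one_mul,
      Units.val_mul, Units.val_mul, Matrix.det_mul, Matrix.det_mul, ht, t2_det, mul_one, ← Matrix.det_mul, ← Units.val_mul,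
      mul_inv_cancel, Units.val_one, Matrix.det_one]
  have hsns : ∀ μ : F, (s : Matrix (Fin 3) (Fin 3) F) ≠ μ • (1 : Matrix (Fin 3) (Fin 3) F) := by
    intro μ hμ
    have hsp : (s : Matrix (Fin 3) (Fin 3) F) * P = P * (w • t2) := by
      have e : s * p = p * (c * t) := by
        rw [hs, mul_assoc, inv_mul_cancel_right, ← mul_assoc, hcomm p, mul_assoc]
      have e2 : (s : Matrix (Fin 3) (Fin 3) F) * p = p * ((c : Matrix (Fin 3) (Fin 3) F) * t) := congrArg Units.val e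
      rw [hp, hcw, ht, Matrix.smul_mul, Matrix.one_mul] at e2
      exact e2
    have hu : IsUnit P := (Matrix.isUnit_iff_isUnit_det _).2 (isUnit_iff_ne_zero.2 h.hP)
    rw [hμ, Matrix.smul_mul, Matrix.one_mul] at hsp
    have h5 : P * (μ • (1 : Matrix (Fin 3) (Fin 3) F)) = P * (w • t2) := by
      rw [← hsp, Matrix.mul_smul, Matrix.mul_one]
    have h6 := hu.mul_left_cancel h5
    have h7 := congrFun (congrFun h6 1) 2
    simp [t2] at h7
    exact hw0 h7
  obtain ⟨Q', hQ', hsQ'⟩ := inv_diag h2 w hw3 s hss hsd hsns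
  obtain ⟨g, hg, hgs⟩ := conj_of_both hA hx.1 hsU _ (by
    intro i
    fin_cases i
    · exact (hA.cubes w hw3).2
    · exact (hA.cubes w hw3).2
    · exact (hA.cubes w hw3).1) hQ hQ' hxQ hsQ'
  exact ⟨g, hg, by rw [hgs]; exact hsN⟩

theorem Std.three (h : Std R l a b z P) {U : Subgroup (GL (Fin 3) F)} {S : Set F} (hA : Amb U S)
    (hPU : ∀ p : GL (Fin 3) F, (p : Matrix (Fin 3) (Fin 3) F) = P → p ∈ U)
    (x : GL (Fin 3) F) (hx : x ∈ U) (ζ : F) (hζ : ζ ≠ 0) (D : Fin 3 → F) (hDS : ∀ i, D i ∈ S) (hD : ∀ i, D i ^ 3 = ζ)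
    (Q : Matrix (Fin 3) (Fin 3) F) (hQ : Q.det ≠ 0)
    (hxQ : (x : Matrix (Fin 3) (Fin 3) F) * Q = Q * Matrix.diagonal D) :
    ∃ g ∈ U ⊓ Cfsg.Geo.specialLinear (Fin 3) F, g⁻¹ * x * g ∈ Cfsg.Geo.subgroupNormalizer R := by
  have hD0 : ∀ i, D i ≠ 0 := fun i h0 => hζ (by rw [← hD i, h0]; norm_num)
  obtain ⟨p, hp⟩ := exists_unit P h.hP
  obtain ⟨c, hc⟩ := exists_unit (Matrix.diagonal D : Matrix (Fin 3) (Fin 3) F) (by
    rw [Matrix.det_diagonal]; exact Finset.prod_ne_zero_iff.2 (fun i _ => hD0 i))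
  have hs : ((p * c * p⁻¹ : GL (Fin 3) F) : Matrix (Fin 3) (Fin 3) F) * P = P * Matrix.diagonal D := by
    have : (p * c * p⁻¹) * p = p * c := by group
    have := congrArg Units.val this
    rw [Units.val_mul, Units.val_mul p c, hp, hc] at this
    exact this
  have hsU : p * c * p⁻¹ ∈ U := U.mul_mem (U.mul_mem (hPU p hp) (hA.diagU c D hDS hc)) (U.inv_mem (hPU p hp))
  obtain ⟨g, hg, hgs⟩ := conj_of_both hA hx hsU D hDS hQ h.hP hxQ hs
  exact ⟨g, hg, by rw [hgs]; exact h.norm_diag D ζ hζ hD _ hs⟩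


theorem dvd_of_index {G : Type*} [Group G] (R H K : Subgroup G) (hRH : R ≤ H) (hRK : R ≤ K)
    (hR : Nat.card R = 27) (hidx : 3 ∣ H.relIndex K) : 81 ∣ Nat.card K := by
  have h1 : Nat.card (R.subgroupOf K) = 27 := by
    rw [← hR]
    exact Nat.card_congr (Subgroup.subgroupOfEquivOfLe hRK).toEquiv
  have h2 : R.subgroupOf K ≤ H.subgroupOf K := fun x hx => hRH hx
  have h3 := Subgroup.card_dvd_of_le h2
  rw [h1] at h3
  have h4 := Subgroup.card_mul_index (H.subgroupOf K)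
  have h5 : (H.subgroupOf K).index = H.relIndex K := rfl
  rw [h5] at h4
  obtain ⟨a, ha⟩ := h3
  obtain ⟨b, hb⟩ := hidx
  rw [← h4, ha, hb]
  exact ⟨a * b, by ring⟩

theorem Std.det (h : Std R l a b z P) : ∀ x ∈ R, Matrix.GeneralLinearGroup.det x = 1 := by
  have hdet : ∀ (g : GL (Fin 3) F) (G : Matrix (Fin 3) (Fin 3) F), (g : Matrix (Fin 3) (Fin 3) F) * P = P * G → G.det = 1 →
      Matrix.GeneralLinearGroup.det g = 1 := by
    intro g G hg hG
    apply Units.ext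
    have := congrArg Matrix.det hg
    rw [Matrix.det_mul, Matrix.det_mul, hG, mul_one] at this
    exact mul_right_cancel₀ h.hP (this.trans (one_mul _).symm)
  have h1 := hdet a _ h.haP (by
    rw [dg, Matrix.det_diagonal, Fin.prod_univ_three]
    show 1 * l * l ^ 2 = 1
    linear_combination h.hl.pow_eq_one)
  have h2 := hdet b _ h.hbP (by rw [cyc, Matrix.det_fin_three]; simp)
  intro x hx
  rw [← h.hcl] at hx
  have : Subgroup.closure {a, b} ≤ (Matrix.GeneralLinearGroup.det : GL (Fin 3) F →* Fˣ).ker := by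
    rw [Subgroup.closure_le]
    rintro _ (rfl | rfl)
    · exact h1
    · exact h2
  exact this hx

/-- existence of the standard data -/
theorem exists_std {ω : F} (hω : IsPrimitiveRoot ω 3) (R : Subgroup (GL (Fin 3) F)) (hR : Nat.card R = 27)
    (hRe : Monoid.exponent R = 3) (hna : ¬ IsMulCommutative R) :
    ∃ (l : F) (a b z : GL (Fin 3) F) (P : Matrix (Fin 3) (Fin 3) F), Std R l a b z P ∧ (b : Matrix (Fin 3) (Fin 3) F) ^ 3 = 1 ∧
      (∀ i, P i 1 = ((b : Matrix (Fin 3) (Fin 3) F) *ᵥ (fun i => P i 0)) i) ∧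
      (∀ i, P i 2 = ((b : Matrix (Fin 3) (Fin 3) F) *ᵥ ((b : Matrix (Fin 3) (Fin 3) F) *ᵥ (fun i => P i 0))) i) := by
  have : Finite R := Nat.finite_of_card_ne_zero (by omega)
  obtain ⟨a, ha, b, hb, hcl, ha3, hb3, z, hz, hz3, hz1, hab, hza, hzb⟩ := exists_gen R hR hRe hna
  have ha3' : (a : Matrix (Fin 3) (Fin 3) F) ^ 3 = 1 := congrArg Units.val ha3
  have hb3' : (b : Matrix (Fin 3) (Fin 3) F) ^ 3 = 1 := congrArg Units.val hb3
  have hz3' : (z : Matrix (Fin 3) (Fin 3) F) ^ 3 = 1 := congrArg Units.val hz3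
  have hab' : (a : Matrix (Fin 3) (Fin 3) F) * b = z * ((b : Matrix (Fin 3) (Fin 3) F) * a) := congrArg Units.val hab
  have hza' : (z : Matrix (Fin 3) (Fin 3) F) * a = a * z := congrArg Units.val hza
  have hzb' : (z : Matrix (Fin 3) (Fin 3) F) * b = b * z := congrArg Units.val hzb
  obtain ⟨l, u, hl, hu, hau, hzu⟩ := exists_vec hω _ _ _ ha3' hb3' hz3' (fun h => hz1 (Units.ext h)) hab' hza' hzb'
  obtain ⟨P, hP, h0, h1, h2, haP, hbP, hzl⟩ := std_form hl _ _ _ hb3' hab' hzb' u hu hau hzu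
  have hu0 : (fun i => P i 0) = u := funext h0
  exact ⟨l, a, b, z, P, ⟨hl, ‹_›, ha, hb, hz, hcl, hP, haP, hbP, hzl⟩, hb3', by rw [hu0]; exact h1, by rw [hu0]; exact h2⟩

theorem card_sl [Fintype F] : Nat.card (Cfsg.Geo.specialLinear (Fin 3) F) * (Fintype.card F - 1) = Nat.card (GL (Fin 3) F) := by
  classical
  have h1 := Subgroup.card_mul_index (Matrix.GeneralLinearGroup.det (n := Fin 3) (R := F)).ker
  rw [Subgroup.index_ker] at h1
  have hsurj : Function.Surjective (Matrix.GeneralLinearGroup.det (n := Fin 3) (R := F)) := by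
    intro k
    let d : Fin 3 → F := fun i => if i = 0 then (k : F) else 1
    have hd : (Matrix.diagonal d).det = k := by
      rw [Matrix.det_diagonal]
      simp [d]
    refine ⟨Matrix.GeneralLinearGroup.mkOfDetNeZero (Matrix.diagonal d) (by rw [hd]; exact k.ne_zero), ?_⟩
    apply Units.ext
    show (Matrix.diagonal d).det = k
    exact hd
  rw [MonoidHom.range_eq_top.2 hsurj, Subgroup.card_top, Nat.card_units,
    Nat.card_eq_fintype_card (α := F)] at h1
  exact h1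

theorem not_dvd_int (q N : ℤ) (hq : 1 < q) (hmod : q % 9 = 4 ∨ q % 9 = 7)
    (h : N * (q - 1) = (q ^ 3 - 1) * (q ^ 3 - q) * (q ^ 3 - q ^ 2)) : ¬ (81 : ℤ) ∣ N := by
  have hN : N = q ^ 3 * (q ^ 2 + q + 1) * (q - 1) ^ 2 * (q + 1) := by
    have : q - 1 ≠ 0 := by omega
    apply mul_right_cancel₀ this
    rw [h]; ring
  intro hd
  have h3 : Prime (3 : ℤ) := Int.prime_three
  rcases hmod with hm | hm
  · obtain ⟨k, hk⟩ : ∃ k, q = 9 * k + 4 := ⟨q / 9, by omega⟩
    have h27 : N = 27 * ((9 * k + 4) ^ 3 * (27 * k ^ 2 + 27 * k + 7) * (3 * k + 1) ^ 2 * (9 * k + 5)) := by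
      rw [hN, hk]; ring
    rw [h27, show (81 : ℤ) = 27 * 3 by norm_num] at hd
    have hd' := (mul_dvd_mul_iff_left (by norm_num : (27 : ℤ) ≠ 0)).1 hd
    rcases h3.dvd_or_dvd hd' with hd1 | hd1
    · rcases h3.dvd_or_dvd hd1 with hd2 | hd2
      · rcases h3.dvd_or_dvd hd2 with hd3 | hd3
        · have := h3.dvd_of_dvd_pow hd3; omega
        · generalize k ^ 2 = kk at hd3; omega
      · have := h3.dvd_of_dvd_pow hd2; omega
    · omega
  · obtain ⟨k, hk⟩ : ∃ k, q = 9 * k + 7 := ⟨q / 9, by omega⟩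
    have h27 : N = 27 * ((9 * k + 7) ^ 3 * (27 * k ^ 2 + 45 * k + 19) * (3 * k + 2) ^ 2 * (9 * k + 8)) := by
      rw [hN, hk]; ring
    rw [h27, show (81 : ℤ) = 27 * 3 by norm_num] at hd
    have hd' := (mul_dvd_mul_iff_left (by norm_num : (27 : ℤ) ≠ 0)).1 hd
    rcases h3.dvd_or_dvd hd' with hd1 | hd1
    · rcases h3.dvd_or_dvd hd1 with hd2 | hd2
      · rcases h3.dvd_or_dvd hd2 with hd3 | hd3
        · have := h3.dvd_of_dvd_pow hd3; omega
        · generalize k ^ 2 = kk at hd3; omega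
      · have := h3.dvd_of_dvd_pow hd2; omega
    · omega

/-- the generic negative case -/
theorem Std.neg (h : Std R l a b z P) (hR : Nat.card R = 27) [Finite F] (K : Subgroup (GL (Fin 3) F))
    (hK : K ≤ Cfsg.Geo.specialLinear (Fin 3) F) {r : ℕ} [Fact r.Prime] (hr : 5 ≤ r)
    (hΩ : r ∣ (Cfsg.Geo.subgroupNormalizer R).relIndex K) :
    ¬ (∀ x ∈ K, (∃ z : F, ((x ^ r : GL (Fin 3) F) : Matrix (Fin 3) (Fin 3) F) = z • (1 : Matrix (Fin 3) (Fin 3) F)) →
      (∀ z : F, (x : Matrix (Fin 3) (Fin 3) F) ≠ z • (1 : Matrix (Fin 3) (Fin 3) F)) →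
      ∃ g ∈ K, g⁻¹ * x * g ∈ Cfsg.Geo.subgroupNormalizer R) := by
  intro H
  have hrp : r.Prime := Fact.out
  have hfin : Finite K := inferInstance
  have hdvd : r ∣ Nat.card K := by
    refine hΩ.trans ?_
    have h4 := Subgroup.card_mul_index ((Cfsg.Geo.subgroupNormalizer R).subgroupOf K)
    exact Dvd.intro_left _ h4
  obtain ⟨x, hx⟩ := exists_prime_orderOf_dvd_card' r hdvd
  have hxr : (x : GL (Fin 3) F) ^ r = 1 := by
    have := pow_orderOf_eq_one x
    rw [hx] at this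
    exact congrArg Subtype.val this
  have hx1 : (x : GL (Fin 3) F) ≠ 1 := by
    intro h1
    have : x = 1 := Subtype.ext h1
    rw [this, orderOf_one] at hx
    omega
  have hns : ∀ ζ : F, ((x : GL (Fin 3) F) : Matrix (Fin 3) (Fin 3) F) ≠ ζ • (1 : Matrix (Fin 3) (Fin 3) F) := by
    intro ζ hζ
    have hd : ((x : GL (Fin 3) F) : Matrix (Fin 3) (Fin 3) F).det = 1 := congrArg Units.val (hK x.2)
    rw [hζ, Matrix.det_smul, Matrix.det_one, mul_one, Fintype.card_fin] at hd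
    have h2 : (((x : GL (Fin 3) F) : Matrix (Fin 3) (Fin 3) F)) ^ r = 1 := congrArg Units.val hxr
    rw [hζ, _root_.smul_pow, one_pow] at h2
    have h3 := congrFun (congrFun h2 0) 0
    simp at h3
    have h4 : ζ ^ (Nat.gcd 3 r) = 1 := pow_gcd_eq_one.2 ⟨hd, h3⟩
    have h5 : Nat.gcd 3 r = 1 := by
      rw [← Nat.Coprime, Nat.coprime_primes Nat.prime_three hrp]; omega
    rw [h5, pow_one] at h4
    apply hx1
    apply Units.ext
    rw [hζ, h4, one_smul]; rfl
  obtain ⟨g, hg, hgN⟩ := H x x.2 ⟨1, by rw [hxr, one_smul]; rfl⟩ hns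
  obtain ⟨c, hc⟩ := h.scalar_of_norm hR hr _ hgN (by
    have : (g⁻¹ * (x : GL (Fin 3) F) * g) ^ r = g⁻¹ * (x : GL (Fin 3) F) ^ r * g := by
      have := conj_pow (i := r) (a := g⁻¹) (b := (x : GL (Fin 3) F))
      rw [inv_inv] at this
      exact this
    rw [this, hxr]; group)
  apply hns c
  have h6 : (x : GL (Fin 3) F) = g * (g⁻¹ * x * g) * g⁻¹ := by group
  have h7 := congrArg Units.val h6
  rw [Units.val_mul, Units.val_mul, hc, Matrix.mul_smul, Matrix.mul_one, Matrix.smul_mul, ← Units.val_mul, mul_inv_cancel] at h7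
  exact h7


theorem not_dvd_int' (q N : ℤ) (hq : 1 < q) (hmod : q % 9 = 2 ∨ q % 9 = 5)
    (h : N * (q + 1) = q ^ 3 * ((q + 1) * (q ^ 2 - 1) * (q ^ 3 + 1))) : ¬ (81 : ℤ) ∣ N := by
  have hN : N = q ^ 3 * (q ^ 2 - q + 1) * (q + 1) ^ 2 * (q - 1) := by
    have : q + 1 ≠ 0 := by omega
    apply mul_right_cancel₀ this
    rw [h]; ring
  intro hd
  have h3 : Prime (3 : ℤ) := Int.prime_three
  rcases hmod with hm | hm
  · obtain ⟨k, hk⟩ : ∃ k, q = 9 * k + 2 := ⟨q / 9, by omega⟩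
    have h27 : N = 27 * ((9 * k + 2) ^ 3 * (27 * k ^ 2 + 9 * k + 1) * (3 * k + 1) ^ 2 * (9 * k + 1)) := by
      rw [hN, hk]; ring
    rw [h27, show (81 : ℤ) = 27 * 3 by norm_num] at hd
    have hd' := (mul_dvd_mul_iff_left (by norm_num : (27 : ℤ) ≠ 0)).1 hd
    rcases h3.dvd_or_dvd hd' with hd1 | hd1
    · rcases h3.dvd_or_dvd hd1 with hd2 | hd2
      · rcases h3.dvd_or_dvd hd2 with hd3 | hd3
        · have := h3.dvd_of_dvd_pow hd3; omega
        · generalize k ^ 2 = kk at hd3; omega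
      · have := h3.dvd_of_dvd_pow hd2; omega
    · omega
  · obtain ⟨k, hk⟩ : ∃ k, q = 9 * k + 5 := ⟨q / 9, by omega⟩
    have h27 : N = 27 * ((9 * k + 5) ^ 3 * (27 * k ^ 2 + 27 * k + 7) * (3 * k + 2) ^ 2 * (9 * k + 4)) := by
      rw [hN, hk]; ring
    rw [h27, show (81 : ℤ) = 27 * 3 by norm_num] at hd
    have hd' := (mul_dvd_mul_iff_left (by norm_num : (27 : ℤ) ≠ 0)).1 hd
    rcases h3.dvd_or_dvd hd' with hd1 | hd1
    · rcases h3.dvd_or_dvd hd1 with hd2 | hd2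
      · rcases h3.dvd_or_dvd hd2 with hd3 | hd3
        · have := h3.dvd_of_dvd_pow hd3; omega
        · generalize k ^ 2 = kk at hd3; omega
      · have := h3.dvd_of_dvd_pow hd2; omega
    · omega

end H99.Ext27
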