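import Mathlib
import Cfsg.Prelude.Def_GeometricClasses

set_option autoImplicit false
set_option linter.unusedSimpArgs false

/-! Subalgebras of the matrix algebra which are fields of degree `n`: Singer cycles and their normalizers. -/

namespace H99.FieldSub

open Matrix Module

universe u

variable {F : Type u} [Field F] {n : ℕ}

theorem exists_field (hn : 0 < n) {k : ℕ} (K : Subalgebra F (Matrix (Fin n) (Fin n) F)) (hK : Cfsg.Geo.IsFieldSubalgebra k K) :
    ∃ (E : Type u) (_ : Field E) (_ : Algebra F E) (ρ : E →ₐ[F] Matrix (Fin n) (Fin n) F),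
      (∀ M, M ∈ K ↔ ∃ e, ρ e = M) ∧ finrank F E = k := by
  have hne : Nonempty (Fin n) := ⟨⟨0, hn⟩⟩
  have hf : IsField K := by
    refine ⟨⟨0, 1, ?_⟩, ?_, ?_⟩
    · exact zero_ne_one
    · intro x y
      exact Subtype.ext (hK.comm x x.2 y y.2)
    · intro a ha
      obtain ⟨y, hy, hxy⟩ := hK.inv a a.2 (fun h => ha (Subtype.ext h))
      exact ⟨⟨y, hy⟩, Subtype.ext hxy⟩
  let _ : Field K := hf.toField
  refine ⟨K, inferInstance, (inferInstance : Algebra F K), K.val, ?_, hK.finrank_eq⟩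
  intro M
  constructor
  · intro hM
    exact ⟨⟨M, hM⟩, rfl⟩
  · rintro ⟨e, rfl⟩
    exact e.2

variable {E : Type u} [Field E] [Algebra F E] (ρ : E →ₐ[F] Matrix (Fin n) (Fin n) F)

theorem mulVec_eq_zero {e : E} {v : Fin n → F} (hv : v ≠ 0) (h : ρ e *ᵥ v = 0) : e = 0 := by
  by_contra he
  apply hv
  have : ρ e⁻¹ *ᵥ (ρ e *ᵥ v) = v := by
    rw [Matrix.mulVec_mulVec, ← map_mul, inv_mul_cancel₀ he, map_one, Matrix.one_mulVec]
  rw [← this, h, Matrix.mulVec_zero]

/-- the orbit map -/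
def orb (v : Fin n → F) : E →ₗ[F] (Fin n → F) where
  toFun e := ρ e *ᵥ v
  map_add' a b := by rw [map_add, Matrix.add_mulVec]
  map_smul' c a := by rw [map_smul, Matrix.smul_mulVec]; rfl

theorem orb_injective {v : Fin n → F} (hv : v ≠ 0) : Function.Injective (orb ρ v) := by
  rw [← LinearMap.ker_eq_bot, eq_bot_iff]
  intro e he
  exact mulVec_eq_zero ρ hv he

variable [FiniteDimensional F E]

noncomputable def orbE (hE : finrank F E = n) {v : Fin n → F} (hv : v ≠ 0) : E ≃ₗ[F] (Fin n → F) :=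
  LinearEquiv.ofInjectiveOfFinrankEq (orb ρ v) (orb_injective ρ hv) (by simp [hE])

theorem orbE_apply (hE : finrank F E = n) {v : Fin n → F} (hv : v ≠ 0) (e : E) : orbE ρ hE hv e = ρ e *ᵥ v := by
  rfl

theorem exists_eq (hE : finrank F E = n) {v : Fin n → F} (hv : v ≠ 0) (w : Fin n → F) : ∃ e, ρ e *ᵥ v = w := by
  refine ⟨(orbE ρ hE hv).symm w, ?_⟩
  rw [← orbE_apply ρ hE hv, LinearEquiv.apply_symm_apply]

theorem exists_of_comm (hn : 0 < n) (hE : finrank F E = n) (y : Matrix (Fin n) (Fin n) F) (hy : ∀ e, y * ρ e = ρ e * y) :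
    ∃ e, y = ρ e := by
  have hne : Nonempty (Fin n) := ⟨⟨0, hn⟩⟩
  obtain ⟨v, hv⟩ := exists_ne (0 : Fin n → F)
  obtain ⟨e, he⟩ := exists_eq ρ hE hv (y *ᵥ v)
  refine ⟨e, ?_⟩
  apply Matrix.toLin'.injective
  apply LinearMap.ext
  intro w
  obtain ⟨e', rfl⟩ := exists_eq ρ hE hv w
  rw [Matrix.toLin'_apply, Matrix.toLin'_apply, Matrix.mulVec_mulVec, Matrix.mulVec_mulVec, hy, ← Matrix.mulVec_mulVec, ← he,
    Matrix.mulVec_mulVec, ← map_mul, ← map_mul, mul_comm]

theorem scalar_of_eigen {e : E} {v : Fin n → F} (hv : v ≠ 0) {l : F} (h : ρ e *ᵥ v = l • v) :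
    ρ e = l • (1 : Matrix (Fin n) (Fin n) F) := by
  have h1 : ρ (e - algebraMap F E l) *ᵥ v = 0 := by
    rw [map_sub, Matrix.sub_mulVec, h, AlgHom.commutes, Algebra.algebraMap_eq_smul_one, Matrix.smul_mulVec,
      Matrix.one_mulVec, sub_self]
  have h2 := mulVec_eq_zero ρ hv h1
  rw [sub_eq_zero] at h2
  rw [h2, AlgHom.commutes, Algebra.algebraMap_eq_smul_one]

/-- in the normalizer but outside of the field: eigenspaces have dimension at most one -/
theorem eigen_unique (hn : n.Prime) (hE : finrank F E = n) (y : Matrix (Fin n) (Fin n) F)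
    (hy : ∀ e, ∃ e', y * ρ e = ρ e' * y) (hyE : ∀ e, y ≠ ρ e) {l : F} (hl : l ≠ 0) {v w : Fin n → F} (hv : v ≠ 0)
    (hyv : y *ᵥ v = l • v) (hyw : y *ᵥ w = l • w) : ∃ c : F, w = c • v := by
  classical
  let S : Subalgebra F E := (Subalgebra.centralizer F ({y} : Set (Matrix (Fin n) (Fin n) F))).comap ρ
  have hS : ∀ e, e ∈ S ↔ y * ρ e = ρ e * y := by
    intro e
    rw [Subalgebra.mem_comap, Subalgebra.mem_centralizer_iff]
    simp
  have : IsSimpleOrder (Subalgebra F E) := Subalgebra.isSimpleOrder_of_finrank_prime F E (by rw [hE]; exact hn)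
  rcases eq_bot_or_eq_top S with h | h
  · obtain ⟨e, rfl⟩ := exists_eq ρ hE hv w
    obtain ⟨e', he'⟩ := hy e
    have h1 : l • (ρ e *ᵥ v) = l • (ρ e' *ᵥ v) := by
      rw [← hyw, Matrix.mulVec_mulVec, he', ← Matrix.mulVec_mulVec, hyv, Matrix.mulVec_smul]
    have h2 : ρ e *ᵥ v = ρ e' *ᵥ v := smul_right_injective _ hl h1
    have h3 : e = e' := orb_injective ρ hv h2
    have h4 : e ∈ S := by rw [hS, he', ← h3]
    rw [h, Algebra.mem_bot] at h4
    obtain ⟨c, rfl⟩ := h4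
    refine ⟨c, ?_⟩
    rw [AlgHom.commutes, Algebra.algebraMap_eq_smul_one, Matrix.smul_mulVec, Matrix.one_mulVec]
  · exfalso
    obtain ⟨e, he⟩ := exists_of_comm ρ hn.pos hE y (fun e => (hS e).1 (by rw [h]; trivial))
    exact hyE e he

theorem det_eq_norm (hn : 0 < n) (hE : finrank F E = n) (e : E) : (ρ e).det = Algebra.norm F e := by
  have hne : Nonempty (Fin n) := ⟨⟨0, hn⟩⟩
  obtain ⟨v, hv⟩ := exists_ne (0 : Fin n → F)
  rw [Algebra.norm_apply, ← LinearMap.det_toLin', ← LinearMap.det_conj (Algebra.lmul F E e) (orbE ρ hE hv)]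
  congr 1
  apply LinearMap.ext
  intro w
  obtain ⟨e', rfl⟩ := exists_eq ρ hE hv w
  rw [LinearMap.comp_apply, LinearMap.comp_apply, Matrix.toLin'_apply, Matrix.mulVec_mulVec]
  have h1 : (orbE ρ hE hv).symm (ρ e' *ᵥ v) = e' := by
    rw [← orbE_apply ρ hE hv, LinearEquiv.symm_apply_apply]
  show _ = orbE ρ hE hv (e * (orbE ρ hE hv).symm (ρ e' *ᵥ v))
  rw [h1, orbE_apply, map_mul]

variable [Fintype F]

theorem exists_det_eq (hn : 0 < n) (hE : finrank F E = n) (d : F) : ∃ e : E, (ρ e).det = d := by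
  have : Finite E := Module.finite_of_finite F
  obtain ⟨e, he⟩ := FiniteField.norm_surjective F E d
  exact ⟨e, by rw [det_eq_norm ρ hn hE, he]⟩

/-- a Frobenius element in the normalizer -/
theorem exists_frob (hn : 2 ≤ n) (hE : finrank F E = n) :
    ∃ y : Matrix (Fin n) (Fin n) F, y ^ n = 1 ∧ (∀ e, y * ρ e = ρ (e ^ Fintype.card F) * y) ∧ ∀ e, y ≠ ρ e := by
  classical
  have hne : Nonempty (Fin n) := ⟨⟨0, by omega⟩⟩
  have hfin : Finite E := Module.finite_of_finite F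
  have : Fintype E := Fintype.ofFinite E
  obtain ⟨v, hv⟩ := exists_ne (0 : Fin n → F)
  have hcardE : Fintype.card E = Fintype.card F ^ n := by
    rw [← hE]; exact Module.card_eq_pow_finrank
  let fr : E →ₐ[F] E := FiniteField.frobeniusAlgHom F E
  have hfr : ∀ e, fr e = e ^ Fintype.card F := fun e => rfl
  let Y : (Fin n → F) →ₗ[F] (Fin n → F) := (orbE ρ hE hv).toLinearMap ∘ₗ fr.toLinearMap ∘ₗ (orbE ρ hE hv).symm.toLinearMap
  have hY : ∀ e, Y (ρ e *ᵥ v) = ρ (e ^ Fintype.card F) *ᵥ v := by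
    intro e
    have h1 : (orbE ρ hE hv).symm (ρ e *ᵥ v) = e := by
      rw [← orbE_apply ρ hE hv, LinearEquiv.symm_apply_apply]
    show orbE ρ hE hv (fr ((orbE ρ hE hv).symm (ρ e *ᵥ v))) = _
    rw [h1, hfr, orbE_apply]
  have hcomm : ∀ e, LinearMap.toMatrix' Y * ρ e = ρ (e ^ Fintype.card F) * LinearMap.toMatrix' Y := by
    intro e
    apply Matrix.toLin'.injective
    rw [Matrix.toLin'_mul, Matrix.toLin'_mul, Matrix.toLin'_toMatrix']
    apply LinearMap.ext
    intro w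
    obtain ⟨e', rfl⟩ := exists_eq ρ hE hv w
    show Y (ρ e *ᵥ (ρ e' *ᵥ v)) = ρ (e ^ Fintype.card F) *ᵥ (Y (ρ e' *ᵥ v))
    rw [hY, Matrix.mulVec_mulVec, Matrix.mulVec_mulVec, ← map_mul, ← map_mul, hY, mul_pow]
  refine ⟨LinearMap.toMatrix' Y, ?_, hcomm, ?_⟩
  · apply Matrix.toLin'.injective
    rw [Matrix.toLin'_pow, Matrix.toLin'_toMatrix', Matrix.toLin'_one]
    apply LinearMap.ext
    intro w
    obtain ⟨e', rfl⟩ := exists_eq ρ hE hv w
    have h1 : ∀ k : ℕ, (Y ^ k) (ρ e' *ᵥ v) = ρ (e' ^ (Fintype.card F ^ k)) *ᵥ v := by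
      intro k
      induction k with
      | zero => simp
      | succ k ih => rw [pow_succ', Module.End.mul_apply, ih, hY, ← pow_mul, ← pow_succ]
    rw [h1, ← hcardE, FiniteField.pow_card]; rfl
  · intro e0 he0
    have hone : e0 ≠ 0 := by
      rintro rfl
      rw [map_zero] at he0
      have h1 := hY 1
      rw [one_pow, map_one, Matrix.one_mulVec, ← Matrix.toLin'_toMatrix' Y, he0, map_zero, LinearMap.zero_apply] at h1
      exact hv h1.symm
    have h2 : ∀ e : E, e ^ Fintype.card F = e := by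
      intro e
      have h3 := hcomm e
      rw [he0, ← map_mul, ← map_mul] at h3
      have h4 : e0 * e = e ^ Fintype.card F * e0 := by
        apply orb_injective ρ hv
        show ρ _ *ᵥ v = ρ _ *ᵥ v
        rw [h3]
      rw [mul_comm e0] at h4
      exact (mul_right_cancel₀ hone h4).symm
    have h5 : Fintype.card E ≤ Fintype.card F := by
      have h6 := FiniteField.X_pow_card_sub_X_ne_zero E Fintype.one_lt_card (p := Fintype.card F)
      have h7 : (Finset.univ : Finset E).card ≤ (Polynomial.X ^ Fintype.card F - Polynomial.X : Polynomial E).natDegree := by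
        apply Polynomial.card_le_degree_of_subset_roots
        intro e _
        rw [Polynomial.mem_roots h6]
        simp [h2]
      rw [FiniteField.X_pow_card_sub_X_natDegree_eq E Fintype.one_lt_card] at h7
      exact h7
    rw [hcardE] at h5
    have h6 : 1 < Fintype.card F := Fintype.one_lt_card
    have h7 : Fintype.card F ^ 1 < Fintype.card F ^ n := Nat.pow_lt_pow_right h6 (by omega)
    rw [pow_one] at h7
    omega

omit [Fintype F] in
theorem exists_of_mem_norm {K : Subalgebra F (Matrix (Fin n) (Fin n) F)} (hmem : ∀ M, M ∈ K ↔ ∃ e, ρ e = M)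
    (g : GL (Fin n) F) (hg : g ∈ Cfsg.Geo.subalgebraNormalizer K) (e : E) :
    ∃ e', (g : Matrix (Fin n) (Fin n) F) * ρ e = ρ e' * (g : Matrix (Fin n) (Fin n) F) := by
  obtain ⟨e', he'⟩ := (hmem _).1 ((hg (ρ e)).1 ((hmem _).2 ⟨e, rfl⟩))
  refine ⟨e', ?_⟩
  rw [he', Matrix.mul_assoc _ _ (g : Matrix (Fin n) (Fin n) F), ← Units.val_mul, inv_mul_cancel, Units.val_one, Matrix.mul_one]

/-- a semilinear invertible matrix normalizes the field -/
theorem mem_norm {K : Subalgebra F (Matrix (Fin n) (Fin n) F)} (hmem : ∀ M, M ∈ K ↔ ∃ e, ρ e = M)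
    (g : GL (Fin n) F) (hg : ∀ e, (g : Matrix (Fin n) (Fin n) F) * ρ e = ρ (e ^ Fintype.card F) * (g : Matrix (Fin n) (Fin n) F)) :
    g ∈ Cfsg.Geo.subalgebraNormalizer K := by
  have hfin : Finite E := Module.finite_of_finite F
  have hgg : (g : Matrix (Fin n) (Fin n) F) * ((g⁻¹ : GL (Fin n) F) : Matrix (Fin n) (Fin n) F) = 1 := by
    rw [← Units.val_mul, mul_inv_cancel, Units.val_one]
  have hgg' : ((g⁻¹ : GL (Fin n) F) : Matrix (Fin n) (Fin n) F) * (g : Matrix (Fin n) (Fin n) F) = 1 := by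
    rw [← Units.val_mul, inv_mul_cancel, Units.val_one]
  have h1 : ∀ e, (g : Matrix (Fin n) (Fin n) F) * ρ e * ((g⁻¹ : GL (Fin n) F) : Matrix (Fin n) (Fin n) F) = ρ (e ^ Fintype.card F) := by
    intro e
    rw [hg, Matrix.mul_assoc, hgg, Matrix.mul_one]
  intro k
  constructor
  · intro hk
    obtain ⟨e, rfl⟩ := (hmem _).1 hk
    exact (hmem _).2 ⟨_, (h1 e).symm⟩
  · intro hk
    obtain ⟨e', he'⟩ := (hmem _).1 hk
    obtain ⟨e, he⟩ : ∃ e, e ^ Fintype.card F = e' := by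
      have h2 : Function.Injective (FiniteField.frobeniusAlgHom F E) := RingHom.injective _
      exact Finite.surjective_of_injective h2 e'
    rw [hmem]
    refine ⟨e, ?_⟩
    have h3 : (g : Matrix (Fin n) (Fin n) F) * k * ((g⁻¹ : GL (Fin n) F) : Matrix (Fin n) (Fin n) F) =
        (g : Matrix (Fin n) (Fin n) F) * ρ e * ((g⁻¹ : GL (Fin n) F) : Matrix (Fin n) (Fin n) F) := by
      rw [h1, he, he']
    have h4 := congrArg (fun M => ((g⁻¹ : GL (Fin n) F) : Matrix (Fin n) (Fin n) F) * M * (g : Matrix (Fin n) (Fin n) F)) h3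
    have h5 : ∀ M : Matrix (Fin n) (Fin n) F, ((g⁻¹ : GL (Fin n) F) : Matrix (Fin n) (Fin n) F) *
        ((g : Matrix (Fin n) (Fin n) F) * M * ((g⁻¹ : GL (Fin n) F) : Matrix (Fin n) (Fin n) F)) * (g : Matrix (Fin n) (Fin n) F) = M := by
      intro M
      calc _ = (((g⁻¹ : GL (Fin n) F) : Matrix (Fin n) (Fin n) F) * (g : Matrix (Fin n) (Fin n) F)) * M *
            (((g⁻¹ : GL (Fin n) F) : Matrix (Fin n) (Fin n) F) * (g : Matrix (Fin n) (Fin n) F)) := by simp only [Matrix.mul_assoc]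
        _ = M := by rw [hgg', Matrix.one_mul, Matrix.mul_one]
    rw [h5, h5] at h4
    exact h4.symm

omit [Fintype F] in
/-- elements with an eigenspace of dimension at least 2 are not conjugate into the normalizer -/
theorem derange (hn : n.Prime) (hE : finrank F E = n) {K : Subalgebra F (Matrix (Fin n) (Fin n) F)}
    (hmem : ∀ M, M ∈ K ↔ ∃ e, ρ e = M) (x P : Matrix.SpecialLinearGroup (Fin n) F)
    (hns : ∀ z : F, (x : Matrix (Fin n) (Fin n) F) ≠ z • (1 : Matrix (Fin n) (Fin n) F)) {l : F} (hl : l ≠ 0) {v w : Fin n → F}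
    (hv : v ≠ 0) (hxv : (x : Matrix (Fin n) (Fin n) F) *ᵥ v = l • v) (hxw : (x : Matrix (Fin n) (Fin n) F) *ᵥ w = l • w)
    (hvw : ∀ c : F, w ≠ c • v)
    (hP : P⁻¹ * x * P ∈ ((Cfsg.Geo.subalgebraNormalizer K).comap
      (Matrix.SpecialLinearGroup.toGL : Matrix.SpecialLinearGroup (Fin n) F →* GL (Fin n) F))) : False := by
  set Pm := (P : Matrix (Fin n) (Fin n) F) with hPm
  set Pv := ((P⁻¹ : Matrix.SpecialLinearGroup (Fin n) F) : Matrix (Fin n) (Fin n) F) with hPv
  have hPP : Pm * Pv = 1 := by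
    rw [hPm, hPv, ← Matrix.SpecialLinearGroup.coe_mul, mul_inv_cancel, Matrix.SpecialLinearGroup.coe_one]
  have hPP' : Pv * Pm = 1 := by
    rw [hPm, hPv, ← Matrix.SpecialLinearGroup.coe_mul, inv_mul_cancel, Matrix.SpecialLinearGroup.coe_one]
  set g : GL (Fin n) F := Matrix.SpecialLinearGroup.toGL (P⁻¹ * x * P) with hg
  have hgm : (g : Matrix (Fin n) (Fin n) F) = Pv * (x : Matrix (Fin n) (Fin n) F) * Pm := by
    show ((P⁻¹ * x * P : Matrix.SpecialLinearGroup (Fin n) F) : Matrix (Fin n) (Fin n) F) = _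
    rw [Matrix.SpecialLinearGroup.coe_mul, Matrix.SpecialLinearGroup.coe_mul]
  have hgN : g ∈ Cfsg.Geo.subalgebraNormalizer K := hP
  have hcomm := exists_of_mem_norm ρ hmem g hgN
  have heig : ∀ u : Fin n → F, (x : Matrix (Fin n) (Fin n) F) *ᵥ u = l • u →
      (g : Matrix (Fin n) (Fin n) F) *ᵥ (Pv *ᵥ u) = l • (Pv *ᵥ u) := by
    intro u hu
    rw [hgm, Matrix.mulVec_mulVec, Matrix.mul_assoc, Matrix.mul_assoc, hPP, Matrix.mul_one, ← Matrix.mulVec_mulVec, hu,
      Matrix.mulVec_smul]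
  have hback : ∀ u : Fin n → F, Pm *ᵥ (Pv *ᵥ u) = u := by
    intro u
    rw [Matrix.mulVec_mulVec, hPP, Matrix.one_mulVec]
  have hv' : Pv *ᵥ v ≠ 0 := by
    intro h
    apply hv
    rw [← hback v, h, Matrix.mulVec_zero]
  by_cases hex : ∃ e, (g : Matrix (Fin n) (Fin n) F) = ρ e
  · obtain ⟨e, he⟩ := hex
    have h1 := heig v hxv
    rw [he] at h1
    have h2 := scalar_of_eigen ρ hv' h1
    apply hns l
    have h3 : (x : Matrix (Fin n) (Fin n) F) = Pm * (g : Matrix (Fin n) (Fin n) F) * Pv := by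
      rw [hgm]
      calc (x : Matrix (Fin n) (Fin n) F) = (Pm * Pv) * x * (Pm * Pv) := by rw [hPP, Matrix.one_mul, Matrix.mul_one]
        _ = _ := by simp only [Matrix.mul_assoc]
    rw [h3, he, h2, Matrix.mul_smul, Matrix.mul_one, Matrix.smul_mul, hPP]
  · push Not at hex
    obtain ⟨c, hc⟩ := eigen_unique ρ hn hE _ hcomm hex hl hv' (heig v hxv) (heig w hxw)
    apply hvw c
    rw [← hback w, hc, Matrix.mulVec_smul, hback]

end H99.FieldSub
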