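import Cfsg.Agent.Lib.H96.FrDef
import Cfsg.Agent.Lib.H17.OrthAbs

set_option autoImplicit false
set_option maxHeartbeats 400000
set_option linter.unusedSimpArgs false
set_option linter.unusedVariables false
set_option linter.unusedSectionVars false

/-! Frames: elements of the commutator subgroup of the orthogonal group. -/

namespace H99.FrA

open Matrix H96.Fr H17.OrthAbs

variable {ι F : Type*} [Fintype ι] [DecidableEq ι] [Field F]

theorem dot_e (x : ι → F) (i : ι) : x ⬝ᵥ (e i : ι → F) = x i := by simp [e]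
theorem e_dot (x : ι → F) (i : ι) : (e i : ι → F) ⬝ᵥ x = x i := by simp [e]
theorem e_self (i : ι) : (e i : ι → F) ⬝ᵥ (e i : ι → F) = 1 := by simp [e]

section Q

variable {Q : QuadraticForm F (ι → F)} {c : F} (hQ : ∀ x, Q x = c * (x ⬝ᵥ x))

include hQ in
theorem mem_of_dot {g : (ι → F) ≃ₗ[F] (ι → F)} (hg : ∀ x, g x ⬝ᵥ g x = x ⬝ᵥ x) : g ∈ O Q := by
  intro x; rw [hQ, hQ, hg]

include hQ in
theorem iso_of_mem (h2 : (2 : F) ≠ 0) (hc : c ≠ 0) {g : (ι → F) ≃ₗ[F] (ι → F)} (hg : g ∈ O Q) : Iso g := by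
  have h1 : ∀ x, g x ⬝ᵥ g x = x ⬝ᵥ x := by
    intro x
    have := mem_O.mp hg x
    rw [hQ, hQ] at this
    exact mul_left_cancel₀ hc this
  intro x y
  have h3 := h1 (x + y)
  rw [map_add, add_dotProduct, add_dotProduct, dotProduct_add, dotProduct_add, dotProduct_add, dotProduct_add, h1, h1,
    dotProduct_comm (g y) (g x), dotProduct_comm y x] at h3
  have h4 : 2 * (g x ⬝ᵥ g y) = 2 * (x ⬝ᵥ y) := by linear_combination h3
  exact mul_left_cancel₀ h2 h4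

theorem rf_dot {v : ι → F} (hv : v ⬝ᵥ v = 1) (x : ι → F) : rf v x ⬝ᵥ rf v x = x ⬝ᵥ x := by
  rw [rf_apply hv]
  simp only [sub_dotProduct, dotProduct_sub, smul_dotProduct, dotProduct_smul, hv, smul_eq_mul, dotProduct_comm v x]
  ring

include hQ in
theorem rf_mem {v : ι → F} (hv : v ⬝ᵥ v = 1) : rf v ∈ O Q := mem_of_dot hQ (rf_dot hv)

theorem rf_sq {v : ι → F} (hv : v ⬝ᵥ v = 1) : rf v * rf v = 1 := by
  ext x
  simp only [LinearEquiv.mul_apply]
  rw [rf_apply hv (rf v x), rf_apply hv x]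
  exact congrFun (rfm_rfm hv x) _

theorem rf_inv {v : ι → F} (hv : v ⬝ᵥ v = 1) : (rf v)⁻¹ = rf v := by
  rw [inv_eq_iff_mul_eq_one, rf_sq hv]

theorem rf_conj {v : ι → F} (hv : v ⬝ᵥ v = 1) {s : (ι → F) ≃ₗ[F] (ι → F)} (hs : Iso s) : s * rf v * s⁻¹ = rf (s v) := by
  have hsv : s v ⬝ᵥ s v = 1 := by rw [hs, hv]
  apply LinearEquiv.ext
  intro x
  have h1 : s (s⁻¹ x) = x := s.apply_symm_apply x
  simp only [LinearEquiv.mul_apply]
  rw [rf_apply hv, rf_apply hsv, map_sub, map_smul, h1]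
  congr 3
  rw [← hs, h1]

include hQ in
theorem prod_mem (h2 : (2 : F) ≠ 0) (hc : c ≠ 0) {v : ι → F} (hv : v ⬝ᵥ v = 1) {s : (ι → F) ≃ₗ[F] (ι → F)} (hs : s ∈ O Q) : rf v * rf (s v) ∈ ⁅O Q, O Q⁆ := by
  have h1 := Subgroup.commutator_mem_commutator (rf_mem hQ hv) hs
  rw [commutatorElement_def, rf_inv hv, mul_assoc, mul_assoc, ← mul_assoc s, rf_conj hv (iso_of_mem hQ h2 hc hs)] at h1
  exact h1

theorem pm_dot (σ : Equiv.Perm ι) (x : ι → F) : pm σ x ⬝ᵥ pm σ x = x ⬝ᵥ x := by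
  unfold dotProduct
  simp only [pm_apply]
  exact Equiv.sum_comp σ.symm (fun i => x i * x i)

include hQ in
theorem pm_mem (σ : Equiv.Perm ι) : pm σ ∈ O Q := mem_of_dot hQ (pm_dot σ)

theorem pm_mul (σ τ : Equiv.Perm ι) : (pm (σ * τ) : (ι → F) ≃ₗ[F] (ι → F)) = pm σ * pm τ := by
  apply LinearEquiv.ext
  intro x
  funext k
  simp only [LinearEquiv.mul_apply, pm_apply]
  rfl

theorem sg_eq {i j : ι} (hij : i ≠ j) : (sg i j : (ι → F) ≃ₗ[F] (ι → F)) = rf (e i) * rf (e j) := by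
  apply LinearEquiv.ext
  intro x
  funext k
  simp only [LinearEquiv.mul_apply]
  rw [sg_apply, rf_apply (e_self i), rf_apply (e_self j), dot_e, dot_e]
  simp only [Pi.sub_apply, Pi.smul_apply, smul_eq_mul, e, Pi.single_apply]
  by_cases h1 : k = i
  · subst h1
    simp [hij]; ring
  · by_cases h2 : k = j
    · subst h2
      simp [h1]; ring
    · simp [h1, h2]

include hQ in
theorem sg_mem (h2 : (2 : F) ≠ 0) (hc : c ≠ 0) {i j : ι} (hij : i ≠ j) : (sg i j : (ι → F) ≃ₗ[F] (ι → F)) ∈ ⁅O Q, O Q⁆ := by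
  have h1 := prod_mem hQ h2 hc (e_self i) (pm_mem hQ (Equiv.swap i j))
  rw [pm_e, Equiv.swap_apply_left, ← sg_eq hij] at h1
  exact h1

include hQ in
theorem pm_mem_comm (hn : 5 ≤ Nat.card ι) {σ : Equiv.Perm ι} (hσ : Equiv.Perm.sign σ = 1) : (pm σ : (ι → F) ≃ₗ[F] (ι → F)) ∈ ⁅O Q, O Q⁆ := by
  let Pm : Equiv.Perm ι →* ((ι → F) ≃ₗ[F] (ι → F)) := MonoidHom.mk' pm pm_mul
  have h1 : σ ∈ alternatingGroup ι := Equiv.Perm.mem_alternatingGroup.mpr hσ
  rw [← alternatingGroup.commutator_perm_eq hn, commutator_def] at h1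
  have h2 : Pm σ ∈ Subgroup.map Pm ⁅(⊤ : Subgroup (Equiv.Perm ι)), (⊤ : Subgroup (Equiv.Perm ι))⁆ := ⟨σ, h1, rfl⟩
  rw [Subgroup.map_commutator] at h2
  refine Subgroup.commutator_mono ?_ ?_ h2 <;>
  · rintro _ ⟨τ, -, rfl⟩
    exact pm_mem hQ τ

/-- the reflection in a vector of norm two -/
def rtm (w : ι → F) : (ι → F) →ₗ[F] (ι → F) where
  toFun x := x - (x ⬝ᵥ w) • w
  map_add' x y := by
    simp only [add_dotProduct, add_smul]; abel
  map_smul' c x := by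
    simp only [smul_dotProduct, smul_eq_mul, RingHom.id_apply, smul_sub, smul_smul]

theorem rtm_rtm {w : ι → F} (hw : w ⬝ᵥ w = 2) (x : ι → F) : rtm w (rtm w x) = x := by
  simp only [rtm, LinearMap.coe_mk, AddHom.coe_mk, sub_dotProduct, smul_dotProduct, hw, smul_eq_mul]
  module

include hQ in
/-- an element of the commutator subgroup which is not monomial -/
theorem exists_not_mon (h2 : (2 : F) ≠ 0) (hc : c ≠ 0) {i₀ i₁ i₂ i₃ i₄ : ι} (hnd : [i₀, i₁, i₂, i₃, i₄].Nodup) : ∃ g ∈ ⁅O Q, O Q⁆, ¬ Mon g := by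
  simp only [List.nodup_cons, List.mem_cons, List.not_mem_nil, or_false, not_or] at hnd
  obtain ⟨⟨a1, a2, a3, a4⟩, ⟨b1, b2, b3⟩, ⟨c1, c2⟩, d1, -⟩ := hnd
  set v : ι → F := (2⁻¹ : F) • (e i₀ + e i₁ + e i₂ + e i₃) with hv
  have h4 : (2⁻¹ : F) * 2 = 1 := inv_mul_cancel₀ h2
  have hdot : ∀ x : ι → F, x ⬝ᵥ v = 2⁻¹ * (x i₀ + x i₁ + x i₂ + x i₃) := by
    intro x
    rw [hv, dotProduct_smul, dotProduct_add, dotProduct_add, dotProduct_add, dot_e, dot_e, dot_e, dot_e, smul_eq_mul]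
  have v0 : v i₀ = 2⁻¹ := by simp [hv, e, Pi.single_apply, a1, a2, a3, a4]
  have v1 : v i₁ = 2⁻¹ := by simp [hv, e, Pi.single_apply, Ne.symm a1, b1, b2, b3]
  have v2 : v i₂ = 2⁻¹ := by simp [hv, e, Pi.single_apply, Ne.symm a2, Ne.symm b1, c1, c2]
  have v3 : v i₃ = 2⁻¹ := by simp [hv, e, Pi.single_apply, Ne.symm a3, Ne.symm b2, Ne.symm c1, d1]
  have v4 : v i₄ = 0 := by simp [hv, e, Pi.single_apply, Ne.symm a4, Ne.symm b3, Ne.symm c2, Ne.symm d1]
  have hvv : v ⬝ᵥ v = 1 := by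
    rw [hdot, v0, v1, v2, v3]
    field_simp; ring
  have hev : (e i₄ : ι → F) ⬝ᵥ v = 0 := by rw [e_dot, v4]
  set w := v - e i₄ with hw
  have hww : w ⬝ᵥ w = 2 := by
    rw [hw, sub_dotProduct, dotProduct_sub, dotProduct_sub, hvv, e_self, hev, dotProduct_comm v, hev]; ring
  let s : (ι → F) ≃ₗ[F] (ι → F) := LinearEquiv.ofInvolutive (rtm w) (rtm_rtm hww)
  have hs : ∀ x, s x = x - (x ⬝ᵥ w) • w := fun x => rfl
  have hsO : s ∈ O Q := by
    apply mem_of_dot hQ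
    intro x
    rw [hs]
    simp only [sub_dotProduct, dotProduct_sub, smul_dotProduct, dotProduct_smul, hww, smul_eq_mul, dotProduct_comm w x]
    ring
  have hse : s (e i₄) = v := by
    rw [hs]
    have : (e i₄ : ι → F) ⬝ᵥ w = -1 := by rw [hw, dotProduct_sub, hev, e_self]; ring
    rw [this, hw]; module
  refine ⟨rf (e i₄) * rf v, ?_, ?_⟩
  · have := prod_mem hQ h2 hc (e_self i₄) hsO
    rwa [hse] at this
  · intro hm
    obtain ⟨j, hj⟩ := hm i₀
    rw [LinearEquiv.mul_apply, rf_apply hvv, e_dot, v0, rf_apply (e_self i₄), dot_e] at hj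
    have h5 : (2 : F) * 2⁻¹ = 1 := mul_inv_cancel₀ h2
    have he4 : (e i₀ : ι → F) i₄ = 0 := by simp [e, Pi.single_apply, Ne.symm a4]
    have hx4 : ((e i₀ : ι → F) - (2 * 2⁻¹ : F) • v) i₄ = 0 := by
      rw [Pi.sub_apply, Pi.smul_apply, v4, he4]; simp
    rw [hx4, mul_zero, zero_smul, sub_zero, h5, one_smul] at hj
    have hk0 : ((e i₀ : ι → F) - v) i₀ ≠ 0 := by
      rw [Pi.sub_apply, v0]
      simp only [e, Pi.single_eq_same]
      intro h
      have : (1 : F) - 2⁻¹ = 2⁻¹ := by field_simp; ring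
      rw [this] at h
      exact inv_ne_zero h2 h
    have hk1 : ((e i₀ : ι → F) - v) i₁ ≠ 0 := by
      rw [Pi.sub_apply, v1]
      have : (e i₀ : ι → F) i₁ = 0 := by simp [e, Pi.single_apply, Ne.symm a1]
      rw [this, zero_sub, neg_ne_zero]
      exact inv_ne_zero h2
    have hj' : ∀ k, k ≠ j → ((e i₀ : ι → F) - v) k = 0 := by
      intro k hk
      rcases hj with hj | hj
      · rw [hj]; simp [e, Pi.single_apply, hk]
      · rw [hj]; simp [e, Pi.single_apply, hk]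
    by_cases h6 : i₀ = j
    · exact hk1 (hj' i₁ (by rw [← h6]; exact fun h => a1 h.symm))
    · exact hk0 (hj' i₀ h6)

end Q

theorem det_comm {Q : QuadraticForm F (ι → F)} {g : (ι → F) ≃ₗ[F] (ι → F)} (hg : g ∈ ⁅O Q, O Q⁆) :
    LinearMap.det (g : (ι → F) →ₗ[F] (ι → F)) = 1 := by
  have h1 : ⁅O Q, O Q⁆ ≤ (LinearEquiv.det : ((ι → F) ≃ₗ[F] (ι → F)) →* Fˣ).ker := by
    rw [Subgroup.commutator_le]
    intro a _ b _
    rw [MonoidHom.mem_ker, map_commutatorElement]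
    exact commutatorElement_eq_one_iff_mul_comm.mpr (mul_comm _ _)
  have h2 := h1 hg
  rw [MonoidHom.mem_ker] at h2
  have h3 := congrArg Units.val h2
  rwa [LinearEquiv.coe_det, Units.val_one] at h3

end H99.FrA
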