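import Cfsg.Agent.Lib.H99.FrA
import Cfsg.Agent.Lib.H95.OImpB

set_option autoImplicit false
set_option maxHeartbeats 400000
set_option linter.unusedSimpArgs false
set_option linter.unusedVariables false
set_option linter.unusedSectionVars false

/-! Frames: the translation to decompositions into lines. -/

namespace H99.FrB

open Matrix Module H96.Fr H17.OrthAbs H48.QuadSplit H95.OQd H95.OImpB Cfsg Cfsg.Geo H99.FrA QuadraticMap

/-- conjugation by a linear equivalence -/
def cj {F V W : Type*} [Field F] [AddCommGroup V] [Module F V] [AddCommGroup W] [Module F W] (φ : V ≃ₗ[F] W) : (W ≃ₗ[F] W) ≃* (V ≃ₗ[F] V) where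
  toFun g := φ.trans (g.trans φ.symm)
  invFun g := φ.symm.trans (g.trans φ)
  left_inv g := by ext x; simp
  right_inv g := by ext x; simp
  map_mul' g h := by ext x; simp [LinearEquiv.mul_apply]

theorem cj_apply {F V W : Type*} [Field F] [AddCommGroup V] [Module F V] [AddCommGroup W] [Module F W] (φ : V ≃ₗ[F] W) (g : W ≃ₗ[F] W) (x : V) :
    cj φ g x = φ.symm (g (φ x)) := rfl

theorem map_O {F V W : Type*} [Field F] [AddCommGroup V] [Module F V] [AddCommGroup W] [Module F W] (φ : V ≃ₗ[F] W) (Q : QuadraticForm F W) :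
    (O Q).map (cj φ).toMonoidHom = O (Q.comp (φ : V →ₗ[F] W)) := by
  ext g
  constructor
  · rintro ⟨x, hx, rfl⟩
    intro y
    show Q (φ (φ.symm (x (φ y)))) = Q (φ y)
    rw [φ.apply_symm_apply]
    exact hx _
  · intro hg
    refine ⟨(cj φ).symm g, ?_, (cj φ).apply_symm_apply g⟩
    intro y
    have := hg (φ.symm y)
    change Q (φ (g (φ.symm y))) = Q (φ (φ.symm y)) at this
    rw [φ.apply_symm_apply] at this
    exact this

theorem mem_comm {F V W : Type*} [Field F] [AddCommGroup V] [Module F V] [AddCommGroup W] [Module F W] (φ : V ≃ₗ[F] W) (Q : QuadraticForm F W)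
    {g : W ≃ₗ[F] W} : cj φ g ∈ ⁅O (Q.comp (φ : V →ₗ[F] W)), O (Q.comp (φ : V →ₗ[F] W))⁆ ↔ g ∈ ⁅O Q, O Q⁆ := by
  rw [← map_O, ← Subgroup.map_commutator]
  constructor
  · rintro ⟨x, hx, hxg⟩
    have : x = g := (cj φ).injective hxg
    rwa [← this]
  · intro h
    exact ⟨g, h, rfl⟩

variable {F : Type*} [Field F] {κ : Type} [Fintype κ] [DecidableEq κ]

/-- adapted coordinates -/
theorem exists_phi [Fintype F] (h2 : (2 : F) ≠ 0) {Q : QuadraticForm F (κ → F)} {t : ℕ} {D : Fin t → Submodule F (κ → F)}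
    (hD : IsOrthogonalMDecomposition (⇑Q) 1 D) :
    ∃ (c : F) (v : Fin t → (κ → F)) (φ : (Fin t → F) ≃ₗ[F] (κ → F)), c ≠ 0 ∧ (∀ i, φ (e i) = v i) ∧ (∀ i, v i ∈ D i) ∧ (∀ i, ∀ x ∈ D i, ∃ a : F, x = a • v i) ∧
      (∀ i, Q (v i) = c) ∧ ∀ x, Q (φ x) = c * (x ⬝ᵥ x) := by
  classical
  have hk := hD.decomp.decomp.finrank_eq
  have ht := hD.decomp.decomp.two_le
  have hcard := card_eq hD.decomp.decomp
  rw [mul_one] at hcard
  let i₀ : Fin t := ⟨0, by omega⟩
  obtain ⟨v₀, hv₀⟩ : ∃ v : D i₀, v ≠ 0 := by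
    have : Nontrivial (D i₀) := Module.nontrivial_of_finrank_pos (R := F) (by rw [hk]; exact one_pos)
    exact exists_ne 0
  choose ee hee using fun i => hD.isometric i₀ i
  let v : Fin t → (κ → F) := fun i => ((ee i v₀ : D i) : κ → F)
  have hvD : ∀ i, v i ∈ D i := fun i => (ee i v₀).2
  have hv0 : ∀ i, v i ≠ 0 := by
    intro i h
    have h1 : ee i v₀ = 0 := Subtype.ext h
    exact hv₀ ((ee i).map_eq_zero_iff.mp h1)
  have hspan : ∀ i, ∀ x ∈ D i, ∃ a : F, x = a • v i := by
    intro i x hx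
    have h1 := (finrank_eq_one_iff_of_nonzero' (ee i v₀) (fun h => hv0 i (congrArg Subtype.val h))).mp (hk i) ⟨x, hx⟩
    obtain ⟨a, ha⟩ := h1
    exact ⟨a, (congrArg Subtype.val ha).symm⟩
  set c := Q (v₀ : κ → F) with hc
  have hQv : ∀ i, Q (v i) = c := fun i => hee i v₀
  have hself : ∀ i, polar Q (v i) (v i) = 2 * c := by
    intro i
    rw [polar_self, hQv, nsmul_eq_mul, Nat.cast_ofNat]
  have horth : ∀ i j, i ≠ j → polar Q (v i) (v j) = 0 := fun i j hij =>
    hD.decomp.orthogonal i j hij (v i) (hvD i) (v j) (hvD j)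
  have hc0 : c ≠ 0 := by
    intro h0
    obtain ⟨x, hx, hx'⟩ := (hD.decomp.nondegenerate i₀ (v i₀) (hvD i₀) (hv0 i₀)).2
    obtain ⟨a, rfl⟩ := hspan i₀ x hx
    apply hx'
    rw [polar_smul_right, hself, h0, mul_zero, smul_zero]
  let f : (Fin t → F) →ₗ[F] (κ → F) := Fintype.linearCombination F v
  have hf : ∀ x, f x = ∑ i, x i • v i := fun x => Fintype.linearCombination_apply F v x
  have hpol : ∀ x y, polarBilin Q (f x) (f y) = (2 * c) * (x ⬝ᵥ y) := by
    intro x y
    rw [hf, hf, map_sum, dotProduct, Finset.mul_sum]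
    apply Finset.sum_congr rfl
    intro i _
    rw [map_sum, LinearMap.sum_apply, Finset.sum_eq_single i]
    · rw [map_smul, map_smul, LinearMap.smul_apply, polarBilin_apply_apply, hself]
      simp only [smul_eq_mul]; ring
    · intro j _ hj
      rw [map_smul, map_smul, LinearMap.smul_apply, polarBilin_apply_apply, horth j i hj, smul_zero, smul_zero]
    · intro h; exact absurd (Finset.mem_univ i) h
  have hQf : ∀ x, Q (f x) = c * (x ⬝ᵥ x) := by
    intro x
    have h1 := hpol x x
    rw [polarBilin_apply_apply, polar_self, nsmul_eq_mul, Nat.cast_ofNat, mul_assoc] at h1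
    exact mul_left_cancel₀ h2 h1
  have hinj : Function.Injective f := by
    rw [injective_iff_map_eq_zero]
    intro x hx
    funext i
    have h1 := hpol x (Pi.single i 1)
    rw [hx, map_zero, LinearMap.zero_apply, dotProduct_single, mul_one] at h1
    rcases mul_eq_zero.mp h1.symm with h3 | h3
    · exact absurd h3 (mul_ne_zero h2 hc0)
    · exact h3
  have hfr : finrank F (Fin t → F) = finrank F (κ → F) := by
    rw [finrank_fintype_fun_eq_card, finrank_fintype_fun_eq_card, Fintype.card_fin, hcard]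
  let φ : (Fin t → F) ≃ₗ[F] (κ → F) := LinearEquiv.ofBijective f ⟨hinj, (LinearMap.injective_iff_surjective_of_finrank_eq_finrank hfr).mp hinj⟩
  refine ⟨c, v, φ, hc0, ?_, hvD, hspan, hQv, hQf⟩
  intro i
  show f (e i) = v i
  rw [hf, Finset.sum_eq_single i]
  · simp [e]
  · intro j _ hj
    simp [e, Pi.single_apply, hj]
  · intro h; exact absurd (Finset.mem_univ i) h

theorem pres_iff {Q : QuadraticForm F (κ → F)} {t : ℕ} {D : Fin t → Submodule F (κ → F)} {c : F} {v : Fin t → (κ → F)}
    {φ : (Fin t → F) ≃ₗ[F] (κ → F)} (hc : c ≠ 0) (hφ : ∀ i, φ (e i) = v i) (hvD : ∀ i, v i ∈ D i) (hspan : ∀ i, ∀ x ∈ D i, ∃ a : F, x = a • v i)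
    (hQv : ∀ i, Q (v i) = c) (h2 : (2 : F) ≠ 0) {g : (κ → F) ≃ₗ[F] (κ → F)} (hg : g ∈ O Q) : Pres D g ↔ Mon (cj φ g) := by
  have hφs : ∀ i, φ.symm (v i) = e i := fun i => by rw [← hφ, φ.symm_apply_apply]
  constructor
  · rintro ⟨σ, hσ⟩ i
    obtain ⟨a, ha⟩ := hspan _ _ (hσ i _ (hvD i))
    have h1 : a * a = 1 := by
      have h3 := mem_O.mp hg (v i)
      rw [ha, Q.map_smul, hQv, hQv, smul_eq_mul] at h3
      exact mul_right_cancel₀ hc (by rw [h3, one_mul])
    have h4 : cj φ g (e i) = a • e (σ i) := by rw [cj_apply, hφ, ha, map_smul, hφs]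
    refine ⟨σ i, ?_⟩
    rcases mul_self_eq_one_iff.mp h1 with h5 | h5
    · left; rw [h4, h5, one_smul]
    · right; rw [h4, h5, neg_one_smul]
  · intro hm
    choose j hj using hm
    have hgv : ∀ i, g (v i) = v (j i) ∨ g (v i) = - v (j i) := by
      intro i
      rcases hj i with h | h
      · left
        rw [cj_apply, hφ] at h
        rw [← φ.apply_symm_apply (g (v i)), h, hφ]
      · right
        rw [cj_apply, hφ] at h
        rw [← φ.apply_symm_apply (g (v i)), h, map_neg, hφ]
    have hee : ∀ a b : Fin t, ((e a : Fin t → F) = e b ∨ (e a : Fin t → F) = - e b) → a = b := by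
      intro a b h
      by_contra hab
      rcases h with h | h
      · have := congrFun h a
        simp [e, Pi.single_apply, hab] at this
      · have := congrFun h a
        simp [e, Pi.single_apply, hab] at this
    have hinj : Function.Injective j := by
      intro a b hab
      apply hee
      have h1 : g (v a) = g (v b) ∨ g (v a) = g (- v b) := by
        rw [map_neg]
        rcases hgv a with h | h <;> rcases hgv b with h' | h' <;> rw [h, h', hab] <;> simp
      rcases h1 with h1 | h1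
      · left; rw [← hφs, g.injective h1, hφs]
      · right; rw [← hφs, g.injective h1, map_neg, hφs]
    refine ⟨Equiv.ofBijective j (Finite.injective_iff_bijective.mp hinj), fun i x hx => ?_⟩
    obtain ⟨a, rfl⟩ := hspan i x hx
    show g (a • v i) ∈ D (j i)
    rw [map_smul]
    rcases hgv i with h | h
    · rw [h]; exact Submodule.smul_mem _ _ (hvD _)
    · rw [h]; exact Submodule.smul_mem _ _ (Submodule.neg_mem _ (hvD _))

/-- The assembly. -/
theorem asm [Fintype F] (h2 : (2 : F) ≠ 0) {Q' : QuadraticForm F (κ → F)} (hn : 7 ≤ Fintype.card κ) {t : ℕ} {D : Fin t → Submodule F (κ → F)}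
    (hD : IsOrthogonalMDecomposition (⇑Q') 1 D)
    (main : ∀ (Q : QuadraticForm F (Fin t → F)) (c : F), c ≠ 0 → (∀ x, Q x = c * (x ⬝ᵥ x)) →
      ∀ K : Subgroup ((Fin t → F) ≃ₗ[F] (Fin t → F)), Dat K → (∀ g ∈ K, Mon g) ∨ ⁅O Q, O Q⁆ ≤ K) :
    IsMaximalIn (omegaGL (⇑Q')) (decompositionStabilizer D ⊓ omegaGL (⇑Q')) := by
  classical
  obtain ⟨c, v, φ, hc, hφ, hvD, hspan, hQv, hQφ⟩ := exists_phi h2 hD
  have hcard := card_eq hD.decomp.decomp
  rw [mul_one] at hcard
  set Qd : QuadraticForm F (Fin t → F) := Q'.comp (φ : (Fin t → F) →ₗ[F] (κ → F)) with hQd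
  have hQd' : ∀ x, Qd x = c * (x ⬝ᵥ x) := fun x => hQφ x
  have hle : ∀ Q : QuadraticForm F (κ → F), ⁅O Q, O Q⁆ ≤ O Q := fun Q => H95.OSie.omega_le_O Q
  have hle' : ⁅O Qd, O Qd⁆ ≤ O Qd := by
    rw [Subgroup.commutator_le]
    intro g hg h hh
    exact (O Qd).mul_mem ((O Qd).mul_mem ((O Qd).mul_mem hg hh) ((O Qd).inv_mem hg)) ((O Qd).inv_mem hh)
  have hpres : ∀ g ∈ O Q', (Pres D g ↔ Mon (cj φ g)) := fun g hg => pres_iff hc hφ hvD hspan hQv h2 hg
  apply max_of hD.decomp.decomp.finrank_eq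
  · obtain ⟨g, hg, hgm⟩ := exists_not_mon hQd' h2 hc (i₀ := (⟨0, by omega⟩ : Fin t)) (i₁ := ⟨1, by omega⟩) (i₂ := ⟨2, by omega⟩) (i₃ := ⟨3, by omega⟩) (i₄ := ⟨4, by omega⟩)
      (by simp [Fin.ext_iff])
    have h3 : cj φ ((cj φ).symm g) = g := (cj φ).apply_symm_apply g
    have h4 : (cj φ).symm g ∈ ⁅O Q', O Q'⁆ := by
      rw [← mem_comm φ, h3]; exact hg
    refine ⟨(cj φ).symm g, h4, ?_⟩
    rw [hpres _ (hle Q' h4), h3]
    exact hgm
  · intro M hM hst g hg hgp
    set K : Subgroup ((Fin t → F) ≃ₗ[F] (Fin t → F)) := M.map (cj φ).toMonoidHom with hK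
    have hKmem : ∀ x, x ∈ K ↔ (cj φ).symm x ∈ M := by
      intro x
      constructor
      · rintro ⟨y, hy, rfl⟩
        show (cj φ).symm (cj φ y) ∈ M
        rw [(cj φ).symm_apply_apply]; exact hy
      · intro h
        exact ⟨_, h, (cj φ).apply_symm_apply x⟩
    have hKle : K ≤ ⁅O Qd, O Qd⁆ := by
      rintro _ ⟨y, hy, rfl⟩
      exact (mem_comm φ Q').mpr (hM hy)
    have hmon : ∀ x ∈ ⁅O Qd, O Qd⁆, Mon x → x ∈ K := by
      intro x hx hxm
      rw [hKmem]
      have h3 : cj φ ((cj φ).symm x) = x := (cj φ).apply_symm_apply x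
      have h4 : (cj φ).symm x ∈ ⁅O Q', O Q'⁆ := by
        rw [← mem_comm φ, h3]; exact hx
      apply hst _ h4
      rw [hpres _ (hle Q' h4), h3]
      exact hxm
    have hDat : Dat K :=
      { iso := fun x hx => iso_of_mem hQd' h2 hc (hle' (hKle hx))
        det := fun x hx => det_comm (hKle hx)
        sg := fun i j hij => hmon _ (sg_mem hQd' h2 hc hij) (by
          intro k
          refine ⟨k, ?_⟩
          by_cases h : k = i ∨ k = j
          · right
            funext l
            rw [sg_apply]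
            by_cases hl : l = k
            · subst hl; rw [if_pos h]; rfl
            · have : (e k : Fin t → F) l = 0 := by simp [e, Pi.single_apply, hl]
              simp [this]
          · left
            funext l
            rw [sg_apply]
            by_cases hl : l = k
            · subst hl; rw [if_neg h]
            · have : (e k : Fin t → F) l = 0 := by simp [e, Pi.single_apply, hl]
              simp [this])
        pm := fun σ hσ => hmon _ (pm_mem_comm hQd' (by rw [Nat.card_eq_fintype_card, Fintype.card_fin]; omega) hσ) (by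
          intro k
          exact ⟨σ k, Or.inl (pm_e σ k)⟩) }
    rcases main Qd c hc hQd' K hDat with h | h
    · exfalso
      apply hgp
      rw [hpres _ (hle Q' (hM hg))]
      exact h _ ⟨g, hg, rfl⟩
    · intro x hx
      have h3 := h ((mem_comm φ Q').mpr hx)
      rw [hKmem, (cj φ).symm_apply_apply] at h3
      exact h3

end H99.FrB
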