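import Mathlib
import Cfsg.Agent.Lib.H99.Iso2

set_option autoImplicit false
set_option linter.unusedSimpArgs false
set_option linter.unusedSectionVars false
set_option linter.unusedVariables false

/-! Jordan types of unipotent isometries and invariant nondegenerate subspaces. -/

namespace H99.OrthUni

open Module Submodule

variable {F : Type*} [Field F] {V : Type*} [AddCommGroup V] [Module F V] [FiniteDimensional F V]

theorem rank_map (f : V →ₗ[F] V) (S : Submodule F V) :
    finrank F (S.map f) + finrank F (LinearMap.ker f ⊓ S : Submodule F V) = finrank F S := by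
  have h1 := LinearMap.finrank_range_add_finrank_ker (f.domRestrict S)
  have h2 : LinearMap.range (f.domRestrict S) = S.map f := LinearMap.range_domRestrict S f
  have h3 : finrank F (LinearMap.ker (f.domRestrict S)) = finrank F (LinearMap.ker f ⊓ S : Submodule F V) := by
    rw [LinearMap.ker_domRestrict, ← Submodule.finrank_map_subtype_eq S, Submodule.map_comap_subtype, inf_comm]
  rw [h2, h3] at h1
  exact h1

/-- number of Jordan blocks of size greater than `k` -/
noncomputable def gk (N : V →ₗ[F] V) (U : Submodule F V) (k : ℕ) : ℕ :=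
  finrank F (LinearMap.ker N ⊓ U.map (N ^ k) : Submodule F V)

theorem rank_step (N : V →ₗ[F] V) (U : Submodule F V) (k : ℕ) :
    finrank F (U.map (N ^ k)) = finrank F (U.map (N ^ (k + 1))) + gk N U k := by
  have h1 := rank_map N (U.map (N ^ k))
  have h2 : (U.map (N ^ k)).map N = U.map (N ^ (k + 1)) := by
    rw [← Submodule.map_comp, pow_succ']; rfl
  rw [h2] at h1
  exact h1.symm

theorem map_le_self (N : V →ₗ[F] V) (U : Submodule F V) (hU : U.map N ≤ U) (k : ℕ) : U.map (N ^ (k + 1)) ≤ U.map (N ^ k) := by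
  rintro _ ⟨u, hu, rfl⟩
  refine ⟨N u, hU ⟨u, hu, rfl⟩, ?_⟩
  rw [pow_succ]; rfl

theorem map_le_self' (N : V →ₗ[F] V) (U : Submodule F V) (hU : U.map N ≤ U) (k : ℕ) : U.map (N ^ k) ≤ U := by
  induction k with
  | zero => rw [pow_zero]; exact (Submodule.map_id U).le
  | succ k ih => exact (map_le_self N U hU k).trans ih

theorem gk_anti (N : V →ₗ[F] V) (U : Submodule F V) (hU : U.map N ≤ U) (k : ℕ) : gk N U (k + 1) ≤ gk N U k :=
  Submodule.finrank_mono (inf_le_inf_left _ (map_le_self N U hU k))

theorem sum_parts (μ : Multiset ℕ) : ∃ (m : ℕ) (d : Fin m → ℕ), μ = Multiset.map d (Finset.univ : Finset (Fin m)).val := by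
  refine ⟨μ.toList.length, μ.toList.get, ?_⟩
  have h1 : (Finset.univ : Finset (Fin μ.toList.length)).val = (List.finRange μ.toList.length : Multiset _) := rfl
  rw [h1, Multiset.map_coe, List.map_get_finRange, Multiset.coe_toList]

/-- an invariant direct summand has Jordan type contained in that of the space -/
theorem core (N : V →ₗ[F] V) (p : ℕ) (hN : N ^ p = 0) (μ : Multiset ℕ) (hμp : ∀ e ∈ μ, 0 < e ∧ e ≤ p)
    (hr : ∀ k, finrank F (LinearMap.range (N ^ k)) = (μ.map (fun e => e - k)).sum)
    (U W : Submodule F V) (hUW : IsCompl U W) (hU : U.map N ≤ U) (hW : W.map N ≤ W) :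
    ∃ ν : Multiset ℕ, ν ≤ μ ∧ ν.sum = finrank F U ∧ Multiset.card ν = gk N U 0 ∧
      ∀ k, 1 ≤ k → k ≤ p → (ν.count k : ℤ) = (gk N U (k - 1) : ℤ) - gk N U k := by
  classical
  obtain ⟨m, d, hμ⟩ := sum_parts μ
  have hd : ∀ i, 0 < d i ∧ d i ≤ p := by
    intro i
    apply hμp
    rw [hμ]
    exact Multiset.mem_map_of_mem _ (Finset.mem_univ i)
  have hr' : ∀ k, finrank F (LinearMap.range (N ^ k)) = ∑ i, (d i - k) := by
    intro k
    rw [hr, hμ, Multiset.map_map]; rfl
  -- ranks
  let r : Submodule F V → ℕ → ℤ := fun X k => (finrank F (X.map (N ^ k)) : ℤ)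
  let g : Submodule F V → ℕ → ℤ := fun X k => (gk N X k : ℤ)
  have hrg : ∀ X k, r X k = r X (k + 1) + g X k := by
    intro X k
    have := rank_step N X k
    simp only [r, g]
    exact_mod_cast this
  have hanti : ∀ X : Submodule F V, X.map N ≤ X → ∀ k, g X (k + 1) ≤ g X k := by
    intro X hX k
    simp only [g]
    exact_mod_cast gk_anti N X hX k
  have hsum : ∀ k, (∑ i, (d i - k) : ℕ) = r U k + r W k := by
    intro k
    rw [← hr' k]
    have h1 : U.map (N ^ k) ⊔ W.map (N ^ k) = LinearMap.range (N ^ k) := by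
      rw [← Submodule.map_sup, hUW.sup_eq_top, Submodule.map_top]
    have h2 : U.map (N ^ k) ⊓ W.map (N ^ k) = ⊥ := by
      rw [eq_bot_iff, ← hUW.inf_eq_bot]
      exact inf_le_inf (map_le_self' N U hU k) (map_le_self' N W hW k)
    have h3 := Submodule.finrank_sup_add_finrank_inf_eq (U.map (N ^ k)) (W.map (N ^ k))
    rw [h1, h2, finrank_bot, add_zero] at h3
    rw [h3]
    simp only [r]
    push_cast
    rfl
  have hgd : ∀ k, g U k + g W k = (Finset.univ.filter (fun i => k < d i)).card := by
    intro k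
    have h1 := hrg U k
    have h2 := hrg W k
    have h3 := hsum k
    have h4 := hsum (k + 1)
    have h5 : (∑ i, (d i - k) : ℕ) = (∑ i, (d i - (k + 1)) : ℕ) + (Finset.univ.filter (fun i => k < d i)).card := by
      rw [Finset.card_filter, ← Finset.sum_add_distrib]
      refine Finset.sum_congr rfl fun i _ => ?_
      split_ifs <;> omega
    rw [h5] at h3
    push_cast at h3 h4
    push_cast
    linarith
  let c : ℕ → ℕ := fun k => (g U (k - 1) - g U k).toNat
  have hc : ∀ k, 1 ≤ k → (c k : ℤ) = g U (k - 1) - g U k := by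
    intro k hk
    obtain ⟨k', rfl⟩ : ∃ k', k = k' + 1 := ⟨k - 1, by omega⟩
    rw [Int.toNat_of_nonneg]
    have := hanti U hU k'
    simp only [Nat.add_sub_cancel]
    linarith
  have hcount : ∀ k', Multiset.count k' (∑ k ∈ Finset.Icc 1 p, Multiset.replicate (c k) k) = if k' ∈ Finset.Icc 1 p then c k' else 0 := by
    intro k'
    rw [Multiset.count_sum']
    simp only [Multiset.count_replicate]
    rw [Finset.sum_ite_eq' (Finset.Icc 1 p) k' c]
  have h4 : g U p = 0 := by
    simp only [g, gk]
    rw [hN, Submodule.map_zero, inf_bot_eq, finrank_bot]; rfl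
  refine ⟨∑ k ∈ Finset.Icc 1 p, Multiset.replicate (c k) k, ?_, ?_, ?_, ?_⟩
  · rw [Multiset.le_iff_count]
    intro k'
    rw [hcount]
    split_ifs with hk'
    · rw [Finset.mem_Icc] at hk'
      obtain ⟨k, rfl⟩ : ∃ k, k' = k + 1 := ⟨k' - 1, by omega⟩
      have h1 : Multiset.count (k + 1) μ = (Finset.univ.filter (fun i => d i = k + 1)).card := by
        rw [hμ, Multiset.count_map]
        rw [Finset.card_def, Finset.filter_val]
        congr 1
        apply Multiset.filter_congr
        intro i _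
        exact eq_comm
      rw [h1]
      have h2 := hc (k + 1) (by omega)
      have h3 := hgd k
      have h4 := hgd (k + 1)
      have h5 := hanti W hW k
      have h6 : (Finset.univ.filter (fun i => k < d i)).card =
          (Finset.univ.filter (fun i => k + 1 < d i)).card + (Finset.univ.filter (fun i => d i = k + 1)).card := by
        rw [← Finset.card_union_of_disjoint]
        · congr 1
          ext i
          simp only [Finset.mem_filter, Finset.mem_univ, true_and, Finset.mem_union]
          omega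
        · rw [Finset.disjoint_filter]
          intro i _ h1 h2
          omega
      rw [h6] at h3
      push_cast at h3 h4
      simp only [Nat.add_sub_cancel] at h2
      have : (c (k + 1) : ℤ) ≤ ((Finset.univ.filter (fun i => d i = k + 1)).card : ℤ) := by
        rw [h2]; linarith
      exact_mod_cast this
    · exact Nat.zero_le _
  · rw [Multiset.sum_sum]
    simp only [Multiset.sum_replicate, smul_eq_mul]
    have h1 : ∀ P : ℕ, ((∑ k ∈ Finset.Icc 1 P, c k * k : ℕ) : ℤ) = r U 0 - r U P - P * g U P := by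
      intro P
      induction P with
      | zero => simp
      | succ P ih =>
        rw [← Finset.insert_Icc_right_eq_Icc_add_one (by omega), Finset.sum_insert (by simp)]
        push_cast at ih ⊢
        rw [ih, hc (P + 1) (by omega), Nat.add_sub_cancel, hrg U P]
        ring
    have h2 := h1 p
    have h3 : r U p = 0 := by
      simp only [r]
      rw [hN, Submodule.map_zero, finrank_bot]; rfl
    have h5 : r U 0 = finrank F U := by
      simp only [r]
      rw [pow_zero]
      congr 1
      exact congrArg (fun X : Submodule F V => finrank F X) (Submodule.map_id U)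
    rw [h3, h4, h5] at h2
    have : ((∑ k ∈ Finset.Icc 1 p, c k * k : ℕ) : ℤ) = (finrank F U : ℤ) := by rw [h2]; ring
    exact_mod_cast this
  · rw [Multiset.card_sum]
    simp only [Multiset.card_replicate]
    have h1 : ∀ P : ℕ, ((∑ k ∈ Finset.Icc 1 P, c k : ℕ) : ℤ) = g U 0 - g U P := by
      intro P
      induction P with
      | zero => simp
      | succ P ih =>
        rw [← Finset.insert_Icc_right_eq_Icc_add_one (by omega), Finset.sum_insert (by simp)]
        push_cast at ih ⊢
        rw [ih, hc (P + 1) (by omega), Nat.add_sub_cancel]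
        ring
    have h2 := h1 p
    rw [h4, sub_zero] at h2
    have h3 : ((∑ k ∈ Finset.Icc 1 p, c k : ℕ) : ℤ) = ((gk N U 0 : ℕ) : ℤ) := h2
    exact_mod_cast h3
  · intro k hk1 hk2
    rw [hcount, if_pos (Finset.mem_Icc.2 ⟨hk1, hk2⟩), hc k hk1]

/-! parity -/

section parity

variable {B : LinearMap.BilinForm F V}

theorem pow_comm_apply (x : V →ₗ[F] V) (k : ℕ) (v : V) : ((x - 1) ^ k) (x v) = x (((x - 1) ^ k) v) := by
  have h : Commute ((x - 1) ^ k) x := by
    apply Commute.pow_left
    exact (Commute.refl x).sub_left (Commute.one_left x)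
  have := congrArg (fun f : V →ₗ[F] V => f v) h.eq
  exact this

theorem exists_pre (hnd : ∀ u, (∀ v, B u v = 0) → u = 0) {x : V →ₗ[F] V} (hiso : ∀ u v, B (x u) (x v) = B u v) (k : ℕ)
    (v : V) (hv : ((x - 1) ^ k) v = 0) : ∃ v', ((x - 1) ^ k) v' = 0 ∧ x v' = v := by
  have hinj : Function.Injective x := by
    rw [← LinearMap.ker_eq_bot, LinearMap.ker_eq_bot']
    intro u hu
    apply hnd
    intro v
    rw [← hiso, hu, map_zero, LinearMap.zero_apply]
  obtain ⟨v', rfl⟩ := (LinearMap.injective_iff_surjective.1 hinj) v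
  refine ⟨v', ?_, rfl⟩
  rw [pow_comm_apply] at hv
  exact hinj (by rw [hv, map_zero])

theorem adj_pow (hnd : ∀ u, (∀ v, B u v = 0) → u = 0) {x : V →ₗ[F] V} (hiso : ∀ u v, B (x u) (x v) = B u v) :
    ∀ (j : ℕ) (u v : V), ((x - 1) ^ (j + 1)) v = 0 → B (((x - 1) ^ j) u) v = (-1) ^ j * B u (((x - 1) ^ j) v) := by
  intro j
  induction j with
  | zero => intro u v _; simp
  | succ j ih =>
    intro u v hv
    obtain ⟨v', hv', rfl⟩ := exists_pre hnd hiso _ v hv
    have h1 : ∀ w, B ((x - 1) w) (x v') = - B w ((x - 1) v') := by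
      intro w
      have e1 : (x - 1) w = x w - w := rfl
      have e2 : (x - 1) v' = x v' - v' := rfl
      rw [e1, e2, map_sub, LinearMap.sub_apply, hiso, map_sub]
      ring
    have h2 : ((x - 1) ^ (j + 1)) u = (x - 1) (((x - 1) ^ j) u) := by rw [pow_succ']; rfl
    have h3 : ((x - 1) ^ (j + 1)) ((x - 1) v') = 0 := by
      have : ((x - 1) ^ (j + 1)) ((x - 1) v') = ((x - 1) ^ (j + 1 + 1)) v' := by rw [pow_succ _ (j + 1)]; rfl
      rw [this]; exact hv'
    rw [h2, h1, ih u _ h3]
    have h4 : ((x - 1) ^ (j + 1)) (x v') = ((x - 1) ^ j) ((x - 1) v') := by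
      have e1 : x v' = v' + (x - 1) v' := by
        show x v' = v' + (x v' - v'); abel
      have e2 : ((x - 1) ^ (j + 1)) v' = ((x - 1) ^ j) ((x - 1) v') := by rw [pow_succ]; rfl
      rw [e1, map_add, h3, add_zero, e2]
    rw [h4, pow_succ]; ring

theorem orth_pow (hnd : ∀ u, (∀ v, B u v = 0) → u = 0) {x : V →ₗ[F] V} (hiso : ∀ u v, B (x u) (x v) = B u v) :
    ∀ (j : ℕ) (u v : V), ((x - 1) ^ j) v = 0 → B (((x - 1) ^ j) u) v = 0 := by
  intro j
  induction j with
  | zero =>
    intro u v hv
    rw [pow_zero] at hv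
    rw [show v = 0 from hv, map_zero]
  | succ j ih =>
    intro u v hv
    obtain ⟨v', hv', rfl⟩ := exists_pre hnd hiso _ v hv
    have h1 : ∀ w, B ((x - 1) w) (x v') = - B w ((x - 1) v') := by
      intro w
      have e1 : (x - 1) w = x w - w := rfl
      have e2 : (x - 1) v' = x v' - v' := rfl
      rw [e1, e2, map_sub, LinearMap.sub_apply, hiso, map_sub]
      ring
    have h2 : ((x - 1) ^ (j + 1)) u = (x - 1) (((x - 1) ^ j) u) := by rw [pow_succ']; rfl
    rw [h2, h1, ih, neg_zero]
    have : ((x - 1) ^ j) ((x - 1) v') = ((x - 1) ^ (j + 1)) v' := by rw [pow_succ]; rfl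
    rw [this]; exact hv'

theorem parity_top (h2 : (2 : F) ≠ 0) (hsymm : ∀ u v, B u v = B v u) (hnd : ∀ u, (∀ v, B u v = 0) → u = 0) {x : V →ₗ[F] V}
    (hiso : ∀ u v, B (x u) (x v) = B u v) (k : ℕ) (hk : Odd k) :
    ∃ m, gk (x - 1) ⊤ k = gk (x - 1) ⊤ (k + 1) + 2 * m := by
  have hrefl : B.IsRefl := fun u v h => by rw [hsymm]; exact h
  have hBnd : B.Nondegenerate := by
    rw [LinearMap.BilinForm.nondegenerate_iff_ker_eq_bot, LinearMap.ker_eq_bot']
    intro u hu
    apply hnd
    intro v
    rw [hu, LinearMap.zero_apply]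
  set N := x - 1 with hN
  -- orthogonal of the kernel is the range
  have horth : B.orthogonal (LinearMap.ker (N ^ (k + 1))) = LinearMap.range (N ^ (k + 1)) := by
    symm
    apply Submodule.eq_of_le_of_finrank_eq
    · rintro _ ⟨u, rfl⟩
      rw [LinearMap.BilinForm.mem_orthogonal_iff]
      intro v hv
      show B v ((N ^ (k + 1)) u) = 0
      rw [hsymm]
      exact orth_pow hnd hiso _ u v (LinearMap.mem_ker.1 hv)
    · have e1 := LinearMap.BilinForm.finrank_orthogonal hBnd (LinearMap.ker (N ^ (k + 1)))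
      have e2 := LinearMap.finrank_range_add_finrank_ker (N ^ (k + 1))
      omega
  let A : Submodule F V := LinearMap.ker (N ^ (k + 1))
  let R : Submodule F V := A ⊓ (LinearMap.range (N ^ (k + 1))).comap (N ^ k)
  have hkerA : LinearMap.ker (N ^ k) ≤ A := by
    intro v hv
    rw [LinearMap.mem_ker] at hv
    show v ∈ LinearMap.ker (N ^ (k + 1))
    rw [LinearMap.mem_ker, pow_succ', Module.End.mul_apply, hv, map_zero]
  have hkerR : LinearMap.ker (N ^ k) ≤ R := by
    intro v hv
    refine ⟨hkerA hv, ?_⟩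
    rw [SetLike.mem_coe, Submodule.mem_comap, LinearMap.mem_ker.1 hv]
    exact zero_mem _
  have hA := rank_map (N ^ k) A
  have hR := rank_map (N ^ k) R
  rw [inf_eq_left.2 hkerA] at hA
  rw [inf_eq_left.2 hkerR] at hR
  have hA' : A.map (N ^ k) = LinearMap.ker N ⊓ (⊤ : Submodule F V).map (N ^ k) := by
    ext w
    constructor
    · rintro ⟨u, hu, rfl⟩
      refine ⟨?_, ⟨u, trivial, rfl⟩⟩
      rw [SetLike.mem_coe, LinearMap.mem_ker]
      have : (N ^ (k + 1)) u = 0 := LinearMap.mem_ker.1 hu
      rwa [pow_succ', Module.End.mul_apply] at this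
    · rintro ⟨hw, ⟨u, -, rfl⟩⟩
      refine ⟨u, ?_, rfl⟩
      rw [SetLike.mem_coe, LinearMap.mem_ker] at hw
      show u ∈ LinearMap.ker (N ^ (k + 1))
      rw [LinearMap.mem_ker, pow_succ', Module.End.mul_apply]; exact hw
  have hR' : R.map (N ^ k) = LinearMap.ker N ⊓ (⊤ : Submodule F V).map (N ^ (k + 1)) := by
    ext w
    constructor
    · rintro ⟨u, ⟨hu, hu'⟩, rfl⟩
      refine ⟨?_, ?_⟩
      · rw [SetLike.mem_coe, LinearMap.mem_ker]
        have : (N ^ (k + 1)) u = 0 := LinearMap.mem_ker.1 hu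
        rwa [pow_succ', Module.End.mul_apply] at this
      · rw [Submodule.map_top]; exact hu'
    · rintro ⟨hw, ⟨u, -, rfl⟩⟩
      refine ⟨N u, ⟨?_, ?_⟩, ?_⟩
      · show N u ∈ LinearMap.ker (N ^ (k + 1))
        rw [SetLike.mem_coe, LinearMap.mem_ker] at hw
        rw [LinearMap.mem_ker, ← Module.End.mul_apply, ← pow_succ, pow_succ', Module.End.mul_apply]
        exact hw
      · rw [SetLike.mem_coe, Submodule.mem_comap]
        exact ⟨u, by rw [pow_succ]; rfl⟩
      · rw [← Module.End.mul_apply, ← pow_succ]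
  -- the form on A
  let γ : LinearMap.BilinForm F A := (B ∘ₗ (N ^ k)).domRestrict₁₂ A A
  have hγ : ∀ u v : A, γ u v = B ((N ^ k) u) v := fun u v => rfl
  have hskew : ∀ u v : A, γ u v = - γ v u := by
    intro u v
    rw [hγ, hγ, adj_pow hnd hiso k u v (LinearMap.mem_ker.1 v.2), hk.neg_one_pow, hsymm]
    ring
  have halt : γ.IsAlt := by
    intro u
    have := hskew u u
    have h' : (2 : F) * γ u u = 0 := by linear_combination this
    exact (mul_eq_zero.1 h').resolve_left h2
  let RA : Submodule F A := R.comap A.subtype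
  have hRA : ∀ u : A, u ∈ RA ↔ ∀ v, γ u v = 0 := by
    intro u
    constructor
    · rintro ⟨-, hu⟩ v
      rw [SetLike.mem_coe, Submodule.mem_comap, ← horth, LinearMap.BilinForm.mem_orthogonal_iff] at hu
      rw [hγ, hsymm]
      exact hu v v.2
    · intro hu
      refine ⟨u.2, ?_⟩
      rw [SetLike.mem_coe, Submodule.mem_comap, ← horth, LinearMap.BilinForm.mem_orthogonal_iff]
      intro v hv
      show B v ((N ^ k) u) = 0
      rw [hsymm]
      exact hu ⟨v, hv⟩
  obtain ⟨C, hC⟩ := Submodule.exists_isCompl RA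
  have hCnd : Iso.ND γ C := by
    intro c hc h
    have : c ∈ RA := by
      rw [hRA]
      intro v
      obtain ⟨a, ha, b, hb, rfl⟩ := Submodule.mem_sup.1 (show v ∈ RA ⊔ C by rw [hC.sup_eq_top]; trivial)
      rw [map_add, h b hb, add_zero, hskew, (hRA a).1 ha, neg_zero]
    exact (Submodule.disjoint_def.1 hC.disjoint) c this hc
  obtain ⟨m, hm⟩ := Iso.even_of_alt halt.isRefl _ C rfl hCnd (fun c _ => halt c)
  have hfin := Submodule.finrank_add_eq_of_isCompl hC
  have hRAf : finrank F RA = finrank F R := by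
    have e : RA.map A.subtype = R := by
      show (R.comap A.subtype).map A.subtype = R
      rw [Submodule.map_comap_subtype, inf_eq_right.2 (inf_le_left : R ≤ A)]
    rw [← Submodule.finrank_map_subtype_eq A RA, e]
  refine ⟨m, ?_⟩
  unfold gk
  rw [← hA', ← hR']
  omega

end parity

/-- transfer of `gk` to the subspace -/
theorem gk_restrict (N : V →ₗ[F] V) (U : Submodule F V) (hU : ∀ v ∈ U, N v ∈ U) (k : ℕ) :
    gk N U k = gk (N.restrict hU) ⊤ k := by
  unfold gk
  have hpow : ∀ (k : ℕ) (u : U), (((N.restrict hU) ^ k) u : V) = (N ^ k) u := by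
    intro k
    induction k with
    | zero => intro u; rfl
    | succ k ih => intro u; rw [pow_succ', Module.End.mul_apply, LinearMap.coe_restrict_apply, ih, pow_succ', Module.End.mul_apply]
  have : (LinearMap.ker N ⊓ U.map (N ^ k) : Submodule F V) =
      (LinearMap.ker (N.restrict hU) ⊓ (⊤ : Submodule F U).map ((N.restrict hU) ^ k)).map U.subtype := by
    ext w
    constructor
    · rintro ⟨hw, u, hu, rfl⟩
      refine ⟨((N.restrict hU) ^ k) ⟨u, hu⟩, ⟨?_, ⟨⟨u, hu⟩, trivial, rfl⟩⟩, hpow k ⟨u, hu⟩⟩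
      rw [SetLike.mem_coe, LinearMap.mem_ker] at hw ⊢
      apply Subtype.ext
      rw [LinearMap.coe_restrict_apply, hpow]; exact hw
    · rintro ⟨w, ⟨hw, ⟨u, -, rfl⟩⟩, rfl⟩
      refine ⟨?_, ⟨u, u.2, (hpow k u).symm⟩⟩
      rw [SetLike.mem_coe, LinearMap.mem_ker] at hw ⊢
      have := congrArg (fun v : U => (v : V)) hw
      simp only [LinearMap.coe_restrict_apply] at this
      exact this
  rw [this, Submodule.finrank_map_subtype_eq U]

theorem parity {B : LinearMap.BilinForm F V} (h2 : (2 : F) ≠ 0) (hsymm : ∀ u v, B u v = B v u) {x : V →ₗ[F] V}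
    (hiso : ∀ u v, B (x u) (x v) = B u v) {U : Submodule F V} (hU : ∀ v ∈ U, x v ∈ U) (hnd : Iso.ND B U) (k : ℕ) (hk : Odd k) :
    ∃ m, gk (x - 1) U k = gk (x - 1) U (k + 1) + 2 * m := by
  have hNU : ∀ v ∈ U, (x - 1) v ∈ U := fun v hv => U.sub_mem (hU v hv) hv
  rw [gk_restrict (x - 1) U hNU, gk_restrict (x - 1) U hNU]
  have h1 : (x - 1).restrict hNU = x.restrict hU - 1 := by
    ext v; rfl
  rw [h1]
  exact parity_top (B := B.domRestrict₁₂ U U) h2 (fun u v => hsymm _ _) (fun u hu => by
    apply Subtype.ext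
    exact hnd u u.2 (fun v hv => hu ⟨v, hv⟩)) (fun u v => hiso _ _) k hk

end H99.OrthUni
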