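import Mathlib
import Cfsg.Agent.Lib.H99.OrthUni
import Cfsg.Agent.Lib.H48.QuadStd
import Cfsg.Agent.Lib.H48.Jordan
import Cfsg.Agent.Lib.H17.OrthTrans
import Cfsg.Agent.Lib.H95.OBridge

set_option autoImplicit false
set_option linter.unusedSimpArgs false
set_option linter.unusedSectionVars false
set_option linter.unusedVariables false

/-! Existence of nilpotent skew endomorphisms of given Jordan type on quadratic spaces. -/

namespace H99.OrthUni2

open Module QuadraticMap H48.QuadSplit H48.QuadStd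

universe u

section gen

variable {F : Type*} [Field F] {V V' : Type*} [AddCommGroup V] [Module F V] [AddCommGroup V'] [Module F V']

/-- there is a skew endomorphism with the ranks of Jordan type `μ` -/
def HasNil (Q : QuadraticForm F V) (μ : Multiset ℕ) : Prop :=
  ∃ N : V →ₗ[F] V, (∀ u v, polar Q (N u) v = - polar Q u (N v)) ∧
    ∀ k, finrank F (LinearMap.range (N ^ k)) = (μ.map (fun e => e - k)).sum

theorem rank_conj (e : V ≃ₗ[F] V') (N : V →ₗ[F] V) (k : ℕ) :
    finrank F (LinearMap.range ((e.toLinearMap ∘ₗ N ∘ₗ e.symm.toLinearMap) ^ k)) = finrank F (LinearMap.range (N ^ k)) := by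
  have h : ∀ k : ℕ, (e.toLinearMap ∘ₗ N ∘ₗ e.symm.toLinearMap) ^ k = e.toLinearMap ∘ₗ (N ^ k) ∘ₗ e.symm.toLinearMap := by
    intro k
    induction k with
    | zero => ext v; simp
    | succ k ih =>
      rw [pow_succ', ih]
      ext v
      simp [pow_succ']
  rw [h]
  have h2 : LinearMap.range (e.toLinearMap ∘ₗ (N ^ k) ∘ₗ e.symm.toLinearMap) = (LinearMap.range (N ^ k)).map e.toLinearMap := by
    rw [LinearMap.range_comp, LinearMap.range_comp_of_range_eq_top _ (LinearEquiv.range e.symm)]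
  rw [h2]
  exact LinearEquiv.finrank_map_eq e _

theorem HasNil.equiv {Q : QuadraticForm F V} {Q' : QuadraticForm F V'} {μ : Multiset ℕ} (h : HasNil Q μ) (he : Q.Equivalent Q') :
    HasNil Q' μ := by
  obtain ⟨N, h1, h2⟩ := h
  obtain ⟨e⟩ := he
  have hp : ∀ u v, polar Q' (e u) (e v) = polar Q u v := by
    intro u v
    simp only [polar, ← e.map_app]
    congr 2
    exact congrArg Q' (_root_.map_add e.toLinearEquiv u v).symm
  refine ⟨e.toLinearEquiv.toLinearMap ∘ₗ N ∘ₗ e.toLinearEquiv.symm.toLinearMap, ?_, ?_⟩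
  · intro u v
    obtain ⟨u, rfl⟩ := e.toLinearEquiv.surjective u
    obtain ⟨v, rfl⟩ := e.toLinearEquiv.surjective v
    simp only [LinearMap.comp_apply, LinearEquiv.coe_coe, LinearEquiv.symm_apply_apply]
    have e1 := hp (N u) v
    have e2 := hp u (N v)
    rw [h1] at e1
    exact e1.trans (congrArg _ e2.symm)
  · intro k
    rw [rank_conj, h2]

theorem finrank_prod_sub (p : Submodule F V) (q : Submodule F V') [FiniteDimensional F V] [FiniteDimensional F V'] :
    finrank F (p.prod q) = finrank F p + finrank F q := by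
  rw [← Module.finrank_prod]
  exact LinearEquiv.finrank_eq
    { toFun := fun x => (⟨x.1.1, x.2.1⟩, ⟨x.1.2, x.2.2⟩)
      invFun := fun x => ⟨(x.1, x.2), x.1.2, x.2.2⟩
      map_add' := fun _ _ => rfl
      map_smul' := fun _ _ => rfl
      left_inv := fun _ => rfl
      right_inv := fun _ => rfl }

theorem prodMap_pow' (f : V →ₗ[F] V) (g : V' →ₗ[F] V') (k : ℕ) : (f.prodMap g) ^ k = (f ^ k).prodMap (g ^ k) := by
  induction k with
  | zero => ext <;> simp
  | succ k ih => rw [pow_succ', ih, pow_succ', pow_succ']; rfl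

theorem HasNil.prod [FiniteDimensional F V] [FiniteDimensional F V'] {Q : QuadraticForm F V} {Q' : QuadraticForm F V'} {μ μ' : Multiset ℕ}
    (h : HasNil Q μ) (h' : HasNil Q' μ') : HasNil (Q.prod Q') (μ + μ') := by
  obtain ⟨N, h1, h2⟩ := h
  obtain ⟨N', h1', h2'⟩ := h'
  refine ⟨N.prodMap N', ?_, ?_⟩
  · rintro ⟨u, u'⟩ ⟨v, v'⟩
    rw [LinearMap.prodMap_apply, LinearMap.prodMap_apply, polar_prod, polar_prod, h1, h1']
    ring
  · intro k
    rw [prodMap_pow', LinearMap.range_prodMap, finrank_prod_sub, h2, h2', Multiset.map_add, Multiset.sum_add]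

theorem HasNil.smul {Q : QuadraticForm F V} {μ : Multiset ℕ} (h : HasNil Q μ) (a : F) : HasNil (a • Q) μ := by
  obtain ⟨N, h1, h2⟩ := h
  refine ⟨N, fun u v => ?_, h2⟩
  have hp : ∀ u v, polar (⇑(a • Q)) u v = a * polar Q u v := by
    intro u v
    simp only [polar, _root_.smul_apply, smul_eq_mul]; ring
  rw [hp, hp, h1]; ring

end gen

variable {F : Type u} [Field F]

/-! ### pairs -/

theorem range_neg_pow {V : Type*} [AddCommGroup V] [Module F V] (f : Module.End F V) (k : ℕ) :
    LinearMap.range ((-f) ^ k) = LinearMap.range (f ^ k) := by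
  rcases Nat.even_or_odd k with h | h
  · rw [h.neg_pow]
  · rw [h.neg_pow, LinearMap.range_neg]

theorem fin0 : finrank F (Fin 0 ⊕ Fin 0 → F) = 0 := by
  rw [Module.finrank_fintype_fun_eq_card]; rfl

theorem pair_nil (e : ℕ) : HasNil (qPlus e F) ({e, e} : Multiset ℕ) := by
  let E : (Fin e ⊕ Fin e → F) ≃ₗ[F] (Fin e → F) × (Fin e → F) := LinearEquiv.sumArrowLequivProdArrow _ _ _ _
  let f : (Fin e → F) →ₗ[F] (Fin e → F) := Matrix.toLin' (H48.Jordan.J0 e F)
  let g : (Fin e → F) →ₗ[F] (Fin e → F) := Matrix.toLin' (-(H48.Jordan.J0 e F).transpose)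
  refine ⟨E.symm.toLinearMap ∘ₗ (f.prodMap g) ∘ₗ E.symm.symm.toLinearMap, ?_, ?_⟩
  · intro u v
    rw [polar_qPlus, polar_qPlus]
    simp only [Finset.sum_add_distrib]
    have e1 : ∀ w : Fin e ⊕ Fin e → F, (fun i => (E.symm.toLinearMap ∘ₗ (f.prodMap g) ∘ₗ E.symm.symm.toLinearMap) w (Sum.inl i)) =
        (H48.Jordan.J0 e F).mulVec (fun i => w (Sum.inl i)) := fun w => rfl
    have e2 : ∀ w : Fin e ⊕ Fin e → F, (fun i => (E.symm.toLinearMap ∘ₗ (f.prodMap g) ∘ₗ E.symm.symm.toLinearMap) w (Sum.inr i)) =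
        (-(H48.Jordan.J0 e F).transpose).mulVec (fun i => w (Sum.inr i)) := fun w => rfl
    have h1 : ∀ a b : Fin e → F, ((H48.Jordan.J0 e F).mulVec a) ⬝ᵥ b = - (a ⬝ᵥ ((-(H48.Jordan.J0 e F).transpose).mulVec b)) := by
      intro a b
      rw [Matrix.neg_mulVec, dotProduct_neg, neg_neg, Matrix.mulVec_transpose, dotProduct_comm a, ← Matrix.dotProduct_mulVec, dotProduct_comm]
    have h2 : ∀ a b : Fin e → F, ((-(H48.Jordan.J0 e F).transpose).mulVec a) ⬝ᵥ b = - (a ⬝ᵥ ((H48.Jordan.J0 e F).mulVec b)) := by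
      intro a b
      have := h1 b a
      rw [dotProduct_comm, dotProduct_comm a, this, neg_neg]
    have k1 : ∀ a b : Fin e → F, ∑ i, a i * b i = a ⬝ᵥ b := fun a b => rfl
    have hA := h1 (fun i => u (Sum.inl i)) (fun i => v (Sum.inr i))
    have hB := h2 (fun i => u (Sum.inr i)) (fun i => v (Sum.inl i))
    rw [← e1, ← e2] at hA
    rw [← e1, ← e2] at hB
    simp only [dotProduct] at hA hB
    rw [hA, hB]
    ring
  · intro k
    rw [rank_conj, prodMap_pow', LinearMap.range_prodMap, finrank_prod_sub]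
    have r1 : finrank F (LinearMap.range (f ^ k)) = e - k := by
      show finrank F (LinearMap.range ((Matrix.toLin' (H48.Jordan.J0 e F)) ^ k)) = e - k
      rw [← Matrix.toLin'_pow, ← H48.Jordan.rank_J0_pow (F := F) e k]
      rfl
    have r2 : finrank F (LinearMap.range (g ^ k)) = e - k := by
      show finrank F (LinearMap.range ((Matrix.toLin' (-(H48.Jordan.J0 e F).transpose)) ^ k)) = e - k
      have h0 : finrank F (LinearMap.range ((Matrix.toLin' (H48.Jordan.J0 e F).transpose) ^ k)) = e - k := by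
        rw [← Matrix.toLin'_pow, ← Matrix.transpose_pow, ← H48.Jordan.rank_J0_pow (F := F) e k, ← Matrix.rank_transpose]
        rfl
      rw [_root_.map_neg, range_neg_pow, h0]
    rw [r1, r2]
    simp

theorem qPlus_add (m n : ℕ) : (qPlus (m + n) F).Equivalent ((qPlus m F).prod (qPlus n F)) := by
  induction m with
  | zero =>
    rw [zero_add]
    refine equivalent_of_map (nd_qPlus n) (by rw [Module.finrank_prod, fin0, zero_add]) (LinearMap.inr F _ _) (fun v => ?_)
    rw [QuadraticMap.prod_apply]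
    simp
  | succ m ih =>
    rw [show m + 1 + n = (m + n) + 1 by ring]
    exact (qPlus_succ (m + n)).trans (((Equivalent.refl _).prod ih).trans
      ((prod_assoc_equiv _ _ _).symm.trans ((qPlus_succ m).symm.prod (Equivalent.refl _))))

theorem qMinus_add (m n : ℕ) (a b : F) : (qMinus (m + n) F a b).Equivalent ((qPlus m F).prod (qMinus n F a b)) :=
  (qMinus_equiv (m + n) a b).trans (((qPlus_add m n).prod (Equivalent.refl _)).trans
    ((prod_assoc_equiv _ _ _).trans ((Equivalent.refl _).prod (qMinus_equiv n a b).symm)))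

theorem qOdd_add (m n : ℕ) (c : F) : (qOdd (m + n) F c).Equivalent ((qPlus m F).prod (qOdd n F c)) :=
  (qOdd_equiv (m + n) c).trans (((Equivalent.refl _).prod (qPlus_add m n)).trans
    ((prod_swap_equiv _ _ _).trans ((Equivalent.refl _).prod (qOdd_equiv n c).symm)))

theorem zero_nil {V : Type*} [AddCommGroup V] [Module F V] [FiniteDimensional F V] (Q : QuadraticForm F V) (h : finrank F V = 0) :
    HasNil Q 0 := by
  refine ⟨0, fun u v => by simp, fun k => ?_⟩
  rw [Multiset.map_zero, Multiset.sum_zero]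
  have := Submodule.finrank_le (LinearMap.range ((0 : V →ₗ[F] V) ^ k))
  omega

theorem pairs_nil (ν : Multiset ℕ) : HasNil (qPlus ν.sum F) (ν + ν) := by
  induction ν using Multiset.induction_on with
  | empty => exact zero_nil _ fin0
  | cons e ν ih =>
    rw [Multiset.sum_cons]
    have := ((pair_nil (F := F) e).prod ih).equiv (qPlus_add e ν.sum).symm
    convert this using 1
    ext k
    simp only [Multiset.count_add, Multiset.count_cons, Multiset.insert_eq_cons, Multiset.count_singleton]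
    ring

/-! ### odd blocks -/

/-- the form `Σ (-1)^i v_i v_{2f-i}` -/
noncomputable def qM (f : ℕ) (F : Type*) [Field F] : QuadraticForm F (Fin (2 * f + 1) → F) :=
  ∑ i : Fin (2 * f + 1), ((-1) ^ (i : ℕ) : F) • QuadraticMap.proj i (Fin.rev i)

theorem qM_apply (f : ℕ) (v : Fin (2 * f + 1) → F) : qM f F v = ∑ i : Fin (2 * f + 1), (-1) ^ (i : ℕ) * (v i * v (Fin.rev i)) := by
  simp [qM]

/-- the bilinear form -/
def sM (f : ℕ) (F : Type*) [Field F] (u v : Fin (2 * f + 1) → F) : F := ∑ i : Fin (2 * f + 1), (-1) ^ (i : ℕ) * (u i * v (Fin.rev i))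

theorem sM_comm (f : ℕ) (u v : Fin (2 * f + 1) → F) : sM f F u v = sM f F v u := by
  unfold sM
  rw [← Equiv.sum_comp Fin.revPerm]
  refine Finset.sum_congr rfl fun i _ => ?_
  rw [Fin.revPerm_apply, Fin.rev_rev]
  have : ((-1 : F)) ^ ((Fin.rev i : Fin (2 * f + 1)) : ℕ) = (-1) ^ (i : ℕ) := by
    rw [Fin.val_rev]
    have hi := i.2
    rw [neg_one_pow_eq_pow_mod_two, neg_one_pow_eq_pow_mod_two (n := (i : ℕ))]
    congr 1
    omega
  rw [this]; ring

theorem polar_qM (f : ℕ) (u v : Fin (2 * f + 1) → F) : polar (qM f F) u v = 2 * sM f F u v := by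
  have h := sM_comm f u v
  have : polar (qM f F) u v = sM f F u v + sM f F v u := by
    simp only [polar, qM_apply, sM, Pi.add_apply, ← Finset.sum_sub_distrib, ← Finset.sum_add_distrib]
    refine Finset.sum_congr rfl fun i _ => ?_
    ring
  rw [this, ← h]; ring

theorem nd_qM (h2 : (2 : F) ≠ 0) (f : ℕ) : ND (qM f F) := by
  intro v hv
  ext j
  have h := hv (Pi.single (Fin.rev j) 1)
  rw [polar_qM, mul_eq_zero] at h
  have h := h.resolve_left h2
  unfold sM at h
  rw [Finset.sum_eq_single j] at h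
  · rw [Pi.single_eq_same, mul_one] at h
    exact (mul_eq_zero.1 h).resolve_left (pow_ne_zero _ (neg_ne_zero.2 one_ne_zero))
  · intro i _ hij
    rw [Pi.single_eq_of_ne, mul_zero, mul_zero]
    intro h
    exact hij (Fin.rev_injective h)
  · intro h; exact absurd (Finset.mem_univ _) h

theorem J0_mulVec_zero (n : ℕ) (v : Fin (n + 1) → F) : (H48.Jordan.J0 (n + 1) F).mulVec v 0 = 0 := by
  show ∑ j, H48.Jordan.J0 (n + 1) F 0 j * v j = _
  refine Finset.sum_eq_zero fun j _ => ?_
  rw [H48.Jordan.J0_apply, if_neg (by simp), zero_mul]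

theorem J0_mulVec_succ (n : ℕ) (v : Fin (n + 1) → F) (j : Fin n) : (H48.Jordan.J0 (n + 1) F).mulVec v j.succ = v j.castSucc := by
  show ∑ i, H48.Jordan.J0 (n + 1) F j.succ i * v i = _
  rw [Finset.sum_eq_single j.castSucc]
  · rw [H48.Jordan.J0_apply, if_pos (by simp), one_mul]
  · intro i _ hij
    rw [H48.Jordan.J0_apply, if_neg, zero_mul]
    intro h
    apply hij
    ext
    simp at h ⊢
    omega
  · intro h; exact absurd (Finset.mem_univ _) h

theorem sM_skew (f : ℕ) (u v : Fin (2 * f + 1) → F) :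
    sM f F ((H48.Jordan.J0 (2 * f + 1) F).mulVec u) v = - sM f F u ((H48.Jordan.J0 (2 * f + 1) F).mulVec v) := by
  unfold sM
  rw [Fin.sum_univ_succ, J0_mulVec_zero, Fin.sum_univ_castSucc (n := 2 * f) (fun i => (-1) ^ (i : ℕ) * (u i * ((H48.Jordan.J0 (2 * f + 1) F).mulVec v (Fin.rev i)))),
    Fin.rev_last, J0_mulVec_zero, mul_zero, mul_zero, add_zero, zero_mul, mul_zero, zero_add, ← Finset.sum_neg_distrib]
  refine Finset.sum_congr rfl fun j _ => ?_
  rw [J0_mulVec_succ, Fin.rev_succ, Fin.rev_castSucc, J0_mulVec_succ, Fin.val_succ, Fin.val_castSucc, pow_succ]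
  ring

theorem block_nil (f : ℕ) : HasNil (qM f F) ({2 * f + 1} : Multiset ℕ) := by
  refine ⟨Matrix.toLin' (H48.Jordan.J0 (2 * f + 1) F), ?_, ?_⟩
  · intro u v
    rw [polar_qM, polar_qM, Matrix.toLin'_apply, Matrix.toLin'_apply, sM_skew]
    ring
  · intro k
    rw [← Matrix.toLin'_pow, Multiset.map_singleton, Multiset.sum_singleton, ← H48.Jordan.rank_J0_pow (F := F) (2 * f + 1) k]
    rfl

theorem qOdd_nil [Finite F] (h2 : (2 : F) ≠ 0) (f : ℕ) {c : F} (hc : c ≠ 0) : HasNil (qOdd f F c) ({2 * f + 1} : Multiset ℕ) := by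
  obtain ⟨-, c0, hc0, he⟩ := classify_odd f _ (qM f F) (nd_qM h2 f) (by simp)
  have h1 := ((block_nil (F := F) f).equiv he).smul (c / c0)
  refine h1.equiv (Equivalent.symm ?_)
  refine equivalent_of_map (nd_qOdd f h2 hc) rfl
    (Matrix.toLin' (Matrix.diagonal (Sum.elim (fun _ => (1 : F)) (Sum.elim (fun _ => 1) (fun _ => c0 / c))))) (fun v => ?_)
  rw [Matrix.toLin'_apply, _root_.smul_apply, qOdd_apply, qOdd_apply, smul_eq_mul]
  simp only [Matrix.mulVec_diagonal, Sum.elim_inl, Sum.elim_inr, one_mul]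
  rw [mul_add, Finset.mul_sum]
  congr 1
  · field_simp
  · refine Finset.sum_congr rfl fun i _ => ?_
    field_simp

theorem split_hyps [Finite F] : ∀ (f : ℕ) (V : Type u) [AddCommGroup V] [Module F V] [FiniteDimensional F V] (Q : QuadraticForm F V),
    ND Q → 2 * f + 1 ≤ finrank F V → ∃ (V' : Type u) (_ : AddCommGroup V') (_ : Module F V') (_ : FiniteDimensional F V')
      (Q' : QuadraticForm F V'), ND Q' ∧ finrank F V' + 2 * f = finrank F V ∧ Q.Equivalent ((qPlus f F).prod Q') := by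
  intro f
  induction f with
  | zero =>
    intro V _ _ _ Q hQ _
    refine ⟨V, inferInstance, inferInstance, inferInstance, Q, hQ, by simp, ?_⟩
    refine equivalent_of_map hQ (by rw [Module.finrank_prod, fin0, zero_add]) (LinearMap.inr F _ _) (fun v => ?_)
    rw [QuadraticMap.prod_apply]
    simp
  | succ f ih =>
    intro V _ _ _ Q hQ hd
    obtain ⟨v, hv, hv0⟩ := exists_singular Q (by omega)
    obtain ⟨U, hU, hUd, hUe⟩ := hyp_split hQ hv hv0
    obtain ⟨V', i1, i2, i3, Q', hQ', hd', he'⟩ := ih U (Q.restrict U) hU (by omega)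
    refine ⟨V', i1, i2, i3, Q', hQ', by omega, ?_⟩
    exact hUe.trans (((Equivalent.refl _).prod he').trans ((prod_assoc_equiv _ _ _).symm.trans ((qPlus_succ f).symm.prod (Equivalent.refl _))))

theorem split_one (h2 : (2 : F) ≠ 0) (V : Type u) [AddCommGroup V] [Module F V] [FiniteDimensional F V] (Q : QuadraticForm F V)
    (hQ : ND Q) (hd : 1 ≤ finrank F V) : ∃ (c : F) (_ : c ≠ 0) (V' : Type u) (_ : AddCommGroup V') (_ : Module F V') (_ : FiniteDimensional F V')
      (Q' : QuadraticForm F V'), ND Q' ∧ finrank F V' + 1 = finrank F V ∧ Q.Equivalent ((qUn c).prod Q') := by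
  haveI : Nontrivial V := Module.nontrivial_of_finrank_pos (by omega : 0 < finrank F V)
  obtain ⟨v, hv⟩ : ∃ v, Q v ≠ 0 := by
    by_contra h
    push Not at h
    obtain ⟨x, hx⟩ := exists_ne (0 : V)
    apply hx
    refine hQ x fun y => ?_
    simp only [polar, h, sub_zero]
  have hvv : polar Q v v = 2 * Q v := by rw [polar_self]; simp
  let U : Submodule F V := Submodule.span F {v}
  have hv0 : v ≠ 0 := by rintro rfl; exact hv (QuadraticMap.map_zero Q)
  have hU : ND (Q.restrict U) := by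
    rintro ⟨x, hx⟩ h
    obtain ⟨a, rfl⟩ := Submodule.mem_span_singleton.1 hx
    have := h ⟨v, Submodule.mem_span_singleton_self v⟩
    rw [polar_restrict] at this
    simp only at this
    rw [polar_smul_left, hvv, smul_eq_mul, mul_eq_zero, mul_eq_zero] at this
    apply Subtype.ext
    simp only
    rcases this with h | h | h
    · rw [h, zero_smul]; rfl
    · exact absurd h h2
    · exact absurd h hv
  obtain ⟨e, he, heQ⟩ := ortho_split hU
  refine ⟨Q v, hv, orth Q U, inferInstance, inferInstance, inferInstance, Q.restrict (orth Q U), nd_orth hQ hU, ?_, ?_⟩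
  · have := finrank_orth hQ U
    rw [finrank_span_singleton hv0] at this
    exact this
  · have e1 : (Q.restrict U).Equivalent (qUn (Q v)) := by
      refine Equivalent.symm (equivalent_of_map (nd_qUn h2 hv) ?_ ((LinearMap.toSpanSingleton F V v).codRestrict U (fun c => ?_)) (fun c => ?_))
      · rw [finrank_span_singleton hv0, Module.finrank_self]
      · exact Submodule.mem_span_singleton.2 ⟨c, rfl⟩
      · show Q (c • v) = _
        rw [QuadraticMap.map_smul, qUn_apply, smul_eq_mul]; ring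
    have e2 : Q.Equivalent ((Q.restrict U).prod (Q.restrict (orth Q U))) := ⟨⟨e.symm, fun x => by
      have := heQ (e.symm x)
      rw [LinearEquiv.apply_symm_apply] at this
      exact this.symm⟩⟩
    exact e2.trans (e1.prod (Equivalent.refl _))

theorem odds_nil [Finite F] (h2 : (2 : F) ≠ 0) (l : Multiset ℕ) : (∀ e ∈ l, Odd e) → ∀ (V : Type u) [AddCommGroup V] [Module F V]
    [FiniteDimensional F V] (Q : QuadraticForm F V), ND Q → finrank F V = l.sum → HasNil Q l := by
  induction l using Multiset.induction_on with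
  | empty =>
    intro _ V _ _ _ Q hQ hd
    exact zero_nil Q (by simpa using hd)
  | cons e l ih =>
    intro hodd V _ _ _ Q hQ hd
    obtain ⟨f, hf⟩ := hodd e (Multiset.mem_cons_self e l)
    rw [Multiset.sum_cons] at hd
    obtain ⟨V1, i1, i2, i3, Q1, hQ1, hd1, he1⟩ := split_hyps f V Q hQ (by omega)
    obtain ⟨c, hc, V2, j1, j2, j3, Q2, hQ2, hd2, he2⟩ := split_one h2 V1 Q1 hQ1 (by omega)
    have h3 := ih (fun e he => hodd e (Multiset.mem_cons_of_mem he)) V2 Q2 hQ2 (by omega)
    have h4 := (qOdd_nil (F := F) h2 f hc).prod h3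
    have h5 : Q.Equivalent ((qOdd f F c).prod Q2) :=
      he1.trans (((Equivalent.refl _).prod he2).trans ((prod_assoc_equiv _ _ _).symm.trans
        (((prod_comm_equiv _ _).trans (qOdd_equiv f c).symm).prod (Equivalent.refl _))))
    have h6 := h4.equiv h5.symm
    rw [hf]
    rw [Multiset.singleton_add] at h6
    exact h6

/-- multisets with even multiplicities are doubles -/
theorem exists_half (μ : Multiset ℕ) (h : ∀ e, Even (μ.count e)) : ∃ ν : Multiset ℕ, μ = ν + ν := by
  refine ⟨∑ e ∈ μ.toFinset, Multiset.replicate (μ.count e / 2) e, ?_⟩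
  ext k
  rw [Multiset.count_add, Multiset.count_sum']
  simp only [Multiset.count_replicate]
  rw [Finset.sum_ite_eq']
  split_ifs with hk
  · obtain ⟨m, hm⟩ := h k
    omega
  · rw [Multiset.mem_toFinset] at hk
    rw [Multiset.count_eq_zero_of_notMem hk]; rfl

theorem exists_decomp (μ : Multiset ℕ) (h : ∀ e, Even e → Even (μ.count e)) :
    ∃ ν ω : Multiset ℕ, μ = (ν + ν) + ω ∧ (∀ e ∈ ω, Odd e) ∧ ω = μ.filter (fun e => Odd e) := by
  obtain ⟨ν, hν⟩ := exists_half (μ.filter (fun e => Even e)) (by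
    intro e
    rw [Multiset.count_filter]
    split_ifs with he
    · exact h e he
    · exact Even.zero)
  refine ⟨ν, μ.filter (fun e => Odd e), ?_, ?_, rfl⟩
  · rw [← hν]
    have := Multiset.filter_add_not (fun e => Even e) μ
    rw [← this]
    congr 1
    · rw [this]
    · rw [this]
      apply Multiset.filter_congr
      intro e _
      exact Nat.not_even_iff_odd
  · intro e he
    exact (Multiset.mem_filter.1 he).2

theorem nil_of_split [Finite F] (h2 : (2 : F) ≠ 0) {μ ν ω : Multiset ℕ} (hμ : μ = (ν + ν) + ω) (hω : ∀ e ∈ ω, Odd e)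
    {V : Type*} [AddCommGroup V] [Module F V] {V' : Type u} [AddCommGroup V'] [Module F V'] [FiniteDimensional F V']
    (Q : QuadraticForm F V) (Q' : QuadraticForm F V') (hQ' : ND Q') (hd : finrank F V' = ω.sum)
    (he : Q.Equivalent ((qPlus ν.sum F).prod Q')) : HasNil Q μ := by
  rw [hμ]
  exact ((pairs_nil (F := F) ν).prod (odds_nil h2 ω hω V' Q' hQ' hd)).equiv he.symm

theorem plus_nil [Finite F] (h2 : (2 : F) ≠ 0) (μ : Multiset ℕ) (h : ∀ e, Even e → Even (μ.count e)) (d : ℕ) (hd : μ.sum = 2 * d) :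
    HasNil (qPlus d F) μ := by
  obtain ⟨ν, ω, hμ, hω, -⟩ := exists_decomp μ h
  have hs : 2 * ν.sum + ω.sum = 2 * d := by rw [← hd, hμ, Multiset.sum_add, Multiset.sum_add]; ring
  have e1 := qPlus_add (F := F) ν.sum (d - ν.sum)
  rw [Nat.add_sub_cancel' (by omega)] at e1
  refine nil_of_split h2 hμ hω _ (qPlus (d - ν.sum) F) (nd_qPlus _) ?_ e1
  rw [Module.finrank_fintype_fun_eq_card, Fintype.card_sum, Fintype.card_fin]
  omega

theorem minus_nil [Finite F] (h2 : (2 : F) ≠ 0) (μ : Multiset ℕ) (h : ∀ e, Even e → Even (μ.count e)) (m : ℕ) (hd : μ.sum = 2 * (m + 1))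
    (hodd : ∃ e ∈ μ, Odd e) {a b : F} (hab : 4 * b - a ^ 2 ≠ 0) :
    HasNil (qMinus m F a b) μ := by
  obtain ⟨ν, ω, hμ, hω, hω'⟩ := exists_decomp μ h
  have hs : 2 * ν.sum + ω.sum = 2 * (m + 1) := by rw [← hd, hμ, Multiset.sum_add, Multiset.sum_add]; ring
  have hpos : 1 ≤ ω.sum := by
    obtain ⟨e, he, hoe⟩ := hodd
    have : e ∈ ω := by rw [hω']; exact Multiset.mem_filter.2 ⟨he, hoe⟩
    have h1 := Multiset.single_le_sum (s := ω) (fun x _ => Nat.zero_le x) e this
    obtain ⟨k, hk⟩ := hoe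
    omega
  have e1 := qMinus_add (F := F) ν.sum (m - ν.sum) a b
  rw [Nat.add_sub_cancel' (by omega)] at e1
  refine nil_of_split h2 hμ hω _ (qMinus (m - ν.sum) F a b) (nd_qMinus _ hab) ?_ e1
  rw [Module.finrank_fintype_fun_eq_card, Fintype.card_sum, Fintype.card_sum, Fintype.card_fin, Fintype.card_fin]
  omega

theorem odd_nil [Finite F] (h2 : (2 : F) ≠ 0) (μ : Multiset ℕ) (h : ∀ e, Even e → Even (μ.count e)) (d : ℕ) (hd : μ.sum = 2 * d + 1)
    {c : F} (hc : c ≠ 0) : HasNil (qOdd d F c) μ := by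
  obtain ⟨ν, ω, hμ, hω, hω'⟩ := exists_decomp μ h
  have hs : 2 * ν.sum + ω.sum = 2 * d + 1 := by rw [← hd, hμ, Multiset.sum_add, Multiset.sum_add]; ring
  have e1 := qOdd_add (F := F) ν.sum (d - ν.sum) c
  rw [Nat.add_sub_cancel' (by omega)] at e1
  refine nil_of_split h2 hμ hω _ (qOdd (d - ν.sum) F c) (nd_qOdd _ h2 hc) ?_ e1
  rw [Module.finrank_fintype_fun_eq_card, Fintype.card_sum, Fintype.card_sum, Fintype.card_fin, Fintype.card_unit]
  omega

end H99.OrthUni2
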