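import Mathlib
import Cfsg.Agent.Lib.H99.OrthUni2
import Cfsg.Agent.Lib.H17.OrthSO

set_option autoImplicit false
set_option linter.unusedSimpArgs false
set_option linter.unusedSectionVars false
set_option linter.unusedVariables false

/-! Unipotent elements of given Jordan type in Ω, odd characteristic. -/

namespace H99.OrthUni3

open Module QuadraticMap H48.QuadSplit H99.OrthUni H99.OrthUni2
open scoped Matrix

section cayley

variable {F : Type*} [Field F] {V : Type*} [AddCommGroup V] [Module F V] [FiniteDimensional F V]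

theorem cayley (h2 : (2 : F) ≠ 0) {Q : QuadraticForm F V} (hQ : ND Q) {μ : Multiset ℕ} (p : ℕ) (hμ : ∀ e ∈ μ, e ≤ p) (h : HasNil Q μ) :
    ∃ x : V ≃ₗ[F] V, (∀ v, Q (x v) = Q v) ∧ (x.toLinearMap - 1) ^ p = 0 ∧
      ∀ k, finrank F (LinearMap.range ((x.toLinearMap - 1) ^ k)) = (μ.map (fun e => e - k)).sum := by
  obtain ⟨N, h1, hr⟩ := h
  have hNp : N ^ p = 0 := by
    have h3 := hr p
    have h4 : (μ.map (fun e => e - p)).sum = 0 := by
      rw [Multiset.sum_eq_zero_iff]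
      intro m hm
      obtain ⟨e, he, rfl⟩ := Multiset.mem_map.1 hm
      have := hμ e he
      omega
    rw [h4] at h3
    exact LinearMap.range_eq_bot.1 (Submodule.finrank_eq_zero.1 h3)
  have hnil : IsNilpotent N := ⟨p, hNp⟩
  obtain ⟨u, hu⟩ := hnil.isUnit_one_sub
  have h2u : IsUnit ((2 : F) • (1 : V →ₗ[F] V)) := ⟨⟨(2 : F) • 1, (2 : F)⁻¹ • 1, by rw [smul_mul_smul_comm, one_mul, mul_inv_cancel₀ h2, one_smul],
    by rw [smul_mul_smul_comm, one_mul, inv_mul_cancel₀ h2, one_smul]⟩, rfl⟩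
  let g : V →ₗ[F] V := (1 + N) * ((u⁻¹ : (V →ₗ[F] V)ˣ) : V →ₗ[F] V)
  have hg : ∀ w, g ((1 - N) w) = (1 + N) w := by
    intro w
    show ((1 + N) * ((u⁻¹ : (V →ₗ[F] V)ˣ) : V →ₗ[F] V)) ((1 - N) w) = _
    rw [← Module.End.mul_apply, ← hu, mul_assoc, Units.inv_mul, mul_one]
  have hsurj : ∀ v, ∃ w, (1 - N) w = v := by
    intro v
    refine ⟨((u⁻¹ : (V →ₗ[F] V)ˣ) : V →ₗ[F] V) v, ?_⟩
    rw [← hu, ← Module.End.mul_apply, Units.mul_inv]; rfl
  have hiso : ∀ v, Q (g v) = Q v := by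
    intro v
    obtain ⟨w, rfl⟩ := hsurj v
    rw [hg]
    have e1 : (1 + N) w = w + N w := rfl
    have e2 : (1 - N) w = w + -(N w) := by show w - N w = _; rw [sub_eq_add_neg]
    have e3 : polar Q w (N w) = 0 := by
      have := h1 w w
      rw [polar_comm] at this
      have h' : 2 * polar Q w (N w) = 0 := by linear_combination this
      exact (mul_eq_zero.1 h').resolve_left h2
    rw [e1, e2, QuadraticMap.map_add Q, QuadraticMap.map_add Q, QuadraticMap.map_neg, polar_neg_right, e3, neg_zero]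
  obtain ⟨e, he⟩ := H48.QuadWitt.exists_equiv (nd_iff.1 hQ) g hiso
  have he' : e.toLinearMap = g := LinearMap.ext he
  -- x - 1 = N * c
  let c : V →ₗ[F] V := ((2 : F) • (1 : V →ₗ[F] V)) * ((u⁻¹ : (V →ₗ[F] V)ˣ) : V →ₗ[F] V)
  have hc : IsUnit c := h2u.mul (u⁻¹).isUnit
  have hNu : Commute N (u : V →ₗ[F] V) := by
    rw [hu]; exact (Commute.one_right N).sub_right (Commute.refl N)
  have hNc : Commute N c := by
    have e1 : Commute N ((u⁻¹ : (V →ₗ[F] V)ˣ) : V →ₗ[F] V) := hNu.units_inv_right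
    have e2 : Commute N ((2 : F) • (1 : V →ₗ[F] V)) := (Commute.one_right N).smul_right _
    exact e2.mul_right e1
  have hx1 : g - 1 = N * c := by
    have e1 : g - 1 = ((1 + N) - (u : V →ₗ[F] V)) * ((u⁻¹ : (V →ₗ[F] V)ˣ) : V →ₗ[F] V) := by
      rw [sub_mul, Units.mul_inv]
    have e2 : (1 + N) - (u : V →ₗ[F] V) = N * ((2 : F) • (1 : V →ₗ[F] V)) := by
      rw [hu, mul_smul_comm, mul_one, two_smul]; abel
    rw [e1, e2, mul_assoc]
  have hpow : ∀ k : ℕ, (g - 1) ^ k = N ^ k * c ^ k := fun k => by rw [hx1, hNc.mul_pow]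
  refine ⟨e, fun v => by rw [he]; exact hiso v, ?_, ?_⟩
  · rw [he', hpow, hNp, zero_mul]
  · intro k
    rw [he', hpow, ← hr k]
    have hck : LinearMap.range (c ^ k) = ⊤ := by
      rw [LinearMap.range_eq_top]
      obtain ⟨u', hu'⟩ := hc.pow k
      intro v
      refine ⟨((u'⁻¹ : (V →ₗ[F] V)ˣ) : V →ₗ[F] V) v, ?_⟩
      rw [← hu', ← Module.End.mul_apply, Units.mul_inv]; rfl
    have : LinearMap.range (N ^ k * c ^ k) = LinearMap.range (N ^ k) := LinearMap.range_comp_of_range_eq_top _ hck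
    rw [this]

end cayley

variable {ι : Type} [Fintype ι] [DecidableEq ι] {F : Type*} [Field F]

/-- isometries of odd order lie in Ω -/
theorem mem_omega_of_odd [Fintype F] (Q : QuadraticForm F (ι → F)) (hQ : (polarBilin Q).Nondegenerate)
    (h : Fintype.card F ≠ 2 ∨ Fintype.card ι ≠ 4) {g : GL ι F} (hg : g ∈ Cfsg.isometryGroup F (⇑Q)) {r : ℕ} (hr : Odd r) (hgr : g ^ r = 1) :
    g ∈ Cfsg.Geo.omegaGL (⇑Q) := by
  have hsq : ∀ a : ↥(Cfsg.isometryGroup F (⇑Q)), (Abelianization.of a) ^ 2 = 1 := by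
    intro a
    have ha : a ∈ Subgroup.closure {g : ↥(Cfsg.isometryGroup F (⇑Q)) | ∃ v : ι → F, Q v ≠ 0 ∧
      ((g : GL ι F) : Matrix ι ι F) = Cfsg.reflectionMatrix (⇑Q) v} := by
      rw [H17.OrthTrans.closure_refl_eq_top Q hQ h]; trivial
    induction ha using Subgroup.closure_induction with
    | mem x hx =>
      obtain ⟨v, hv, hx⟩ := hx
      rw [H17.OrthTrans.eq_refl_of_coe Q v hv x hx, ← map_pow, pow_two, H17.OrthSO.refl_mul_self, map_one]
    | one => rw [map_one, one_pow]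
    | mul x y _ _ hx hy => rw [map_mul, mul_pow, hx, hy, mul_one]
    | inv x _ hx => rw [map_inv, inv_pow, hx, inv_one]
  refine ⟨⟨g, hg⟩, ?_, rfl⟩
  show (⟨g, hg⟩ : ↥(Cfsg.isometryGroup F (⇑Q))) ∈ commutator _
  rw [← Abelianization.ker_of, MonoidHom.mem_ker]
  obtain ⟨m, rfl⟩ := hr
  have e1 : (Abelianization.of (⟨g, hg⟩ : ↥(Cfsg.isometryGroup F (⇑Q)))) ^ (2 * m + 1) = 1 := by
    rw [← map_pow]
    have : (⟨g, hg⟩ : ↥(Cfsg.isometryGroup F (⇑Q))) ^ (2 * m + 1) = 1 := Subtype.ext hgr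
    rw [this, map_one]
  rwa [pow_succ, pow_mul, hsq, one_pow, one_mul] at e1

theorem exists_elt [Fintype F] (p : ℕ) [hpf : Fact p.Prime] [CharP F p] (hp2 : p ≠ 2) (Q : QuadraticForm F (ι → F)) (hQ : ND Q)
    (μ : Multiset ℕ) (hμ : ∀ e ∈ μ, 0 < e ∧ e ≤ p) (hne : ∃ e ∈ μ, e ≠ 1) (hnil : HasNil Q μ) :
    ∃ x : GL ι F, x ∈ Cfsg.Geo.omegaGL (⇑Q) ∧ x ^ p = 1 ∧ (∀ z : F, (x : Matrix ι ι F) ≠ z • (1 : Matrix ι ι F)) ∧
      (∀ u, Q ((x : Matrix ι ι F) *ᵥ u) = Q u) ∧ (Matrix.toLin' (x : Matrix ι ι F) - 1) ^ p = 0 ∧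
      ∀ k, finrank F (LinearMap.range ((Matrix.toLin' (x : Matrix ι ι F) - 1) ^ k)) = (μ.map (fun e => e - k)).sum := by
  have hp := hpf.out
  have h2 : (2 : F) ≠ 0 := by
    intro h
    have h' : ((2 : ℕ) : F) = 0 := by exact_mod_cast h
    rw [CharP.cast_eq_zero_iff F p] at h'
    exact hp2 ((Nat.prime_dvd_prime_iff_eq hp Nat.prime_two).1 h')
  have hcard : Fintype.card F ≠ 2 := by
    intro h
    have h' : ((Fintype.card F : ℕ) : F) = 0 := Nat.cast_card_eq_zero F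
    rw [h] at h'
    exact h2 (by exact_mod_cast h')
  obtain ⟨e, he1, he2, he3⟩ := cayley h2 hQ p (fun e he => (hμ e he).2) hnil
  let x : GL ι F := (H95.Bridge.toEq ι F).symm e
  have hx : Matrix.toLin' (x : Matrix ι ι F) = e.toLinearMap :=
    LinearMap.ext fun v => H95.Bridge.toEq_symm_mulVec e v
  have hxv : ∀ v, (x : Matrix ι ι F) *ᵥ v = e v := fun v => H95.Bridge.toEq_symm_mulVec e v
  have hiso : ∀ u, Q ((x : Matrix ι ι F) *ᵥ u) = Q u := fun u => by rw [hxv]; exact he1 u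
  have hepow : e.toLinearMap ^ p = 1 := by
    have h3 : (Polynomial.X - 1 : Polynomial F) ^ p = Polynomial.X ^ p - 1 := by rw [sub_pow_char, one_pow]
    have h4 := congrArg (Polynomial.aeval e.toLinearMap) h3
    simp only [_root_.map_pow, _root_.map_sub, Polynomial.aeval_X, _root_.map_one] at h4
    rw [he2] at h4
    exact (sub_eq_zero.1 h4.symm)
  have hxp : x ^ p = 1 := by
    apply Units.ext
    rw [Units.val_pow_eq_pow_val, Units.val_one]
    apply Matrix.toLin'.injective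
    rw [Matrix.toLin'_pow, hx, hepow, Matrix.toLin'_one]; rfl
  refine ⟨x, ?_, hxp, ?_, hiso, by rw [hx]; exact he2, fun k => by rw [hx]; exact he3 k⟩
  · refine mem_omega_of_odd Q (nd_iff.1 hQ) (Or.inl hcard) ?_ (hp.odd_of_ne_two hp2) hxp
    rw [H17.OrthDet.mem_isometryGroup_iff]
    exact hiso
  · intro z hz
    have h3 := he3 1
    have hpos : 0 < (μ.map (fun e => e - 1)).sum := by
      obtain ⟨e', he', hne'⟩ := hne
      have h4 := Multiset.single_le_sum (s := μ.map (fun e => e - 1)) (fun x _ => Nat.zero_le x) (e' - 1) (Multiset.mem_map_of_mem _ he')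
      have := (hμ e' he').1
      omega
    have h5 : e.toLinearMap - 1 = (z - 1) • (1 : (ι → F) →ₗ[F] (ι → F)) := by
      rw [← hx, hz, _root_.map_smul, Matrix.toLin'_one]
      apply LinearMap.ext
      intro w
      show z • w - w = (z - 1) • w
      rw [sub_smul, one_smul]
    have h6 : e.toLinearMap - 1 = 0 := by
      by_cases hw : z - 1 = 0
      · rw [h5, hw, zero_smul]
      · have h7 : ((z - 1) • (1 : (ι → F) →ₗ[F] (ι → F))) ^ p = 0 := by rw [← h5]; exact he2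
        rw [smul_pow, one_pow] at h7
        have h8 : (1 : (ι → F) →ₗ[F] (ι → F)) = 0 := (smul_eq_zero.1 h7).resolve_left (pow_ne_zero _ hw)
        rw [h5, h8, smul_zero]
    rw [h6, pow_one, LinearMap.range_zero, finrank_bot] at h3
    omega

/-- the polar form restricted to an invariant nondegenerate subspace -/
theorem sub_type [Fintype F] (p : ℕ) [hpf : Fact p.Prime] (h2 : (2 : F) ≠ 0) (Q : QuadraticForm F (ι → F))
    (μ : Multiset ℕ) (hμ : ∀ e ∈ μ, 0 < e ∧ e ≤ p) (x : GL ι F) (hxp : x ^ p = 1)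
    (hiso : ∀ u, Q ((x : Matrix ι ι F) *ᵥ u) = Q u) (hN : (Matrix.toLin' (x : Matrix ι ι F) - 1) ^ p = 0)
    (hr : ∀ k, finrank F (LinearMap.range ((Matrix.toLin' (x : Matrix ι ι F) - 1) ^ k)) = (μ.map (fun e => e - k)).sum)
    (W : Submodule F (ι → F)) (hW : Cfsg.Geo.IsNondegenerateOn (polar Q) W) (hxW : W.map (Matrix.toLin' (x : Matrix ι ι F)) ≤ W) :
    ∃ ν : Multiset ℕ, ν ≤ μ ∧ ν.sum = finrank F W ∧ (∀ e, Even e → Even (ν.count e)) ∧
      Multiset.card ν = gk (Matrix.toLin' (x : Matrix ι ι F) - 1) W 0 := by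
  set T := Matrix.toLin' (x : Matrix ι ι F) with hT
  have hB : ∀ u v, polarBilin Q (T u) (T v) = polarBilin Q u v := by
    intro u v
    rw [polarBilin_apply_apply, polarBilin_apply_apply]
    exact H48.QuadWitt.polar_isom (Q := Q) (Q' := Q) (g := T) (fun _ _ => _root_.map_add _ _ _) hiso u v
  have hsymm : ∀ u v, polarBilin Q u v = polarBilin Q v u := by
    intro u v
    rw [polarBilin_apply_apply, polarBilin_apply_apply, polar_comm]
  have hrefl : (polarBilin Q).IsRefl := fun u v h => by rw [hsymm]; exact h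
  have hWnd : Iso.ND (polarBilin Q) W := by
    intro w hw h
    by_contra hne
    obtain ⟨y, hy, hy'⟩ := (hW w hw hne).2
    exact hy' (by have := h y hy; rwa [polarBilin_apply_apply] at this)
  have hWi : ∀ v ∈ W, T v ∈ W := fun v hv => hxW ⟨v, hv, rfl⟩
  have hTp : T ^ p = 1 := by
    have := congrArg (fun g : GL ι F => Matrix.toLin' (g : Matrix ι ι F)) hxp
    simp only [Units.val_pow_eq_pow_val, Units.val_one, Matrix.toLin'_pow, Matrix.toLin'_one] at this
    exact this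
  have hoi : ∀ v ∈ LinearMap.BilinForm.orthogonal (polarBilin Q) W, T v ∈ LinearMap.BilinForm.orthogonal (polarBilin Q) W :=
    Iso.inv_orth hTp hpf.out.pos hB hWi
  have hsub : ∀ U : Submodule F (ι → F), (∀ v ∈ U, T v ∈ U) → U.map (T - 1) ≤ U := by
    rintro U hU _ ⟨v, hv, rfl⟩
    exact U.sub_mem (hU v hv) hv
  obtain ⟨ν, h1, h2', h3, h4⟩ := core (T - 1) p hN μ hμ hr W _ (hWnd.isCompl hrefl) (hsub W hWi) (hsub _ hoi)
  refine ⟨ν, h1, h2', ?_, h3⟩
  intro e he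
  by_cases hep : 1 ≤ e ∧ e ≤ p
  · obtain ⟨m, hm⟩ := parity h2 hsymm hB hWi hWnd (e - 1) (by
      obtain ⟨k, hk⟩ := he
      exact ⟨k - 1, by omega⟩)
    rw [Nat.sub_add_cancel hep.1] at hm
    have h5 := h4 e hep.1 hep.2
    rw [hm] at h5
    push_cast at h5
    refine ⟨m, ?_⟩
    have : ((ν.count e : ℕ) : ℤ) = ((m + m : ℕ) : ℤ) := by push_cast; linarith
    exact_mod_cast this
  · have : e ∉ ν := by
      intro h
      have := hμ e (Multiset.mem_of_le h1 h)
      omega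
    rw [Multiset.count_eq_zero_of_notMem this]
    exact Even.zero

theorem two_ne' [Fintype F] (p : ℕ) [hpf : Fact p.Prime] [CharP F p] (hp2 : p ≠ 2) : (2 : F) ≠ 0 := by
  intro h
  have h' : ((2 : ℕ) : F) = 0 := by exact_mod_cast h
  rw [CharP.cast_eq_zero_iff F p] at h'
  exact hp2 ((Nat.prime_dvd_prime_iff_eq hpf.out Nat.prime_two).1 h')

theorem p_ne_two [Fintype F] (p : ℕ) [hpf : Fact p.Prime] [CharP F p] (hodd : Odd (Fintype.card F)) : p ≠ 2 := by
  rintro rfl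
  have h' : ((Fintype.card F : ℕ) : F) = 0 := Nat.cast_card_eq_zero F
  rw [CharP.cast_eq_zero_iff F 2] at h'
  obtain ⟨k, hk⟩ := hodd
  omega

theorem final [Fintype F] (p : ℕ) [hpf : Fact p.Prime] [CharP F p] (hp2 : p ≠ 2) (Q : QuadraticForm F (ι → F)) (hQ : ND Q) (m : ℕ)
    (h : ∀ x : GL ι F, x ∈ Cfsg.Geo.omegaGL (⇑Q) → x ^ p = 1 → (∀ z : F, (x : Matrix ι ι F) ≠ z • (1 : Matrix ι ι F)) →
      ∃ W : Submodule F (ι → F), finrank F W = m ∧ Cfsg.Geo.IsNondegenerateOn (polar Q) W ∧ W.map (Matrix.toLin' (x : Matrix ι ι F)) ≤ W)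
    (μ : Multiset ℕ) (hμ : ∀ e ∈ μ, 0 < e ∧ e ≤ p) (hm : m ≤ μ.sum) (hnil : HasNil Q μ) :
    ∃ ν : Multiset ℕ, ν ≤ μ ∧ ν.sum = m ∧ ∀ e, Even e → Even (ν.count e) := by
  by_cases hne : ∃ e ∈ μ, e ≠ 1
  · obtain ⟨x, h1, h2, h3, h4, h5, h6⟩ := exists_elt p hp2 Q hQ μ hμ hne hnil
    obtain ⟨W, w1, w2, w3⟩ := h x h1 h2 h3
    obtain ⟨ν, n1, n2, n3, -⟩ := sub_type p (two_ne' p hp2) Q μ hμ x h2 h4 h5 h6 W w2 w3
    exact ⟨ν, n1, by rw [n2, w1], n3⟩
  · push Not at hne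
    have h1 : μ = Multiset.replicate (Multiset.card μ) 1 := Multiset.eq_replicate_card.2 hne
    have h2 : μ.sum = Multiset.card μ := by
      conv_lhs => rw [h1]
      rw [Multiset.sum_replicate]; simp
    refine ⟨Multiset.replicate m 1, ?_, by simp, ?_⟩
    · rw [h1, Multiset.replicate_le_replicate]; omega
    · intro e he
      rw [Multiset.count_replicate, if_neg]
      · exact Even.zero
      · rintro rfl
        exact absurd he (by decide)

end H99.OrthUni3
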