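import Mathlib
import Cfsg.Agent.Lib.H99.OrthUni3
import Cfsg.Agent.Lib.H99.Iso4
import Cfsg.Agent.Lib.H96.OeType
import Cfsg.Agent.Lib.H96.OeTyp2
import Cfsg.Agent.Lib.H48.MaxSing
import Cfsg.Agent.Lib.H48.CharTwoQ
import Cfsg.Agent.Lib.H7.MinusOrd

set_option autoImplicit false
set_option linter.unusedSimpArgs false
set_option linter.unusedSectionVars false
set_option linter.unusedVariables false

/-! Quadratic forms in characteristic two: counting, fixed-point-free elements, involutions. -/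

namespace H99.OrthTwo

open Module QuadraticMap H48.QuadSplit H48.QuadStd H96.OeType
open scoped Matrix

universe u

section count

theorem card_lines {ι : Type} [Fintype ι] {F : Type*} [Field F] [Fintype F] (Q : QuadraticForm F (ι → F)) :
    (Fintype.card F - 1) * Nat.card {W : Submodule F (ι → F) // finrank F W = 1 ∧ ∃ v ∈ W, Q v ≠ 0} =
      Nat.card {v : ι → F // Q v ≠ 0} := by
  classical
  have hex : ∀ W : {W : Submodule F (ι → F) // finrank F W = 1 ∧ ∃ v ∈ W, Q v ≠ 0}, ∃ v : ι → F, Q v ≠ 0 ∧ W.1 = Submodule.span F {v} := by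
    rintro ⟨W, hW, v, hv, hQv⟩
    refine ⟨v, hQv, ?_⟩
    symm
    apply Submodule.eq_of_le_of_finrank_eq
    · rw [Submodule.span_le]; rintro _ rfl; exact hv
    · rw [finrank_span_singleton, hW]
      rintro rfl
      exact hQv (QuadraticMap.map_zero Q)
  choose g hg1 hg2 using hex
  let φ : {c : F // c ≠ 0} × {W : Submodule F (ι → F) // finrank F W = 1 ∧ ∃ v ∈ W, Q v ≠ 0} → {v : ι → F // Q v ≠ 0} :=
    fun x => ⟨x.1.1 • g x.2, by
      rw [QuadraticMap.map_smul, smul_eq_mul]
      exact mul_ne_zero (mul_ne_zero x.1.2 x.1.2) (hg1 x.2)⟩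
  have hg0 : ∀ W, g W ≠ 0 := by
    intro W h
    apply hg1 W
    rw [h]; exact QuadraticMap.map_zero Q
  have hφ : Function.Bijective φ := by
    constructor
    · rintro ⟨⟨c, hc⟩, W⟩ ⟨⟨c', hc'⟩, W'⟩ h
      have h1 : c • g W = c' • g W' := congrArg Subtype.val h
      have h2 : W = W' := by
        apply Subtype.ext
        rw [hg2 W, hg2 W', ← Submodule.span_singleton_smul_eq (IsUnit.mk0 c hc) (g W), h1,
          Submodule.span_singleton_smul_eq (IsUnit.mk0 c' hc')]
      subst h2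
      have h3 : c = c' := by
        have h4 : (c - c') • g W = 0 := by rw [sub_smul, h1, sub_self]
        exact sub_eq_zero.1 ((smul_eq_zero.1 h4).resolve_right (hg0 W))
      subst h3
      rfl
    · rintro ⟨v, hv⟩
      have hv0 : v ≠ 0 := by rintro rfl; exact hv (QuadraticMap.map_zero Q)
      let W : {W : Submodule F (ι → F) // finrank F W = 1 ∧ ∃ v ∈ W, Q v ≠ 0} :=
        ⟨Submodule.span F {v}, finrank_span_singleton hv0, v, Submodule.mem_span_singleton_self v, hv⟩
      have h1 : v ∈ Submodule.span F {g W} := by rw [← hg2 W]; exact Submodule.mem_span_singleton_self v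
      obtain ⟨c, hc⟩ := Submodule.mem_span_singleton.1 h1
      refine ⟨⟨⟨c, ?_⟩, W⟩, Subtype.ext hc⟩
      rintro rfl
      rw [zero_smul] at hc
      exact hv0 hc.symm
  rw [← Nat.card_congr (Equiv.ofBijective φ hφ), Nat.card_prod]
  congr 1
  rw [← Nat.card_congr (unitsEquivNeZero (G₀ := F)), Nat.card_eq_fintype_card, Fintype.card_units]

theorem ns_add {V F : Type*} [Field F] [AddCommGroup V] [Module F V] [Finite V] (Q : QuadraticForm F V) :
    Nat.card {v : V // Q v ≠ 0} + H7.HypStd.cnt Q 0 = Nat.card V := by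
  classical
  rw [add_comm, ← Nat.card_congr (Equiv.sumCompl (fun v => Q v = 0)), Nat.card_sum]
  rfl

theorem ns_plus (m : ℕ) (F : Type*) [Field F] [Fintype F] :
    Nat.card {v : Fin (m + 1) ⊕ Fin (m + 1) → F // qPlus (m + 1) F v ≠ 0} =
      (Fintype.card F - 1) * (Fintype.card F ^ m * (Fintype.card F ^ (m + 1) - 1)) := by
  have h1 := ns_add (qPlus (m + 1) F)
  have h2 := H7.HypStd.cnt_plus (F := F) m
  rw [H7.HypStd.card_plus, Nat.card_eq_fintype_card (α := F)] at h1
  rw [Nat.card_eq_fintype_card (α := F)] at h2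
  have hq : 1 ≤ Fintype.card F := Fintype.card_pos
  have hq' : 1 ≤ Fintype.card F ^ (m + 1) := Nat.one_le_pow _ _ hq
  zify [hq, hq'] at h1 h2 ⊢
  have e1 : (Fintype.card F : ℤ) ^ (2 * (m + 1)) = (Fintype.card F : ℤ) ^ m * (Fintype.card F : ℤ) ^ m * (Fintype.card F : ℤ) ^ 2 := by ring
  have e2 : (Fintype.card F : ℤ) ^ (2 * m + 1) = (Fintype.card F : ℤ) ^ m * (Fintype.card F : ℤ) ^ m * (Fintype.card F : ℤ) := by ring
  have e3 : (Fintype.card F : ℤ) ^ (m + 1) = (Fintype.card F : ℤ) ^ m * (Fintype.card F : ℤ) := by ring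
  rw [e1] at h1
  rw [e2, e3] at h2
  rw [e3]
  linear_combination h1 - h2

theorem ns_minus (m : ℕ) {F : Type*} [Field F] [Fintype F] {a b : F}
    (hab : ∀ z₁ z₂ : F, z₁ ^ 2 + a * z₁ * z₂ + b * z₂ ^ 2 = 0 → z₁ = 0 ∧ z₂ = 0) :
    Nat.card {v : (Fin m ⊕ Fin m) ⊕ Fin 2 → F // qMinus m F a b v ≠ 0} =
      (Fintype.card F - 1) * (Fintype.card F ^ m * (Fintype.card F ^ (m + 1) + 1)) := by
  have h1 := ns_add (qMinus m F a b)
  have h2 := H7.HypStd.cnt_minus (F := F) m hab
  rw [H7.HypStd.card_minus, Nat.card_eq_fintype_card (α := F)] at h1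
  rw [Nat.card_eq_fintype_card (α := F)] at h2
  have hq : 1 ≤ Fintype.card F := Fintype.card_pos
  zify [hq] at h1 h2 ⊢
  have e1 : (Fintype.card F : ℤ) ^ (2 * m + 2) = (Fintype.card F : ℤ) ^ m * (Fintype.card F : ℤ) ^ m * (Fintype.card F : ℤ) ^ 2 := by ring
  have e2 : (Fintype.card F : ℤ) ^ (2 * m + 1) = (Fintype.card F : ℤ) ^ m * (Fintype.card F : ℤ) ^ m * (Fintype.card F : ℤ) := by ring
  have e3 : (Fintype.card F : ℤ) ^ (m + 1) = (Fintype.card F : ℤ) ^ m * (Fintype.card F : ℤ) := by ring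
  rw [e1] at h1
  rw [e2, e3] at h2
  rw [e3]
  linear_combination h1 - h2

theorem ns_congr {F V V' : Type*} [Field F] [AddCommGroup V] [Module F V] [AddCommGroup V'] [Module F V'] {Q : QuadraticForm F V}
    {Q' : QuadraticForm F V'} (h : Q.Equivalent Q') : Nat.card {v : V // Q v ≠ 0} = Nat.card {v : V' // Q' v ≠ 0} := by
  obtain ⟨e⟩ := h
  refine Nat.card_congr (e.toLinearEquiv.toEquiv.subtypeEquiv fun v => ?_)
  show Q v ≠ 0 ↔ Q' (e v) ≠ 0
  rw [e.map_app]

/-- a fixed-point-free isometry of prime order -/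
theorem fpf_dvd {F V : Type*} [Field F] [AddCommGroup V] [Module F V] [Finite V] (Q : QuadraticForm F V) {r : ℕ} (hr : r.Prime)
    (f : V →ₗ[F] V) (hf : ∀ v, Q (f v) = Q v) (hfr : f ^ r = 1) (hfix : ∀ v, f v = v → Q v = 0) :
    r ∣ Nat.card {v : V // Q v ≠ 0} := by
  classical
  have : Fact r.Prime := ⟨hr⟩
  have : Fintype {v : V // Q v ≠ 0} := Fintype.ofFinite _
  let φ : Function.End {v : V // Q v ≠ 0} := fun v => ⟨f v, by rw [hf]; exact v.2⟩
  have hφ : ∀ (k : ℕ) (v : {v : V // Q v ≠ 0}), (((φ ^ k) v : {v : V // Q v ≠ 0}) : V) = (f ^ k) v := by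
    intro k
    induction k with
    | zero => intro v; rfl
    | succ k ih =>
      intro v
      rw [pow_succ', pow_succ', Module.End.mul_apply, ← ih]
      rfl
  have h1 := Equiv.Perm.card_fixedPoints_modEq (f := φ) (p := r) (n := 1) (by
    rw [pow_one]
    funext v
    apply Subtype.ext
    rw [hφ, hfr]; rfl)
  have h2 : Fintype.card (Function.fixedPoints φ) = 0 := by
    rw [Fintype.card_eq_zero_iff]
    refine ⟨fun v => v.1.2 ?_⟩
    apply hfix
    exact congrArg Subtype.val v.2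
  rw [Nat.card_eq_fintype_card]
  exact (Nat.modEq_zero_iff_dvd).1 (h1.trans (by rw [h2]))

end count

section alt

variable {F : Type*} [Field F]

theorem alt_isom {V V' : Type*} [AddCommGroup V] [Module F V] [FiniteDimensional F V] [AddCommGroup V'] [Module F V'] [FiniteDimensional F V']
    (B : LinearMap.BilinForm F V) (B' : LinearMap.BilinForm F V') (hA : ∀ v, B v v = 0) (hA' : ∀ v, B' v v = 0)
    (hN : ∀ u, (∀ v, B u v = 0) → u = 0) (hN' : ∀ u, (∀ v, B' u v = 0) → u = 0) (j : ℕ) (hd : finrank F V = 2 * j) (hd' : finrank F V' = 2 * j) :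
    ∃ f : V ≃ₗ[F] V', ∀ u v, B' (f u) (f v) = B u v := by
  have r1 : B.IsRefl := LinearMap.IsAlt.isRefl (B := B) hA
  have r2 : B'.IsRefl := LinearMap.IsAlt.isRefl (B := B') hA'
  obtain ⟨e, he⟩ := Iso.exists_std (B := B) r1 hA (X := ⊤) (fun u _ h => hN u (fun v => h v trivial)) (j := j) (by rw [finrank_top, hd])
  obtain ⟨e', he'⟩ := Iso.exists_std (B := B') r2 hA' (X := ⊤) (fun u _ h => hN' u (fun v => h v trivial)) (j := j) (by rw [finrank_top, hd'])
  let T : V ≃ₗ[F] (⊤ : Submodule F V) := Submodule.topEquiv.symm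
  let T' : (⊤ : Submodule F V') ≃ₗ[F] V' := Submodule.topEquiv
  refine ⟨(T.trans e.symm).trans (e'.trans T'), fun u v => ?_⟩
  show B' (e' (e.symm (T u))) (e' (e.symm (T v))) = B u v
  rw [he', ← he, LinearEquiv.apply_symm_apply, LinearEquiv.apply_symm_apply]
  rfl

theorem polar_alt [CharP F 2] {V : Type*} [AddCommGroup V] [Module F V] (Q : QuadraticForm F V) (v : V) : polarBilin Q v v = 0 := by
  rw [polarBilin_apply_apply, polar_self, ← Nat.cast_smul_eq_nsmul F, CharP.cast_eq_zero, zero_smul]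

end alt

section ext

theorem exists_zeta (F : Type*) [Field F] [Fintype F] (p : ℕ) [Fact p.Prime] [CharP F p] (n : ℕ) [NeZero n] {r : ℕ} (hr : r.Prime) (h : r ∣ Fintype.card F ^ n - 1) :
    ∃ ζ : FiniteField.Extension F p n, ζ ^ r = 1 ∧ ζ ≠ 1 := by
  classical
  have : Fact r.Prime := ⟨hr⟩
  have : Fintype (FiniteField.Extension F p n) := Fintype.ofFinite _
  have hc : Fintype.card (FiniteField.Extension F p n) = Fintype.card F ^ n := by
    rw [← Nat.card_eq_fintype_card, FiniteField.natCard_extension, Nat.card_eq_fintype_card]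
  obtain ⟨ζ, hζ⟩ := exists_prime_orderOf_dvd_card (G := (FiniteField.Extension F p n)ˣ) r (by rw [Fintype.card_units, hc]; exact h)
  refine ⟨ζ, ?_, ?_⟩
  · rw [← Units.val_pow_eq_pow_val, ← hζ, pow_orderOf_eq_one, Units.val_one]
  · intro h1
    have h2 : ζ = 1 := Units.ext h1
    rw [h2, orderOf_one] at hζ
    exact hr.one_lt.ne hζ

/-- a fixed-point-free element of order `r` of `GL_d(q)` -/
theorem exists_fpf_gl (F : Type*) [Field F] [Fintype F] (p : ℕ) [Fact p.Prime] [CharP F p] {d : ℕ} (hd : 0 < d) {r : ℕ} (hr : r.Prime) (h : r ∣ Fintype.card F ^ d - 1) :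
    ∃ A : GL (Fin d) F, A ^ r = 1 ∧ ∀ v, (A : Matrix (Fin d) (Fin d) F) *ᵥ v = v → v = 0 := by
  have : NeZero d := ⟨hd.ne'⟩
  obtain ⟨ζ, h1, h2⟩ := exists_zeta F p d hr h
  have hf : finrank F (FiniteField.Extension F p d) = d := FiniteField.finrank_extension F p d
  let E := FiniteField.Extension F p d
  let e : E ≃ₗ[F] (Fin d → F) := LinearEquiv.ofFinrankEq _ _ (by rw [hf, finrank_fintype_fun_eq_card, Fintype.card_fin])
  let φ : E →* ((Fin d → F) →ₗ[F] (Fin d → F)) :=
    { toFun := fun z => e.toLinearMap ∘ₗ (LinearMap.mulLeft F z) ∘ₗ e.symm.toLinearMap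
      map_one' := by apply LinearMap.ext; intro v; simp
      map_mul' := fun a b => by
        apply LinearMap.ext; intro v
        simp [mul_assoc] }
  let ψ : E →* Matrix (Fin d) (Fin d) F := (LinearMap.toMatrixAlgEquiv' (R := F) (n := Fin d)).toMonoidHom.comp φ
  have hζ0 : ζ ≠ 0 := by
    rintro rfl
    rw [zero_pow hr.ne_zero] at h1
    exact zero_ne_one h1
  let A : GL (Fin d) F := Units.map ψ (Units.mk0 ζ hζ0)
  have hA : ∀ v, (A : Matrix (Fin d) (Fin d) F) *ᵥ v = e (ζ * e.symm v) := by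
    intro v
    show (LinearMap.toMatrixAlgEquiv' (φ ζ)) *ᵥ v = _
    rw [← Matrix.toLin'_apply]
    have : Matrix.toLin' (LinearMap.toMatrixAlgEquiv' (φ ζ)) = φ ζ := by
      show Matrix.toLin' (LinearMap.toMatrix' (φ ζ)) = _
      exact Matrix.toLin'_toMatrix' _
    rw [this]; rfl
  refine ⟨A, ?_, ?_⟩
  · show (Units.map ψ (Units.mk0 ζ hζ0)) ^ r = 1
    rw [← _root_.map_pow]
    have : (Units.mk0 ζ hζ0) ^ r = 1 := Units.ext h1
    rw [this, _root_.map_one]
  · intro v hv
    rw [hA] at hv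
    have h3 : ζ * e.symm v = e.symm v := by apply e.injective; rw [hv, e.apply_symm_apply]
    have h4 : (ζ - 1) * e.symm v = 0 := by rw [sub_mul, h3, one_mul, sub_self]
    have h5 := (mul_eq_zero.1 h4).resolve_left (sub_ne_zero.2 h2)
    rw [← e.apply_symm_apply v, h5, _root_.map_zero]

/-- isometries of the alternating form `Tr(u v^{q^d})` -/
theorem exists_fpf_alt (F : Type*) [Field F] [Fintype F] [CharP F 2] {d : ℕ} (hd : 0 < d) [NeZero (2 * d)] {r : ℕ} (hr : r.Prime)
    (h : r ∣ Fintype.card F ^ d + 1) :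
    ∃ (B : LinearMap.BilinForm F (FiniteField.Extension F 2 (2 * d))) (f : FiniteField.Extension F 2 (2 * d) →ₗ[F] FiniteField.Extension F 2 (2 * d)),
      (∀ v, B v v = 0) ∧ (∀ u, (∀ v, B u v = 0) → u = 0) ∧ (∀ u v, B (f u) (f v) = B u v) ∧ f ^ r = 1 ∧ (∀ v, f v = v → v = 0) ∧
        finrank F (FiniteField.Extension F 2 (2 * d)) = 2 * d := by
  have hq : 1 ≤ Fintype.card F := Fintype.card_pos
  obtain ⟨ζ, h1, h2⟩ := exists_zeta F 2 (2 * d) hr (by
    refine h.trans ⟨Fintype.card F ^ d - 1, ?_⟩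
    have h3 : 1 ≤ Fintype.card F ^ d := Nat.one_le_pow _ _ hq
    have h4 : 1 ≤ Fintype.card F ^ (2 * d) := Nat.one_le_pow _ _ hq
    zify [h3, h4]
    ring)
  have : Fintype (FiniteField.Extension F 2 (2 * d)) := Fintype.ofFinite _
  have hc : Fintype.card (FiniteField.Extension F 2 (2 * d)) = Fintype.card F ^ (2 * d) := by
    rw [← Nat.card_eq_fintype_card, FiniteField.natCard_extension, Nat.card_eq_fintype_card]
  have hcE : CharP (FiniteField.Extension F 2 (2 * d)) 2 := charP_of_injective_algebraMap (algebraMap F _).injective 2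
  let σ : Gal(FiniteField.Extension F 2 (2 * d) / F) := FiniteField.Extension.frob F 2 (2 * d) ^ d
  have hσ : ∀ x, σ x = x ^ (Fintype.card F ^ d) := by
    intro x
    show (FiniteField.Extension.frob F 2 (2 * d) ^ d) x = _
    rw [FiniteField.Extension.frob_iterate_apply, Nat.card_eq_fintype_card]
  let B : LinearMap.BilinForm F (FiniteField.Extension F 2 (2 * d)) := (Algebra.traceForm F _).compl₂ σ.toLinearMap
  have hB : ∀ u v, B u v = Algebra.trace F _ (u * σ v) := fun u v => rfl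
  have hζσ : ζ * σ ζ = 1 := by
    rw [hσ, ← pow_succ']
    obtain ⟨k, hk⟩ := h
    rw [hk, pow_mul, h1, one_pow]
  refine ⟨B, LinearMap.mulLeft F ζ, ?_, ?_, ?_, ?_, ?_, FiniteField.finrank_extension F 2 (2 * d)⟩
  · intro u
    rw [hB]
    apply (algebraMap F (FiniteField.Extension F 2 (2 * d))).injective
    rw [_root_.map_zero, FiniteField.algebraMap_trace_eq_sum_pow, FiniteField.finrank_extension, Nat.card_eq_fintype_card]
    have hw : (u * σ u) ^ (Fintype.card F ^ d) = u * σ u := by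
      rw [← hσ, _root_.map_mul, mul_comm (σ u)]
      congr 1
      rw [hσ, hσ, ← pow_mul, ← pow_add, ← two_mul, ← hc, FiniteField.pow_card]
    have key : ∀ (n : ℕ), n = d + d → ∑ i ∈ Finset.range n, (u * σ u) ^ (Fintype.card F ^ i) = 0 := by
      rintro n rfl
      rw [Finset.sum_range_add]
      have : ∀ x ∈ Finset.range d, (u * σ u) ^ (Fintype.card F ^ (d + x)) = (u * σ u) ^ (Fintype.card F ^ x) := by
        intro x _
        rw [pow_add, pow_mul, hw]
      rw [Finset.sum_congr rfl this]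
      exact CharTwo.add_self_eq_zero _
    exact key _ (two_mul d)
  · intro u hu
    have h3 := (traceForm_nondegenerate F (FiniteField.Extension F 2 (2 * d))).1 u
    apply h3
    intro w
    have := hu (σ.symm w)
    rw [hB, AlgEquiv.apply_symm_apply] at this
    exact this
  · intro u v
    rw [hB, hB, LinearMap.mulLeft_apply, LinearMap.mulLeft_apply, _root_.map_mul σ]
    have h5 : ζ * u * (σ ζ * σ v) = u * σ v := by linear_combination (u * σ v) * hζσ
    rw [h5]
  · apply LinearMap.ext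
    intro v
    rw [LinearMap.pow_mulLeft, h1, LinearMap.mulLeft_one]; rfl
  · intro v hv
    rw [LinearMap.mulLeft_apply] at hv
    have h4 : (ζ - 1) * v = 0 := by rw [sub_mul, hv, one_mul, sub_self]
    exact (mul_eq_zero.1 h4).resolve_left (sub_ne_zero.2 h2)

end ext

section main

variable {F : Type u} [Field F] [Fintype F] [CharP F 2]

theorem exists_fpf_polar {d : ℕ} (hd : 0 < d) {r : ℕ} (hr : r.Prime) (h : r ∣ Fintype.card F ^ d + 1) :
    ∃ f : (Fin d ⊕ Fin d → F) →ₗ[F] (Fin d ⊕ Fin d → F), (∀ u v, polar (qPlus d F) (f u) (f v) = polar (qPlus d F) u v) ∧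
      f ^ r = 1 ∧ ∀ v, f v = v → v = 0 := by
  have : NeZero (2 * d) := ⟨by omega⟩
  obtain ⟨B, f, b1, b2, b3, b4, b5, b6⟩ := exists_fpf_alt F hd hr h
  obtain ⟨e, he⟩ := alt_isom B (polarBilin (qPlus d F)) b1 (polar_alt _) b2 (fun u hu => nd_qPlus d u (fun v => by
    rw [← polarBilin_apply_apply]; exact hu v)) d b6 (by
    rw [finrank_fintype_fun_eq_card, Fintype.card_sum, Fintype.card_fin]; ring)
  have hpow : ∀ k : ℕ, (e.toLinearMap ∘ₗ f ∘ₗ e.symm.toLinearMap) ^ k = e.toLinearMap ∘ₗ (f ^ k) ∘ₗ e.symm.toLinearMap := by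
    intro k
    induction k with
    | zero => apply LinearMap.ext; intro v; simp
    | succ k ih =>
      rw [pow_succ', ih]
      apply LinearMap.ext; intro v
      simp [pow_succ']
  refine ⟨e.toLinearMap ∘ₗ f ∘ₗ e.symm.toLinearMap, ?_, ?_, ?_⟩
  · intro u v
    have := he (f (e.symm u)) (f (e.symm v))
    rw [b3, ← he, e.apply_symm_apply, e.apply_symm_apply, polarBilin_apply_apply, polarBilin_apply_apply] at this
    exact this
  · rw [hpow, b4]; apply LinearMap.ext; intro v; simp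
  · intro v hv
    have h1 : e (f (e.symm v)) = v := hv
    have h2 : f (e.symm v) = e.symm v := by apply e.injective; rw [h1, e.apply_symm_apply]
    have h3 := b5 _ h2
    rw [← e.apply_symm_apply v, h3, _root_.map_zero]

/-- a fixed-point-free isometry of order `r ∣ q^d + 1` lives on a minus type form -/
theorem not_plus_of_fpf {m : ℕ} {V : Type u} [AddCommGroup V] [Module F V] [FiniteDimensional F V] {Q : QuadraticForm F V} (hQ : ND Q)
    (hd : finrank F V = 2 * (m + 1)) {r : ℕ} (hr : r.Prime) (hr2 : r ≠ 2) (h : r ∣ Fintype.card F ^ (m + 1) + 1)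
    (f : V →ₗ[F] V) (hf : ∀ v, Q (f v) = Q v) (hfr : f ^ r = 1) (hfix : ∀ v, f v = v → v = 0) : ¬ PT Q := by
  intro hp
  have he := equiv_of_pt hQ hd hp
  have : Finite V := Module.finite_of_finite F
  have h1 := fpf_dvd Q hr f hf hfr (fun v hv => by rw [hfix v hv]; exact QuadraticMap.map_zero Q)
  rw [ns_congr he, ns_plus] at h1
  have hq : 1 ≤ Fintype.card F := Fintype.card_pos
  have key : r ∣ Fintype.card F ^ (m + 1) - 1 := by
    rcases (hr.dvd_mul).1 h1 with h2 | h2
    · refine h2.trans ?_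
      have := Nat.sub_dvd_pow_sub_pow (Fintype.card F) 1 (m + 1)
      rwa [one_pow] at this
    · rcases (hr.dvd_mul).1 h2 with h3 | h3
      · exfalso
        have h4 := hr.dvd_of_dvd_pow h3
        have h5 : r ∣ Fintype.card F ^ (m + 1) := dvd_pow h4 (by omega)
        have h6 := (Nat.dvd_add_right h5).1 h
        exact hr.one_lt.ne' (Nat.dvd_one.1 h6)
      · exact h3
  have h7 : Fintype.card F ^ (m + 1) + 1 = (Fintype.card F ^ (m + 1) - 1) + 2 := by
    have : 1 ≤ Fintype.card F ^ (m + 1) := Nat.one_le_pow _ _ hq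
    omega
  rw [h7] at h
  have h8 := (Nat.dvd_add_right key).1 h
  exact hr2 ((Nat.prime_dvd_prime_iff_eq hr Nat.prime_two).1 h8)

end main

end H99.OrthTwo
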