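import Mathlib
import Cfsg.Agent.Lib.H99.OrthTwo
import Cfsg.Agent.Lib.H99.Iso

set_option autoImplicit false
set_option linter.unusedSimpArgs false
set_option linter.unusedSectionVars false
set_option linter.unusedVariables false

/-! Semisimple isometries of odd prime order of quadratic forms. -/

namespace H99.OrthSS

open Module QuadraticMap H48.QuadSplit H48.QuadStd H96.OeType

universe u

/-- the dimension of a block -/
def cc (i : ℕ) : ℕ := if Even i then i else 2 * i

theorem cc_even {i : ℕ} (h : Even i) : cc i = i := if_pos h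
theorem cc_odd {i : ℕ} (h : Odd i) : cc i = 2 * i := if_neg (Nat.not_even_iff_odd.2 h)

theorem even_cc (i : ℕ) : Even (cc i) := by
  unfold cc
  split_ifs with h
  · exact h
  · exact even_two_mul i

section basic

variable {F : Type*} [Field F] {V : Type*} [AddCommGroup V] [Module F V]

theorem polar_inv {Q : QuadraticForm F V} {T : V →ₗ[F] V} (h : ∀ v, Q (T v) = Q v) (u v : V) : polar Q (T u) (T v) = polar Q u v := by
  rw [polar, polar, ← _root_.map_add T, h, h, h]

theorem refl_polar (Q : QuadraticForm F V) : (polarBilin Q).IsRefl := fun u v h => by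
  rw [polarBilin_apply_apply, polar_comm]; rwa [polarBilin_apply_apply] at h

theorem nd_on {Q : QuadraticForm F V} {W : Submodule F V} : ND (Q.restrict W) ↔ Iso.ND (polarBilin Q) W := by
  constructor
  · intro h x hx hy
    have := h ⟨x, hx⟩ (fun y => hy y y.2)
    exact congrArg Subtype.val this
  · rintro h ⟨x, hx⟩ hy
    apply Subtype.ext
    exact h x hx fun y hyW => hy ⟨y, hyW⟩

theorem nd_top {Q : QuadraticForm F V} : ND Q ↔ Iso.ND (polarBilin Q) ⊤ := by
  constructor
  · intro h x _ hy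
    exact h x (fun y => hy y trivial)
  · intro h x hy
    exact h x trivial fun y _ => hy y

theorem restrict_pow {T : V →ₗ[F] V} {W : Submodule F V} (hW : ∀ v ∈ W, T v ∈ W) (k : ℕ) (v : W) :
    (((T.restrict hW) ^ k) v : V) = (T ^ k) (v : V) := by
  induction k with
  | zero => rfl
  | succ k ih => rw [pow_succ', pow_succ', Module.End.mul_apply, Module.End.mul_apply, ← ih]; rfl

theorem restrict_pow_one {T : V →ₗ[F] V} {W : Submodule F V} (hW : ∀ v ∈ W, T v ∈ W) {r : ℕ} (hT : T ^ r = 1) : (T.restrict hW) ^ r = 1 := by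
  apply LinearMap.ext
  intro v
  apply Subtype.ext
  rw [restrict_pow, hT]; rfl

end basic

section main

variable {F : Type u} [Field F] [Fintype F]

/-- a fixed-point-free isometry of order `r ∣ q^d + 1` lives on a minus type form -/
theorem not_plus {m : ℕ} {V : Type u} [AddCommGroup V] [Module F V] [FiniteDimensional F V] {Q : QuadraticForm F V} (hQ : ND Q)
    (hd : finrank F V = 2 * (m + 1)) {r : ℕ} (hr : r.Prime) (hr2 : r ≠ 2) (h : r ∣ Fintype.card F ^ (m + 1) + 1)
    (f : V →ₗ[F] V) (hf : ∀ v, Q (f v) = Q v) (hfr : f ^ r = 1) (hfix : ∀ v, f v = v → v = 0) : ¬ PT Q := by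
  intro hp
  have he := equiv_of_pt hQ hd hp
  have : Finite V := Module.finite_of_finite F
  have h1 := OrthTwo.fpf_dvd Q hr f hf hfr (fun v hv => by rw [hfix v hv]; exact QuadraticMap.map_zero Q)
  rw [OrthTwo.ns_congr he, OrthTwo.ns_plus] at h1
  have hq : 1 ≤ Fintype.card F := Fintype.card_pos
  have key : r ∣ Fintype.card F ^ (m + 1) - 1 := by
    rcases (hr.dvd_mul).1 h1 with h2 | h2
    · refine h2.trans ?_
      have := Nat.sub_dvd_pow_sub_pow (Fintype.card F) 1 (m + 1)
      rwa [one_pow] at this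
    · rcases (hr.dvd_mul).1 h2 with h3 | h3
      · exfalso
        have h4 := hr.dvd_of_dvd_pow h3
        have h5 : r ∣ Fintype.card F ^ (m + 1) := dvd_pow h4 (by omega)
        have h6 := (Nat.dvd_add_right h5).1 h
        exact hr.one_lt.ne' (Nat.dvd_one.1 h6)
      · exact h3
  have h7 : Fintype.card F ^ (m + 1) + 1 = (Fintype.card F ^ (m + 1) - 1) + 2 := by
    have : 1 ≤ Fintype.card F ^ (m + 1) := Nat.one_le_pow _ _ hq
    omega
  rw [h7] at h
  have h8 := (Nat.dvd_add_right key).1 h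
  exact hr2 ((Nat.prime_dvd_prime_iff_eq hr Nat.prime_two).1 h8)

/-- odd-dimensional spaces have fixed vectors -/
theorem odd_fix {m : ℕ} {V : Type u} [AddCommGroup V] [Module F V] [FiniteDimensional F V] {Q : QuadraticForm F V} (hQ : ND Q)
    {r : ℕ} (hr : r.Prime) (hr2 : r ≠ 2) (hrq : ¬ r ∣ Fintype.card F) (hd : finrank F V = 2 * m + 1)
    (hi : orderOf ((Fintype.card F : ℕ) : ZMod r) = 2 * m + 1)
    (f : V →ₗ[F] V) (hf : ∀ v, Q (f v) = Q v) (hfr : f ^ r = 1) (hfix : ∀ v, f v = v → v = 0) : False := by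
  obtain ⟨h2, c, hc, he⟩ := classify_odd m V Q hQ hd
  have : Finite V := Module.finite_of_finite F
  have : Fact r.Prime := ⟨hr⟩
  have h1 := OrthTwo.fpf_dvd Q hr f hf hfr (fun v hv => by rw [hfix v hv]; exact QuadraticMap.map_zero Q)
  rw [OrthTwo.ns_congr he] at h1
  have hq : 1 ≤ Fintype.card F := Fintype.card_pos
  have h3 := OrthTwo.ns_add (qOdd m F c)
  rw [H7.HypStd.cnt_odd m hc, H7.HypStd.card_odd, Nat.card_eq_fintype_card (α := F)] at h3
  have h4 : Nat.card {v : Unit ⊕ (Fin m ⊕ Fin m) → F // qOdd m F c v ≠ 0} = Fintype.card F ^ (2 * m) * (Fintype.card F - 1) := by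
    rw [Nat.mul_sub, mul_one, ← pow_succ]; omega
  rw [h4] at h1
  have h5 : r ∣ Fintype.card F - 1 := by
    rcases (hr.dvd_mul).1 h1 with h | h
    · exact absurd (hr.dvd_of_dvd_pow h) hrq
    · exact h
  have h6 : ((Fintype.card F : ℕ) : ZMod r) = 1 := by
    have h8 : ((Fintype.card F - 1 : ℕ) : ZMod r) = 0 := (ZMod.natCast_eq_zero_iff _ _).2 h5
    rw [Nat.cast_sub hq, sub_eq_zero] at h8
    rw [h8, Nat.cast_one]
  rw [h6, orderOf_one] at hi
  have hm : m = 0 := by omega
  subst hm
  -- one dimensional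
  obtain ⟨v, hv⟩ : ∃ v : V, v ≠ 0 := by
    by_contra hcon
    push Not at hcon
    have : finrank F V = 0 := by
      have : Subsingleton V := ⟨fun a b => by rw [hcon a, hcon b]⟩
      exact finrank_zero_of_subsingleton
    omega
  have hsp := (finrank_eq_one_iff_of_nonzero' v hv).1 (by omega)
  obtain ⟨a, ha⟩ := hsp (f v)
  have hQv : Q v ≠ 0 := by
    intro h0
    apply hv
    apply hQ
    intro y
    obtain ⟨b, rfl⟩ := hsp y
    rw [polar_smul_right, polar_self, h0, smul_zero, smul_zero]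
  have ha2 : a * a = 1 := by
    have := hf v
    rw [← ha, QuadraticMap.map_smul, smul_eq_mul] at this
    exact mul_right_cancel₀ hQv (by rw [this, one_mul])
  have hk : ∀ k : ℕ, (f ^ k) v = a ^ k • v := by
    intro k
    induction k with
    | zero => rw [pow_zero, pow_zero, one_smul]; rfl
    | succ k ih => rw [pow_succ', Module.End.mul_apply, ih, _root_.map_smul, ← ha, smul_smul, pow_succ]
  have har : a ^ r = 1 := by
    have h1 := hk r
    rw [hfr] at h1
    have h2 : (a ^ r - 1) • v = 0 := by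
      rw [sub_smul, one_smul, ← h1]
      exact sub_self v
    exact sub_eq_zero.1 ((smul_eq_zero.1 h2).resolve_right hv)
  have ha1 : a = 1 := by
    obtain ⟨k, hk⟩ := hr.odd_of_ne_two hr2
    rw [hk, pow_succ, pow_mul, pow_two, ha2, one_pow, one_mul] at har
    exact har
  apply hv
  apply hfix
  rw [← ha, ha1, one_smul]

/-- totally isotropic invariant subspaces without fixed points are totally singular -/
theorem ts_of_ti {V : Type u} [AddCommGroup V] [Module F V] [FiniteDimensional F V] {Q : QuadraticForm F V}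
    (f : V →ₗ[F] V) (hf : ∀ v, Q (f v) = Q v) (hfix : ∀ v, f v = v → v = 0) {Y : Submodule F V} (hY : ∀ v ∈ Y, f v ∈ Y)
    (hti : ∀ u ∈ Y, ∀ v ∈ Y, polar Q u v = 0) : ∀ v ∈ Y, Q v = 0 := by
  by_cases h2 : (2 : F) = 0
  · have hch : CharP F 2 := CharTwo.of_one_ne_zero_of_two_eq_zero one_ne_zero h2
    obtain ⟨l, hl⟩ := H48.CharTwoQ.exists_diff (Q := (0 : QuadraticForm F Y)) (Q' := Q.restrict Y) (fun u v => by
      have h1 : polar (Q.restrict Y) u v = 0 := hti u u.2 v v.2
      rw [h1]
      simp [polar])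
    have hl' : ∀ v : Y, Q v = l v ^ 2 := fun v => by
      have := hl v
      rw [_root_.zero_apply, zero_add] at this
      exact this
    have hlf : ∀ v : Y, l (f.restrict hY v) = l v := by
      intro v
      apply H48.CharTwoQ.sq_inj
      rw [← hl', ← hl']
      exact hf v
    let N : Y →ₗ[F] Y := f.restrict hY - LinearMap.id
    have hinj : Function.Injective N := by
      rw [← LinearMap.ker_eq_bot, LinearMap.ker_eq_bot']
      intro v hv
      apply Subtype.ext
      apply hfix
      have h1 : f.restrict hY v - v = 0 := hv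
      exact congrArg Subtype.val (sub_eq_zero.1 h1)
    have hsurj := LinearMap.injective_iff_surjective.1 hinj
    intro v hv
    obtain ⟨w, hw⟩ := hsurj ⟨v, hv⟩
    have h3 : l ⟨v, hv⟩ = 0 := by
      rw [← hw]
      show l (f.restrict hY w - w) = 0
      rw [_root_.map_sub l, hlf, sub_self]
    have := hl' ⟨v, hv⟩
    rw [h3] at this
    rw [show Q v = Q ((⟨v, hv⟩ : Y) : V) from rfl, this]
    ring
  · intro v hv
    have h1 := hti v hv v hv
    rw [polar_self, ← Nat.cast_smul_eq_nsmul F, smul_eq_mul] at h1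
    exact (mul_eq_zero.1 h1).resolve_left (by exact_mod_cast h2)

/-- **blocks** -/
theorem exists_block {V : Type u} [AddCommGroup V] [Module F V] [FiniteDimensional F V] {Q : QuadraticForm F V} (hQ : ND Q)
    {r : ℕ} (hr : r.Prime) (hr2 : r ≠ 2) (hrq : ¬ r ∣ Fintype.card F) (hV : 0 < finrank F V)
    (f : V →ₗ[F] V) (hf : ∀ v, Q (f v) = Q v) (hfr : f ^ r = 1) (hfix : ∀ v, f v = v → v = 0) :
    ∃ Y : Submodule F V, (∀ v ∈ Y, f v ∈ Y) ∧ ND (Q.restrict Y) ∧ finrank F Y = cc (orderOf ((Fintype.card F : ℕ) : ZMod r)) ∧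
      (PT (Q.restrict Y) ↔ Odd (orderOf ((Fintype.card F : ℕ) : ZMod r))) := by
  have : Fact r.Prime := ⟨hr⟩
  set i := orderOf ((Fintype.card F : ℕ) : ZMod r) with hi
  have hbot : (⊤ : Submodule F V) ≠ ⊥ := by
    intro h
    have := finrank_top F V
    rw [h, finrank_bot] at this
    omega
  have hiso : ∀ u v, polarBilin Q (f u) (f v) = polarBilin Q u v := fun u v => by
    rw [polarBilin_apply_apply, polarBilin_apply_apply, polar_inv hf]
  have hi0 : 0 < i := by
    have h1 : ((Fintype.card F : ℕ) : ZMod r) ≠ 0 := by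
      intro h; exact hrq ((ZMod.natCast_eq_zero_iff _ _).1 h)
    rw [hi]
    have := orderOf_pos (Units.mk0 _ h1)
    rwa [← orderOf_units, Units.val_mk0] at this
  rcases Nat.even_or_odd i with he | ho
  · obtain ⟨Y, -, y1, y2, y3, -⟩ := Iso.exists_block_even hr hr2 hrq (refl_polar Q) hfr hiso (X := ⊤) (fun v _ => trivial) (fun v _ => hfix v)
      (nd_top.1 hQ) hbot (by rw [← hi]; exact he)
    refine ⟨Y, y1, nd_on.2 y2, by rw [y3, cc_even he], ?_⟩
    obtain ⟨k, hk⟩ := he
    obtain ⟨m, rfl⟩ : ∃ m, k = m + 1 := ⟨k - 1, by omega⟩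
    have h1 := Iso.pow_half hr hr2 hi hi0 ⟨_, hk⟩
    rw [show i / 2 = m + 1 by omega] at h1
    have h2 := not_plus (nd_on.2 y2) (m := m) (by rw [y3, ← hi, hk]; ring) hr hr2 h1 (f.restrict y1) (fun v => hf v) (restrict_pow_one y1 hfr)
      (fun v hv => Subtype.ext (hfix v (congrArg Subtype.val hv)))
    constructor
    · intro h; exact absurd h h2
    · intro h; exact absurd ⟨_, hk⟩ (Nat.not_even_iff_odd.2 h)
  · obtain ⟨Y, W, -, -, y1, w1, y2, w2, hdis, hnd, y3, w3⟩ := Iso.exists_block_odd hr hrq (refl_polar Q) hfr hiso (X := ⊤) (fun v _ => trivial) (fun v _ => hfix v)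
      (nd_top.1 hQ) hbot (by
        intro Y _ y1 y3 hYn
        obtain ⟨m, hm⟩ := ho
        exact odd_fix (nd_on.2 hYn) hr hr2 hrq (m := m) (by rw [y3, ← hi, hm]) (by rw [← hi, hm]) (f.restrict y1) (fun v => hf v) (restrict_pow_one y1 hfr)
          (fun v hv => Subtype.ext (hfix v (congrArg Subtype.val hv))))
    have hinv : ∀ v ∈ Y ⊔ W, f v ∈ Y ⊔ W := by
      intro v hv
      obtain ⟨a, ha, b, hb, rfl⟩ := Submodule.mem_sup.1 hv
      rw [_root_.map_add]
      exact Submodule.add_mem_sup (y1 a ha) (w1 b hb)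
    have hdim : finrank F (Y ⊔ W : Submodule F V) = 2 * i := by
      have := Submodule.finrank_sup_add_finrank_inf_eq Y W
      rw [hdis.eq_bot, finrank_bot, add_zero, y3, w3] at this
      rw [this, ← hi]; ring
    refine ⟨Y ⊔ W, hinv, nd_on.2 hnd, by rw [hdim, cc_odd ho], iff_of_true ?_ ho⟩
    have hts := ts_of_ti f hf hfix y1 (fun u hu v hv => by rw [← polarBilin_apply_apply]; exact y2 u hu v hv)
    refine ⟨Y.comap (Y ⊔ W).subtype, fun u hu => hts _ hu, ?_⟩
    rw [(Submodule.comapSubtypeEquivOfLe (le_sup_left : Y ≤ Y ⊔ W)).finrank_eq, y3, hdim]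

theorem orth_inv {V : Type*} [AddCommGroup V] [Module F V] [FiniteDimensional F V] {Q : QuadraticForm F V}
    {r : ℕ} (hr0 : 0 < r) (f : V →ₗ[F] V) (hf : ∀ v, Q (f v) = Q v) (hfr : f ^ r = 1) {Y : Submodule F V} (hY : ∀ v ∈ Y, f v ∈ Y) :
    ∀ v ∈ orth Q Y, f v ∈ orth Q Y := by
  have h1 := Iso.inv_orth (B := polarBilin Q) hfr hr0 (fun u v => by
    rw [polarBilin_apply_apply, polarBilin_apply_apply, polar_inv hf]) hY
  intro v hv
  exact h1 v hv

/-- **structure of fixed-point-free isometries of odd prime order** -/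
theorem fpf_struct {r : ℕ} (hr : r.Prime) (hr2 : r ≠ 2) (hrq : ¬ r ∣ Fintype.card F) :
    ∀ (n : ℕ) (V : Type u) [AddCommGroup V] [Module F V] [FiniteDimensional F V] (Q : QuadraticForm F V) (f : V →ₗ[F] V),
      finrank F V = n → ND Q → (∀ v, Q (f v) = Q v) → f ^ r = 1 → (∀ v, f v = v → v = 0) →
      ∃ j, n = cc (orderOf ((Fintype.card F : ℕ) : ZMod r)) * j ∧
        (PT Q ↔ (Odd (orderOf ((Fintype.card F : ℕ) : ZMod r)) ∨ Even j)) ∧
        ∀ k ≤ j, ∃ Y : Submodule F V, (∀ v ∈ Y, f v ∈ Y) ∧ ND (Q.restrict Y) ∧ finrank F Y = cc (orderOf ((Fintype.card F : ℕ) : ZMod r)) * k := by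
  set i := orderOf ((Fintype.card F : ℕ) : ZMod r) with hi
  intro n
  induction n using Nat.strong_induction_on with
  | _ n ih =>
    intro V _ _ _ Q f hn hQ hf hfr hfix
    have hbot : ∃ Y : Submodule F V, (∀ v ∈ Y, f v ∈ Y) ∧ ND (Q.restrict Y) ∧ finrank F Y = cc i * 0 :=
      ⟨⊥, fun v hv => by rw [(Submodule.mem_bot F).1 hv, _root_.map_zero]; exact Submodule.zero_mem _, nd_on.2 Iso.nd_bot, by rw [finrank_bot, mul_zero]⟩
    rcases Nat.eq_zero_or_pos n with h0 | hpos
    · refine ⟨0, by rw [h0, mul_zero], ?_, ?_⟩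
      · refine iff_of_true ⟨⊥, ?_, by rw [finrank_bot, hn, h0]⟩ (Or.inr Even.zero)
        intro u hu
        rw [(Submodule.mem_bot F).1 hu]; exact QuadraticMap.map_zero Q
      · intro k hk
        rw [Nat.le_zero.1 hk]
        exact hbot
    · obtain ⟨Y0, y1, y2, y3, y4⟩ := exists_block hQ hr hr2 hrq (by omega) f hf hfr hfix
      rw [← hi] at y3 y4
      have hcc : 0 < cc i := by
        have h1 : ((Fintype.card F : ℕ) : ZMod r) ≠ 0 := by
          intro h; exact hrq ((ZMod.natCast_eq_zero_iff _ _).1 h)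
        have : Fact r.Prime := ⟨hr⟩
        have hi0 : 0 < i := by
          rw [hi]
          have := orderOf_pos (Units.mk0 _ h1)
          rwa [← orderOf_units, Units.val_mk0] at this
        unfold cc; split_ifs <;> omega
      have hfo := finrank_orth hQ Y0
      have ho := orth_inv hr.pos f hf hfr y1
      obtain ⟨j, j1, j2, j3⟩ := ih (finrank F (orth Q Y0)) (by omega) (orth Q Y0) (Q.restrict (orth Q Y0)) (f.restrict ho) rfl
        (nd_orth hQ y2) (fun v => hf v) (restrict_pow_one ho hfr) (fun v hv => Subtype.ext (hfix v (congrArg Subtype.val hv)))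
      have hsum : n = cc i * (j + 1) := by rw [mul_add, mul_one]; omega
      have hce := even_cc i
      obtain ⟨e, he⟩ := hce
      refine ⟨j + 1, hsum, ?_, ?_⟩
      · rw [pt_split_iff hQ y2 (m := e) (m' := e * (j + 1)) (by rw [y3, he]; ring) (by rw [hn, hsum, he]; ring), y4, j2, Nat.even_add_one,
          ← Nat.not_even_iff_odd]
        tauto
      · intro k hk
        rcases Nat.eq_zero_or_pos k with hk0 | hk0
        · rw [hk0]; exact hbot
        · obtain ⟨Y, z1, z2, z3⟩ := j3 (k - 1) (by omega)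
          have hYo : Y.map (orth Q Y0).subtype ≤ orth Q Y0 := by
            rintro _ ⟨y, _, rfl⟩
            exact y.2
          have hYnd : Iso.ND (polarBilin Q) (Y.map (orth Q Y0).subtype) := by
            rintro _ ⟨y, hy, rfl⟩ h
            have := z2 ⟨y, hy⟩ (fun w => h _ ⟨w, w.2, rfl⟩)
            have h1 : y = 0 := congrArg Subtype.val this
            rw [h1]; rfl
          have hsup := Iso.nd_sup (refl_polar Q) (nd_on.1 y2) hYnd (fun a ha b hb => hYo hb a ha)
          refine ⟨Y0 ⊔ Y.map (orth Q Y0).subtype, ?_, nd_on.2 hsup.1, ?_⟩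
          · intro v hv
            obtain ⟨a, ha, b, ⟨b', hb', rfl⟩, rfl⟩ := Submodule.mem_sup.1 hv
            rw [_root_.map_add]
            exact Submodule.add_mem_sup (y1 a ha) ⟨_, z1 b' hb', rfl⟩
          · rw [hsup.2, Submodule.finrank_map_subtype_eq, y3, z3]
            obtain ⟨k', rfl⟩ : ∃ k', k = k' + 1 := ⟨k - 1, by omega⟩
            rw [Nat.add_sub_cancel]; ring

end main

section fixed

variable {F : Type*} [Field F] {V : Type*} [AddCommGroup V] [Module F V] [FiniteDimensional F V]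

/-- the fixed space -/
def fx (f : V →ₗ[F] V) : Submodule F V := LinearMap.ker (f - 1)

theorem mem_fx {f : V →ₗ[F] V} {v : V} : v ∈ fx f ↔ f v = v := by
  show f v - v = 0 ↔ _
  exact sub_eq_zero

theorem fx_nd {Q : QuadraticForm F V} (hQ : ND Q) {r : ℕ} (hr : ((r : ℕ) : F) ≠ 0) (f : V →ₗ[F] V) (hf : ∀ v, Q (f v) = Q v) (hfr : f ^ r = 1) :
    ND (Q.restrict (fx f)) := by
  rintro ⟨c, hc⟩ h
  apply Subtype.ext
  apply hQ
  intro v
  have hpow : ∀ (k : ℕ), polar Q c ((f ^ k) v) = polar Q c v := by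
    intro k
    induction k with
    | zero => rfl
    | succ k ih =>
      rw [pow_succ', Module.End.mul_apply, ← ih]
      conv_lhs => rw [← mem_fx.1 hc]
      exact polar_inv hf _ _
  have hS : ∑ k ∈ Finset.range r, (f ^ k) v ∈ fx f := by
    rw [mem_fx, map_sum]
    have h1 : ∀ k ∈ Finset.range r, f ((f ^ k) v) = (f ^ (k + 1)) v := fun k _ => by rw [pow_succ']; rfl
    rw [Finset.sum_congr rfl h1]
    have h2 := Finset.sum_range_succ (fun k => (f ^ k) v) r
    rw [Finset.sum_range_succ'] at h2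
    rw [hfr, pow_zero] at h2
    exact add_right_cancel h2
  have h3 : polar Q c (∑ k ∈ Finset.range r, (f ^ k) v) = 0 := h ⟨_, hS⟩
  rw [← polarBilin_apply_apply, map_sum] at h3
  simp only [polarBilin_apply_apply] at h3
  rw [Finset.sum_congr rfl (fun k _ => hpow k), Finset.sum_const, Finset.card_range, nsmul_eq_mul] at h3
  exact (mul_eq_zero.1 h3).resolve_left hr

theorem fx_fpf {Q : QuadraticForm F V} (hQ : ND Q) {r : ℕ} (hr : ((r : ℕ) : F) ≠ 0) (f : V →ₗ[F] V) (hf : ∀ v, Q (f v) = Q v) (hfr : f ^ r = 1) :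
    ∀ v ∈ orth Q (fx f), f v = v → v = 0 := by
  intro v hv hfv
  have h1 := fx_nd hQ hr f hf hfr ⟨v, mem_fx.2 hfv⟩ (fun c => by
    have := hv c c.2
    rw [polar_comm] at this
    exact this)
  exact congrArg Subtype.val h1

end fixed

end H99.OrthSS
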