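import Mathlib
import Cfsg.Agent.Lib.H99.OrthSS
import Cfsg.Agent.Lib.H48.QuadSim
import Cfsg.Agent.Lib.H6.GrDict
import Cfsg.Agent.Lib.H95.Bridge

set_option autoImplicit false
set_option linter.unusedSimpArgs false
set_option linter.unusedSectionVars false
set_option linter.unusedVariables false

/-! Existence of nondegenerate subspaces of given type; forms with fixed-point-free isometries of order `r`. -/

namespace H99.OrthSS

open Module QuadraticMap H48.QuadSplit H48.QuadStd H96.OeType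

universe u

variable {F : Type u} [Field F] [Fintype F]

/-- a form on some space -/
structure Fm (F : Type u) [Field F] where
  V : Type u
  [i1 : AddCommGroup V]
  [i2 : Module F V]
  [i3 : FiniteDimensional F V]
  Q : QuadraticForm F V
  nd : ND Q

attribute [instance] Fm.i1 Fm.i2 Fm.i3

/-- nondegenerate forms of every type exist -/
theorem exists_fm (b : ℕ) (hb : 1 ≤ b) (t : Prop) : ∃ A : Fm F, finrank F A.V = 2 * b ∧ (PT A.Q ↔ t) := by
  by_cases ht : t
  · refine ⟨⟨Fin b ⊕ Fin b → F, qPlus b F, nd_qPlus b⟩, ?_, iff_of_true (pt_qPlus b) ht⟩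
    show finrank F (Fin b ⊕ Fin b → F) = _
    rw [finrank_fintype_fun_eq_card, Fintype.card_sum, Fintype.card_fin]; ring
  · obtain ⟨z, hz⟩ := H6.GrDict.exists_irred F
    refine ⟨⟨(Fin (b - 1) ⊕ Fin (b - 1)) ⊕ Fin 2 → F, qMinus (b - 1) F 1 z, nd_qMinus (b - 1) (disc_ne_zero' hz)⟩, ?_, iff_of_false (not_pt_qMinus hz) ht⟩
    show finrank F ((Fin (b - 1) ⊕ Fin (b - 1)) ⊕ Fin 2 → F) = _
    rw [finrank_fintype_fun_eq_card, Fintype.card_sum, Fintype.card_sum, Fintype.card_fin, Fintype.card_fin]; omega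

theorem sub_of_prod {V A B : Type u} [AddCommGroup V] [Module F V] [FiniteDimensional F V] [AddCommGroup A] [Module F A] [FiniteDimensional F A]
    [AddCommGroup B] [Module F B] [FiniteDimensional F B] {Q : QuadraticForm F V} {QA : QuadraticForm F A} {QB : QuadraticForm F B}
    (h : (QA.prod QB).Equivalent Q) (hA : ND QA) : ∃ Y : Submodule F V, ND (Q.restrict Y) ∧ finrank F Y = finrank F A ∧ QA.Equivalent (Q.restrict Y) := by
  obtain ⟨e⟩ := h
  let φ : A →ₗ[F] V := e.toLinearEquiv.toLinearMap ∘ₗ LinearMap.inl F A B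
  have hφ : ∀ a, Q (φ a) = QA a := by
    intro a
    show Q (e (a, 0)) = _
    rw [e.map_app]
    show QA a + QB 0 = _
    rw [QuadraticMap.map_zero, add_zero]
  have hinj : Function.Injective φ := e.toLinearEquiv.injective.comp LinearMap.inl_injective
  have hE : QA.Equivalent (Q.restrict (LinearMap.range φ)) :=
    ⟨⟨LinearEquiv.ofInjective φ hinj, fun a => hφ a⟩⟩
  refine ⟨LinearMap.range φ, nd_of_equivalent hE hA, LinearMap.finrank_range_of_inj hinj, hE⟩

theorem smul_prod {A B : Type u} [AddCommGroup A] [Module F A] [AddCommGroup B] [Module F B] (QA : QuadraticForm F A) (QB : QuadraticForm F B) (c : F) :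
    c • (QA.prod QB) = (c • QA).prod (c • QB) := by
  ext ⟨a, b⟩
  show c * (QA a + QB b) = c * QA a + c * QB b
  ring

theorem smul_qOdd (m : ℕ) {c l : F} (hl : l ≠ 0) : (l • qOdd m F c).Equivalent (qOdd m F (l * c)) := by
  refine (H48.QuadSim.equivalent_smul (qOdd_equiv m c) l).trans ?_
  rw [smul_prod]
  refine Equivalent.trans ?_ (qOdd_equiv m (l * c)).symm
  refine Equivalent.prod ?_ (H48.QuadSim.smul_qPlus m hl)
  have : l • qUn c = qUn (l * c) := by
    ext x
    show l * (qUn c x) = qUn (l * c) x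
    rw [qUn_apply, qUn_apply]; ring
  rw [this]
  exact Equivalent.refl _

/-- subspaces of even dimension of every type -/
theorem sub_exists {V : Type u} [AddCommGroup V] [Module F V] [FiniteDimensional F V] {Q : QuadraticForm F V} (hQ : ND Q) {b : ℕ} (hb : 1 ≤ b)
    (hbV : 2 * b < finrank F V) (t : Prop) : ∃ Y : Submodule F V, ND (Q.restrict Y) ∧ finrank F Y = 2 * b ∧ (PT (Q.restrict Y) ↔ t) := by
  obtain ⟨A, a1, a2⟩ := exists_fm (F := F) b hb t
  rcases Nat.even_or_odd' (finrank F V) with ⟨N, hN | hN⟩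
  · obtain ⟨B, b1, b2⟩ := exists_fm (F := F) (N - b) (by omega) (t ↔ PT Q)
    have he : (A.Q.prod B.Q).Equivalent Q := by
      refine equiv_of_same (m := N) (nd_prod.2 ⟨A.nd, B.nd⟩) hQ (by rw [finrank_prod, a1, b1]; omega) hN ?_
      rw [pt_prod_iff A.nd B.nd a1 b1, a2, b2]
      tauto
    obtain ⟨Y, y1, y2, y3⟩ := sub_of_prod he A.nd
    exact ⟨Y, y1, by rw [y2, a1], by rw [← pt_iff_of_equiv y3, a2]⟩
  · obtain ⟨h2, c, hc, hE⟩ := classify_odd N V Q hQ hN
    obtain ⟨-, c2, hc2, hE2⟩ := classify_odd N _ (A.Q.prod (qOdd (N - b) F 1)) (nd_prod.2 ⟨A.nd, nd_qOdd _ h2 one_ne_zero⟩) (by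
      rw [finrank_prod, a1, finrank_fintype_fun_eq_card, Fintype.card_sum, Fintype.card_sum, Fintype.card_fin, Fintype.card_unit]; omega)
    have hl : c / c2 ≠ 0 := div_ne_zero hc hc2
    have h3 := H48.QuadSim.equivalent_smul hE2 (c / c2)
    have h4 := (smul_qOdd N (c := c2) hl)
    rw [div_mul_cancel₀ _ hc2] at h4
    have h5 := (h3.trans h4).trans hE.symm
    rw [smul_prod] at h5
    have h6 := (H48.QuadSim.smul_equivalent A.nd a1 hl)
    have h7 := ((h6.symm.prod (Equivalent.refl _)).trans h5)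
    obtain ⟨Y, y1, y2, y3⟩ := sub_of_prod h7 A.nd
    exact ⟨Y, y1, by rw [y2, a1], by rw [← pt_iff_of_equiv y3, a2]⟩

/-- odd-dimensional subspaces of an even-dimensional space -/
theorem sub_exists_odd {V : Type u} [AddCommGroup V] [Module F V] [FiniteDimensional F V] {Q : QuadraticForm F V} (hQ : ND Q) {a b : ℕ}
    (hV : finrank F V = 2 * a) {R : Type u} [AddCommGroup R] [Module F R] [FiniteDimensional F R] {QR : QuadraticForm F R} (hR : ND QR)
    (hRd : finrank F R = 2 * b + 1) (hab : b < a) : ∃ Y : Submodule F V, ND (Q.restrict Y) ∧ finrank F Y = 2 * b + 1 ∧ QR.Equivalent (Q.restrict Y) := by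
  obtain ⟨h2, c0, hc0, hE⟩ := classify_odd b R QR hR hRd
  have key : ∃ c : F, c ≠ 0 ∧ (PT (QR.prod (qOdd (a - b - 1) F c)) ↔ PT Q) := by
    by_contra hcon
    push Not at hcon
    obtain ⟨ν, hν⟩ := H48.FinFieldSq.exists_not_isSquare h2
    have hν0 : ν ≠ 0 := by rintro rfl; exact hν (IsSquare.zero)
    have h3 := hcon 1 one_ne_zero
    have h4 := hcon ν hν0
    have hdim : ∀ c : F, finrank F (R × (Unit ⊕ (Fin (a - b - 1) ⊕ Fin (a - b - 1)) → F)) = 2 * a := by
      intro c
      rw [finrank_prod, hRd, finrank_fintype_fun_eq_card, Fintype.card_sum, Fintype.card_sum, Fintype.card_fin, Fintype.card_unit]; omega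
    have h5 : (QR.prod (qOdd (a - b - 1) F 1)).Equivalent (QR.prod (qOdd (a - b - 1) F ν)) := by
      refine equiv_of_same (m := a) (nd_prod.2 ⟨hR, nd_qOdd _ h2 one_ne_zero⟩) (nd_prod.2 ⟨hR, nd_qOdd _ h2 hν0⟩) (hdim 1) (hdim 1) ?_
      tauto
    have h6 := cancel hR (nd_qOdd _ h2 hν0) h5
    have h7 := ((prod_comm_equiv _ _).trans (qOdd_equiv (a - b - 1) (1 : F)).symm).trans (h6.trans ((qOdd_equiv (a - b - 1) ν).trans (prod_comm_equiv _ _)))
    have h8 := cancel (nd_qPlus (a - b - 1)) (nd_qUn h2 hν0) h7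
    obtain ⟨e⟩ := h8
    have h9 := e.map_app 1
    rw [qUn_apply, qUn_apply] at h9
    apply hν
    have he0 : e 1 ≠ 0 := by
      intro h
      rw [h] at h9
      have : (1 : F) = 0 := by linear_combination -h9
      exact one_ne_zero this
    refine ⟨(e 1)⁻¹, ?_⟩
    field_simp
    linear_combination h9
  obtain ⟨c, hc, hpt⟩ := key
  have he : (QR.prod (qOdd (a - b - 1) F c)).Equivalent Q := by
    refine equiv_of_same (m := a) (nd_prod.2 ⟨hR, nd_qOdd _ h2 hc⟩) hQ ?_ hV hpt
    rw [finrank_prod, hRd, finrank_fintype_fun_eq_card, Fintype.card_sum, Fintype.card_sum, Fintype.card_fin, Fintype.card_unit]; omega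
  obtain ⟨Y, y1, y2, y3⟩ := sub_of_prod he hR
  exact ⟨Y, y1, by rw [y2, hRd], y3⟩

/-- forms with a fixed-point-free isometry of order `r` -/
def HasFpf {V : Type*} [AddCommGroup V] [Module F V] (Q : QuadraticForm F V) (r : ℕ) : Prop :=
  ∃ f : V →ₗ[F] V, (∀ v, Q (f v) = Q v) ∧ f ^ r = 1 ∧ ∀ v, f v = v → v = 0

theorem HasFpf.equiv {V V' : Type*} [AddCommGroup V] [Module F V] [AddCommGroup V'] [Module F V'] {Q : QuadraticForm F V} {Q' : QuadraticForm F V'}
    {r : ℕ} (h : HasFpf Q r) (he : Q.Equivalent Q') : HasFpf Q' r := by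
  obtain ⟨f, f1, f2, f3⟩ := h
  obtain ⟨e⟩ := he
  have h1 : ∀ v, e (e.toLinearEquiv.symm v) = v := fun v => e.toLinearEquiv.apply_symm_apply v
  have h2 : ∀ v, e.toLinearEquiv.symm (e v) = v := fun v => e.toLinearEquiv.symm_apply_apply v
  let g : V' →ₗ[F] V' := e.toLinearEquiv.toLinearMap ∘ₗ f ∘ₗ e.toLinearEquiv.symm.toLinearMap
  have hg : ∀ v, g v = e (f (e.toLinearEquiv.symm v)) := fun v => rfl
  have hk : ∀ (k : ℕ) v, (g ^ k) v = e ((f ^ k) (e.toLinearEquiv.symm v)) := by
    intro k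
    induction k with
    | zero => intro v; exact (h1 v).symm
    | succ k ih => intro v; rw [pow_succ', Module.End.mul_apply, ih, hg, h2, pow_succ']; rfl
  refine ⟨g, fun v => by rw [hg, e.map_app, f1, ← e.map_app, h1], ?_, ?_⟩
  · apply LinearMap.ext
    intro v
    rw [hk, f2]
    exact h1 v
  · intro v hv
    rw [hg] at hv
    have h3 : f (e.toLinearEquiv.symm v) = e.toLinearEquiv.symm v := by
      rw [← h2 (f (e.toLinearEquiv.symm v)), hv]
    rw [← h1 v, f3 _ h3]
    exact e.toLinearEquiv.map_zero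

theorem prodMap_pow'' {V V' : Type*} [AddCommGroup V] [Module F V] [AddCommGroup V'] [Module F V'] (f : V →ₗ[F] V) (g : V' →ₗ[F] V') (k : ℕ) :
    (f.prodMap g) ^ k = (f ^ k).prodMap (g ^ k) := by
  induction k with
  | zero => rw [pow_zero, pow_zero, pow_zero]; rfl
  | succ k ih => rw [pow_succ, ih, pow_succ, pow_succ]; rfl

theorem HasFpf.prod {V V' : Type*} [AddCommGroup V] [Module F V] [AddCommGroup V'] [Module F V'] {Q : QuadraticForm F V} {Q' : QuadraticForm F V'}
    {r : ℕ} (h : HasFpf Q r) (h' : HasFpf Q' r) : HasFpf (Q.prod Q') r := by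
  obtain ⟨f, f1, f2, f3⟩ := h
  obtain ⟨g, g1, g2, g3⟩ := h'
  refine ⟨f.prodMap g, ?_, ?_, ?_⟩
  · rintro ⟨a, b⟩
    show Q (f a) + Q' (g b) = Q a + Q' b
    rw [f1, g1]
  · rw [prodMap_pow'', f2, g2]; rfl
  · rintro ⟨a, b⟩ hab
    have h1 : f a = a := congrArg Prod.fst hab
    have h2 : g b = b := congrArg Prod.snd hab
    rw [f3 a h1, g3 b h2]; rfl

/-- an orthogonal block, odd characteristic, even order -/
theorem exists_even_odd_char {h : ℕ} (hh : 0 < h) {p : ℕ} [Fact p.Prime] [CharP F p] (h2 : (2 : F) ≠ 0) {r : ℕ} (hr : r.Prime)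
    (hrh : r ∣ Fintype.card F ^ h + 1) : ∃ A : Fm F, finrank F A.V = 2 * h ∧ HasFpf A.Q r := by
  have : NeZero (2 * h) := ⟨by omega⟩
  have hq : 1 ≤ Fintype.card F := Fintype.card_pos
  obtain ⟨ζ, h1, h2'⟩ := OrthTwo.exists_zeta F p (2 * h) hr (by
    refine hrh.trans ⟨Fintype.card F ^ h - 1, ?_⟩
    have h3 : 1 ≤ Fintype.card F ^ h := Nat.one_le_pow _ _ hq
    have h4 : 1 ≤ Fintype.card F ^ (2 * h) := Nat.one_le_pow _ _ hq
    zify [h3, h4]
    ring)
  have : Fintype (FiniteField.Extension F p (2 * h)) := Fintype.ofFinite _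
  have hc : Fintype.card (FiniteField.Extension F p (2 * h)) = Fintype.card F ^ (2 * h) := by
    rw [← Nat.card_eq_fintype_card, FiniteField.natCard_extension, Nat.card_eq_fintype_card]
  let σ : Gal(FiniteField.Extension F p (2 * h) / F) := FiniteField.Extension.frob F p (2 * h) ^ h
  have hσ : ∀ x, σ x = x ^ (Fintype.card F ^ h) := by
    intro x
    show (FiniteField.Extension.frob F p (2 * h) ^ h) x = _
    rw [FiniteField.Extension.frob_iterate_apply, Nat.card_eq_fintype_card]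
  have hσσ : ∀ x, σ (σ x) = x := by
    intro x
    rw [hσ, hσ, ← pow_mul, ← pow_add, ← two_mul, ← hc, FiniteField.pow_card]
  let B : LinearMap.BilinForm F (FiniteField.Extension F p (2 * h)) := (Algebra.traceForm F _).compl₂ σ.toLinearMap
  have hB : ∀ u v, B u v = Algebra.trace F _ (u * σ v) := fun u v => rfl
  have hζσ : ζ * σ ζ = 1 := by
    rw [hσ, ← pow_succ']
    obtain ⟨k, hk⟩ := hrh
    rw [hk, pow_mul, h1, one_pow]
  have hsymm : ∀ u v, B u v = B v u := by
    intro u v
    rw [hB, hB, ← Algebra.trace_eq_of_algEquiv σ (u * σ v), _root_.map_mul, hσσ]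
    have : σ u * v = v * σ u := mul_comm _ _
    rw [this]
  have hnd : ∀ u, (∀ v, B u v = 0) → u = 0 := by
    intro u hu
    have h3 := (traceForm_nondegenerate F (FiniteField.Extension F p (2 * h))).1 u
    apply h3
    intro w
    have := hu (σ.symm w)
    rw [hB, AlgEquiv.apply_symm_apply] at this
    exact this
  let Q : QuadraticForm F (FiniteField.Extension F p (2 * h)) := LinearMap.BilinMap.toQuadraticMap B
  have hQ : ∀ v, Q v = B v v := fun v => rfl
  have hpol : ∀ u v, polar Q u v = 2 * B u v := by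
    intro u v
    rw [polar, hQ, hQ, hQ, _root_.map_add B, LinearMap.add_apply, _root_.map_add, _root_.map_add, hsymm v u]
    ring
  have hND : ND Q := by
    intro x hx
    apply hnd
    intro y
    have := hx y
    rw [hpol] at this
    exact (mul_eq_zero.1 this).resolve_left h2
  have hfr := FiniteField.finrank_extension F p (2 * h)
  let e : FiniteField.Extension F p (2 * h) ≃ₗ[F] (Fin (2 * h) → F) := LinearEquiv.ofFinrankEq _ _ (by
    rw [hfr, finrank_fintype_fun_eq_card, Fintype.card_fin])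
  have hE : Q.Equivalent (Q.comp e.symm.toLinearMap) := ⟨⟨e, fun v => by
    show Q (e.symm (e v)) = Q v
    rw [e.symm_apply_apply]⟩⟩
  refine ⟨⟨Fin (2 * h) → F, _, nd_of_equivalent hE hND⟩, by
    show finrank F (Fin (2 * h) → F) = _
    rw [finrank_fintype_fun_eq_card, Fintype.card_fin], HasFpf.equiv (Q := Q) ⟨LinearMap.mulLeft F ζ, ?_, ?_, ?_⟩ hE⟩
  · intro v
    show Q (ζ * v) = Q v
    rw [hQ, hQ, hB, hB, _root_.map_mul σ]
    have h5 : ζ * v * (σ ζ * σ v) = v * σ v := by linear_combination (v * σ v) * hζσ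
    rw [h5]
  · apply LinearMap.ext
    intro v
    rw [LinearMap.pow_mulLeft, h1, LinearMap.mulLeft_one]; rfl
  · intro v hv
    have hv' : ζ * v = v := hv
    have h4 : (ζ - 1) * v = 0 := by rw [sub_mul, hv', one_mul, sub_self]
    exact (mul_eq_zero.1 h4).resolve_left (sub_ne_zero.2 h2')

/-- an orthogonal block, characteristic two, even order -/
theorem exists_even_two {h : ℕ} (hh : 0 < h) [CharP F 2] {r : ℕ} (hr : r.Prime)
    (hrh : r ∣ Fintype.card F ^ h + 1) : ∃ A : Fm F, finrank F A.V = 2 * h ∧ HasFpf A.Q r := by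
  obtain ⟨f, f1, f2, f3⟩ := OrthTwo.exists_fpf_polar (F := F) hh hr hrh
  obtain ⟨l, hl⟩ := H48.CharTwoQ.exists_invariant (qPlus h F) f f1
  have hQ' : ND (H48.CharTwoQ.addSq (qPlus h F) l) := by
    intro x hx
    apply nd_qPlus h x
    intro y
    rw [← H48.CharTwoQ.polar_addSq _ l]; exact hx y
  refine ⟨⟨Fin h ⊕ Fin h → F, _, hQ'⟩, ?_, f, hl, f2, f3⟩
  show finrank F (Fin h ⊕ Fin h → F) = _
  rw [finrank_fintype_fun_eq_card, Fintype.card_sum, Fintype.card_fin]; ring

/-- odd order -/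
theorem exists_odd_block {d : ℕ} (hd : 0 < d) {p : ℕ} [Fact p.Prime] [CharP F p] {r : ℕ} (hr : r.Prime)
    (h : r ∣ Fintype.card F ^ d - 1) : HasFpf (qPlus d F) r := by
  obtain ⟨A, a1, a2⟩ := OrthTwo.exists_fpf_gl F p hd hr h
  -- dual action
  let f : (Fin d ⊕ Fin d → F) →ₗ[F] (Fin d ⊕ Fin d → F) :=
    Matrix.toLin' (Matrix.fromBlocks (A : Matrix (Fin d) (Fin d) F) 0 0 (((A⁻¹ : GL (Fin d) F) : Matrix (Fin d) (Fin d) F).transpose))
  have hf : ∀ v, f v = Sum.elim ((A : Matrix (Fin d) (Fin d) F).mulVec (v ∘ Sum.inl)) ((((A⁻¹ : GL (Fin d) F) : Matrix (Fin d) (Fin d) F).transpose).mulVec (v ∘ Sum.inr)) := by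
    intro v
    show Matrix.toLin' _ v = _
    rw [Matrix.toLin'_apply, Matrix.fromBlocks_mulVec, Matrix.zero_mulVec, Matrix.zero_mulVec, add_zero, zero_add]
  have hk : ∀ (k : ℕ) v, (f ^ k) v = Sum.elim (((A ^ k : GL (Fin d) F) : Matrix (Fin d) (Fin d) F).mulVec (v ∘ Sum.inl)) (((((A ^ k)⁻¹ : GL (Fin d) F) : Matrix (Fin d) (Fin d) F).transpose).mulVec (v ∘ Sum.inr)) := by
    intro k
    induction k with
    | zero =>
      intro v
      rw [pow_zero, pow_zero, inv_one, Units.val_one, Matrix.transpose_one, Matrix.one_mulVec, Matrix.one_mulVec, Sum.elim_comp_inl_inr]; rfl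
    | succ k ih =>
      intro v
      rw [pow_succ', Module.End.mul_apply, ih, hf, Sum.elim_comp_inl, Sum.elim_comp_inr, Matrix.mulVec_mulVec, Matrix.mulVec_mulVec,
        ← Matrix.transpose_mul, ← Units.val_mul, ← Units.val_mul, ← pow_succ', ← mul_inv_rev, ← pow_succ']
  refine ⟨f, ?_, ?_, ?_⟩
  · intro v
    have hdot : ∀ w : Fin d ⊕ Fin d → F, qPlus d F w = dotProduct (w ∘ Sum.inl) (w ∘ Sum.inr) := fun w => by rw [qPlus_apply]; rfl
    rw [hf, hdot, hdot, Sum.elim_comp_inl, Sum.elim_comp_inr, Matrix.mulVec_transpose, dotProduct_comm,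
      ← Matrix.dotProduct_mulVec, Matrix.mulVec_mulVec, ← Units.val_mul, inv_mul_cancel, Units.val_one, Matrix.one_mulVec, dotProduct_comm]
  · apply LinearMap.ext
    intro v
    rw [hk, a1, inv_one, Units.val_one, Matrix.transpose_one, Matrix.one_mulVec, Matrix.one_mulVec, Sum.elim_comp_inl_inr]; rfl
  · intro v hv
    rw [hf] at hv
    have h6 : v ∘ Sum.inl = 0 := by
      apply a2
      have := congrArg (fun w => w ∘ Sum.inl) hv
      simpa using this
    have h7 : v ∘ Sum.inr = 0 := by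
      have h8 : (((A⁻¹ : GL (Fin d) F) : Matrix (Fin d) (Fin d) F).transpose).mulVec (v ∘ Sum.inr) = v ∘ Sum.inr := by
        have := congrArg (fun w => w ∘ Sum.inr) hv
        simpa using this
      by_contra hne
      have h9 : ((((A⁻¹ : GL (Fin d) F) : Matrix (Fin d) (Fin d) F) - 1).transpose).det = 0 := by
        rw [← Matrix.exists_mulVec_eq_zero_iff]
        refine ⟨_, hne, ?_⟩
        rw [Matrix.transpose_sub, Matrix.sub_mulVec, h8, Matrix.transpose_one, Matrix.one_mulVec, sub_self]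
      rw [Matrix.det_transpose, ← Matrix.exists_mulVec_eq_zero_iff] at h9
      obtain ⟨w, hw0, hw⟩ := h9
      rw [Matrix.sub_mulVec, Matrix.one_mulVec, sub_eq_zero] at hw
      apply hw0
      apply a2
      have h10 := congrArg (fun y => (A : Matrix (Fin d) (Fin d) F).mulVec y) hw
      simp only [Matrix.mulVec_mulVec] at h10
      rw [← Units.val_mul, mul_inv_cancel, Units.val_one, Matrix.one_mulVec] at h10
      exact h10.symm
    ext i
    rcases i with i | i
    · exact congrFun h6 i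
    · exact congrFun h7 i

end H99.OrthSS
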