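import Mathlib
import Cfsg.Agent.Lib.H99.OrthSS2
import Cfsg.Agent.Lib.H99.OrthUni3

set_option autoImplicit false
set_option linter.unusedSimpArgs false
set_option linter.unusedSectionVars false
set_option linter.unusedVariables false

/-! Invariant nondegenerate subspaces of semisimple isometries of odd prime order. -/

namespace H99.OrthSS

open Module QuadraticMap H48.QuadSplit H48.QuadStd H96.OeType

universe u

variable {F : Type u} [Field F] [Fintype F]

section

variable {r : ℕ} (hr : r.Prime) (hr2 : r ≠ 2) (hrq : ¬ r ∣ Fintype.card F)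

/-- the multiplicative order of `q` modulo `r` -/
noncomputable abbrev oi (F : Type*) [Fintype F] (r : ℕ) : ℕ := orderOf ((Fintype.card F : ℕ) : ZMod r)

include hr hrq in
theorem oi_pos : 0 < oi F r := by
  have h1 : ((Fintype.card F : ℕ) : ZMod r) ≠ 0 := by
    intro h; exact hrq ((ZMod.natCast_eq_zero_iff _ _).1 h)
  have : Fact r.Prime := ⟨hr⟩
  have := orderOf_pos (Units.mk0 _ h1)
  rwa [← orderOf_units, Units.val_mk0] at this

include hr hrq in
theorem cc_pos : 0 < cc (oi F r) := by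
  have := oi_pos (F := F) hr hrq
  unfold cc; split_ifs <;> omega

include hr hr2 hrq in
theorem exists_one_block : ∃ A : Fm F, finrank F A.V = cc (oi F r) ∧ HasFpf A.Q r := by
  obtain ⟨p, hp⟩ := CharP.exists F
  have : Fact p.Prime := ⟨CharP.char_is_prime F p⟩
  have hi0 := oi_pos (F := F) hr hrq
  rcases Nat.even_or_odd (oi F r) with he | ho
  · have h1 := Iso.pow_half (F := F) hr hr2 (i := oi F r) rfl hi0 he
    rw [cc_even he]
    obtain ⟨k, hk⟩ := he
    rw [show oi F r / 2 = k by omega] at h1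
    rw [show oi F r = 2 * k by omega]
    by_cases h2 : (2 : F) = 0
    · have hch : CharP F 2 := CharTwo.of_one_ne_zero_of_two_eq_zero one_ne_zero h2
      exact exists_even_two (by omega) hr h1
    · exact exists_even_odd_char (by omega) (p := p) h2 hr h1
  · have h1 : r ∣ Fintype.card F ^ (oi F r) - 1 := by
      have hq : 1 ≤ Fintype.card F := Fintype.card_pos
      rw [← ZMod.natCast_eq_zero_iff, Nat.cast_sub (Nat.one_le_pow _ _ hq)]
      push_cast
      rw [pow_orderOf_eq_one, sub_self]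
    refine ⟨⟨Fin (oi F r) ⊕ Fin (oi F r) → F, qPlus (oi F r) F, nd_qPlus _⟩, ?_, exists_odd_block hi0 (p := p) hr h1⟩
    show finrank F (Fin (oi F r) ⊕ Fin (oi F r) → F) = _
    rw [finrank_fintype_fun_eq_card, Fintype.card_sum, Fintype.card_fin, cc_odd ho]; ring

include hr hr2 hrq in
theorem exists_blocks (s : ℕ) : ∃ A : Fm F, finrank F A.V = cc (oi F r) * s ∧ HasFpf A.Q r ∧ (PT A.Q ↔ (Odd (oi F r) ∨ Even s)) := by
  have key : ∃ A : Fm F, finrank F A.V = cc (oi F r) * s ∧ HasFpf A.Q r := by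
    induction s with
    | zero =>
      refine ⟨⟨PUnit, 0, fun x _ => Subsingleton.elim _ _⟩, ?_, 1, fun v => rfl, one_pow _, fun v _ => Subsingleton.elim _ _⟩
      rw [mul_zero]
      exact finrank_zero_of_subsingleton (M := PUnit.{u + 1})
    | succ s ih =>
      obtain ⟨A, a1, a2⟩ := ih
      obtain ⟨B, b1, b2⟩ := exists_one_block (F := F) hr hr2 hrq
      refine ⟨⟨A.V × B.V, A.Q.prod B.Q, nd_prod.2 ⟨A.nd, B.nd⟩⟩, ?_, a2.prod b2⟩
      show finrank F (A.V × B.V) = _
      rw [finrank_prod, a1, b1]; ring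
  obtain ⟨A, a1, a2⟩ := key
  refine ⟨A, a1, a2, ?_⟩
  obtain ⟨f, f1, f2, f3⟩ := a2
  obtain ⟨j, j1, j2, -⟩ := fpf_struct hr hr2 hrq _ A.V A.Q f a1 A.nd f1 f2 f3
  have := Nat.eq_of_mul_eq_mul_left (cc_pos (F := F) hr hrq) j1
  rw [this]; exact j2

/-- transport of an isometry -/
theorem real_equiv {V V' : Type u} [AddCommGroup V] [Module F V] [FiniteDimensional F V] [AddCommGroup V'] [Module F V'] [FiniteDimensional F V']
    {Q : QuadraticForm F V} {Q' : QuadraticForm F V'} (he : Q.Equivalent Q') {n : ℕ}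
    (h : ∃ f : V →ₗ[F] V, (∀ v, Q (f v) = Q v) ∧ f ^ r = 1 ∧ finrank F (fx f) = n) :
    ∃ f : V' →ₗ[F] V', (∀ v, Q' (f v) = Q' v) ∧ f ^ r = 1 ∧ finrank F (fx f) = n := by
  obtain ⟨f, f1, f2, f3⟩ := h
  obtain ⟨e⟩ := he
  have h1 : ∀ v, e (e.toLinearEquiv.symm v) = v := fun v => e.toLinearEquiv.apply_symm_apply v
  have h2 : ∀ v, e.toLinearEquiv.symm (e v) = v := fun v => e.toLinearEquiv.symm_apply_apply v
  let g : V' →ₗ[F] V' := e.toLinearEquiv.toLinearMap ∘ₗ f ∘ₗ e.toLinearEquiv.symm.toLinearMap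
  have hg : ∀ v, g v = e (f (e.toLinearEquiv.symm v)) := fun v => rfl
  have hk : ∀ (k : ℕ) v, (g ^ k) v = e ((f ^ k) (e.toLinearEquiv.symm v)) := by
    intro k
    induction k with
    | zero => intro v; exact (h1 v).symm
    | succ k ih => intro v; rw [pow_succ', Module.End.mul_apply, ih, hg, h2, pow_succ']; rfl
  refine ⟨g, fun v => by rw [hg, e.map_app, f1, ← e.map_app, h1], ?_, ?_⟩
  · apply LinearMap.ext
    intro v
    rw [hk, f2]
    exact h1 v
  · rw [← f3]
    have : fx g = (fx f).map e.toLinearEquiv.toLinearMap := by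
      ext v
      rw [mem_fx, Submodule.mem_map]
      constructor
      · intro hv
        refine ⟨e.toLinearEquiv.symm v, ?_, h1 v⟩
        rw [mem_fx]
        rw [hg] at hv
        rw [← h2 (f (e.toLinearEquiv.symm v)), hv]
      · rintro ⟨w, hw, rfl⟩
        show g (e w) = e w
        rw [hg, h2, mem_fx.1 hw]
    rw [this]
    exact LinearEquiv.finrank_map_eq e.toLinearEquiv _

include hr hr2 hrq in
/-- **realisation** -/
theorem realize {V : Type u} [AddCommGroup V] [Module F V] [FiniteDimensional F V] {Q : QuadraticForm F V} (hQ : ND Q) (s : ℕ)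
    (hs : cc (oi F r) * s ≤ finrank F V) (hs' : cc (oi F r) * s = finrank F V → (PT Q ↔ (Odd (oi F r) ∨ Even s))) :
    ∃ f : V →ₗ[F] V, (∀ v, Q (f v) = Q v) ∧ f ^ r = 1 ∧ finrank F (fx f) + cc (oi F r) * s = finrank F V := by
  obtain ⟨A, a1, ⟨f, f1, f2, f3⟩, a3⟩ := exists_blocks (F := F) hr hr2 hrq s
  have hfx0 : fx f = ⊥ := by
    rw [eq_bot_iff]
    intro v hv
    rw [Submodule.mem_bot]
    exact f3 v (mem_fx.1 hv)
  obtain ⟨e, he⟩ := even_cc (oi F r)
  rcases Nat.eq_zero_or_pos (cc (oi F r) * s) with h0 | hpos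
  · refine ⟨1, fun v => rfl, one_pow _, ?_⟩
    have : fx (1 : V →ₗ[F] V) = ⊤ := by
      ext v
      rw [mem_fx]
      exact ⟨fun _ => trivial, fun _ => rfl⟩
    rw [this, finrank_top, h0, add_zero]
  rcases hs.eq_or_lt with heq | hlt
  · have hE := equiv_of_same (m := e * s) A.nd hQ (by rw [a1, he]; ring) (by rw [← heq, he]; ring) (a3.trans (hs' heq).symm)
    obtain ⟨g, g1, g2, g3⟩ := real_equiv hE (n := 0) ⟨f, f1, f2, by rw [hfx0, finrank_bot]⟩
    exact ⟨g, g1, g2, by rw [g3, heq, zero_add]⟩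
  · obtain ⟨Y, y1, y2, y3⟩ := sub_exists hQ (b := e * s) (by
      rcases Nat.eq_zero_or_pos (e * s) with h | h
      · exfalso
        rw [he, add_mul, h] at hpos
        omega
      · exact h) (by rw [he] at hlt; linarith) (Odd (oi F r) ∨ Even s)
    have hE := equiv_of_same (m := e * s) A.nd y1 (by rw [a1, he]; ring) y2 (a3.trans y3.symm)
    obtain ⟨e', -, he'⟩ := ortho_split y1
    have hE2 : (A.Q.prod (Q.restrict (orth Q Y))).Equivalent Q := (hE.prod (Equivalent.refl _)).trans ⟨⟨e', he'⟩⟩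
    have ho := finrank_orth hQ Y
    obtain ⟨g, g1, g2, g3⟩ := real_equiv hE2 (r := r) (n := finrank F (orth Q Y)) ⟨f.prodMap LinearMap.id, by
      rintro ⟨a, b⟩
      show A.Q (f a) + _ = A.Q a + _
      rw [f1]; rfl, by
      rw [prodMap_pow'', f2]
      have : (LinearMap.id : (orth Q Y) →ₗ[F] (orth Q Y)) ^ r = 1 := one_pow r
      rw [this]; rfl, by
      have : fx (f.prodMap (LinearMap.id : (orth Q Y) →ₗ[F] (orth Q Y))) = LinearMap.range (LinearMap.inr F A.V (orth Q Y)) := by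
        ext ⟨a, b⟩
        rw [mem_fx, LinearMap.mem_range]
        constructor
        · intro h
          have h1 : f a = a := congrArg Prod.fst h
          exact ⟨b, by rw [f3 a h1]; rfl⟩
        · rintro ⟨b', hb'⟩
          have h1 : (0 : A.V) = a := congrArg Prod.fst hb'
          rw [← h1]
          show (f 0, b) = (0, b)
          rw [_root_.map_zero]
      rw [this]
      exact LinearMap.finrank_range_of_inj LinearMap.inr_injective⟩
    refine ⟨g, g1, g2, ?_⟩
    rw [g3, he]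
    have : (e + e) * s = 2 * (e * s) := by ring
    omega

include hr hrq in
theorem rF : ((r : ℕ) : F) ≠ 0 := Iso.natCast_ne_zero hr hrq

/-- the number of blocks -/
theorem blocks {V : Type u} [AddCommGroup V] [Module F V] [FiniteDimensional F V] {Q : QuadraticForm F V} (hQ : ND Q)
    (hr : r.Prime) (hr2 : r ≠ 2) (hrq : ¬ r ∣ Fintype.card F) (f : V →ₗ[F] V) (hf : ∀ v, Q (f v) = Q v) (hfr : f ^ r = 1) :
    ∃ s, finrank F (fx f) + cc (oi F r) * s = finrank F V ∧
      (PT (Q.restrict (orth Q (fx f))) ↔ (Odd (oi F r) ∨ Even s)) ∧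
      ∀ k ≤ s, ∃ Y : Submodule F V, Y ≤ orth Q (fx f) ∧ (∀ v ∈ Y, f v ∈ Y) ∧ ND (Q.restrict Y) ∧ finrank F Y = cc (oi F r) * k := by
  have hC := fx_nd hQ (rF hr hrq) f hf hfr
  have hfp := fx_fpf hQ (rF hr hrq) f hf hfr
  have hCi : ∀ v ∈ fx f, f v ∈ fx f := fun v hv => by rw [mem_fx.1 hv]; exact hv
  have ho := orth_inv hr.pos f hf hfr hCi
  have hdim := finrank_orth hQ (fx f)
  obtain ⟨s, s1, s2, s3⟩ := fpf_struct hr hr2 hrq (finrank F (orth Q (fx f))) (orth Q (fx f)) (Q.restrict (orth Q (fx f))) (f.restrict ho) rfl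
    (nd_orth hQ hC) (fun v => hf v) (restrict_pow_one ho hfr) (fun v hv => Subtype.ext (hfp v v.2 (congrArg Subtype.val hv)))
  refine ⟨s, by rw [← s1]; omega, s2, fun k hk => ?_⟩
  obtain ⟨Y, y1, y2, y3⟩ := s3 k hk
  refine ⟨Y.map (orth Q (fx f)).subtype, ?_, ?_, ?_, by rw [Submodule.finrank_map_subtype_eq, y3]⟩
  · rintro _ ⟨y, _, rfl⟩
    exact y.2
  · rintro _ ⟨y, hy, rfl⟩
    exact ⟨_, y1 y hy, rfl⟩
  · rw [nd_on]
    rintro _ ⟨y, hy, rfl⟩ h
    have := y2 ⟨y, hy⟩ (fun w => h _ ⟨w, w.2, rfl⟩)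
    have h1 : y = 0 := congrArg Subtype.val this
    rw [h1]; rfl

/-- **necessary condition** -/
theorem W_nec {V : Type u} [AddCommGroup V] [Module F V] [FiniteDimensional F V] {Q : QuadraticForm F V} (hQ : ND Q)
    (hr : r.Prime) (hr2 : r ≠ 2) (hrq : ¬ r ∣ Fintype.card F) (f : V →ₗ[F] V) (hf : ∀ v, Q (f v) = Q v) (hfr : f ^ r = 1)
    (W : Submodule F V) (hW : ND (Q.restrict W)) (hfW : ∀ v ∈ W, f v ∈ W) :
    ∃ (j : ℕ) (C' : Submodule F V), C' ≤ fx f ∧ C' ≤ W ∧ ND (Q.restrict C') ∧ finrank F C' + cc (oi F r) * j = finrank F W ∧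
      cc (oi F r) * j + finrank F (fx f) ≤ finrank F V ∧
      ∀ e, finrank F W = 2 * e → (PT (Q.restrict W) ↔ (PT (Q.restrict C') ↔ (Odd (oi F r) ∨ Even j))) := by
  set g := f.restrict hfW with hg
  have hg1 : ∀ v, Q.restrict W (g v) = Q.restrict W v := fun v => hf v
  have hgr : g ^ r = 1 := restrict_pow_one hfW hfr
  obtain ⟨j, j1, j2, j3⟩ := blocks hW hr hr2 hrq g hg1 hgr
  have hC := fx_nd hW (rF hr hrq) g hg1 hgr
  let C' := (fx g).map W.subtype
  have hC'd : finrank F C' = finrank F (fx g) := Submodule.finrank_map_subtype_eq _ _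
  have hC'W : C' ≤ W := by rintro _ ⟨c, _, rfl⟩; exact c.2
  have hC'nd : ND (Q.restrict C') := by
    rw [nd_on]
    rintro _ ⟨y, hy, rfl⟩ h
    have := hC ⟨y, hy⟩ (fun w => h _ ⟨w, w.2, rfl⟩)
    have h1 : y = 0 := congrArg Subtype.val this
    rw [h1]; rfl
  have hCE : ((Q.restrict W).restrict (fx g)).Equivalent (Q.restrict C') := by
    refine ⟨⟨Submodule.equivMapOfInjective W.subtype W.injective_subtype (fx g), fun v => ?_⟩⟩
    show Q _ = Q _
    rfl
  refine ⟨j, C', ?_, hC'W, hC'nd, by rw [hC'd, j1], ?_, ?_⟩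
  · rintro _ ⟨c, hc, rfl⟩
    rw [mem_fx]
    exact congrArg Subtype.val (mem_fx.1 hc)
  · -- the moved part is orthogonal to the fixed space
    obtain ⟨Y, y1, y2, y3, y4⟩ := j3 j le_rfl
    have hYo : Y.map W.subtype ≤ orth Q (fx f) := by
      rintro _ ⟨y, hy, rfl⟩ c hc
      -- y = (g - 1) y'
      have hsurj : ∀ y ∈ Y, ∃ y' ∈ Y, g y' - y' = y := by
        let N : Y →ₗ[F] Y := g.restrict y2 - LinearMap.id
        have hinj : Function.Injective N := by
          rw [← LinearMap.ker_eq_bot, LinearMap.ker_eq_bot']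
          intro v hv
          apply Subtype.ext
          have h1 : g.restrict y2 v - v = 0 := hv
          have h2 : g v = v := congrArg Subtype.val (sub_eq_zero.1 h1)
          exact fx_fpf hW (rF hr hrq) g hg1 hgr v (y1 v.2) h2
        have hs := LinearMap.injective_iff_surjective.1 hinj
        intro y hy
        obtain ⟨w, hw⟩ := hs ⟨y, hy⟩
        exact ⟨w, w.2, congrArg Subtype.val hw⟩
      obtain ⟨y', hy', hyy⟩ := hsurj y hy
      show polar Q c (y : V) = 0
      have h1 : (y : V) = f (y' : V) - (y' : V) := by rw [← hyy]; rfl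
      rw [h1, polar_sub_right]
      have h2 : polar Q c (f (y' : V)) = polar Q c (y' : V) := by
        conv_lhs => rw [← mem_fx.1 hc]
        exact polar_inv hf _ _
      rw [h2, sub_self]
    have h1 := Submodule.finrank_mono hYo
    rw [Submodule.finrank_map_subtype_eq, y4] at h1
    have h2 := finrank_orth hQ (fx f)
    omega
  · intro e he
    obtain ⟨e', he'⟩ := even_cc (oi F r)
    have hd : finrank F (fx g) = 2 * (e - e' * j) := by
      rw [he, he'] at j1
      have : (e' + e') * j = 2 * (e' * j) := by ring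
      omega
    rw [pt_split_iff hW hC hd he, j2, pt_iff_of_equiv hCE]

/-- **sufficient condition** -/
theorem W_suf {V : Type u} [AddCommGroup V] [Module F V] [FiniteDimensional F V] {Q : QuadraticForm F V} (hQ : ND Q)
    (hr : r.Prime) (hr2 : r ≠ 2) (hrq : ¬ r ∣ Fintype.card F) (f : V →ₗ[F] V) (hf : ∀ v, Q (f v) = Q v) (hfr : f ^ r = 1)
    (j : ℕ) (hj : cc (oi F r) * j + finrank F (fx f) ≤ finrank F V) (C' : Submodule F V) (hC' : C' ≤ fx f) (hC'nd : ND (Q.restrict C')) :
    ∃ (W : Submodule F V), ND (Q.restrict W) ∧ (∀ v ∈ W, f v ∈ W) ∧ finrank F W = finrank F C' + cc (oi F r) * j ∧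
      ∃ A : Fm F, finrank F A.V = cc (oi F r) * j ∧ (PT A.Q ↔ (Odd (oi F r) ∨ Even j)) ∧ ((Q.restrict C').prod A.Q).Equivalent (Q.restrict W) := by
  obtain ⟨s, s1, s2, s3⟩ := blocks hQ hr hr2 hrq f hf hfr
  have hcc := cc_pos (F := F) hr hrq
  have hjs : j ≤ s := by
    by_contra hlt
    have : cc (oi F r) * (s + 1) ≤ cc (oi F r) * j := Nat.mul_le_mul_left _ (by omega)
    rw [mul_add] at this
    omega
  obtain ⟨Y, y1, y2, y3, y4⟩ := s3 j hjs
  have hort : ∀ a ∈ C', ∀ b ∈ Y, polarBilin Q a b = 0 := fun a ha b hb => y1 hb a (hC' ha)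
  have hsup := Iso.nd_sup (refl_polar Q) (nd_on.1 hC'nd) (nd_on.1 y3) hort
  have hfp := fx_fpf hQ (rF hr hrq) f hf hfr
  obtain ⟨j', t1, t2, -⟩ := fpf_struct hr hr2 hrq (finrank F Y) Y (Q.restrict Y) (f.restrict y2) rfl y3 (fun v => hf v) (restrict_pow_one y2 hfr)
    (fun v hv => Subtype.ext (hfp v (y1 v.2) (congrArg Subtype.val hv)))
  rw [y4] at t1
  have := Nat.eq_of_mul_eq_mul_left hcc t1
  subst this
  refine ⟨C' ⊔ Y, nd_on.2 hsup.1, ?_, by rw [hsup.2, y4], ⟨Y, Q.restrict Y, y3⟩, y4, t2, ?_⟩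
  · intro v hv
    obtain ⟨a, ha, b, hb, rfl⟩ := Submodule.mem_sup.1 hv
    rw [_root_.map_add, mem_fx.1 (hC' ha)]
    exact Submodule.add_mem_sup ha (y2 b hb)
  · let φ : (C' × Y) →ₗ[F] (C' ⊔ Y : Submodule F V) :=
      LinearMap.coprod (Submodule.inclusion le_sup_left) (Submodule.inclusion le_sup_right)
    have hφ : ∀ x, ((φ x : (C' ⊔ Y : Submodule F V)) : V) = (x.1 : V) + (x.2 : V) := fun x => rfl
    have hinj : Function.Injective φ := by
      rw [← LinearMap.ker_eq_bot, LinearMap.ker_eq_bot']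
      rintro ⟨a, b⟩ h
      have h1 : (a : V) + (b : V) = 0 := by rw [← hφ (a, b), h]; rfl
      have h2 : (a : V) = 0 := by
        apply nd_on.1 hC'nd a a.2
        intro y hy
        have : (a : V) = -(b : V) := eq_neg_of_add_eq_zero_left h1
        rw [this, polarBilin_apply_apply, polar_neg_left, polar_comm]
        have := hort y hy b b.2
        rw [polarBilin_apply_apply] at this
        rw [this, neg_zero]
      have h3 : (b : V) = 0 := by rw [h2, zero_add] at h1; exact h1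
      exact Prod.ext (Subtype.ext h2) (Subtype.ext h3)
    have hdim : finrank F (C' × Y) = finrank F (C' ⊔ Y : Submodule F V) := by rw [finrank_prod, hsup.2]
    refine ⟨⟨LinearEquiv.ofInjectiveOfFinrankEq φ hinj hdim, fun x => ?_⟩⟩
    show Q ((φ x : (C' ⊔ Y : Submodule F V)) : V) = Q x.1 + Q x.2
    rw [hφ, QuadraticMap.map_add Q]
    have := hort x.1 x.1.2 x.2 x.2.2
    rw [polarBilin_apply_apply] at this
    rw [this, add_zero]

end

end H99.OrthSS
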