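import Mathlib
import Cfsg.Agent.Lib.H99.OrthSS3
import Cfsg.Agent.Lib.H7.Hyp

set_option autoImplicit false
set_option linter.unusedSimpArgs false
set_option linter.unusedSectionVars false
set_option linter.unusedVariables false

/-! Counting nondegenerate subspaces modulo `r`. -/

namespace H99.OrthSS

open Module QuadraticMap H48.QuadSplit H48.QuadStd H96.OeType

universe u

variable {F : Type u} [Field F] [Fintype F]

/-- nondegenerate subspaces in a fixed isometry class -/
def Cl {V : Type u} [AddCommGroup V] [Module F V] (Q : QuadraticForm F V) (R : Fm F) : Set (Submodule F V) :=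
  {W | R.Q.Equivalent (Q.restrict W)}

theorem Cl.map {V : Type u} [AddCommGroup V] [Module F V] {Q : QuadraticForm F V} {R : Fm F} {W : Submodule F V} (hW : W ∈ Cl Q R)
    (g : V →ₗ[F] V) (hg : ∀ v, Q (g v) = Q v) (hinj : Function.Injective g) : W.map g ∈ Cl Q R := by
  refine Equivalent.trans hW ⟨⟨Submodule.equivMapOfInjective g hinj W, fun v => ?_⟩⟩
  show Q (g v) = Q v
  exact hg v

theorem Cl.nd {V : Type u} [AddCommGroup V] [Module F V] {Q : QuadraticForm F V} {R : Fm F} {W : Submodule F V} (hW : W ∈ Cl Q R) : ND (Q.restrict W) :=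
  nd_of_equivalent hW R.nd

theorem Cl.dim {V : Type u} [AddCommGroup V] [Module F V] {Q : QuadraticForm F V} {R : Fm F} {W : Submodule F V} (hW : W ∈ Cl Q R) :
    finrank F W = finrank F R.V := (finrank_eq_of_equivalent hW).symm

/-- transitivity: the number of subspaces divides the order of the isometry group -/
theorem Cl.dvd {V : Type u} [AddCommGroup V] [Module F V] [FiniteDimensional F V] {Q : QuadraticForm F V} (hQ : ND Q) (R : Fm F)
    (hne : (Cl Q R).Nonempty) : Nat.card (Cl Q R) ∣ Nat.card (H7.Hyp.O (F := F) Q) := by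
  classical
  have : Finite V := Module.finite_of_finite F
  let G := H7.Hyp.O (F := F) (⇑Q)
  let act : MulAction G (Cl Q R) :=
    { smul := fun g W => ⟨W.1.map (g.1 : V →ₗ[F] V), Cl.map W.2 _ g.2 (LinearEquiv.injective g.1)⟩
      one_smul := fun W => Subtype.ext (by
        show W.1.map ((1 : G).1 : V →ₗ[F] V) = W.1
        exact Submodule.map_id W.1)
      mul_smul := fun g h W => Subtype.ext (by
        show W.1.map ((g * h).1 : V →ₗ[F] V) = (W.1.map (h.1 : V →ₗ[F] V)).map (g.1 : V →ₗ[F] V)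
        rw [← Submodule.map_comp]; rfl) }
  have hsm : ∀ (g : G) (W : Cl Q R), ((g • W : Cl Q R) : Submodule F V) = W.1.map (g.1 : V →ₗ[F] V) := fun _ _ => rfl
  obtain ⟨W0, hW0⟩ := hne
  have htrans : MulAction.orbit G (⟨W0, hW0⟩ : Cl Q R) = Set.univ := by
    rw [Set.eq_univ_iff_forall]
    rintro ⟨W, hW⟩
    obtain ⟨e⟩ := (Equivalent.trans (Equivalent.symm hW0) hW)
    have he : ∀ x : W0, Q ((e x : W) : V) = Q (x : V) := fun x => e.map_app x
    obtain ⟨g, hg, hgx⟩ := H48.QuadWitt.witt_extension (Q := Q) (nd_iff.1 hQ) W0 (W.subtype ∘ₗ e.toLinearEquiv.toLinearMap)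
      (W.injective_subtype.comp e.toLinearEquiv.injective) he
    refine ⟨⟨g, hg⟩, Subtype.ext ?_⟩
    show W0.map (g : V →ₗ[F] V) = W
    apply Submodule.eq_of_le_of_finrank_eq
    · rintro _ ⟨x, hx, rfl⟩
      have := hgx ⟨x, hx⟩
      show g x ∈ W
      rw [this]
      exact (e ⟨x, hx⟩).2
    · rw [LinearEquiv.finrank_map_eq g W0, Cl.dim hW0, Cl.dim hW]
  have h1 := Nat.card_congr (MulAction.orbitEquivQuotientStabilizer G (⟨W0, hW0⟩ : Cl Q R))
  rw [htrans, Nat.card_univ] at h1
  rw [h1]
  exact Subgroup.card_quotient_dvd_card _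

/-- no isometries of order `r` -/
theorem no_r {r : ℕ} (hr : r.Prime) (hr2 : r ≠ 2) (hrq : ¬ r ∣ Fintype.card F) {V : Type u} [AddCommGroup V] [Module F V] [FiniteDimensional F V]
    {Q : QuadraticForm F V} (hQ : ND Q)
    (hC : finrank F V < cc (oi F r) ∨ (finrank F V = cc (oi F r) ∧ ¬ (PT Q ↔ Odd (oi F r)))) : ¬ r ∣ Nat.card (H7.Hyp.O (F := F) (⇑Q)) := by
  classical
  intro h
  have : Finite V := Module.finite_of_finite F
  have : Finite (H7.Hyp.O (F := F) (⇑Q)) := by
    have : Finite (V ≃ₗ[F] V) := Finite.of_injective (fun g : V ≃ₗ[F] V => (g : V → V)) DFunLike.coe_injective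
    infer_instance
  have : Fact r.Prime := ⟨hr⟩
  obtain ⟨g, hg⟩ := exists_prime_orderOf_dvd_card' (G := H7.Hyp.O (F := F) (⇑Q)) r h
  let f : V →ₗ[F] V := (g.1 : V →ₗ[F] V)
  have hf : ∀ v, Q (f v) = Q v := g.2
  have hk : ∀ k : ℕ, ((((g ^ k : H7.Hyp.O (F := F) (⇑Q)) : V ≃ₗ[F] V)) : V →ₗ[F] V) = f ^ k := by
    intro k
    induction k with
    | zero => rfl
    | succ k ih => rw [pow_succ, pow_succ, ← ih]; rfl
  have hfr : f ^ r = 1 := by
    rw [← hk, ← hg, pow_orderOf_eq_one]; rfl
  have hf1 : f ≠ 1 := by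
    intro h1
    have : g = 1 := by
      apply Subtype.ext
      apply LinearEquiv.ext
      intro v
      exact congrArg (fun φ : V →ₗ[F] V => φ v) h1
    rw [this, orderOf_one] at hg
    exact hr.one_lt.ne hg
  obtain ⟨s, s1, s2, -⟩ := blocks hQ hr hr2 hrq f hf hfr
  have hs : 1 ≤ s := by
    by_contra hs
    have : s = 0 := by omega
    subst this
    rw [mul_zero, add_zero] at s1
    apply hf1
    have := Submodule.eq_top_of_finrank_eq s1
    apply LinearMap.ext
    intro v
    exact mem_fx.1 (by rw [this]; trivial)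
  have hcs : cc (oi F r) ≤ cc (oi F r) * s := Nat.le_mul_of_pos_right _ hs
  rcases hC with hC | ⟨hC, hC'⟩
  · omega
  · have hcc := cc_pos (F := F) hr hrq
    have hs1 : s = 1 := by
      have : cc (oi F r) * s ≤ cc (oi F r) * 1 := by omega
      have := Nat.le_of_mul_le_mul_left this hcc
      omega
    subst hs1
    have hfx : fx f = ⊥ := by
      apply Submodule.finrank_eq_zero.1
      omega
    apply hC'
    rw [hfx] at s2
    have ho : orth Q (⊥ : Submodule F V) = ⊤ := by
      rw [eq_top_iff]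
      intro v _ u hu
      rw [(Submodule.mem_bot F).1 hu]; exact polar_zero_left Q v
    rw [ho] at s2
    have hE : (Q.restrict (⊤ : Submodule F V)).Equivalent Q := ⟨⟨Submodule.topEquiv, fun v => rfl⟩⟩
    rw [pt_iff_of_equiv hE] at s2
    rw [s2]
    simp

/-- **divisibility**: small classes fixed by an element with few fixed points are not counted by multiples of `r` -/
theorem not_dvd {r : ℕ} (hr : r.Prime) (hr2 : r ≠ 2) (hrq : ¬ r ∣ Fintype.card F) {V : Type u} [AddCommGroup V] [Module F V] [FiniteDimensional F V]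
    {Q : QuadraticForm F V} (hQ : ND Q) (R : Fm F) (hm : finrank F R.V < cc (oi F r)) (f : V →ₗ[F] V) (hf : ∀ v, Q (f v) = Q v) (hfr : f ^ r = 1)
    (hC : finrank F (fx f) < cc (oi F r) ∨ (finrank F (fx f) = cc (oi F r) ∧ ¬ (PT (Q.restrict (fx f)) ↔ Odd (oi F r))))
    (hdvd : r ∣ Nat.card (Cl Q R)) : ¬ ∃ W ∈ Cl Q R, ∀ v ∈ W, f v ∈ W := by
  classical
  rintro ⟨W0, hW0, hfW0⟩
  have : Finite V := Module.finite_of_finite F
  have : Fact r.Prime := ⟨hr⟩
  have hle : ∀ W ∈ Cl Q R, (∀ v ∈ W, f v ∈ W) → W ≤ fx f := by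
    intro W hW hfW
    obtain ⟨j, C', c1, c2, c3, c4, -⟩ := W_nec hQ hr hr2 hrq f hf hfr W (Cl.nd hW) hfW
    have hj : j = 0 := by
      by_contra hj
      have : cc (oi F r) ≤ cc (oi F r) * j := Nat.le_mul_of_pos_right _ (by omega)
      have := Cl.dim hW
      omega
    rw [hj, mul_zero, add_zero] at c4
    rw [← Submodule.eq_of_le_of_finrank_eq c2 c4]
    exact c1
  have hinj : Function.Injective f := by
    intro a b hab
    have h1 : (f ^ (r - 1)) (f a) = (f ^ (r - 1)) (f b) := by rw [hab]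
    have h2 : ∀ v, (f ^ (r - 1)) (f v) = v := by
      intro v
      have : f ^ (r - 1) * f = 1 := by rw [← pow_succ, Nat.sub_add_cancel hr.pos, hfr]
      exact congrArg (fun φ : V →ₗ[F] V => φ v) this
    rwa [h2, h2] at h1
  have hfin : Finite (Submodule F V) := Finite.of_injective (fun W : Submodule F V => (W : Set V)) SetLike.coe_injective
  have : Fintype (Cl Q R) := Fintype.ofFinite _
  let φ : Function.End (Cl Q R) := fun W => ⟨W.1.map f, Cl.map W.2 f hf hinj⟩
  have hφ : ∀ (k : ℕ) (W : Cl Q R), (((φ ^ k) W : Cl Q R) : Submodule F V) = W.1.map (f ^ k) := by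
    intro k
    induction k with
    | zero => intro W; exact (Submodule.map_id W.1).symm
    | succ k ih =>
      intro W
      rw [pow_succ', pow_succ']
      show (((φ ^ k) W : Cl Q R) : Submodule F V).map f = W.1.map (f * f ^ k)
      rw [ih, ← Submodule.map_comp]; rfl
  have h1 := Equiv.Perm.card_fixedPoints_modEq (f := φ) (p := r) (n := 1) (by
    rw [pow_one]
    funext W
    apply Subtype.ext
    rw [hφ, hfr]
    exact Submodule.map_id W.1)
  have h2 : r ∣ Fintype.card (Function.fixedPoints φ) := by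
    rw [← Nat.modEq_zero_iff_dvd]
    refine h1.symm.trans ?_
    rw [Nat.modEq_zero_iff_dvd, ← Nat.card_eq_fintype_card]; exact hdvd
  -- fixed points are the subspaces of the fixed space
  have hfixeq : ∀ W : Cl Q R, φ W = W ↔ W.1 ≤ fx f := by
    intro W
    constructor
    · intro h
      apply hle W.1 W.2
      intro v hv
      have h3 : W.1.map f = W.1 := congrArg Subtype.val h
      rw [← h3]; exact ⟨v, hv, rfl⟩
    · intro h
      apply Subtype.ext
      show W.1.map f = W.1
      ext v
      constructor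
      · rintro ⟨w, hw, rfl⟩
        rw [mem_fx.1 (h hw)]; exact hw
      · intro hv
        exact ⟨v, hv, mem_fx.1 (h hv)⟩
  let e : Function.fixedPoints φ ≃ Cl (Q.restrict (fx f)) R :=
    { toFun := fun W => ⟨W.1.1.comap (fx f).subtype, by
        have hWle := (hfixeq W.1).1 W.2
        refine Equivalent.trans W.1.2 (Equivalent.symm ⟨⟨Submodule.comapSubtypeEquivOfLe hWle, fun v => rfl⟩⟩)⟩
      invFun := fun W => ⟨⟨W.1.map (fx f).subtype, by
        refine Equivalent.trans W.2 ⟨⟨Submodule.equivMapOfInjective _ (fx f).injective_subtype W.1, fun v => rfl⟩⟩⟩, (hfixeq _).2 (by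
          rintro _ ⟨v, _, rfl⟩
          exact v.2)⟩
      left_inv := fun W => by
        apply Subtype.ext
        apply Subtype.ext
        have hWle := (hfixeq W.1).1 W.2
        show (W.1.1.comap (fx f).subtype).map (fx f).subtype = W.1.1
        rw [Submodule.map_comap_subtype]
        exact inf_eq_right.2 hWle
      right_inv := fun W => by
        apply Subtype.ext
        show (W.1.map (fx f).subtype).comap (fx f).subtype = W.1
        exact Submodule.comap_map_eq_of_injective (fx f).injective_subtype W.1 }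
  rw [← Nat.card_eq_fintype_card, Nat.card_congr e] at h2
  have hne : (Cl (Q.restrict (fx f)) R).Nonempty := ⟨_, (e ⟨⟨W0, hW0⟩, (hfixeq _).2 (hle W0 hW0 hfW0)⟩).2⟩
  have hCnd := fx_nd hQ (rF hr hrq) f hf hfr
  exact no_r hr hr2 hrq hCnd hC (h2.trans (Cl.dvd hCnd R hne))

end H99.OrthSS
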