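import Mathlib
import Cfsg.Agent.Lib.H99.OrthSS4
import Cfsg.Agent.Lib.H96.OeTyp2

set_option autoImplicit false
set_option linter.unusedSimpArgs false
set_option linter.unusedSectionVars false
set_option linter.unusedVariables false

/-! The criterion: elements of odd prime order fixing a nondegenerate subspace. -/

namespace H99.OrthSS

open Module QuadraticMap H48.QuadSplit H48.QuadStd H96.OeType

universe u

variable {F : Type u} [Field F] [Fintype F]

/-- the numbers of blocks that occur -/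
def allowed (i n : ℕ) (t₀ : Prop) (s : ℕ) : Prop := cc i * s ≤ n ∧ (cc i * s = n → (t₀ ↔ (Odd i ∨ Even s)))

/-- an invariant subspace of dimension `m` and type `t` exists -/
def okE (i n m : ℕ) (t₀ t : Prop) (s : ℕ) : Prop :=
  ∃ j, j ≤ s ∧ cc i * j ≤ m ∧ m + cc i * s ≤ n + cc i * j ∧ (cc i * j = m → (t ↔ (Odd i ∨ Even j))) ∧
    (m + cc i * s = n + cc i * j → (t ↔ ((t₀ ↔ (Odd i ∨ Even s)) ↔ (Odd i ∨ Even j))))

theorem pt_bot {V : Type u} [AddCommGroup V] [Module F V] (Q : QuadraticForm F V) {W : Submodule F V} (hW : finrank F W = 0) [FiniteDimensional F V] : PT (Q.restrict W) := by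
  refine ⟨⊥, ?_, by rw [finrank_bot, hW]⟩
  intro u hu
  rw [(Submodule.mem_bot F).1 hu]; exact QuadraticMap.map_zero _

theorem l1 {A B : Prop} (h : A) : (A ↔ B) ↔ B := by tauto
theorem l2 {t A B C P : Prop} (h6 : t ↔ (A ↔ B)) (h7 : P ↔ (A ↔ C)) : t ↔ ((P ↔ C) ↔ B) := by tauto
theorem l3 {A B : Prop} (h : A) : B ↔ (A ↔ B) := by tauto
theorem l4 {t A B C P : Prop} (h7 : P ↔ (A ↔ C)) (h8 : t ↔ ((P ↔ C) ↔ B)) : t ↔ (A ↔ B) := by tauto
theorem l5 {t B : Prop} : t ↔ ((t ↔ B) ↔ B) := by tauto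
theorem l6 {P O E A : Prop} (h2 : ¬ (P ↔ (O ∨ ¬ E))) (h3 : P ↔ (A ↔ (O ∨ E))) : ¬ (A ↔ O) := by tauto

theorem okE_iff {r : ℕ} {V : Type u} [AddCommGroup V] [Module F V] [FiniteDimensional F V] {Q : QuadraticForm F V} (hQ : ND Q)
    (hr : r.Prime) (hr2 : r ≠ 2) (hrq : ¬ r ∣ Fintype.card F) (f : V →ₗ[F] V) (hf : ∀ v, Q (f v) = Q v) (hfr : f ^ r = 1)
    {s n m : ℕ} (hn : finrank F V = n) (hm : Even m) (hs : finrank F (fx f) + cc (oi F r) * s = n) (t : Prop) :
    (∃ W : Submodule F V, finrank F W = m ∧ ND (Q.restrict W) ∧ (PT (Q.restrict W) ↔ t) ∧ ∀ v ∈ W, f v ∈ W) ↔ okE (oi F r) n m (PT Q) t s := by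
  have hcc := cc_pos (F := F) hr hrq
  obtain ⟨ec, hec⟩ := even_cc (oi F r)
  obtain ⟨em, hem⟩ := hm
  have hCnd := fx_nd hQ (rF hr hrq) f hf hfr
  -- type of the fixed space
  have htyC : Even n → (PT Q ↔ (PT (Q.restrict (fx f)) ↔ (Odd (oi F r) ∨ Even s))) := by
    rintro ⟨N, hN⟩
    obtain ⟨s', s1, s2, -⟩ := blocks hQ hr hr2 hrq f hf hfr
    have : s' = s := by
      have : cc (oi F r) * s' = cc (oi F r) * s := by omega
      exact Nat.eq_of_mul_eq_mul_left hcc this
    subst this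
    rw [pt_split_iff hQ hCnd (m := N - ec * s') (m' := N) (by
      have : cc (oi F r) * s' = 2 * (ec * s') := by rw [hec]; ring
      omega) (by omega), s2]
  constructor
  · rintro ⟨W, w1, w2, w3, w4⟩
    obtain ⟨j, C', c1, c2, c3, c4, c5, c6⟩ := W_nec hQ hr hr2 hrq f hf hfr W w2 w4
    have hjs : j ≤ s := by
      by_contra hlt
      have : cc (oi F r) * (s + 1) ≤ cc (oi F r) * j := Nat.mul_le_mul_left _ (by omega)
      rw [mul_add] at this
      omega
    have hC'le := Submodule.finrank_mono c1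
    have h6 := c6 em (by omega)
    rw [w3] at h6
    refine ⟨j, hjs, by omega, by omega, ?_, ?_⟩
    · intro hj
      have h0 : finrank F C' = 0 := by omega
      rw [h6]
      exact l1 (pt_bot Q h0)
    · intro hj
      have h0 : C' = fx f := Submodule.eq_of_le_of_finrank_eq c1 (by omega)
      rw [h0] at h6
      have hne : Even n := by
        refine ⟨em + ec * s - ec * j, ?_⟩
        have e1 : cc (oi F r) * s = 2 * (ec * s) := by rw [hec]; ring
        have e2 : cc (oi F r) * j = 2 * (ec * j) := by rw [hec]; ring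
        have : ec * j ≤ ec * s := Nat.mul_le_mul_left _ hjs
        omega
      exact l2 h6 (htyC hne)
  · rintro ⟨j, j1, j2, j3, j4, j5⟩
    have hj' : cc (oi F r) * j + finrank F (fx f) ≤ finrank F V := by
      have : cc (oi F r) * j ≤ cc (oi F r) * s := Nat.mul_le_mul_left _ j1
      omega
    have e2 : cc (oi F r) * j = 2 * (ec * j) := by rw [hec]; ring
    -- choose the fixed part
    have key : ∃ C' : Submodule F V, C' ≤ fx f ∧ ND (Q.restrict C') ∧ finrank F C' + cc (oi F r) * j = m ∧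
        (t ↔ (PT (Q.restrict C') ↔ (Odd (oi F r) ∨ Even j))) := by
      rcases j2.eq_or_lt with h | h
      · refine ⟨⊥, bot_le, nd_on.2 Iso.nd_bot, by rw [finrank_bot, zero_add, h], ?_⟩
        rw [j4 h]
        exact l3 (pt_bot Q (W := ⊥) (finrank_bot F V))
      · rcases j3.eq_or_lt with h' | h'
        · refine ⟨fx f, le_rfl, hCnd, by omega, ?_⟩
          have hne : Even n := by
            refine ⟨em + ec * s - ec * j, ?_⟩
            have e1 : cc (oi F r) * s = 2 * (ec * s) := by rw [hec]; ring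
            have : ec * j ≤ ec * s := Nat.mul_le_mul_left _ j1
            omega
          exact l4 (htyC hne) (j5 h')
        · obtain ⟨Y, y1, y2, y3⟩ := sub_exists hCnd (b := em - ec * j) (by omega) (by omega) (t ↔ (Odd (oi F r) ∨ Even j))
          have hE : ((Q.restrict (fx f)).restrict Y).Equivalent (Q.restrict (Y.map (fx f).subtype)) :=
            ⟨⟨Submodule.equivMapOfInjective _ (fx f).injective_subtype Y, fun v => rfl⟩⟩
          refine ⟨Y.map (fx f).subtype, ?_, nd_of_equivalent hE y1, by rw [Submodule.finrank_map_subtype_eq, y2]; omega, ?_⟩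
          · rintro _ ⟨y, _, rfl⟩
            exact y.2
          · rw [← pt_iff_of_equiv hE, y3]
            exact l5
    obtain ⟨C', c1, c2, c3, c4⟩ := key
    obtain ⟨W, w1, w2, w3, A, a1, a2, a3⟩ := W_suf hQ hr hr2 hrq f hf hfr j hj' C' c1 c2
    refine ⟨W, by omega, w1, ?_, w2⟩
    rw [← pt_iff_of_equiv a3, pt_prod_iff c2 A.nd (m := em - ec * j) (m' := ec * j) (by omega) (by rw [a1, e2]), a2]
    exact c4.symm

section mat

variable {ι : Type} [Fintype ι] [DecidableEq ι]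

theorem inv_map {x : GL ι F} {W : Submodule F (ι → F)} :
    W.map (Matrix.toLin' (x : Matrix ι ι F)) ≤ W ↔ ∀ v ∈ W, Matrix.toLin' (x : Matrix ι ι F) v ∈ W := by
  constructor
  · intro h v hv; exact h ⟨v, hv, rfl⟩
  · rintro h _ ⟨v, hv, rfl⟩; exact h v hv

theorem exists_gl' (f : (ι → F) →ₗ[F] (ι → F)) {r : ℕ} (hr : 0 < r) (hf : f ^ r = 1) :
    ∃ x : GL ι F, Matrix.toLin' (x : Matrix ι ι F) = f ∧ x ^ r = 1 := by
  have h1 : f * f ^ (r - 1) = 1 := by rw [← pow_succ', Nat.sub_add_cancel hr, hf]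
  have h2 : f ^ (r - 1) * f = 1 := by rw [← pow_succ, Nat.sub_add_cancel hr, hf]
  let x : GL ι F := ⟨LinearMap.toMatrix' f, LinearMap.toMatrix' (f ^ (r - 1)), by
    rw [← LinearMap.toMatrix'_mul, h1, LinearMap.toMatrix'_one], by
    rw [← LinearMap.toMatrix'_mul, h2, LinearMap.toMatrix'_one]⟩
  have hx : Matrix.toLin' (x : Matrix ι ι F) = f := Matrix.toLin'_toMatrix' _
  refine ⟨x, hx, ?_⟩
  apply Units.ext
  apply Matrix.toLin'.injective
  rw [Units.val_pow_eq_pow_val, Matrix.toLin'_pow, hx, hf, Units.val_one, Matrix.toLin'_one]; rfl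

theorem toLin_pow_one {x : GL ι F} {r : ℕ} (h : x ^ r = 1) : (Matrix.toLin' (x : Matrix ι ι F)) ^ r = 1 := by
  rw [← Matrix.toLin'_pow, ← Units.val_pow_eq_pow_val, h, Units.val_one, Matrix.toLin'_one]; rfl

/-- **core criterion** (elements of order `r`) -/
theorem core {r : ℕ} (hr : r.Prime) (hr2 : r ≠ 2) (hrq : ¬ r ∣ Fintype.card F) {Q : QuadraticForm F (ι → F)} (hQ : ND Q)
    (hcard : Fintype.card F ≠ 2 ∨ Fintype.card ι ≠ 4) (P : Submodule F (ι → F) → Prop) (ok : ℕ → Prop)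
    (hP : ∀ (f : (ι → F) →ₗ[F] (ι → F)), (∀ v, Q (f v) = Q v) → f ^ r = 1 → ∀ s, finrank F (fx f) + cc (oi F r) * s = Fintype.card ι →
      ((∃ W, P W ∧ ∀ v ∈ W, f v ∈ W) ↔ ok s)) :
    (∀ x : GL ι F, x ∈ Cfsg.Geo.omegaGL (⇑Q) → x ^ r = 1 → x ≠ 1 → ∃ W, P W ∧ W.map (Matrix.toLin' (x : Matrix ι ι F)) ≤ W) ↔
      ∀ s, 1 ≤ s → allowed (oi F r) (Fintype.card ι) (PT Q) s → ok s := by
  have hcc := cc_pos (F := F) hr hrq
  have hdim : finrank F (ι → F) = Fintype.card ι := finrank_fintype_fun_eq_card F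
  constructor
  · rintro H s hs ⟨hs1, hs2⟩
    obtain ⟨f, f1, f2, f3⟩ := realize hr hr2 hrq hQ s (by rw [hdim]; exact hs1) (by rw [hdim]; exact hs2)
    obtain ⟨x, x1, x2⟩ := exists_gl' f hr.pos f2
    rw [hdim] at f3
    rw [← hP f f1 f2 s f3]
    have hx : x ∈ Cfsg.isometryGroup F (⇑Q) := (H17.OrthDet.mem_isometryGroup_iff _ _).mpr (fun v => by
      rw [← Matrix.toLin'_apply, x1, f1])
    obtain ⟨W, W1, W2⟩ := H x (OrthUni3.mem_omega_of_odd Q (nd_iff.1 hQ) hcard hx (hr.odd_of_ne_two hr2) x2) x2 (by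
      rintro rfl
      rw [Units.val_one, Matrix.toLin'_one] at x1
      have h1 : fx f = ⊤ := by
        ext v
        rw [mem_fx, ← x1]
        exact ⟨fun _ => trivial, fun _ => rfl⟩
      rw [h1, finrank_top, hdim] at f3
      have : 0 < cc (oi F r) * s := Nat.mul_pos hcc hs
      omega)
    refine ⟨W, W1, ?_⟩
    rw [← x1]
    exact inv_map.1 W2
  · intro H x hx hxr hx1
    have hiso : ∀ v, Q (Matrix.toLin' (x : Matrix ι ι F) v) = Q v := by
      intro v
      rw [Matrix.toLin'_apply]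
      obtain ⟨y, _, rfl⟩ := hx
      exact (H17.OrthDet.mem_isometryGroup_iff _ _).mp y.2 v
    have hTr := toLin_pow_one hxr
    obtain ⟨s, s1, s2, -⟩ := blocks hQ hr hr2 hrq _ hiso hTr
    rw [hdim] at s1
    have hs : 1 ≤ s := by
      by_contra hs
      have : s = 0 := by omega
      subst this
      rw [mul_zero, add_zero, ← hdim] at s1
      have := Submodule.eq_top_of_finrank_eq s1
      apply hx1
      apply Units.ext
      apply Matrix.toLin'.injective
      rw [Units.val_one, Matrix.toLin'_one]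
      apply LinearMap.ext
      intro v
      exact mem_fx.1 (by rw [this]; trivial)
    have hall : allowed (oi F r) (Fintype.card ι) (PT Q) s := by
      refine ⟨by omega, fun h => ?_⟩
      have hfx : fx (Matrix.toLin' (x : Matrix ι ι F)) = ⊥ := by
        apply Submodule.finrank_eq_zero.1
        omega
      rw [hfx] at s2
      have ho : orth Q (⊥ : Submodule F (ι → F)) = ⊤ := by
        rw [eq_top_iff]
        intro v _ u hu
        rw [(Submodule.mem_bot F).1 hu]; exact polar_zero_left Q v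
      rw [ho] at s2
      have hE : (Q.restrict (⊤ : Submodule F (ι → F))).Equivalent Q := ⟨⟨Submodule.topEquiv, fun v => rfl⟩⟩
      rw [pt_iff_of_equiv hE] at s2
      exact s2
    obtain ⟨W, W1, W2⟩ := (hP _ hiso hTr s s1).2 (H s hs hall)
    exact ⟨W, W1, inv_map.2 W2⟩

/-- passing to elements of order `r` modulo scalars -/
theorem proj_iff {r : ℕ} (hr : r.Prime) (hr2 : r ≠ 2) {Q : QuadraticForm F (ι → F)} (hQ : ND Q) [Nonempty ι]
    (hcard : Fintype.card F ≠ 2 ∨ Fintype.card ι ≠ 4) (P : Submodule F (ι → F) → Prop) :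
    (∀ x : GL ι F, x ∈ Cfsg.Geo.omegaGL (⇑Q) → (∃ z : F, ((x ^ r : GL ι F) : Matrix ι ι F) = z • (1 : Matrix ι ι F)) →
      (∀ z : F, (x : Matrix ι ι F) ≠ z • (1 : Matrix ι ι F)) → ∃ W, P W ∧ W.map (Matrix.toLin' (x : Matrix ι ι F)) ≤ W) ↔
    (∀ x : GL ι F, x ∈ Cfsg.Geo.omegaGL (⇑Q) → x ^ r = 1 → x ≠ 1 → ∃ W, P W ∧ W.map (Matrix.toLin' (x : Matrix ι ι F)) ≤ W) := by
  obtain ⟨v0, hv0⟩ : ∃ v, Q v ≠ 0 := by
    by_contra hcon
    push Not at hcon
    have h1 : ∀ x : ι → F, x = 0 := by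
      intro x
      apply hQ
      intro y
      rw [polar, hcon, hcon, hcon]; ring
    exact one_ne_zero (congrFun (h1 (fun _ => 1)) (Classical.arbitrary ι))
  have hiso : ∀ {x : GL ι F}, x ∈ Cfsg.Geo.omegaGL (⇑Q) → ∀ v, Q ((x : Matrix ι ι F).mulVec v) = Q v := by
    rintro x ⟨y, _, rfl⟩
    exact (H17.OrthDet.mem_isometryGroup_iff _ _).mp y.2
  have hsc : ∀ {A : Matrix ι ι F}, (∀ v, Q (A.mulVec v) = Q v) → ∀ {z : F}, A = z • (1 : Matrix ι ι F) → z * z = 1 := by
    intro A hA z hz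
    have h3 := hA v0
    rw [hz, Matrix.smul_mulVec, Matrix.one_mulVec, QuadraticMap.map_smul, smul_eq_mul] at h3
    exact mul_right_cancel₀ hv0 (by rw [h3, one_mul])
  have hodd := hr.odd_of_ne_two hr2
  constructor
  · intro H x hx hxr hx1
    refine H x hx ⟨1, by rw [hxr, one_smul, Units.val_one]⟩ ?_
    intro z hz
    have h1 := hsc (hiso hx) hz
    apply hx1
    have h2 : ((x ^ r : GL ι F) : Matrix ι ι F) = z ^ r • (1 : Matrix ι ι F) := by
      rw [Units.val_pow_eq_pow_val, hz, smul_pow, one_pow]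
    rw [hxr, Units.val_one] at h2
    have h3 : z ^ r = 1 := by
      have := congrFun (congrFun h2 (Classical.arbitrary ι)) (Classical.arbitrary ι)
      rw [Matrix.smul_apply, Matrix.one_apply_eq, smul_eq_mul, mul_one] at this
      exact this.symm
    obtain ⟨k, hk⟩ := hodd
    rw [hk, pow_succ, pow_mul, pow_two, h1, one_pow, one_mul] at h3
    apply Units.ext
    rw [hz, h3, one_smul, Units.val_one]
  · intro H x hx hz hnz
    obtain ⟨z, hz⟩ := hz
    have h1 : z * z = 1 := by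
      have hk : ∀ k : ℕ, ∀ v, Q (((x ^ k : GL ι F) : Matrix ι ι F).mulVec v) = Q v := by
        intro k
        induction k with
        | zero => intro v; rw [pow_zero, Units.val_one, Matrix.one_mulVec]
        | succ k ih => intro v; rw [pow_succ, Units.val_mul, ← Matrix.mulVec_mulVec, ih, hiso hx]
      exact hsc (hk r) hz
    have hz0 : z ≠ 0 := by rintro rfl; rw [mul_zero] at h1; exact zero_ne_one h1
    let y : GL ι F := ⟨z • (x : Matrix ι ι F), z • ((x⁻¹ : GL ι F) : Matrix ι ι F), by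
      rw [Matrix.smul_mul, Matrix.mul_smul, smul_smul, h1, one_smul, ← Units.val_mul, mul_inv_cancel, Units.val_one], by
      rw [Matrix.smul_mul, Matrix.mul_smul, smul_smul, h1, one_smul, ← Units.val_mul, inv_mul_cancel, Units.val_one]⟩
    have hy : (y : Matrix ι ι F) = z • (x : Matrix ι ι F) := rfl
    have hyr : y ^ r = 1 := by
      apply Units.ext
      rw [Units.val_pow_eq_pow_val, hy, smul_pow, ← Units.val_pow_eq_pow_val, hz, smul_smul, Units.val_one]
      obtain ⟨k, hk⟩ := hodd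
      rw [hk, pow_succ, pow_mul, pow_two, h1, one_pow, one_mul, h1, one_smul]
    have hyiso : ∀ v, Q ((y : Matrix ι ι F).mulVec v) = Q v := by
      intro v
      rw [hy, Matrix.smul_mulVec, QuadraticMap.map_smul, h1, one_smul, hiso hx]
    obtain ⟨W, W1, W2⟩ := H y (OrthUni3.mem_omega_of_odd Q (nd_iff.1 hQ) hcard ((H17.OrthDet.mem_isometryGroup_iff _ _).mpr hyiso) hodd hyr) hyr (by
      intro h
      apply hnz z
      have h2 : z • (x : Matrix ι ι F) = 1 := by rw [← hy, h, Units.val_one]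
      have h3 := congrArg (fun M => z • M) h2
      simp only [smul_smul] at h3
      rw [h1, one_smul] at h3
      exact h3)
    refine ⟨W, W1, ?_⟩
    rw [inv_map] at W2 ⊢
    intro v hv
    have h4 := W2 v hv
    rw [hy, _root_.map_smul, LinearMap.smul_apply] at h4
    have h5 := W.smul_mem z h4
    rwa [smul_smul, h1, one_smul] at h5

/-- **divisibility consequence** -/
theorem core_dvd {r : ℕ} (hr : r.Prime) (hr2 : r ≠ 2) (hrq : ¬ r ∣ Fintype.card F) {Q : QuadraticForm F (ι → F)} (hQ : ND Q)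
    (hcard : Fintype.card F ≠ 2 ∨ Fintype.card ι ≠ 4) (hι : 0 < Fintype.card ι) (R : Fm F) (hne : (Cl Q R).Nonempty)
    (hdvd : r ∣ Nat.card (Cl Q R))
    (H : ∀ x : GL ι F, x ∈ Cfsg.Geo.omegaGL (⇑Q) → x ^ r = 1 → x ≠ 1 → ∃ W ∈ Cl Q R, W.map (Matrix.toLin' (x : Matrix ι ι F)) ≤ W) :
    cc (oi F r) ≤ finrank F R.V := by
  by_contra hlt
  push Not at hlt
  have hcc := cc_pos (F := F) hr hrq
  have hdim : finrank F (ι → F) = Fintype.card ι := finrank_fintype_fun_eq_card F
  obtain ⟨c, hc⟩ : ∃ c, cc (oi F r) = c := ⟨_, rfl⟩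
  obtain ⟨n, hn⟩ : ∃ n, Fintype.card ι = n := ⟨_, rfl⟩
  rw [hc] at hcc hlt
  rw [hn] at hdim hι
  have hnk := Nat.div_add_mod n c
  have hkc := Nat.mod_lt n hcc
  -- choose the number of blocks
  have key : ∃ f : (ι → F) →ₗ[F] (ι → F), (∀ v, Q (f v) = Q v) ∧ f ^ r = 1 ∧
      (finrank F (fx f) < c ∨ (finrank F (fx f) = c ∧ ¬ (PT (Q.restrict (fx f)) ↔ Odd (oi F r)))) := by
    by_cases hal : c * (n / c) = n → (PT Q ↔ (Odd (oi F r) ∨ Even (n / c)))
    · obtain ⟨f, f1, f2, f3⟩ := realize hr hr2 hrq hQ (n / c) (by rw [hdim, hc]; omega) (by rw [hdim, hc]; exact hal)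
      exact ⟨f, f1, f2, Or.inl (by rw [hdim, hc] at f3; omega)⟩
    · rw [Classical.not_imp] at hal
      obtain ⟨h1, h2⟩ := hal
      have hpos : 1 ≤ n / c := by
        by_contra h
        have h0 : n / c = 0 := Nat.lt_one_iff.1 (not_le.1 h)
        rw [h0, mul_zero] at h1
        omega
      have hsub : c * (n / c - 1) + c = n := by
        obtain ⟨k, hk⟩ : ∃ k, n / c = k + 1 := ⟨n / c - 1, (Nat.sub_add_cancel hpos).symm⟩
        rw [hk, Nat.add_sub_cancel]
        rw [hk] at h1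
        rw [← h1]; ring
      obtain ⟨f, f1, f2, f3⟩ := realize hr hr2 hrq hQ (n / c - 1) (by rw [hdim, hc]; omega) (by rw [hdim, hc]; intro h; omega)
      rw [hdim, hc] at f3
      have hfd : finrank F (fx f) = c := by omega
      refine ⟨f, f1, f2, Or.inr ⟨hfd, ?_⟩⟩
      have hCnd := fx_nd hQ (rF hr hrq) f f1 f2
      obtain ⟨ec, hec⟩ := even_cc (oi F r)
      rw [hc] at hec
      obtain ⟨s', s1, s2, -⟩ := blocks hQ hr hr2 hrq f f1 f2
      have : s' = n / c - 1 := by
        have : c * s' = c * (n / c - 1) := by rw [hdim, hc] at s1; omega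
        exact Nat.eq_of_mul_eq_mul_left hcc this
      subst this
      have h3 := pt_split_iff hQ hCnd (m := ec) (m' := ec * (n / c)) (by rw [hfd, hec]; ring) (by
        have h5 : c * (n / c) = 2 * (ec * (n / c)) := by
          generalize n / c = y
          rw [hec]; ring
        rw [hdim]; omega)
      rw [s2] at h3
      obtain ⟨k, hk⟩ : ∃ k, n / c = k + 1 := ⟨n / c - 1, (Nat.sub_add_cancel hpos).symm⟩
      rw [hk, Nat.add_sub_cancel] at h3
      rw [hk, Nat.even_add_one] at h2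
      exact l6 h2 h3
  obtain ⟨f, f1, f2, f3⟩ := key
  rw [← hc] at f3 hlt
  have hno := not_dvd hr hr2 hrq hQ R hlt f f1 f2 f3 hdvd
  by_cases hf1 : f = 1
  · obtain ⟨W, hW⟩ := hne
    exact hno ⟨W, hW, fun v hv => by rw [hf1]; exact hv⟩
  · obtain ⟨x, x1, x2⟩ := exists_gl' f hr.pos f2
    have hx : x ∈ Cfsg.isometryGroup F (⇑Q) := (H17.OrthDet.mem_isometryGroup_iff _ _).mpr (fun v => by
      rw [← Matrix.toLin'_apply, x1, f1])
    obtain ⟨W, W1, W2⟩ := H x (OrthUni3.mem_omega_of_odd Q (nd_iff.1 hQ) hcard hx (hr.odd_of_ne_two hr2) x2) x2 (by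
      rintro rfl
      apply hf1
      rw [← x1, Units.val_one, Matrix.toLin'_one]; rfl)
    exact hno ⟨W, W1, fun v hv => by rw [← x1]; exact inv_map.1 W2 v hv⟩

end mat

end H99.OrthSS
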