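import Mathlib
import Cfsg.Agent.Lib.H99.Ti2

set_option autoImplicit false
set_option linter.unusedSimpArgs false
set_option linter.unusedSectionVars false
set_option linter.unusedVariables false

/-! Existence of anisotropic isometries. -/

namespace H99.Ti

open Module Submodule Polynomial H99.Iso

section an

variable {F : Type*} [Field F] [Fintype F] {V : Type*} [AddCommGroup V] [Module F V] [FiniteDimensional F V] {B : LinearMap.BilinForm F V}
variable {r : ℕ}

/-- the homogeneous components are nondegenerate when the order is even -/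
theorem comp_nd (hr : r.Prime) (hr2 : r ≠ 2) (hrq : ¬ r ∣ Fintype.card F) (hB : B.IsRefl) {T : V →ₗ[F] V} (hT : T ^ r = 1)
    (hiso : ∀ u v, B (T u) (T v) = B u v) {X : Submodule F V} (hX : Inv T X) (hXn : ND B X) (hfix : ∀ v ∈ X, T v = v → v = 0)
    (he : Even (orderOf ((Fintype.card F : ℕ) : ZMod r))) {g : F[X]} (hg : Irreducible g) (hgd : g ∣ cyclotomic r F) :
    Inv T (X ⊓ LinearMap.ker (aeval T g)) ∧ ND B (X ⊓ LinearMap.ker (aeval T g)) ∧
      ∀ u v, aeval T g v = 0 → B (aeval T g u) v = 0 := by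
  have hdeg := natDegree_irr hr hrq hg hgd
  set i := orderOf ((Fintype.card F : ℕ) : ZMod r) with hi
  have hi0 : 0 < i := by rw [← hdeg]; exact hg.natDegree_pos
  set N := Fintype.card F ^ (i / 2) with hN
  have hN0 : 0 < N := Nat.pow_pos Fintype.card_pos
  have hTN : T ^ (N + 1) = 1 := by
    obtain ⟨t, ht⟩ := pow_half hr hr2 hi hi0 he
    rw [hN, ht, pow_mul, hT, one_pow]
  have hker : ∀ u v, aeval T g v = 0 → B (aeval T g u) v = 0 := by
    intro u v hv
    rw [adj_pow hTN hiso, hN, aeval_frob, ← hN]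
    obtain ⟨N', hN'⟩ : ∃ N', N = N' + 1 := ⟨N - 1, by omega⟩
    rw [hN', pow_succ, Module.End.mul_apply, hv, map_zero, map_zero]
  refine ⟨?_, ?_, hker⟩
  · intro v hv
    refine ⟨hX v hv.1, ?_⟩
    have h2 : aeval T g (aeval T (Polynomial.X : F[X]) v) = aeval T (Polynomial.X : F[X]) (aeval T g v) := by
      rw [← Module.End.mul_apply, ← Module.End.mul_apply, ← _root_.map_mul, ← _root_.map_mul, mul_comm]
    rw [aeval_X] at h2
    rw [SetLike.mem_coe, LinearMap.mem_ker, h2, LinearMap.mem_ker.1 hv.2, map_zero]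
  · obtain ⟨g', hg'⟩ := hgd
    have hcop : IsCoprime g g' := by
      rw [hg.coprime_iff_not_dvd]
      rintro ⟨c, rfl⟩
      exact hg.not_isUnit ((squarefree_cyclotomic hr hrq) g ⟨c, by rw [hg']; ring⟩)
    obtain ⟨a, b, hab⟩ := hcop
    rintro v ⟨hv, hgv⟩ h
    have hgv' : aeval T g v = 0 := hgv
    apply hXn v hv
    intro y hy
    have hy1 : y = aeval T (b * g') y + aeval T g (aeval T a y) := by
      rw [← Module.End.mul_apply, ← _root_.map_mul, ← LinearMap.add_apply, ← _root_.map_add, show b * g' + g * a = a * g + b * g' by ring, hab,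
        _root_.map_one, Module.End.one_apply]
    rw [hy1, _root_.map_add, hB _ _ (hker (aeval T a y) v hgv'), add_zero]
    apply h
    refine ⟨aeval_mem T X hX _ y hy, ?_⟩
    rw [SetLike.mem_coe, LinearMap.mem_ker, ← Module.End.mul_apply, ← _root_.map_mul, show g * (b * g') = b * (g * g') by ring, ← hg',
      _root_.map_mul, Module.End.mul_apply, cyclotomic_kills hr hT hX hfix y hy, map_zero]

/-- **anisotropic invariant subspaces** -/
theorem exists_aniso (hr : r.Prime) (hr2 : r ≠ 2) (hrq : ¬ r ∣ Fintype.card F) (hB : B.IsRefl) {T : V →ₗ[F] V} (hT : T ^ r = 1)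
    (hiso : ∀ u v, B (T u) (T v) = B u v) {X : Submodule F V} (hX : Inv T X) (hXn : ND B X) (hfix : ∀ v ∈ X, T v = v → v = 0)
    (he : Even (orderOf ((Fintype.card F : ℕ) : ZMod r)))
    (hall : ∀ g : F[X], Irreducible g → g ∣ cyclotomic r F → ∃ v ∈ X, v ≠ 0 ∧ aeval T g v = 0) :
    ∀ o : ℕ, orderOf ((Fintype.card F : ℕ) : ZMod r) * o ≤ r - 1 → ∃ P : F[X], P ∣ cyclotomic r F ∧
      P.natDegree = orderOf ((Fintype.card F : ℕ) : ZMod r) * o ∧ ∃ Y ≤ X, Inv T Y ∧ ND B Y ∧ (∀ y ∈ Y, aeval T P y = 0) ∧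
      finrank F Y = orderOf ((Fintype.card F : ℕ) : ZMod r) * o ∧ ∀ Z ≤ Y, Inv T Z → TI B Z → Z = ⊥ := by
  have hsq := squarefree_cyclotomic (F := F) hr hrq
  have hΦ0 : cyclotomic r F ≠ 0 := cyclotomic_ne_zero r F
  set i := orderOf ((Fintype.card F : ℕ) : ZMod r) with hi
  intro o
  induction o with
  | zero =>
    intro _
    refine ⟨1, one_dvd _, by rw [natDegree_one, mul_zero], ⊥, bot_le, inv_bot T, nd_bot, ?_, by rw [finrank_bot, mul_zero], ?_⟩
    · intro y hy; rw [(Submodule.mem_bot F).1 hy, map_zero]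
    · intro Z hZ _ _; exact le_bot_iff.1 hZ
  | succ o ih =>
    intro ho
    have ho' : i * o ≤ r - 1 := le_trans (Nat.mul_le_mul_left i (Nat.le_succ o)) ho
    obtain ⟨P, ⟨P', hP'⟩, p2, Y, y1, y2, y3, y4, y5, y6⟩ := ih ho'
    have hP0 : P ≠ 0 := by rintro rfl; rw [zero_mul] at hP'; exact hΦ0 hP'
    have hP'0 : P' ≠ 0 := by rintro rfl; rw [mul_zero] at hP'; exact hΦ0 hP'
    have hi0 : 0 < i := by
      have hr' : Fact r.Prime := ⟨hr⟩
      have h1 : ((Fintype.card F : ℕ) : ZMod r) ≠ 0 := by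
        intro h; exact hrq ((ZMod.natCast_eq_zero_iff _ _).1 h)
      have h2 := orderOf_pos (Units.mk0 _ h1)
      rwa [← orderOf_units, Units.val_mk0] at h2
    have hdeg : P'.natDegree = r - 1 - i * o := by
      have h1 := natDegree_cyc (F := F) hr
      rw [hP', natDegree_mul hP0 hP'0, p2] at h1
      omega
    have hnu : ¬ IsUnit P' := by
      intro hu
      have := natDegree_eq_zero_of_isUnit hu
      rw [mul_add, mul_one] at ho
      omega
    obtain ⟨g, hg, g'', hg''⟩ := WfDvdMonoid.exists_irreducible_factor hnu hP'0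
    have hgd : g ∣ cyclotomic r F := ⟨P * g'', by rw [hP', hg'']; ring⟩
    have hcop : IsCoprime g P := by
      rw [hg.coprime_iff_not_dvd]
      rintro ⟨c, rfl⟩
      exact hg.not_isUnit (hsq g ⟨c * g'', by rw [hP', hg'']; ring⟩)
    have hdg := natDegree_irr hr hrq hg hgd
    obtain ⟨x1, x2, x3⟩ := comp_nd hr hr2 hrq hB hT hiso hX hXn hfix (by rw [← hi]; exact he) hg hgd
    have hne : (X ⊓ LinearMap.ker (aeval T g) : Submodule F V) ≠ ⊥ := by
      obtain ⟨v, hv, hv0, hgv⟩ := hall g hg hgd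
      intro h
      have : v ∈ (X ⊓ LinearMap.ker (aeval T g) : Submodule F V) := ⟨hv, hgv⟩
      rw [h] at this
      exact hv0 ((Submodule.mem_bot F).1 this)
    obtain ⟨Z, z1, z2, z3, z4, z5⟩ := exists_block_even hr hr2 hrq hB hT hiso x1 (fun v hv => hfix v hv.1) x2 hne (by rw [← hi]; exact he)
    rw [← hi] at z4
    obtain ⟨a, b, hab⟩ := hcop
    have hsplit : ∀ z : V, z = aeval T a (aeval T g z) + aeval T b (aeval T P z) := by
      intro z
      rw [← Module.End.mul_apply, ← Module.End.mul_apply, ← _root_.map_mul, ← _root_.map_mul, ← LinearMap.add_apply, ← _root_.map_add, hab,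
        _root_.map_one, Module.End.one_apply]
    have hort : ∀ y ∈ Y, ∀ z ∈ Z, B y z = 0 := by
      intro y hy z hz
      have h1 : y = aeval T g (aeval T a y) := by
        conv_lhs => rw [hsplit y, y4 y hy, map_zero, add_zero, ← Module.End.mul_apply, ← _root_.map_mul, mul_comm, _root_.map_mul, Module.End.mul_apply]
      rw [h1]
      exact x3 _ _ (z1 hz).2
    obtain ⟨s1, s2⟩ := nd_sup hB y3 z3 hort
    have hcomm : ∀ (p q : F[X]) (v : V), aeval T p (aeval T q v) = aeval T q (aeval T p v) := by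
      intro p q v
      rw [← Module.End.mul_apply, ← Module.End.mul_apply, ← _root_.map_mul, ← _root_.map_mul, mul_comm]
    refine ⟨P * g, ⟨g'', by rw [hP', hg'']; ring⟩, by rw [natDegree_mul hP0 hg.ne_zero, p2, hdg, mul_add, mul_one], Y ⊔ Z,
      sup_le y1 (z1.trans inf_le_left), inv_sup y2 z2, s1, ?_, by rw [s2, y5, z4, mul_add, mul_one], ?_⟩
    · intro v hv
      obtain ⟨y, hy, z, hz, rfl⟩ := Submodule.mem_sup.1 hv
      have hz' : aeval T g z = 0 := (z1 hz).2
      rw [_root_.map_mul, Module.End.mul_apply, _root_.map_add, hz', add_zero, hcomm, y4 y hy, map_zero]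
    · intro W hW hWi hWt
      have hWZ : W ⊓ Z = ⊥ := by
        by_contra hne
        have h1 := z5 (W ⊓ Z) inf_le_right (fun v hv => ⟨hWi v hv.1, z2 v hv.2⟩) hne
        have h2 : Z ≤ W := fun v hv => by rw [← h1] at hv; exact hv.1
        have h3 : Z = ⊥ := by
          rw [eq_bot_iff]
          intro v hv
          exact z3 v hv fun y hy => hWt v (h2 hv) y (h2 hy)
        rw [h3, finrank_bot] at z4
        omega
      have hWY : W ⊓ Y = ⊥ := y6 (W ⊓ Y) inf_le_right (fun v hv => ⟨hWi v hv.1, y2 v hv.2⟩) (fun u hu v hv => hWt u hu.1 v hv.1)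
      rw [eq_bot_iff]
      intro w hw
      obtain ⟨y, hy, z, hz, rfl⟩ := Submodule.mem_sup.1 (hW hw)
      have hz' : aeval T g z = 0 := (z1 hz).2
      have h1 : aeval T g (y + z) = 0 := by
        have : aeval T g (y + z) ∈ W ⊓ Y := by
          refine ⟨aeval_mem T W hWi g _ hw, ?_⟩
          rw [_root_.map_add, hz', add_zero]
          exact aeval_mem T Y y2 g y hy
        rw [hWY] at this
        exact (Submodule.mem_bot F).1 this
      have h2 : aeval T P (y + z) = 0 := by
        have : aeval T P (y + z) ∈ W ⊓ Z := by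
          refine ⟨aeval_mem T W hWi P _ hw, ?_⟩
          rw [_root_.map_add, y4 y hy, zero_add]
          exact aeval_mem T Z z2 P z hz
        rw [hWZ] at this
        exact (Submodule.mem_bot F).1 this
      rw [Submodule.mem_bot, hsplit (y + z), h1, h2, map_zero, map_zero, add_zero]

end an

section prod

variable {F : Type*} [Field F] [Fintype F] {V₁ V₂ : Type*} [AddCommGroup V₁] [Module F V₁] [FiniteDimensional F V₁]
  [AddCommGroup V₂] [Module F V₂] [FiniteDimensional F V₂]

theorem prod_bound {B : LinearMap.BilinForm F (V₁ × V₂)} {B₁ : LinearMap.BilinForm F V₁} {B₂ : LinearMap.BilinForm F V₂}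
    (hBs : ∀ u v, B u v = B₁ u.1 v.1 + B₂ u.2 v.2) (hB : B.IsRefl) (hN : ND B ⊤) {k : ℕ} (hk : 0 < k) {T₁ : V₁ →ₗ[F] V₁} {T₂ : V₂ →ₗ[F] V₂}
    (hT : (T₁.prodMap T₂) ^ k = 1) (hiso : ∀ u v, B ((T₁.prodMap T₂) u) ((T₁.prodMap T₂) v) = B u v)
    {L : Submodule F V₁} (hLi : Inv T₁ L) (hLt : TI B₁ L) (hLL : ∀ v, (∀ l ∈ L, B₁ l v = 0) → v ∈ L)
    (han : ∀ Z : Submodule F V₂, Inv T₂ Z → TI B₂ Z → Z = ⊥) {W : Submodule F (V₁ × V₂)} (hWi : Inv (T₁.prodMap T₂) W) (hWt : TI B W) :
    finrank F W ≤ finrank F L := by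
  have hL' : finrank F (L.map (LinearMap.inl F V₁ V₂)) = finrank F L :=
    (Submodule.equivMapOfInjective _ LinearMap.inl_injective L).finrank_eq.symm
  rw [← hL']
  apply le_of_max hB hk hT hiso hN (L := L.map (LinearMap.inl F V₁ V₂)) _ _ _ hWi hWt
  · rintro _ ⟨l, hl, rfl⟩
    exact ⟨T₁ l, hLi l hl, by show (T₁ l, (0 : V₂)) = (T₁ l, T₂ 0); rw [map_zero]⟩
  · rintro _ ⟨l, hl, rfl⟩ _ ⟨l', hl', rfl⟩
    rw [hBs]
    show B₁ l l' + B₂ 0 0 = 0
    rw [hLt l hl l' hl', map_zero, add_zero]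
  · intro Z hZi hZt hLZ
    have hmem : ∀ z ∈ Z, z.1 ∈ L := by
      intro z hz
      apply hLL
      intro l hl
      have h1 := hZt _ (hLZ ⟨l, hl, rfl⟩) z hz
      rw [hBs] at h1
      have h2 : B₂ (LinearMap.inl F V₁ V₂ l).2 z.2 = 0 := by
        show B₂ 0 z.2 = 0
        rw [map_zero, LinearMap.zero_apply]
      rw [h2, add_zero] at h1
      exact h1
    have hZ2 : Z.comap (LinearMap.inr F V₁ V₂) = ⊥ := by
      apply han
      · intro v hv
        have h1 := hZi _ hv
        show ((0 : V₁), T₂ v) ∈ Z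
        have h2 : (T₁.prodMap T₂) (LinearMap.inr F V₁ V₂ v) = ((0 : V₁), T₂ v) := by
          show (T₁ 0, T₂ v) = _
          rw [map_zero]
        rw [h2] at h1; exact h1
      · intro u hu v hv
        have h1 := hZt _ hu _ hv
        rw [hBs] at h1
        have h2 : B₁ (LinearMap.inr F V₁ V₂ u).1 (LinearMap.inr F V₁ V₂ v).1 = 0 := by
          show B₁ 0 0 = 0
          rw [map_zero]
        rw [h2, zero_add] at h1
        exact h1
    intro z hz
    have h1 := hmem z hz
    have h2 : ((0 : V₁), z.2) ∈ Z := by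
      have h3 := Z.sub_mem hz (hLZ ⟨z.1, h1, rfl⟩)
      have h4 : z - (LinearMap.inl F V₁ V₂) z.1 = ((0 : V₁), z.2) := by
        ext <;> simp
      rwa [h4] at h3
    have h5 : z.2 ∈ Z.comap (LinearMap.inr F V₁ V₂) := h2
    rw [hZ2] at h5
    have h6 : z.2 = 0 := (Submodule.mem_bot F).1 h5
    exact ⟨z.1, h1, by
      show (z.1, (0 : V₂)) = z
      rw [← h6]⟩

end prod

section hyp

variable {F : Type*} [Field F] {M : Type*} [AddCommGroup M] [Module F M] [FiniteDimensional F M]

/-- the hyperbolic isometry attached to a linear map of finite order -/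
noncomputable def hT (r : ℕ) (f : M →ₗ[F] M) : (Module.Dual F M × M) →ₗ[F] (Module.Dual F M × M) := ((f ^ (r - 1)).dualMap).prodMap f

theorem hT_apply (r : ℕ) (f : M →ₗ[F] M) (x : Module.Dual F M × M) : hT r f x = (x.1 ∘ₗ (f ^ (r - 1)), f x.2) := rfl

theorem hT_fst {r : ℕ} (hr : 0 < r) {f : M →ₗ[F] M} (hf : f ^ r = 1) (x : Module.Dual F M × M) (m : M) : (hT r f x).1 (f m) = x.1 m := by
  show x.1 ((f ^ (r - 1)) (f m)) = _
  rw [← Module.End.mul_apply, ← pow_succ, Nat.sub_add_cancel hr, hf]; rfl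

theorem hT_pow {r : ℕ} (hr : 0 < r) {f : M →ₗ[F] M} (hf : f ^ r = 1) (k : ℕ) (x : Module.Dual F M × M) :
    (∀ m, ((hT r f ^ k) x).1 ((f ^ k) m) = x.1 m) ∧ ((hT r f ^ k) x).2 = (f ^ k) x.2 := by
  induction k with
  | zero => exact ⟨fun m => rfl, rfl⟩
  | succ k ih =>
    constructor
    · intro m
      rw [pow_succ', pow_succ', Module.End.mul_apply, Module.End.mul_apply, hT_fst hr hf, ih.1]
    · rw [pow_succ', pow_succ', Module.End.mul_apply, Module.End.mul_apply, ← ih.2]; rfl

theorem hT_one {r : ℕ} (hr : 0 < r) {f : M →ₗ[F] M} (hf : f ^ r = 1) : hT r f ^ r = 1 := by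
  apply LinearMap.ext
  intro x
  obtain ⟨h1, h2⟩ := hT_pow hr hf r x
  rw [hf] at h1 h2
  exact Prod.ext (LinearMap.ext h1) h2

theorem hT_fpf {r : ℕ} (hr : 0 < r) {f : M →ₗ[F] M} (hf : f ^ r = 1) (hfix : ∀ m, f m = m → m = 0) :
    ∀ x, hT r f x = x → x = 0 := by
  intro x hx
  have hinj : Function.Injective (f - 1 : M →ₗ[F] M) := by
    rw [← LinearMap.ker_eq_bot, LinearMap.ker_eq_bot']
    intro m hm
    exact hfix m (sub_eq_zero.1 hm)
  have hsurj := LinearMap.injective_iff_surjective.1 hinj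
  have h1 : x.1 = 0 := by
    apply LinearMap.ext
    intro m
    obtain ⟨m', hm'⟩ := hsurj m
    have h2 := hT_fst hr hf x m'
    rw [hx] at h2
    rw [← hm']
    show x.1 (f m' - m') = 0
    rw [_root_.map_sub, h2, sub_self]
  have h2 : x.2 = 0 := hfix _ (by
    have := congrArg Prod.snd hx
    exact this)
  exact Prod.ext h1 h2

theorem hT_aeval {r : ℕ} (f : M →ₗ[F] M) (g : F[X]) (m : M) : aeval (hT r f) g ((0 : Module.Dual F M), m) = (0, aeval f g m) := by
  induction g using Polynomial.induction_on' with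
  | add p q hp hq => rw [_root_.map_add, LinearMap.add_apply, hp, hq, _root_.map_add, LinearMap.add_apply, Prod.mk_add_mk, add_zero]
  | monomial n a =>
    rw [aeval_monomial, aeval_monomial, Module.End.mul_apply, Module.End.mul_apply, Module.algebraMap_end_apply,
        Module.algebraMap_end_apply]
    have h1 : ∀ n : ℕ, (hT r f ^ n) ((0 : Module.Dual F M), m) = (0, (f ^ n) m) := by
      intro n
      induction n with
      | zero => rfl
      | succ n ih =>
        rw [pow_succ', Module.End.mul_apply, ih, hT_apply, pow_succ', Module.End.mul_apply]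
        refine Prod.ext ?_ rfl
        exact LinearMap.zero_comp _
    rw [h1, Prod.smul_mk, smul_zero]

/-- the hyperbolic `ε`-form -/
noncomputable def hB (ε : F) : LinearMap.BilinForm F (Module.Dual F M × M) :=
  LinearMap.mk₂ F (fun x y => x.1 y.2 + ε * y.1 x.2)
    (fun x x' y => by simp only [Prod.fst_add, Prod.snd_add, LinearMap.add_apply, _root_.map_add]; ring)
    (fun c x y => by simp only [Prod.smul_fst, Prod.smul_snd, LinearMap.smul_apply, _root_.map_smul, smul_eq_mul]; ring)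
    (fun x y y' => by simp only [Prod.fst_add, Prod.snd_add, LinearMap.add_apply, _root_.map_add]; ring)
    (fun c x y => by simp only [Prod.smul_fst, Prod.smul_snd, LinearMap.smul_apply, _root_.map_smul, smul_eq_mul]; ring)

theorem hB_apply (ε : F) (x y : Module.Dual F M × M) : hB ε x y = x.1 y.2 + ε * y.1 x.2 := rfl

theorem hB_symm {ε : F} (hε : ε * ε = 1) (x y : Module.Dual F M × M) : hB ε x y = ε * hB ε y x := by
  rw [hB_apply, hB_apply, mul_add, ← mul_assoc, hε]; ring

theorem hB_iso {ε : F} {r : ℕ} (hr : 0 < r) {f : M →ₗ[F] M} (hf : f ^ r = 1) (x y : Module.Dual F M × M) :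
    hB ε (hT r f x) (hT r f y) = hB ε x y := by
  rw [hB_apply, hB_apply]
  have h1 := hT_fst hr hf x y.2
  have h2 := hT_fst hr hf y x.2
  have e1 : (hT r f y).2 = f y.2 := rfl
  have e2 : (hT r f x).2 = f x.2 := rfl
  rw [e1, e2, h1, h2]

theorem hB_nd {ε : F} (hε : ε * ε = 1) : ND (hB (M := M) ε) ⊤ := by
  intro x _ h
  have h1 : x.1 = 0 := by
    apply LinearMap.ext
    intro m
    have := h (0, m) trivial
    rw [hB_apply] at this
    simpa using this
  have h2 : x.2 = 0 := by
    apply (Module.forall_dual_apply_eq_zero_iff F x.2).1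
    intro φ
    have := h (φ, 0) trivial
    rw [hB_apply] at this
    have h3 : ε * φ x.2 = 0 := by simpa using this
    have hε0 : ε ≠ 0 := by rintro rfl; rw [zero_mul] at hε; exact zero_ne_one hε
    exact (mul_eq_zero.1 h3).resolve_left hε0
  exact Prod.ext h1 h2

/-- the invariant lagrangian -/
def Lg (F M : Type*) [Field F] [AddCommGroup M] [Module F M] : Submodule F (Module.Dual F M × M) := LinearMap.range (LinearMap.inr F (Module.Dual F M) M)

theorem mem_Lg {x : Module.Dual F M × M} : x ∈ Lg F M ↔ x.1 = 0 := by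
  constructor
  · rintro ⟨m, rfl⟩; rfl
  · intro h; exact ⟨x.2, by show ((0 : Module.Dual F M), x.2) = x; rw [← h]⟩

theorem Lg_dim : finrank F (Lg F M) = finrank F M := LinearMap.finrank_range_of_inj LinearMap.inr_injective

theorem Lg_inv (r : ℕ) (f : M →ₗ[F] M) : ∀ v ∈ Lg F M, hT r f v ∈ Lg F M := by
  intro v hv
  rw [mem_Lg] at *
  rw [hT_apply, hv]
  exact LinearMap.zero_comp _

theorem Lg_ti (ε : F) : ∀ u ∈ Lg F M, ∀ v ∈ Lg F M, hB ε u v = 0 := by
  intro u hu v hv
  rw [mem_Lg] at *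
  rw [hB_apply, hu, hv]; simp

theorem Lg_max {ε : F} (hε : ε * ε = 1) (v : Module.Dual F M × M) (h : ∀ l ∈ Lg F M, hB ε l v = 0) : v ∈ Lg F M := by
  rw [mem_Lg]
  apply LinearMap.ext
  intro m
  have := h (0, m) (mem_Lg.2 rfl)
  rw [hB_apply] at this
  have h3 : ε * v.1 m = 0 := by simpa using this
  have hε0 : ε ≠ 0 := by rintro rfl; rw [zero_mul] at hε; exact zero_ne_one hε
  exact (mul_eq_zero.1 h3).resolve_left hε0

end hyp

section mods

universe u

variable {F : Type u} [Field F] [Fintype F] {r : ℕ}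

/-- modules with fixed-point-free actions -/
theorem exists_mod (hr : r.Prime) (hrq : ¬ r ∣ Fintype.card F) (s : ℕ) :
    ∃ (M : Type u) (_ : AddCommGroup M) (_ : Module F M) (_ : FiniteDimensional F M) (f : M →ₗ[F] M), f ^ r = 1 ∧ (∀ m, f m = m → m = 0) ∧
      finrank F M = orderOf ((Fintype.card F : ℕ) : ZMod r) * s := by
  have hΦ0 : cyclotomic r F ≠ 0 := cyclotomic_ne_zero r F
  have hnu : ¬ IsUnit (cyclotomic r F) := by
    intro hu
    have h1 := natDegree_eq_zero_of_isUnit hu
    rw [natDegree_cyc hr] at h1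
    have := hr.two_le
    omega
  obtain ⟨g, hg, hgd⟩ := WfDvdMonoid.exists_irreducible_factor hnu hΦ0
  have : Fact (Irreducible g) := ⟨hg⟩
  have hfd : FiniteDimensional F (AdjoinRoot g) := (AdjoinRoot.powerBasis hg.ne_zero).finite
  have hfr : finrank F (AdjoinRoot g) = orderOf ((Fintype.card F : ℕ) : ZMod r) := by
    rw [← natDegree_irr hr hrq hg hgd, (AdjoinRoot.powerBasis hg.ne_zero).finrank, AdjoinRoot.powerBasis_dim]
  have hroot : aeval (AdjoinRoot.root g) (cyclotomic r F) = 0 := by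
    obtain ⟨c, hc⟩ := hgd
    rw [hc, _root_.map_mul, AdjoinRoot.aeval_eq, AdjoinRoot.mk_self, zero_mul]
  have hrt : (AdjoinRoot.root g) ^ r = 1 := by
    have h1 : (Polynomial.X ^ r - 1 : F[X]) = cyclotomic r F * (Polynomial.X - 1) := by
      have : Fact r.Prime := ⟨hr⟩
      rw [cyclotomic_prime_mul_X_sub_one]
    have h2 := congrArg (aeval (AdjoinRoot.root g)) h1
    rw [_root_.map_mul, hroot, zero_mul, _root_.map_sub, _root_.map_pow, aeval_X, _root_.map_one, sub_eq_zero] at h2
    exact h2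
  have hne1 : AdjoinRoot.root g ≠ 1 := by
    intro h
    rw [h] at hroot
    have h1 : aeval (1 : AdjoinRoot g) (cyclotomic r F) = algebraMap F _ ((cyclotomic r F).eval 1) := by
      rw [← _root_.map_one (algebraMap F (AdjoinRoot g)), aeval_algebraMap_apply]
      rw [coe_aeval_eq_eval]
    have : Fact r.Prime := ⟨hr⟩
    rw [h1, eval_one_cyclotomic_prime] at hroot
    have h2 := (map_eq_zero_iff _ (algebraMap F (AdjoinRoot g)).injective).1 hroot
    exact natCast_ne_zero hr hrq h2
  refine ⟨Fin s → AdjoinRoot g, inferInstance, inferInstance, inferInstance, LinearMap.mulLeft F (fun _ => AdjoinRoot.root g), ?_, ?_, ?_⟩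
  · rw [LinearMap.pow_mulLeft]
    have : (fun _ : Fin s => AdjoinRoot.root g) ^ r = 1 := by
      funext j
      exact hrt
    rw [this, LinearMap.mulLeft_one]; rfl
  · intro m hm
    funext j
    have h1 : AdjoinRoot.root g * m j = m j := congrFun hm j
    have h2 : (AdjoinRoot.root g - 1) * m j = 0 := by rw [sub_mul, h1, one_mul, sub_self]
    exact (mul_eq_zero.1 h2).resolve_left (sub_ne_zero.2 hne1)
  · rw [finrank_pi_fintype, Finset.sum_const, Finset.card_univ, Fintype.card_fin, hfr, smul_eq_mul, mul_comm]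

/-- the regular module -/
theorem exists_reg (hr : r.Prime) :
    ∃ (M : Type u) (_ : AddCommGroup M) (_ : Module F M) (_ : FiniteDimensional F M) (f : M →ₗ[F] M), f ^ r = 1 ∧
      ∀ g : F[X], Irreducible g → g ∣ cyclotomic r F → ∃ m, m ≠ 0 ∧ aeval f g m = 0 := by
  have hmon : (Polynomial.X ^ r - 1 : F[X]).Monic := by
    have := monic_X_pow_sub_C (1 : F) hr.pos.ne'
    rwa [_root_.map_one] at this
  have hdeg : (Polynomial.X ^ r - 1 : F[X]).natDegree = r := by
    have := natDegree_X_pow_sub_C (n := r) (r := (1 : F))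
    rwa [_root_.map_one] at this
  have hfd : FiniteDimensional F (AdjoinRoot (Polynomial.X ^ r - 1 : F[X])) := (AdjoinRoot.powerBasis' hmon).finite
  refine ⟨AdjoinRoot (Polynomial.X ^ r - 1 : F[X]), inferInstance, inferInstance, hfd, LinearMap.mulLeft F (AdjoinRoot.root _), ?_, ?_⟩
  · rw [LinearMap.pow_mulLeft]
    have h1 : (AdjoinRoot.root (Polynomial.X ^ r - 1 : F[X])) ^ r = 1 := by
      have h2 := AdjoinRoot.mk_self (f := (Polynomial.X ^ r - 1 : F[X]))
      rw [_root_.map_sub, _root_.map_pow, _root_.map_one, AdjoinRoot.mk_X, sub_eq_zero] at h2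
      exact h2
    rw [h1, LinearMap.mulLeft_one]; rfl
  · intro g hg hgd
    have hgd' : g ∣ (Polynomial.X ^ r - 1 : F[X]) := by
      have : Fact r.Prime := ⟨hr⟩
      rw [← cyclotomic_prime_mul_X_sub_one]
      exact hgd.mul_right _
    obtain ⟨h, hh⟩ := hgd'
    refine ⟨AdjoinRoot.mk _ h, ?_, ?_⟩
    · intro h0
      rw [AdjoinRoot.mk_eq_zero] at h0
      have hh0 : h ≠ 0 := by
        rintro rfl
        rw [mul_zero] at hh
        exact hmon.ne_zero hh
      have h1 := natDegree_le_of_dvd h0 hh0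
      have h2 := natDegree_mul hg.ne_zero hh0
      rw [← hh] at h2
      have := hg.natDegree_pos
      omega
    · have h1 : ∀ (p : F[X]) (x : AdjoinRoot (Polynomial.X ^ r - 1 : F[X])),
          aeval (LinearMap.mulLeft F (AdjoinRoot.root (Polynomial.X ^ r - 1 : F[X]))) p x = AdjoinRoot.mk _ p * x := by
        intro p x
        have h2 : aeval (LinearMap.mulLeft F (AdjoinRoot.root (Polynomial.X ^ r - 1 : F[X]))) p =
            LinearMap.mulLeft F (aeval (AdjoinRoot.root (Polynomial.X ^ r - 1 : F[X])) p) := by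
          exact (Polynomial.aeval_algHom_apply (Algebra.lmul F (AdjoinRoot (Polynomial.X ^ r - 1 : F[X]))) (AdjoinRoot.root _) p)
        rw [h2, AdjoinRoot.aeval_eq]; rfl
      rw [h1, ← _root_.map_mul, ← hh, AdjoinRoot.mk_self]

end mods

end H99.Ti
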