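import Mathlib
import Cfsg.Agent.Lib.H99.Ti3
import Cfsg.Agent.Lib.H99.OrthSS5

set_option autoImplicit false
set_option linter.unusedSimpArgs false
set_option linter.unusedSectionVars false
set_option linter.unusedVariables false

/-! Totally singular invariant subspaces of isometries of odd prime order of quadratic forms. -/

namespace H99.OrthTi

open Module QuadraticMap H48.QuadSplit H48.QuadStd H96.OeType H99.OrthSS

universe u

variable {F : Type u} [Field F] [Fintype F] {r : ℕ}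

/-- bound on the totally isotropic invariant subspaces without fixed vectors -/
def WB {V : Type*} [AddCommGroup V] [Module F V] (Q : QuadraticForm F V) (f : V →ₗ[F] V) (w : ℕ) : Prop :=
  ∀ W : Submodule F V, (∀ v ∈ W, f v ∈ W) → (∀ u ∈ W, ∀ v ∈ W, polar Q u v = 0) → (∀ v ∈ W, f v = v → v = 0) → finrank F W ≤ w

theorem polar_dualProd {M : Type*} [AddCommGroup M] [Module F M] [FiniteDimensional F M] (x y : Module.Dual F M × M) :
    polar (QuadraticForm.dualProd F M) x y = Ti.hB 1 x y := by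
  rw [polar, Ti.hB_apply]
  show (x.1 + y.1) (x.2 + y.2) - x.1 x.2 - y.1 y.2 = _
  rw [LinearMap.add_apply, _root_.map_add, _root_.map_add]; ring

/-- the anisotropic part -/
theorem exists_an (hr : r.Prime) (hr2 : r ≠ 2) (hrq : ¬ r ∣ Fintype.card F) (o : ℕ) (ho : oi F r * o ≤ r - 1) (hodd : Odd (oi F r) → o = 0) :
    ∃ (A : Fm F) (f : A.V →ₗ[F] A.V), (∀ v, A.Q (f v) = A.Q v) ∧ f ^ r = 1 ∧ (∀ v, f v = v → v = 0) ∧ finrank F A.V = oi F r * o ∧
      ∀ Z : Submodule F A.V, (∀ v ∈ Z, f v ∈ Z) → (∀ u ∈ Z, ∀ v ∈ Z, polar A.Q u v = 0) → Z = ⊥ := by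
  rcases Nat.eq_zero_or_pos o with h0 | hpos
  · refine ⟨⟨PUnit, 0, fun x _ => Subsingleton.elim _ _⟩, 1, fun v => rfl, one_pow _, fun v _ => Subsingleton.elim _ _, ?_, ?_⟩
    · rw [h0, mul_zero]
      exact finrank_zero_of_subsingleton (M := PUnit.{u + 1})
    · intro Z _ _
      rw [eq_bot_iff]
      intro v _
      exact (Submodule.mem_bot F).2 (Subsingleton.elim (α := PUnit.{u + 1}) _ _)
  · have he : Even (oi F r) := by
      rcases Nat.even_or_odd (oi F r) with h | h
      · exact h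
      · have := hodd h
        omega
    obtain ⟨M, i1, i2, i3, f, hf, hg⟩ := Ti.exists_reg (F := F) hr
    let B : LinearMap.BilinForm F (Module.Dual F M × M) := Ti.hB 1
    have hεε : (1 : F) * 1 = 1 := one_mul 1
    have hBr : B.IsRefl := fun u v h => by
      have := Ti.hB_symm hεε v u
      rw [show B v u = Ti.hB 1 v u from rfl, this, show Ti.hB 1 u v = B u v from rfl, h, mul_zero]
    have hT := Ti.hT_one hr.pos hf
    have hiso : ∀ u v, B (Ti.hT r f u) (Ti.hT r f v) = B u v := Ti.hB_iso hr.pos hf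
    have hN : Iso.ND B ⊤ := Ti.hB_nd hεε
    obtain ⟨n1, -, -⟩ := Iso.nd_mov hr hrq hBr hT hiso (X := ⊤) (fun v _ => trivial) hN
    have hXi := Iso.mov_inv (T := Ti.hT r f) (X := ⊤) (fun v _ => trivial)
    have hXf := Iso.mov_fpf hr hrq hT (X := ⊤)
    obtain ⟨P, -, -, Y, y1, y2, y3, -, y5, y6⟩ := Ti.exists_aniso hr hr2 hrq hBr hT hiso hXi n1 hXf he (by
      intro g hg1 hgd
      obtain ⟨m, hm0, hm⟩ := hg g hg1 hgd
      have h1 : Polynomial.aeval (Ti.hT r f) g ((0 : Module.Dual F M), m) = 0 := by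
        rw [Ti.hT_aeval, hm]; rfl
      refine ⟨(0, m), ⟨trivial, ?_⟩, fun h => hm0 (congrArg Prod.snd h), h1⟩
      -- in the range of `T - 1`
      have hcop : IsCoprime g (Polynomial.X - 1 : Polynomial F) := by
        rw [hg1.coprime_iff_not_dvd]
        intro hd
        have hsq : Squarefree (Polynomial.X ^ r - 1 : Polynomial F) :=
          (Polynomial.separable_X_pow_sub_C (1 : F) (Iso.natCast_ne_zero hr hrq) one_ne_zero).squarefree
        have : Fact r.Prime := ⟨hr⟩
        rw [← Polynomial.cyclotomic_prime_mul_X_sub_one] at hsq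
        exact hg1.not_isUnit (hsq g (mul_dvd_mul hgd hd))
      obtain ⟨a, b, hab⟩ := hcop
      refine ⟨Polynomial.aeval (Ti.hT r f) b ((0 : Module.Dual F M), m), ?_⟩
      have h2 : ((0 : Module.Dual F M), m) = Polynomial.aeval (Ti.hT r f) (a * g + b * (Polynomial.X - 1)) ((0 : Module.Dual F M), m) := by
        rw [hab, _root_.map_one]; rfl
      conv_rhs => rw [h2]
      rw [_root_.map_add, LinearMap.add_apply, _root_.map_mul, Module.End.mul_apply, h1, map_zero, zero_add, mul_comm, _root_.map_mul,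
        Module.End.mul_apply, _root_.map_sub, Polynomial.aeval_X, _root_.map_one]) o ho
    have hQB : ∀ u v, polar (QuadraticForm.dualProd F M) u v = B u v := polar_dualProd
    refine ⟨⟨Y, (QuadraticForm.dualProd F M).restrict Y, ?_⟩, (Ti.hT r f).restrict y2, ?_, restrict_pow_one y2 hT, ?_, y5, ?_⟩
    · rintro ⟨x, hx⟩ h
      apply Subtype.ext
      apply y3 x hx
      intro y hy
      rw [← hQB]
      exact h ⟨y, hy⟩
    · intro v
      show QuadraticForm.dualProd F M (Ti.hT r f (v : Module.Dual F M × M)) = QuadraticForm.dualProd F M (v : Module.Dual F M × M)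
      have h1 := Ti.hT_fst hr.pos hf (v : Module.Dual F M × M) (v : Module.Dual F M × M).2
      exact h1
    · intro v hv
      exact Subtype.ext (hXf _ (y1 v.2) (congrArg Subtype.val hv))
    · intro Z hZi hZt
      have h1 := y6 (Z.map Y.subtype) (by rintro _ ⟨z, _, rfl⟩; exact z.2) (by
        rintro _ ⟨z, hz, rfl⟩
        exact ⟨_, hZi z hz, rfl⟩) (by
        rintro _ ⟨z, hz, rfl⟩ _ ⟨z', hz', rfl⟩
        rw [← hQB]
        exact hZt z hz z' hz')
      rw [eq_bot_iff]
      intro z hz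
      have h2 : (z : Module.Dual F M × M) ∈ Z.map Y.subtype := ⟨z, hz, rfl⟩
      rw [h1] at h2
      exact (Submodule.mem_bot F).2 (Subtype.ext ((Submodule.mem_bot F).1 h2))

/-- **forms with prescribed totally isotropic invariant subspaces** -/
theorem exists_fm_ti (hr : r.Prime) (hr2 : r ≠ 2) (hrq : ¬ r ∣ Fintype.card F) (s o : ℕ) (ho : oi F r * o ≤ r - 1) (hodd : Odd (oi F r) → o = 0) :
    ∃ (A : Fm F) (f : A.V →ₗ[F] A.V), (∀ v, A.Q (f v) = A.Q v) ∧ f ^ r = 1 ∧ (∀ v, f v = v → v = 0) ∧ finrank F A.V = oi F r * (2 * s + o) ∧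
      WB A.Q f (oi F r * s) := by
  obtain ⟨A, f, f1, f2, f3, f4, f5⟩ := exists_an (F := F) hr hr2 hrq o ho hodd
  obtain ⟨M, i1, i2, i3, g, g1, g2, g3⟩ := Ti.exists_mod (F := F) hr hrq s
  have hεε : (1 : F) * 1 = 1 := one_mul 1
  have hT := Ti.hT_one hr.pos g1
  have hN : Iso.ND (Ti.hB (M := M) (1 : F)) ⊤ := Ti.hB_nd hεε
  have hQB : ∀ u v, polar (QuadraticForm.dualProd F M) u v = Ti.hB 1 u v := polar_dualProd
  have hnd : ND (QuadraticForm.dualProd F M) := by
    intro x hx
    exact hN x trivial fun y _ => by rw [← hQB]; exact hx y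
  have hND : ND ((QuadraticForm.dualProd F M).prod A.Q) := nd_prod.2 ⟨hnd, A.nd⟩
  have hpow : ((Ti.hT r g).prodMap f) ^ r = 1 := by
    rw [prodMap_pow'', hT, f2]; rfl
  have hisoQ : ∀ v, ((QuadraticForm.dualProd F M).prod A.Q) (((Ti.hT r g).prodMap f) v) = ((QuadraticForm.dualProd F M).prod A.Q) v := by
    rintro ⟨a, b⟩
    show QuadraticForm.dualProd F M (Ti.hT r g a) + A.Q (f b) = QuadraticForm.dualProd F M a + A.Q b
    rw [f1]
    congr 1
    exact Ti.hT_fst hr.pos g1 a a.2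
  have hrefl := refl_polar ((QuadraticForm.dualProd F M).prod A.Q)
  refine ⟨⟨(Module.Dual F M × M) × A.V, (QuadraticForm.dualProd F M).prod A.Q, hND⟩, (Ti.hT r g).prodMap f, hisoQ, hpow, ?_, ?_, ?_⟩
  · rintro ⟨a, b⟩ hab
    have h1 : Ti.hT r g a = a := congrArg Prod.fst hab
    have h2 : f b = b := congrArg Prod.snd hab
    rw [Ti.hT_fpf hr.pos g1 g2 a h1, f3 b h2]; rfl
  · show finrank F ((Module.Dual F M × M) × A.V) = _
    rw [finrank_prod, finrank_prod, Subspace.dual_finrank_eq, g3, f4]; ring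
  · intro W hWi hWt _
    have hL : finrank F (Ti.Lg F M) = oi F r * s := by rw [Ti.Lg_dim, g3]
    rw [← hL]
    refine Ti.prod_bound (B := polarBilin ((QuadraticForm.dualProd F M).prod A.Q)) (B₁ := Ti.hB 1) (B₂ := polarBilin A.Q) ?_ hrefl (nd_top.1 hND)
      hr.pos (T₁ := Ti.hT r g) (T₂ := f) hpow ?_ (Ti.Lg_inv r g) (Ti.Lg_ti 1) (Ti.Lg_max hεε) ?_ hWi ?_
    · intro u v
      rw [polarBilin_apply_apply, polarBilin_apply_apply, polar_prod, hQB]
    · intro u v
      rw [polarBilin_apply_apply, polarBilin_apply_apply]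
      exact polar_inv hisoQ u v
    · intro Z hZi hZt
      exact f5 Z hZi (fun u hu v hv => by rw [← polarBilin_apply_apply]; exact hZt u hu v hv)
    · intro u hu v hv
      rw [polarBilin_apply_apply]; exact hWt u hu v hv

/-- transport of an isometry with a bound -/
theorem real_equiv_ti {V V' : Type u} [AddCommGroup V] [Module F V] [FiniteDimensional F V] [AddCommGroup V'] [Module F V'] [FiniteDimensional F V']
    {Q : QuadraticForm F V} {Q' : QuadraticForm F V'} (he : Q.Equivalent Q') {n w : ℕ}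
    (h : ∃ f : V →ₗ[F] V, (∀ v, Q (f v) = Q v) ∧ f ^ r = 1 ∧ finrank F (fx f) = n ∧ WB Q f w) :
    ∃ f : V' →ₗ[F] V', (∀ v, Q' (f v) = Q' v) ∧ f ^ r = 1 ∧ finrank F (fx f) = n ∧ WB Q' f w := by
  obtain ⟨f, f1, f2, f3, f4⟩ := h
  obtain ⟨e⟩ := he
  have h1 : ∀ v, e (e.toLinearEquiv.symm v) = v := fun v => e.toLinearEquiv.apply_symm_apply v
  have h2 : ∀ v, e.toLinearEquiv.symm (e v) = v := fun v => e.toLinearEquiv.symm_apply_apply v
  let g : V' →ₗ[F] V' := e.toLinearEquiv.toLinearMap ∘ₗ f ∘ₗ e.toLinearEquiv.symm.toLinearMap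
  have hg : ∀ v, g v = e (f (e.toLinearEquiv.symm v)) := fun v => rfl
  have hk : ∀ (k : ℕ) v, (g ^ k) v = e ((f ^ k) (e.toLinearEquiv.symm v)) := by
    intro k
    induction k with
    | zero => intro v; exact (h1 v).symm
    | succ k ih => intro v; rw [pow_succ', Module.End.mul_apply, ih, hg, h2, pow_succ']; rfl
  refine ⟨g, fun v => by rw [hg, e.map_app, f1, ← e.map_app, h1], ?_, ?_, ?_⟩
  · apply LinearMap.ext
    intro v
    rw [hk, f2]
    exact h1 v
  · rw [← f3]
    have : fx g = (fx f).map e.toLinearEquiv.toLinearMap := by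
      ext v
      rw [mem_fx, Submodule.mem_map]
      constructor
      · intro hv
        refine ⟨e.toLinearEquiv.symm v, ?_, h1 v⟩
        rw [mem_fx]
        rw [hg] at hv
        rw [← h2 (f (e.toLinearEquiv.symm v)), hv]
      · rintro ⟨w, hw, rfl⟩
        show g (e w) = e w
        rw [hg, h2, mem_fx.1 hw]
    rw [this]
    exact LinearEquiv.finrank_map_eq e.toLinearEquiv _
  · intro W w1 w2 w3
    have hd : finrank F (W.comap e.toLinearEquiv.toLinearMap) = finrank F W := by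
      have h3 : (W.comap e.toLinearEquiv.toLinearMap).map e.toLinearEquiv.toLinearMap = W :=
        Submodule.map_comap_eq_of_surjective e.toLinearEquiv.surjective W
      rw [← LinearEquiv.finrank_map_eq e.toLinearEquiv, h3]
    rw [← hd]
    apply f4
    · intro v hv
      show e (f v) ∈ W
      have h3 := w1 _ hv
      have h4 : g (e v) = e (f v) := by rw [hg, h2]
      rw [← h4]; exact h3
    · intro a ha b hb
      have h3 := w2 _ ha _ hb
      have h4 : e (a + b) = e a + e b := e.toLinearEquiv.map_add a b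
      rw [polar, ← e.map_app (a + b), ← e.map_app a, ← e.map_app b, h4]
      exact h3
    · intro v hv hfv
      have h3 := w3 _ hv (by
        show g (e v) = e v
        rw [hg, h2, hfv])
      have h4 : e.toLinearEquiv.symm (e v) = e.toLinearEquiv.symm 0 := congrArg _ h3
      rwa [h2, _root_.map_zero] at h4

/-- adding a fixed part -/
theorem real_prod {V C : Type u} [AddCommGroup V] [Module F V] [FiniteDimensional F V] [AddCommGroup C] [Module F C] [FiniteDimensional F C]
    {Q : QuadraticForm F V} (QC : QuadraticForm F C) {w : ℕ}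
    (f : V →ₗ[F] V) (f1 : ∀ v, Q (f v) = Q v) (f2 : f ^ r = 1) (f3 : ∀ v, f v = v → v = 0) (f4 : WB Q f w) :
    ∃ g : (V × C) →ₗ[F] (V × C), (∀ v, (Q.prod QC) (g v) = (Q.prod QC) v) ∧ g ^ r = 1 ∧ finrank F (fx g) = finrank F C ∧ WB (Q.prod QC) g w := by
  refine ⟨f.prodMap LinearMap.id, ?_, ?_, ?_, ?_⟩
  · rintro ⟨a, b⟩
    show Q (f a) + _ = Q a + _
    rw [f1]; rfl
  · rw [prodMap_pow'', f2]
    have : (LinearMap.id : C →ₗ[F] C) ^ r = 1 := one_pow r
    rw [this]; rfl
  · have : fx (f.prodMap (LinearMap.id : C →ₗ[F] C)) = LinearMap.range (LinearMap.inr F V C) := by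
      ext ⟨a, b⟩
      rw [mem_fx, LinearMap.mem_range]
      constructor
      · intro h
        have h1 : f a = a := congrArg Prod.fst h
        exact ⟨b, by rw [f3 a h1]; rfl⟩
      · rintro ⟨b', hb'⟩
        have h1 : (0 : V) = a := congrArg Prod.fst hb'
        rw [← h1]
        show (f 0, b) = (0, b)
        rw [_root_.map_zero]
    rw [this]
    exact LinearMap.finrank_range_of_inj LinearMap.inr_injective
  · intro W w1 w2 w3
    -- W is contained in V × 0
    have hW0 : ∀ v ∈ W, v.2 = 0 := by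
      let N : W →ₗ[F] W := (f.prodMap (LinearMap.id : C →ₗ[F] C)).restrict w1 - LinearMap.id
      have hinj : Function.Injective N := by
        rw [← LinearMap.ker_eq_bot, LinearMap.ker_eq_bot']
        intro v hv
        apply Subtype.ext
        apply w3 v v.2
        exact congrArg Subtype.val (sub_eq_zero.1 hv)
      have hs := LinearMap.injective_iff_surjective.1 hinj
      intro v hv
      obtain ⟨u, hu⟩ := hs ⟨v, hv⟩
      have h1 : (N u : V × C) = v := congrArg Subtype.val hu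
      rw [← h1]
      show (f.prodMap (LinearMap.id : C →ₗ[F] C) (u : V × C) - (u : V × C)).2 = 0
      show (u : V × C).2 - (u : V × C).2 = 0
      exact sub_self _
    have hmap : (W.comap (LinearMap.inl F V C)).map (LinearMap.inl F V C) = W := by
      apply le_antisymm (Submodule.map_comap_le _ _)
      intro v hv
      refine ⟨v.1, ?_, ?_⟩
      · show (v.1, (0 : C)) ∈ W
        rw [← hW0 v hv]; exact hv
      · show (v.1, (0 : C)) = v
        rw [← hW0 v hv]
    have hd : finrank F (W.comap (LinearMap.inl F V C)) = finrank F W := by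
      conv_rhs => rw [← hmap]
      exact (Submodule.equivMapOfInjective _ LinearMap.inl_injective _).finrank_eq
    rw [← hd]
    apply f4
    · intro v hv
      have h1 := w1 _ hv
      have h2 : (f.prodMap (LinearMap.id : C →ₗ[F] C)) (LinearMap.inl F V C v) = LinearMap.inl F V C (f v) := rfl
      rw [h2] at h1
      exact h1
    · intro a ha b hb
      have h1 := w2 _ ha _ hb
      rw [polar_prod] at h1
      have h2 : polar QC (LinearMap.inl F V C a).2 (LinearMap.inl F V C b).2 = 0 := polar_zero_left QC _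
      rw [h2, add_zero] at h1
      exact h1
    · intro v hv hfv
      have h1 := w3 _ hv (by
        show (f v, (0 : C)) = (v, 0)
        rw [hfv])
      exact congrArg Prod.fst h1

/-- **realisation with a bound** -/
theorem realize_ti (hr : r.Prime) (hr2 : r ≠ 2) (hrq : ¬ r ∣ Fintype.card F) {V : Type u} [AddCommGroup V] [Module F V] [FiniteDimensional F V]
    {Q : QuadraticForm F V} (hQ : ND Q) (s o : ℕ) (ho : oi F r * o ≤ r - 1) (hodd : Odd (oi F r) → o = 0)
    (hs : oi F r * (2 * s + o) ≤ finrank F V) (hs' : oi F r * (2 * s + o) = finrank F V → (PT Q ↔ (Odd (oi F r) ∨ Even o))) :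
    ∃ f : V →ₗ[F] V, (∀ v, Q (f v) = Q v) ∧ f ^ r = 1 ∧ finrank F (fx f) + oi F r * (2 * s + o) = finrank F V ∧ WB Q f (oi F r * s) := by
  obtain ⟨A, f, f1, f2, f3, a1, f4⟩ := exists_fm_ti (F := F) hr hr2 hrq s o ho hodd
  have hfx0 : fx f = ⊥ := by
    rw [eq_bot_iff]
    intro v hv
    rw [Submodule.mem_bot]
    exact f3 v (mem_fx.1 hv)
  obtain ⟨j, j1, a3, -⟩ := fpf_struct hr hr2 hrq _ A.V A.Q f a1 A.nd f1 f2 f3
  change oi F r * (2 * s + o) = cc (oi F r) * j at j1
  have hcc := cc_pos (F := F) hr hrq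
  have hty : (Odd (oi F r) ∨ Even j) ↔ (Odd (oi F r) ∨ Even o) := by
    rcases Nat.even_or_odd (oi F r) with he | ho'
    · rw [cc_even he] at j1
      have hj : 2 * s + o = j := Nat.eq_of_mul_eq_mul_left (oi_pos (F := F) hr hrq) j1
      rw [← hj, Nat.even_add]
      have h2 : Even (2 * s) := even_two_mul s
      simp only [h2, true_iff]
    · exact ⟨fun _ => Or.inl ho', fun _ => Or.inl ho'⟩
  obtain ⟨e, he⟩ := even_cc (oi F r)
  have hdimj : oi F r * (2 * s + o) = 2 * (e * j) := by rw [j1, he]; ring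
  rcases Nat.eq_zero_or_pos (oi F r * (2 * s + o)) with h0 | hpos
  · refine ⟨1, fun v => rfl, one_pow _, ?_, ?_⟩
    · have : fx (1 : V →ₗ[F] V) = ⊤ := by
        ext v
        rw [mem_fx]
        exact ⟨fun _ => trivial, fun _ => rfl⟩
      rw [this, finrank_top, h0, add_zero]
    · intro W w1 w2 w3
      have : W = ⊥ := by
        rw [eq_bot_iff]
        intro v hv
        exact (Submodule.mem_bot F).2 (w3 v hv rfl)
      rw [this, finrank_bot]; exact Nat.zero_le _
  rcases hs.eq_or_lt with heq | hlt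
  · have hE := equiv_of_same (m := e * j) A.nd hQ (by rw [a1, hdimj]) (by rw [← heq, hdimj]) (a3.trans (hty.trans (hs' heq).symm))
    obtain ⟨g, g1, g2, g3, g4⟩ := real_equiv_ti hE (n := 0) ⟨f, f1, f2, by rw [hfx0, finrank_bot], f4⟩
    exact ⟨g, g1, g2, by rw [g3, heq, zero_add], g4⟩
  · obtain ⟨Y, y1, y2, y3⟩ := sub_exists hQ (b := e * j) (by omega) (by omega) (Odd (oi F r) ∨ Even o)
    have hE := equiv_of_same (m := e * j) A.nd y1 (by rw [a1, hdimj]) y2 (a3.trans (hty.trans y3.symm))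
    obtain ⟨e', -, he'⟩ := ortho_split y1
    have hE2 : (A.Q.prod (Q.restrict (orth Q Y))).Equivalent Q := (hE.prod (Equivalent.refl _)).trans ⟨⟨e', he'⟩⟩
    have ho' := finrank_orth hQ Y
    obtain ⟨g, g1, g2, g3, g4⟩ := real_equiv_ti hE2 (r := r) (n := finrank F (orth Q Y)) (real_prod (Q.restrict (orth Q Y)) f f1 f2 f3 f4)
    exact ⟨g, g1, g2, by rw [g3]; omega, g4⟩

/-- totally singular subspaces: upper bound -/
theorem ts_le {V : Type u} [AddCommGroup V] [Module F V] [FiniteDimensional F V] {Q : QuadraticForm F V} (hQ : ND Q) {U : Submodule F V}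
    (hU : ∀ u ∈ U, Q u = 0) : 2 * finrank F U ≤ finrank F V ∧ (2 * finrank F U = finrank F V → PT Q) := by
  have h1 : U ≤ orth Q U := by
    intro v hv u hu
    rw [polar, hU _ (U.add_mem hu hv), hU u hu, hU v hv]; ring
  have h2 := Submodule.finrank_mono h1
  have h3 := finrank_orth hQ U
  exact ⟨by omega, fun h => ⟨U, hU, h⟩⟩

theorem exists_sub {V : Type*} [AddCommGroup V] [Module F V] [FiniteDimensional F V] (U : Submodule F V) {j : ℕ} (hj : j ≤ finrank F U) :
    ∃ W ≤ U, finrank F W = j := by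
  let b := Module.finBasis F U
  have hli : LinearIndependent F (fun k : Fin j => ((b (Fin.castLE hj k) : U) : V)) :=
    (b.linearIndependent.comp _ (Fin.castLE_injective hj)).map' U.subtype (LinearMap.ker_eq_bot.2 U.injective_subtype)
  refine ⟨Submodule.span F (Set.range fun k : Fin j => ((b (Fin.castLE hj k) : U) : V)), ?_, ?_⟩
  · rw [Submodule.span_le]
    rintro _ ⟨k, rfl⟩
    exact (b (Fin.castLE hj k)).2
  · rw [finrank_span_eq_card hli, Fintype.card_fin]

/-- totally singular subspaces: existence -/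
theorem ts_exists {V : Type u} [AddCommGroup V] [Module F V] [FiniteDimensional F V] {Q : QuadraticForm F V} (hQ : ND Q) {j : ℕ}
    (hj : 2 * j ≤ finrank F V) (hj' : 2 * j = finrank F V → PT Q) : ∃ U : Submodule F V, (∀ u ∈ U, Q u = 0) ∧ finrank F U = j := by
  rcases Nat.eq_zero_or_pos j with h0 | hpos
  · refine ⟨⊥, ?_, by rw [finrank_bot, h0]⟩
    intro u hu
    rw [(Submodule.mem_bot F).1 hu]; exact QuadraticMap.map_zero Q
  rcases hj.eq_or_lt with heq | hlt
  · obtain ⟨U, hU, hd⟩ := hj' heq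
    exact ⟨U, hU, by omega⟩
  · obtain ⟨Y, y1, y2, y3⟩ := sub_exists hQ (b := j) hpos hlt True
    obtain ⟨U, hU, hd⟩ := y3.2 trivial
    refine ⟨U.map Y.subtype, ?_, ?_⟩
    · rintro _ ⟨u, hu, rfl⟩
      exact hU u hu
    · rw [Submodule.finrank_map_subtype_eq]; omega

/-- **structure** -/
theorem struct_ti {V : Type u} [AddCommGroup V] [Module F V] [FiniteDimensional F V] {Q : QuadraticForm F V} (hQ : ND Q)
    (hr : r.Prime) (hr2 : r ≠ 2) (hrq : ¬ r ∣ Fintype.card F) (f : V →ₗ[F] V) (hf : ∀ v, Q (f v) = Q v) (hfr : f ^ r = 1) :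
    ∃ s o, finrank F (fx f) + oi F r * (2 * s + o) = finrank F V ∧ oi F r * o ≤ r - 1 ∧ (Odd (oi F r) → o = 0) ∧
      (PT (Q.restrict (orth Q (fx f))) ↔ (Odd (oi F r) ∨ Even o)) ∧
      ∀ k ≤ s, ∃ L ≤ orth Q (fx f), (∀ v ∈ L, f v ∈ L) ∧ (∀ v ∈ L, Q v = 0) ∧ finrank F L = oi F r * k := by
  have hC := fx_nd hQ (rF hr hrq) f hf hfr
  have hfp := fx_fpf hQ (rF hr hrq) f hf hfr
  have hCi : ∀ v ∈ fx f, f v ∈ fx f := fun v hv => by rw [mem_fx.1 hv]; exact hv
  have ho := orth_inv hr.pos f hf hfr hCi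
  have hdim := finrank_orth hQ (fx f)
  have hiso : ∀ u v, polarBilin Q (f u) (f v) = polarBilin Q u v := fun u v => by
    rw [polarBilin_apply_apply, polarBilin_apply_apply, polar_inv hf]
  obtain ⟨s, o, h1, h2, h3, h4⟩ := Ti.ti_struct hr hr2 hrq (B := polarBilin Q) (ε := 1) (fun u v => by
    rw [one_mul, polarBilin_apply_apply, polarBilin_apply_apply, polar_comm]) hfr hiso (X := orth Q (fx f)) ho (nd_on.1 (nd_orth hQ hC)) hfp (by
    intro hoi Y hY hYi hYd hYn
    obtain ⟨m, hm⟩ := hoi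
    exact odd_fix (nd_on.2 hYn) hr hr2 hrq (m := m) (by rw [hYd, hm]) hm (f.restrict hYi) (fun v => hf v) (restrict_pow_one hYi hfr)
      (fun v hv => Subtype.ext (hfp v (hY v.2) (congrArg Subtype.val hv))))
  obtain ⟨s', s1, s2, -⟩ := blocks hQ hr hr2 hrq f hf hfr
  have h1' : finrank F (orth Q (fx f)) = oi F r * (2 * s + o) := h1
  refine ⟨s, o, by rw [← h1', add_comm]; exact hdim, h2, h3, ?_, ?_⟩
  · rw [s2]
    have hj : oi F r * (2 * s + o) = cc (oi F r) * s' := by omega
    rcases Nat.even_or_odd (oi F r) with he | ho'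
    · rw [cc_even he] at hj
      have hj : 2 * s + o = s' := Nat.eq_of_mul_eq_mul_left (oi_pos (F := F) hr hrq) hj
      rw [← hj, Nat.even_add]
      have h2 : Even (2 * s) := even_two_mul s
      simp only [h2, true_iff]
    · exact ⟨fun _ => Or.inl ho', fun _ => Or.inl ho'⟩
  · intro k hk
    obtain ⟨L, l1, l2, l3, l4⟩ := h4 k hk
    refine ⟨L, l1, l2, ?_, l4⟩
    -- totally singular: restrict to the orthogonal complement
    have hts := ts_of_ti (Q := Q.restrict (orth Q (fx f))) (f.restrict ho) (fun v => hf v) (fun v hv => Subtype.ext (hfp v v.2 (congrArg Subtype.val hv)))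
      (Y := L.comap (orth Q (fx f)).subtype) (fun v hv => l2 v hv) (fun u hu v hv => by
        have := l3 u hu v hv
        rw [polarBilin_apply_apply] at this
        exact this)
    intro v hv
    exact hts ⟨v, l1 hv⟩ hv

/-- **sufficient condition** -/
theorem ts_suf {V : Type u} [AddCommGroup V] [Module F V] [FiniteDimensional F V] {Q : QuadraticForm F V} (hQ : ND Q)
    (hr : r.Prime) (hrq : ¬ r ∣ Fintype.card F) (f : V →ₗ[F] V) (hf : ∀ v, Q (f v) = Q v) (hfr : f ^ r = 1)
    {L : Submodule F V} (hL : L ≤ orth Q (fx f)) (hLi : ∀ v ∈ L, f v ∈ L) (hLs : ∀ v ∈ L, Q v = 0) {j : ℕ}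
    (hj : 2 * j ≤ finrank F (fx f)) (hj' : 2 * j = finrank F (fx f) → PT (Q.restrict (fx f))) :
    ∃ W : Submodule F V, finrank F W = finrank F L + j ∧ (∀ w ∈ W, Q w = 0) ∧ ∀ v ∈ W, f v ∈ W := by
  have hC := fx_nd hQ (rF hr hrq) f hf hfr
  obtain ⟨U, u1, u2⟩ := ts_exists hC hj hj'
  have hUC : U.map (fx f).subtype ≤ fx f := by rintro _ ⟨u, _, rfl⟩; exact u.2
  have hdis : L ⊓ U.map (fx f).subtype = ⊥ := by
    rw [eq_bot_iff]
    rintro v ⟨hv, hv'⟩
    rw [Submodule.mem_bot]
    exact fx_fpf hQ (rF hr hrq) f hf hfr v (hL hv) (mem_fx.1 (hUC hv'))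
  refine ⟨L ⊔ U.map (fx f).subtype, ?_, ?_, ?_⟩
  · have := Submodule.finrank_sup_add_finrank_inf_eq L (U.map (fx f).subtype)
    rw [hdis, finrank_bot, add_zero, Submodule.finrank_map_subtype_eq, u2] at this
    exact this
  · intro w hw
    obtain ⟨a, ha, b, hb, rfl⟩ := Submodule.mem_sup.1 hw
    have h1 : polar Q a b = 0 := by
      rw [polar_comm]; exact hL ha b (hUC hb)
    obtain ⟨b', hb', rfl⟩ := hb
    rw [QuadraticMap.map_add Q, hLs a ha, h1]
    have h2 : Q ((fx f).subtype b') = 0 := u1 b' hb'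
    rw [h2]; ring
  · intro v hv
    obtain ⟨a, ha, b, hb, rfl⟩ := Submodule.mem_sup.1 hv
    rw [_root_.map_add, mem_fx.1 (hUC hb)]
    exact Submodule.add_mem_sup (hLi a ha) hb

/-- **necessary condition** -/
theorem ts_nec {V : Type u} [AddCommGroup V] [Module F V] [FiniteDimensional F V] {Q : QuadraticForm F V} (hQ : ND Q)
    (hr : r.Prime) (hrq : ¬ r ∣ Fintype.card F) (f : V →ₗ[F] V) (hf : ∀ v, Q (f v) = Q v) (hfr : f ^ r = 1)
    {W : Submodule F V} (hWi : ∀ v ∈ W, f v ∈ W) (hWs : ∀ w ∈ W, Q w = 0) :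
    ∃ (k j : ℕ), (∃ L ≤ W, (∀ v ∈ L, f v ∈ L) ∧ (∀ v ∈ L, f v = v → v = 0) ∧ finrank F L = oi F r * k) ∧
      finrank F W = oi F r * k + j ∧ 2 * j ≤ finrank F (fx f) ∧
      (2 * j = finrank F (fx f) → PT (Q.restrict (fx f))) ∧ (k = 0 → W ≤ fx f) := by
  have hC := fx_nd hQ (rF hr hrq) f hf hfr
  have hmi := Iso.mov_inv (T := f) (X := W) hWi
  have hmf := Iso.mov_fpf hr hrq hfr (X := W)
  obtain ⟨k, hk, -⟩ := Ti.dims hr hrq hfr _ _ rfl hmi hmf
  have hsup : (W ⊓ LinearMap.range (f - 1)) ⊔ (W ⊓ LinearMap.ker (f - 1)) = W := by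
    apply le_antisymm (sup_le inf_le_left inf_le_left)
    intro x hx
    obtain ⟨a, ha, b, hb, rfl⟩ := Iso.fix_mov hr hrq hfr hWi x hx
    exact Submodule.add_mem_sup ha hb
  have hinf : (W ⊓ LinearMap.range (f - 1)) ⊓ (W ⊓ LinearMap.ker (f - 1)) = ⊥ := by
    rw [eq_bot_iff]
    rintro x ⟨h1, h2⟩
    exact (Submodule.mem_bot F).2 (hmf x h1 (mem_fx.1 h2.2))
  have hd := Submodule.finrank_sup_add_finrank_inf_eq (W ⊓ LinearMap.range (f - 1)) (W ⊓ LinearMap.ker (f - 1))
  rw [hsup, hinf, finrank_bot, add_zero] at hd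
  have hU := ts_le hC (U := (W ⊓ LinearMap.ker (f - 1)).comap (fx f).subtype) (fun u hu => hWs _ hu.1)
  have hUd : finrank F ((W ⊓ LinearMap.ker (f - 1)).comap (fx f).subtype) = finrank F (W ⊓ LinearMap.ker (f - 1) : Submodule F V) :=
    (Submodule.comapSubtypeEquivOfLe (inf_le_right : W ⊓ LinearMap.ker (f - 1) ≤ fx f)).finrank_eq
  rw [hUd] at hU
  refine ⟨k, finrank F (W ⊓ LinearMap.ker (f - 1) : Submodule F V), ⟨_, inf_le_left, hmi, hmf, hk⟩, by rw [hd, hk], hU.1, hU.2, ?_⟩
  intro h0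
  have h1 : W ⊓ LinearMap.range (f - 1) = ⊥ := by
    apply Submodule.finrank_eq_zero.1
    rw [hk, h0, mul_zero]
  rw [h1, bot_sup_eq] at hsup
  rw [← hsup]
  exact inf_le_right

end H99.OrthTi
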