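import Mathlib
import Cfsg.Agent.Lib.H99.Ti3
import Cfsg.Agent.Lib.H99.Iso4
import Cfsg.Agent.Lib.H99.OrthTi
import Cfsg.Prelude.Def_GeometricClasses

set_option autoImplicit false
set_option linter.unusedSimpArgs false
set_option linter.unusedSectionVars false
set_option linter.unusedVariables false

/-! Decompositions permuted by an element of prime order of the linear group. -/

namespace H99.Imp

open Module H99.Ti

universe u

variable {F : Type u} [Field F] {V : Type u} [AddCommGroup V] [Module F V]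

/-- a family of subspaces of dimension `a`, with sum `X`, permuted by `x` -/
def Dec (x : V →ₗ[F] V) (a t : ℕ) (X : Submodule F V) : Prop :=
  ∃ (κ : Type) (_ : Fintype κ) (D : κ → Submodule F V) (σ : Equiv.Perm κ), Fintype.card κ = t ∧ (∀ j, finrank F (D j) = a) ∧ iSup D = X ∧
    ∀ j, (D j).map x = D (σ j)

theorem Dec.sup {x : V →ₗ[F] V} {a t t' : ℕ} {X X' : Submodule F V} (h : Dec x a t X) (h' : Dec x a t' X') : Dec x a (t + t') (X ⊔ X') := by
  obtain ⟨κ, i1, D, σ, d1, d2, d3, d4⟩ := h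
  obtain ⟨κ', i2, D', σ', d1', d2', d3', d4'⟩ := h'
  refine ⟨κ ⊕ κ', inferInstance, Sum.elim D D', Equiv.sumCongr σ σ', by rw [Fintype.card_sum, d1, d1'], ?_, ?_, ?_⟩
  · rintro (j | j)
    · exact d2 j
    · exact d2' j
  · rw [iSup_sum, ← d3, ← d3']; rfl
  · rintro (j | j)
    · exact d4 j
    · exact d4' j

theorem Dec.bot (x : V →ₗ[F] V) (a : ℕ) : Dec x a 0 ⊥ :=
  ⟨Empty, inferInstance, fun j => j.elim, 1, rfl, fun j => j.elim, by simp, fun j => j.elim⟩

theorem Dec.one {x : V →ₗ[F] V} {a : ℕ} {X : Submodule F V} (hX : X.map x = X) (ha : finrank F X = a) : Dec x a 1 X :=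
  ⟨Unit, inferInstance, fun _ => X, 1, rfl, fun _ => ha, by simp, fun _ => hX⟩

theorem Dec.cyc {x : V →ₗ[F] V} {a r : ℕ} (hr : 0 < r) {E : Submodule F V} (hE : ∀ i : ℕ, finrank F (E.map (x ^ i)) = a) (hEr : E.map (x ^ r) = E) :
    Dec x a r (⨆ i : Fin r, E.map (x ^ (i : ℕ))) := by
  obtain ⟨n, rfl⟩ : ∃ n, r = n + 1 := ⟨r - 1, by omega⟩
  refine ⟨Fin (n + 1), inferInstance, fun i => E.map (x ^ (i : ℕ)), finRotate (n + 1), Fintype.card_fin _, fun i => hE _, rfl, ?_⟩
  intro j
  rw [← Submodule.map_comp]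
  have h1 : x ∘ₗ (x ^ (j : ℕ)) = x ^ ((j : ℕ) + 1) := by rw [pow_succ']; rfl
  rw [h1]
  show E.map (x ^ ((j : ℕ) + 1)) = E.map (x ^ ((finRotate (n + 1) j : Fin (n + 1)) : ℕ))
  rw [coe_finRotate]
  split_ifs with h
  · rw [h, Fin.val_last, hEr, pow_zero]; exact (Submodule.map_id E).symm
  · rfl

/-- independence from the dimensions -/
theorem indep_of_dim [FiniteDimensional F V] {t a : ℕ} (D : Fin t → Submodule F V) (hd : ∀ j, finrank F (D j) = a) (hs : iSup D = ⊤)
    (hn : finrank F V = t * a) : iSupIndep D := by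
  classical
  let φ : (∀ j, D j) →ₗ[F] V := ∑ j, (D j).subtype ∘ₗ LinearMap.proj j
  have hφ : ∀ v, φ v = ∑ j, (v j : V) := by
    intro v
    show (∑ j, (D j).subtype ∘ₗ LinearMap.proj j) v = _
    rw [LinearMap.sum_apply]; rfl
  have hsurj : Function.Surjective φ := by
    rw [← LinearMap.range_eq_top, eq_top_iff, ← hs]
    apply iSup_le
    intro j v hv
    refine ⟨Pi.single j ⟨v, hv⟩, ?_⟩
    rw [hφ, Finset.sum_eq_single j]
    · rw [Pi.single_eq_same]
    · intro k _ hk
      rw [Pi.single_eq_of_ne hk]; rfl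
    · intro h; exact absurd (Finset.mem_univ _) h
  have hinj : Function.Injective φ := by
    rw [LinearMap.injective_iff_surjective_of_finrank_eq_finrank]
    · exact hsurj
    · rw [Module.finrank_pi_fintype, hn, Finset.sum_congr rfl (fun j _ => hd j), Finset.sum_const, Finset.card_univ, Fintype.card_fin, smul_eq_mul]
  rw [iSupIndep_iff_finsetSum_eq_zero_imp_eq_zero]
  intro s v hv h0 i hi
  let w : ∀ j, D j := fun j => if h : j ∈ s then ⟨v j, hv j h⟩ else 0
  have h1 : φ w = 0 := by
    rw [hφ, ← h0, ← Finset.sum_subset (Finset.subset_univ s)]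
    · apply Finset.sum_congr rfl
      intro j hj
      show ((if h : j ∈ s then (⟨v j, hv j h⟩ : D j) else 0 : D j) : V) = v j
      rw [dif_pos hj]
    · intro j _ hj
      show ((if h : j ∈ s then (⟨v j, hv j h⟩ : D j) else 0 : D j) : V) = 0
      rw [dif_neg hj]; rfl
  have h2 : w = 0 := hinj (by rw [h1, _root_.map_zero])
  have h3 : (w i : V) = 0 := by rw [h2]; rfl
  have h4 : (w i : V) = v i := by
    show ((if h : i ∈ s then (⟨v i, hv i h⟩ : D i) else 0 : D i) : V) = v i
    rw [dif_pos hi]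
  rw [← h4, h3]

/-- from `Dec` to decompositions -/
theorem Dec.fin [FiniteDimensional F V] {x : V →ₗ[F] V} {a t : ℕ} (h : Dec x a t ⊤) (hn : finrank F V = t * a) :
    ∃ D : Fin t → Submodule F V, (∀ j, finrank F (D j) = a) ∧ iSupIndep D ∧ iSup D = ⊤ ∧ ∃ σ : Equiv.Perm (Fin t), ∀ j, (D j).map x = D (σ j) := by
  obtain ⟨κ, i1, D, σ, d1, d2, d3, d4⟩ := h
  let e : Fin t ≃ κ := (Fintype.equivFinOfCardEq d1).symm
  have h1 : iSup (fun j => D (e j)) = ⊤ := by
    rw [← d3]; exact e.iSup_comp
  refine ⟨fun j => D (e j), fun j => d2 _, indep_of_dim _ (fun j => d2 _) h1 hn, h1, (e.trans σ).trans e.symm, fun j => ?_⟩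
  rw [d4]
  show _ = D (e (e.symm (σ (e j))))
  rw [Equiv.apply_symm_apply]

section fin

variable [Fintype F] [FiniteDimensional F V] {r : ℕ}

theorem map_eq_of_inv {x : V →ₗ[F] V} (hinj : Function.Injective x) {X : Submodule F V} (hX : Inv x X) : X.map x = X := by
  apply Submodule.eq_of_le_of_finrank_eq
  · rintro _ ⟨v, hv, rfl⟩
    exact hX v hv
  · exact (Submodule.equivMapOfInjective x hinj X).finrank_eq.symm

theorem inj_of_pow {x : V →ₗ[F] V} (hr : 0 < r) (hx : x ^ r = 1) : Function.Injective x := by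
  intro u v huv
  have h2 : ∀ v, (x ^ (r - 1)) (x v) = v := by
    intro v
    have : x ^ (r - 1) * x = 1 := by rw [← pow_succ, Nat.sub_add_cancel hr, hx]
    exact congrArg (fun φ : V →ₗ[F] V => φ v) this
  rw [← h2 u, huv, h2]

/-- **adapted decompositions** -/
theorem dec_inv (hr : r.Prime) (hrq : ¬ r ∣ Fintype.card F) {T : V →ₗ[F] V} (hT : T ^ r = 1) {a c : ℕ}
    (hc : c = orderOf ((Fintype.card F : ℕ) : ZMod r)) (hc0 : 0 < c) :
    ∀ t : ℕ, ∀ M C : Submodule F V, M ≤ LinearMap.range (T - 1) → C ≤ LinearMap.ker (T - 1) → Inv T M → finrank F M + finrank F C = t * a →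
      finrank F M ≤ t * (a / c) * c → Dec T a t (M ⊔ C) := by
  intro t
  induction t with
  | zero =>
    intro M C hM hC _ hd _
    rw [zero_mul] at hd
    have h1 : M = ⊥ := Submodule.finrank_eq_zero.1 (by omega)
    have h2 : C = ⊥ := Submodule.finrank_eq_zero.1 (by omega)
    rw [h1, h2, bot_sup_eq]
    exact Dec.bot T a
  | succ t ih =>
    intro M C hM hC hMi hd hle
    have hMf : ∀ v ∈ M, T v = v → v = 0 := fun v hv h => Iso.mov_fpf hr hrq hT (X := ⊤) v ⟨trivial, hM hv⟩ h
    obtain ⟨s, hs, hsub⟩ := Ti.dims hr hrq hT _ M rfl hMi hMf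
    rw [← hc] at hs hsub
    have hsle : s ≤ (t + 1) * (a / c) := by
      rw [hs, mul_comm c] at hle
      exact Nat.le_of_mul_le_mul_right hle hc0
    obtain ⟨Y, y1, y2, y3⟩ := hsub (min s (a / c)) (min_le_left _ _)
    obtain ⟨M', m1, m2, m3, m4, m5⟩ := Ti.compl_in (Ti.ss_of_pow hr hrq hT) hMi y2 y1
    have hs1a : c * min s (a / c) ≤ a := (Nat.mul_le_mul_left c (min_le_right _ _)).trans (Nat.mul_div_le a c)
    have e5 : (t + 1) * a = t * a + a := by ring
    have hfin : c * s - c * min s (a / c) ≤ t * (a / c) * c ∧ a - c * min s (a / c) ≤ finrank F C := by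
      rcases Nat.le_total s (a / c) with h | h
      · rw [min_eq_left h]
        constructor
        · rw [Nat.sub_self]; exact Nat.zero_le _
        · omega
      · rw [min_eq_right h]
        have h2 : c * s ≤ t * (a / c) * c + c * (a / c) := by
          calc c * s ≤ c * ((t + 1) * (a / c)) := Nat.mul_le_mul_left c hsle
            _ = _ := by ring
        have h4 : c * (a / c) ≤ a := Nat.mul_div_le a c
        have h7 : t * (a / c) * c ≤ t * a := by
          calc t * (a / c) * c = t * (c * (a / c)) := by ring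
            _ ≤ _ := Nat.mul_le_mul_left t h4
        omega
    obtain ⟨Z, z1, z2⟩ := OrthTi.exists_sub C hfin.2
    obtain ⟨q, hq⟩ := Submodule.exists_isCompl (Z.comap C.subtype)
    let C' : Submodule F V := q.map C.subtype
    have hC'C : C' ≤ C := by
      rintro _ ⟨v, _, rfl⟩
      exact v.2
    have hCs : Z ⊔ C' = C := by
      apply le_antisymm (sup_le z1 hC'C)
      intro v hv
      have h1 : (⟨v, hv⟩ : C) ∈ Z.comap C.subtype ⊔ q := by rw [hq.sup_eq_top]; trivial
      obtain ⟨y, hy, z, hz, hyz⟩ := Submodule.mem_sup.1 h1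
      have h2 : v = (y : V) + z := congrArg Subtype.val hyz.symm
      rw [h2]
      exact Submodule.add_mem_sup hy ⟨z, hz, rfl⟩
    have hCd : finrank F C' + (a - c * min s (a / c)) = finrank F C := by
      have h1 := Submodule.finrank_add_eq_of_isCompl hq
      have h2 : finrank F (Z.comap C.subtype) = finrank F Z := (Submodule.comapSubtypeEquivOfLe z1).finrank_eq
      have h3 : finrank F C' = finrank F q := Submodule.finrank_map_subtype_eq C q
      omega
    have hkr := RElt.disjoint (Iso.natCast_ne_zero hr hrq) T hT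
    have hYZ : finrank F (Y ⊔ Z : Submodule F V) = a := by
      have h1 := Submodule.finrank_sup_add_finrank_inf_eq Y Z
      have h2 : Y ⊓ Z = ⊥ := by
        rw [eq_bot_iff]
        rintro v ⟨h3, h4⟩
        exact (Submodule.mem_bot F).2 ((Submodule.disjoint_def.1 hkr) v (hM (y1 h3)) (hC (z1 h4)))
      rw [h2, finrank_bot, add_zero] at h1
      omega
    have hYZi : Inv T (Y ⊔ Z) := by
      apply inv_sup y2
      intro v hv
      have h1 : T v = v := sub_eq_zero.1 (LinearMap.mem_ker.1 (hC (z1 hv)))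
      rw [h1]; exact hv
    have h1 : Dec T a 1 (Y ⊔ Z) := Dec.one (map_eq_of_inv (inj_of_pow hr.pos hT) hYZi) hYZ
    have h2 := ih M' C' (m1.trans hM) (hC'C.trans hC) m2 (by omega) (by omega)
    have h3 := h1.sup h2
    rw [add_comm t 1]
    have h4 : (Y ⊔ Z) ⊔ (M' ⊔ C') = M ⊔ C := by
      rw [← m4, ← hCs, sup_sup_sup_comm]
    rw [h4] at h3
    exact h3

/-- the whole space -/
theorem dec_top (hr : r.Prime) (hrq : ¬ r ∣ Fintype.card F) {T : V →ₗ[F] V} (hT : T ^ r = 1) {a c t : ℕ}
    (hc : c = orderOf ((Fintype.card F : ℕ) : ZMod r)) (hc0 : 0 < c) (hn : finrank F V = t * a) (hk : (t * a) % c = t * (a % c)) : Dec T a t ⊤ := by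
  have hi : Inv T (LinearMap.range (T - 1)) := by
    have := Iso.mov_inv (T := T) (X := ⊤) (fun v _ => trivial)
    rwa [top_inf_eq] at this
  have hcompl := RElt.isCompl (Iso.natCast_ne_zero hr hrq) T hT
  have h1 := dec_inv hr hrq hT hc hc0 (a := a) t (LinearMap.range (T - 1)) (LinearMap.ker (T - 1)) le_rfl le_rfl hi
    (by rw [LinearMap.finrank_range_add_finrank_ker, hn]) (by
      have hf : ∀ v ∈ LinearMap.range (T - 1), T v = v → v = 0 := fun v hv h => Iso.mov_fpf hr hrq hT (X := ⊤) v ⟨trivial, hv⟩ h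
      obtain ⟨s, hs, -⟩ := Ti.dims hr hrq hT _ _ rfl hi hf
      rw [← hc] at hs
      have hle := LinearMap.finrank_range_le (T - 1)
      have h2 := Nat.div_add_mod (t * a) c
      have h3 := Nat.div_add_mod a c
      have h4 : c * (t * a / c) = c * (t * (a / c)) := by
        have e1 : t * a = c * (t * (a / c)) + t * (a % c) := by
          conv_lhs => rw [← h3]
          ring
        rw [hk] at h2
        omega
      have h5 : t * a / c = t * (a / c) := Nat.eq_of_mul_eq_mul_left hc0 h4
      have h6 : s ≤ t * a / c := by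
        rw [Nat.le_div_iff_mul_le hc0, mul_comm, ← hs, ← hn]
        exact Submodule.finrank_le _
      rw [hs, mul_comm, ← h5]
      exact Nat.mul_le_mul_right c h6)
  rwa [hcompl.sup_eq_top] at h1

/-- elements with prescribed moved space -/
theorem realize (hr : r.Prime) (hrq : ¬ r ∣ Fintype.card F) (s : ℕ) (hs : orderOf ((Fintype.card F : ℕ) : ZMod r) * s ≤ finrank F V) :
    ∃ f : V →ₗ[F] V, f ^ r = 1 ∧ finrank F (LinearMap.ker (f - 1)) + orderOf ((Fintype.card F : ℕ) : ZMod r) * s = finrank F V := by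
  obtain ⟨M, i1, i2, i3, g, g1, g2, g3⟩ := Ti.exists_mod (F := F) hr hrq s
  obtain ⟨k, hk⟩ := Nat.exists_eq_add_of_le hs
  have e : (M × (Fin k → F)) ≃ₗ[F] V := LinearEquiv.ofFinrankEq _ _ (by rw [finrank_prod, g3, finrank_fintype_fun_eq_card, Fintype.card_fin, hk])
  have h1 : ∀ v, e (e.symm v) = v := fun v => e.apply_symm_apply v
  have h2 : ∀ v, e.symm (e v) = v := fun v => e.symm_apply_apply v
  let G : (M × (Fin k → F)) →ₗ[F] (M × (Fin k → F)) := g.prodMap LinearMap.id
  have hG : ∀ j : ℕ, G ^ j = (g ^ j).prodMap LinearMap.id := by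
    intro j
    induction j with
    | zero => rfl
    | succ j ih => rw [pow_succ, ih, pow_succ]; rfl
  let f : V →ₗ[F] V := e.toLinearMap ∘ₗ G ∘ₗ e.symm.toLinearMap
  have hf : ∀ v, f v = e (G (e.symm v)) := fun v => rfl
  have hfj : ∀ (j : ℕ) v, (f ^ j) v = e ((G ^ j) (e.symm v)) := by
    intro j
    induction j with
    | zero => intro v; exact (h1 v).symm
    | succ j ih => intro v; rw [pow_succ', Module.End.mul_apply, ih, hf, h2, pow_succ']; rfl
  refine ⟨f, ?_, ?_⟩
  · apply LinearMap.ext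
    intro v
    rw [hfj, hG, g1]
    exact h1 v
  · have hker : LinearMap.ker (f - 1) = ((⊤ : Submodule F (Fin k → F)).map (LinearMap.inr F M (Fin k → F))).map e.toLinearMap := by
      ext v
      rw [LinearMap.mem_ker]
      constructor
      · intro hv
        have hv' : f v = v := sub_eq_zero.1 hv
        have h4 : G (e.symm v) = e.symm v := by
          rw [hf] at hv'
          rw [← h2 (G (e.symm v)), hv']
        have h5 : (e.symm v).1 = 0 := g2 _ (congrArg Prod.fst h4)
        exact ⟨e.symm v, ⟨(e.symm v).2, trivial, Prod.ext h5.symm rfl⟩, h1 v⟩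
      · rintro ⟨_, ⟨a, -, rfl⟩, rfl⟩
        show f (e (LinearMap.inr F M (Fin k → F) a)) - e (LinearMap.inr F M (Fin k → F) a) = 0
        rw [hf, h2, sub_eq_zero]
        congr 1
        exact Prod.ext (_root_.map_zero g) rfl
    rw [hker, LinearEquiv.finrank_map_eq e, ← (Submodule.equivMapOfInjective _ LinearMap.inr_injective _).finrank_eq, finrank_top,
      finrank_fintype_fun_eq_card, Fintype.card_fin, hk, add_comm]

end fin

end H99.Imp
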