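import Mathlib
import Cfsg.Agent.Lib.H99.Imp

set_option autoImplicit false
set_option linter.unusedSimpArgs false
set_option linter.unusedSectionVars false
set_option linter.unusedVariables false

/-! Decompositions permuted by an element of prime order: cycles. -/

namespace H99.Imp

open Module H99.Ti

universe u

variable {F : Type u} [Field F] {V : Type u} [AddCommGroup V] [Module F V] [FiniteDimensional F V] {r : ℕ}

/-- the span of the images -/
def cy (x : V →ₗ[F] V) (r : ℕ) (E : Submodule F V) : Submodule F V := ⨆ i : Fin r, E.map (x ^ (i : ℕ))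

theorem mem_cy {x : V →ₗ[F] V} {E : Submodule F V} {v : V} (hv : v ∈ E) (i : ℕ) (hi : i < r) : (x ^ i) v ∈ cy x r E :=
  Submodule.mem_iSup_of_mem (⟨i, hi⟩ : Fin r) ⟨v, hv, rfl⟩

theorem cy_le {x : V →ₗ[F] V} {E X : Submodule F V} (hX : Inv x X) (hE : E ≤ X) : cy x r E ≤ X := by
  apply iSup_le
  rintro i _ ⟨v, hv, rfl⟩
  generalize (i : ℕ) = k
  induction k with
  | zero => exact hE hv
  | succ k ih => rw [pow_succ', Module.End.mul_apply]; exact hX _ ih

theorem cy_inv {x : V →ₗ[F] V} {E : Submodule F V} (hr : 0 < r) (hEr : E.map (x ^ r) ≤ E) : Inv x (cy x r E) := by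
  have h : cy x r E ≤ (cy x r E).comap x := by
    apply iSup_le
    rintro i _ ⟨v, hv, rfl⟩
    show x ((x ^ (i : ℕ)) v) ∈ cy x r E
    rw [← Module.End.mul_apply, ← pow_succ']
    by_cases hi : (i : ℕ) + 1 < r
    · exact mem_cy hv _ hi
    · have : (i : ℕ) + 1 = r := by omega
      rw [this]
      have h1 : (x ^ r) v ∈ E := hEr ⟨v, hv, rfl⟩
      exact mem_cy (x := x) h1 0 hr
  exact fun v hv => h hv

theorem cy_sup {x : V →ₗ[F] V} (E E' : Submodule F V) : cy x r (E ⊔ E') = cy x r E ⊔ cy x r E' := by
  unfold cy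
  rw [← iSup_sup_eq]
  congr 1
  funext i
  exact Submodule.map_sup _ _ _

section fin

variable [Fintype F]

/-- **decomposition into lines** -/
theorem dec_cyc (hr : r.Prime) (hrq : ¬ r ∣ Fintype.card F) {T : V →ₗ[F] V} (hT : T ^ r = 1) {c : ℕ}
    (hc : c = orderOf ((Fintype.card F : ℕ) : ZMod r)) (hcr : c + 1 = r) (hc0 : 0 < c) :
    ∀ s : ℕ, ∀ M C : Submodule F V, M ≤ LinearMap.range (T - 1) → C ≤ LinearMap.ker (T - 1) → Inv T M → finrank F M = c * s → s ≤ finrank F C →
      Dec T 1 (finrank F M + finrank F C) (M ⊔ C) := by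
  intro s
  induction s with
  | zero =>
    intro M C hM hC hMi hd _
    rw [mul_zero] at hd
    have h1 : M = ⊥ := Submodule.finrank_eq_zero.1 hd
    have := dec_inv hr hrq hT hc hc0 (a := 1) (finrank F C) M C hM hC hMi (by rw [hd, zero_add, mul_one]) (by rw [hd]; exact Nat.zero_le _)
    rw [hd, zero_add]
    exact this
  | succ s ih =>
    intro M C hM hC hMi hd hsC
    have hMf : ∀ v ∈ M, T v = v → v = 0 := fun v hv h => Iso.mov_fpf hr hrq hT (X := ⊤) v ⟨trivial, hM hv⟩ h
    obtain ⟨Y, y1, y2, y3⟩ := Ti.exists_irrsub hr hrq hT hMi hMf (by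
      intro h
      rw [h, finrank_bot, mul_add, mul_one] at hd
      omega)
    rw [← hc] at y3
    obtain ⟨m, hm, hm0⟩ := Submodule.exists_mem_ne_zero_of_ne_bot (p := Y) (by
      intro h
      rw [h, finrank_bot] at y3
      omega)
    obtain ⟨u, hu, hu0⟩ := Submodule.exists_mem_ne_zero_of_ne_bot (p := C) (by
      intro h
      rw [h, finrank_bot] at hsC
      omega)
    have hfu : T u = u := sub_eq_zero.1 (LinearMap.mem_ker.1 (hC hu))
    obtain ⟨M', m1, m2, m3, m4, m5⟩ := Ti.compl_in (Ti.ss_of_pow hr hrq hT) hMi y2 y1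
    have hspan : Submodule.span F {u} ≤ C := (Submodule.span_singleton_le_iff_mem _ _).2 hu
    obtain ⟨q, hq⟩ := Submodule.exists_isCompl ((Submodule.span F {u}).comap C.subtype)
    let C' : Submodule F V := q.map C.subtype
    have hC'C : C' ≤ C := by
      rintro _ ⟨v, _, rfl⟩
      exact v.2
    have hCs : Submodule.span F {u} ⊔ C' = C := by
      apply le_antisymm (sup_le hspan hC'C)
      intro v hv
      have h1 : (⟨v, hv⟩ : C) ∈ (Submodule.span F {u}).comap C.subtype ⊔ q := by rw [hq.sup_eq_top]; trivial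
      obtain ⟨y, hy, z, hz, hyz⟩ := Submodule.mem_sup.1 h1
      have h2 : v = (y : V) + z := congrArg Subtype.val hyz.symm
      rw [h2]
      exact Submodule.add_mem_sup hy ⟨z, hz, rfl⟩
    have hCd : finrank F C' + 1 = finrank F C := by
      have h1 := Submodule.finrank_add_eq_of_isCompl hq
      have h2 : finrank F ((Submodule.span F {u}).comap C.subtype) = finrank F (Submodule.span F {u}) := (Submodule.comapSubtypeEquivOfLe hspan).finrank_eq
      have h3 : finrank F C' = finrank F q := Submodule.finrank_map_subtype_eq C q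
      rw [finrank_span_singleton hu0] at h2
      omega
    have hkr := RElt.disjoint (Iso.natCast_ne_zero hr hrq) T hT
    have hinj := inj_of_pow hr.pos hT
    have hinjk : ∀ k : ℕ, Function.Injective (T ^ k) := by
      intro k
      induction k with
      | zero => exact fun a b h => h
      | succ k ih =>
        intro a b h
        rw [pow_succ', Module.End.mul_apply, Module.End.mul_apply] at h
        exact ih (hinj h)
    let E : Submodule F V := Submodule.span F {m + u}
    have hmu0 : m + u ≠ 0 := by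
      intro h
      apply hm0
      have h1 : m = -u := eq_neg_of_add_eq_zero_left h
      exact (Submodule.disjoint_def.1 hkr) m (hM (y1 hm)) (by rw [h1]; exact Submodule.neg_mem _ (hC hu))
    have hEr : E.map (T ^ r) = E := by rw [hT]; exact Submodule.map_id E
    have hU : Dec T 1 r (cy T r E) := Dec.cyc hr.pos (fun i => by
      rw [← (Submodule.equivMapOfInjective _ (hinjk i) E).finrank_eq, finrank_span_singleton hmu0]) hEr
    have hUi := cy_inv hr.pos hEr.le
    have hYu : Inv T (Y ⊔ Submodule.span F {u}) := by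
      apply inv_sup y2
      intro v hv
      obtain ⟨a, rfl⟩ := Submodule.mem_span_singleton.1 hv
      rw [_root_.map_smul, hfu]; exact hv
    have huU : u ∈ Y ⊔ Submodule.span F {u} := Submodule.mem_sup_right (Submodule.mem_span_singleton_self u)
    have hUeq : cy T r E = Y ⊔ Submodule.span F {u} := by
      apply le_antisymm
      · apply cy_le hYu
        exact (Submodule.span_singleton_le_iff_mem _ _).2 (Submodule.add_mem _ (Submodule.mem_sup_left hm) huU)
      · have h1 : m + u ∈ cy T r E := mem_cy (x := T) (Submodule.mem_span_singleton_self (m + u)) 0 hr.pos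
        have h2 : T m - m ∈ cy T r E := by
          have := (cy T r E).sub_mem (hUi _ h1) h1
          have h3 : T (m + u) - (m + u) = T m - m := by rw [_root_.map_add, hfu]; abel
          rwa [h3] at this
        have h3 : T m - m ∈ Y := Y.sub_mem (y2 m hm) hm
        have h4 : T m - m ≠ 0 := fun h => hm0 (hMf m (y1 hm) (sub_eq_zero.1 h))
        have h5 : Inv T (Y ⊓ cy T r E) := fun v hv => ⟨y2 v hv.1, hUi v hv.2⟩
        obtain ⟨k, hk, -⟩ := Ti.dims hr hrq hT _ (Y ⊓ cy T r E) rfl h5 (fun v hv => hMf v (y1 hv.1))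
        rw [← hc] at hk
        have hk0 : k ≠ 0 := by
          rintro rfl
          rw [mul_zero] at hk
          have h6 : Y ⊓ cy T r E = ⊥ := Submodule.finrank_eq_zero.1 hk
          have h7 : T m - m ∈ Y ⊓ cy T r E := ⟨h3, h2⟩
          rw [h6] at h7
          exact h4 ((Submodule.mem_bot F).1 h7)
        have h6 : Y ⊓ cy T r E = Y := by
          apply Submodule.eq_of_le_of_finrank_le inf_le_left
          rw [y3, hk]
          exact Nat.le_mul_of_pos_right _ (Nat.pos_of_ne_zero hk0)
        have h7 : Y ≤ cy T r E := by rw [← h6]; exact inf_le_right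
        apply sup_le h7
        rw [Submodule.span_singleton_le_iff_mem]
        have := (cy T r E).sub_mem h1 (h7 hm)
        rwa [add_sub_cancel_left] at this
    have h2 := ih M' C' (m1.trans hM) (hC'C.trans hC) m2 (by rw [mul_add, mul_one] at hd; omega) (by omega)
    have h3 := hU.sup h2
    rw [hUeq] at h3
    have h4 : (Y ⊔ Submodule.span F {u}) ⊔ (M' ⊔ C') = M ⊔ C := by
      rw [← m4, ← hCs, sup_sup_sup_comm]
    rw [h4] at h3
    have h5 : r + (finrank F M' + finrank F C') = finrank F M + finrank F C := by omega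
    rw [h5] at h3
    exact h3

/-- **counting orbits** -/
theorem orbits (hr : r.Prime) (hrq : ¬ r ∣ Fintype.card F) (hr1 : ¬ r ∣ Fintype.card F - 1) {T : V →ₗ[F] V} (hT : T ^ r = 1) {t : ℕ}
    (D : Fin t → Submodule F V) (hind : iSupIndep D) (htop : iSup D = ⊤) (ha : ∀ j, finrank F (D j) = 1) (σ : Equiv.Perm (Fin t))
    (hσ : ∀ j, (D j).map T = D (σ j)) : t ≤ r * finrank F (LinearMap.ker (T - 1)) := by
  classical
  obtain ⟨π, h1, h2, h3, h4⟩ := Iso.exists_proj D hind htop
  have hne : ∀ l, D l ≠ ⊥ := by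
    intro l h
    have := ha l
    rw [h, finrank_bot] at this; omega
  have hDinj : ∀ l l', D l = D l' → l = l' := by
    intro l l' h
    by_contra hll
    obtain ⟨v, hv, hv0⟩ := Submodule.exists_mem_ne_zero_of_ne_bot (hne l)
    have e1 := h3 l v hv
    have e2 := h4 l l' hll v (h ▸ hv)
    exact hv0 (by rw [← e1, e2])
  have hTk : ∀ (k : ℕ) (l : Fin t), (D l).map (T ^ k) = D ((σ ^ k) l) := by
    intro k
    induction k with
    | zero => intro l; rw [pow_zero, pow_zero]; exact Submodule.map_id _
    | succ k ih =>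
      intro l
      rw [pow_succ', pow_succ', Equiv.Perm.mul_apply, ← hσ, ← ih, ← Submodule.map_comp]; rfl
  have hσr : ∀ l, (σ ^ r) l = l := by
    intro l
    apply hDinj
    rw [← hTk, hT]
    exact Submodule.map_id _
  have hσ1 : σ ^ r = 1 := Equiv.ext hσr
  choose e he he0 using fun l => Submodule.exists_mem_ne_zero_of_ne_bot (hne l)
  have hper : ∀ j, σ j ≠ j → ∀ k : ℕ, 0 < k → k < r → (σ ^ k) j ≠ j := by
    intro j hj k hk0 hkr h
    have hdvd : Function.minimalPeriod σ j ∣ r := by
      apply Function.IsPeriodicPt.minimalPeriod_dvd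
      show (σ^[r]) j = j
      rw [← Equiv.Perm.coe_pow]
      exact hσr j
    have hdvd2 : Function.minimalPeriod σ j ∣ k := by
      apply Function.IsPeriodicPt.minimalPeriod_dvd
      show (σ^[k]) j = j
      rw [← Equiv.Perm.coe_pow]
      exact h
    rcases (Nat.dvd_prime hr).1 hdvd with h5 | h5
    · rw [Function.minimalPeriod_eq_one_iff_isFixedPt] at h5
      exact hj h5
    · rw [h5] at hdvd2
      exact absurd (Nat.le_of_dvd hk0 hdvd2) (by omega)
  -- fixed lines are pointwise fixed
  have hfixed : ∀ j, σ j = j → T (e j) = e j := by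
    intro j hj
    have h5 : T (e j) ∈ D j := by
      have : T (e j) ∈ D (σ j) := by rw [← hσ]; exact ⟨e j, he j, rfl⟩
      rwa [hj] at this
    obtain ⟨l, hl⟩ : ∃ l : F, l • e j = T (e j) := by
      have h6 : Submodule.span F {e j} = D j := by
        apply Submodule.eq_of_le_of_finrank_eq ((Submodule.span_singleton_le_iff_mem _ _).2 (he j))
        rw [finrank_span_singleton (he0 j), ha]
      rw [← h6] at h5
      exact Submodule.mem_span_singleton.1 h5
    have h7 : ∀ k : ℕ, (T ^ k) (e j) = l ^ k • e j := by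
      intro k
      induction k with
      | zero => rw [pow_zero, pow_zero, one_smul]; rfl
      | succ k ih => rw [pow_succ', Module.End.mul_apply, ih, _root_.map_smul, ← hl, smul_smul, pow_succ]
    have h8 := h7 r
    rw [hT] at h8
    have h9 : l ^ r = 1 := by
      by_contra hne
      have h10 : (l ^ r - 1) • e j = 0 := by
        rw [sub_smul, ← h8, one_smul]
        exact sub_self _
      rcases smul_eq_zero.1 h10 with h | h
      · exact hne (sub_eq_zero.1 h)
      · exact he0 j h
    have hl0 : l ≠ 0 := by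
      rintro rfl
      rw [zero_pow hr.ne_zero] at h9
      exact zero_ne_one h9
    have h10 : l ^ (Fintype.card F - 1) = 1 := FiniteField.pow_card_sub_one_eq_one l hl0
    have h11 : orderOf l ∣ 1 := by
      have hg : Nat.Coprime r (Fintype.card F - 1) := (Nat.Prime.coprime_iff_not_dvd hr).2 hr1
      rw [← hg]
      exact Nat.dvd_gcd (orderOf_dvd_of_pow_eq_one h9) (orderOf_dvd_of_pow_eq_one h10)
    have h12 : l = 1 := orderOf_eq_one_iff.1 (Nat.dvd_one.1 h11)
    rw [← hl, h12, one_smul]
  let Q := Quotient (Equiv.Perm.SameCycle.setoid σ)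
  have : Fintype Q := Fintype.ofFinite Q
  let P : V →ₗ[F] V := ∑ k ∈ Finset.range r, T ^ k
  have hP : ∀ v, P v = ∑ k ∈ Finset.range r, (T ^ k) v := fun v => by
    show (∑ k ∈ Finset.range r, T ^ k) v = _
    rw [LinearMap.sum_apply]
  let w : Q → LinearMap.ker (T - 1) := fun ω => ⟨P (e ω.out), by
    rw [LinearMap.mem_ker, ← Module.End.mul_apply, mul_geom_sum, hT, sub_self]; rfl⟩
  have hproj0 : ∀ ω ω' : Q, ω ≠ ω' → π ω.out (w ω' : V) = 0 := by
    intro ω ω' hne
    show π ω.out (P (e ω'.out)) = 0
    rw [hP, _root_.map_sum]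
    apply Finset.sum_eq_zero
    intro k _
    have hmem : (T ^ k) (e ω'.out) ∈ D ((σ ^ k) ω'.out) := by rw [← hTk]; exact ⟨_, he _, rfl⟩
    apply h4 _ _ _ _ hmem
    intro h
    apply hne
    rw [← Quotient.out_eq ω, ← Quotient.out_eq ω']
    apply Quotient.sound
    show σ.SameCycle ω.out ω'.out
    have : σ.SameCycle ω'.out ω.out := ⟨k, by rw [h, zpow_natCast]⟩
    exact this.symm
  have hproj1 : ∀ ω : Q, π ω.out (w ω : V) ≠ 0 := by
    intro ω
    show π ω.out (P (e ω.out)) ≠ 0
    rw [hP, _root_.map_sum]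
    by_cases hj : σ ω.out = ω.out
    · have h5 : ∀ k : ℕ, (T ^ k) (e ω.out) = e ω.out := by
        intro k
        induction k with
        | zero => rfl
        | succ k ih => rw [pow_succ', Module.End.mul_apply, ih, hfixed _ hj]
      rw [Finset.sum_congr rfl (fun k _ => by rw [h5 k, h3 _ _ (he _)]), Finset.sum_const, Finset.card_range, ← Nat.cast_smul_eq_nsmul F]
      exact smul_ne_zero (Iso.natCast_ne_zero hr hrq) (he0 _)
    · rw [Finset.sum_eq_single 0]
      · rw [pow_zero, Module.End.one_apply, h3 _ _ (he _)]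
        exact he0 _
      · intro k hk hk0
        rw [Finset.mem_range] at hk
        have hmem : (T ^ k) (e ω.out) ∈ D ((σ ^ k) ω.out) := by rw [← hTk]; exact ⟨_, he _, rfl⟩
        apply h4 _ _ _ _ hmem
        exact fun h => hper _ hj k (Nat.pos_of_ne_zero hk0) hk h.symm
      · intro h; exact absurd (Finset.mem_range.2 hr.pos) h
  have hli : LinearIndependent F w := by
    rw [Fintype.linearIndependent_iff]
    intro g hg ω
    have h5 := congrArg (fun v : LinearMap.ker (T - 1) => π ω.out (v : V)) hg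
    simp only [Submodule.coe_sum, Submodule.coe_smul, _root_.map_sum, _root_.map_smul, Submodule.coe_zero, _root_.map_zero] at h5
    rw [Finset.sum_eq_single ω] at h5
    · exact (smul_eq_zero.1 h5).resolve_right (hproj1 ω)
    · intro ω' _ hne
      rw [hproj0 ω ω' (Ne.symm hne), smul_zero]
    · intro h; exact absurd (Finset.mem_univ _) h
  have hcard := hli.fintype_card_le_finrank
  have hsurj : Function.Surjective (fun x : Q × Fin r => (σ ^ (x.2 : ℕ)) x.1.out) := by
    intro l
    have h5 : σ.SameCycle (Quotient.mk (Equiv.Perm.SameCycle.setoid σ) l).out l := Quotient.mk_out (s := Equiv.Perm.SameCycle.setoid σ) l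
    obtain ⟨k, hk, hk'⟩ := h5.exists_pow_eq'
    have hk2 : orderOf σ ≤ r := Nat.le_of_dvd hr.pos (orderOf_dvd_of_pow_eq_one hσ1)
    exact ⟨(Quotient.mk (Equiv.Perm.SameCycle.setoid σ) l, ⟨k, by omega⟩), hk'⟩
  have h6 := Fintype.card_le_of_surjective _ hsurj
  rw [Fintype.card_prod, Fintype.card_fin, Fintype.card_fin, mul_comm] at h6
  exact h6.trans (Nat.mul_le_mul_left r hcard)

end fin

/-! ### irreducible case -/

section irr

open Polynomial

variable [Fintype F] {x : V →ₗ[F] V} {z : F}

theorem coprime_of_lt {P g : F[X]} (hP : Irreducible P) (hg : g ≠ 0) (hd : g.natDegree < P.natDegree) : IsCoprime g P := by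
  rw [isCoprime_comm, hP.coprime_iff_not_dvd]
  intro h
  have := natDegree_le_of_dvd h hg
  omega

theorem aeval_inv {X : Submodule F V} (hX : Inv x X) (g : F[X]) {v : V} (hv : v ∈ X) : aeval x g v ∈ X := Iso.aeval_mem x X hX g v hv

theorem cy_single (hr : 0 < r) (hP : Irreducible (X ^ r - C z : F[X])) (hx : ∀ v, (x ^ r) v = z • v) {Y : Submodule F V} (hY : Inv x Y) {v : V} (hv : v ∉ Y) :
    Disjoint Y (cy x r (Submodule.span F {v})) ∧ finrank F (cy x r (Submodule.span F {v})) = r := by
  have hdeg : (X ^ r - C z : F[X]).natDegree = r := natDegree_X_pow_sub_C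
  have hkill : aeval x (X ^ r - C z : F[X]) v = 0 := by
    rw [_root_.map_sub, _root_.map_pow, aeval_X, aeval_C, LinearMap.sub_apply, hx, Module.algebraMap_end_apply, sub_self]
  -- elements of the cyclic space
  let φ : (Fin r → F) →ₗ[F] V := Fintype.linearCombination F (fun i : Fin r => (x ^ (i : ℕ)) v)
  have hφ : ∀ c : Fin r → F, φ c = ∑ i, c i • (x ^ (i : ℕ)) v := fun c => rfl
  have hcy : cy x r (Submodule.span F {v}) = LinearMap.range φ := by
    apply le_antisymm
    · apply iSup_le
      rintro i _ ⟨w, hw, rfl⟩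
      obtain ⟨a, rfl⟩ := Submodule.mem_span_singleton.1 hw
      refine ⟨Pi.single i a, ?_⟩
      rw [hφ, Finset.sum_eq_single i]
      · rw [Pi.single_eq_same, _root_.map_smul]
      · intro k _ hk
        rw [Pi.single_eq_of_ne hk, zero_smul]
      · intro h; exact absurd (Finset.mem_univ _) h
    · rintro _ ⟨c, rfl⟩
      rw [hφ]
      exact Submodule.sum_mem _ fun i _ => Submodule.smul_mem _ _ (mem_cy (Submodule.mem_span_singleton_self v) i i.2)
  have key : ∀ c : Fin r → F, φ c ∈ Y → c = 0 := by
    intro c hc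
    by_contra hne
    let g : F[X] := ∑ i : Fin r, C (c i) * X ^ (i : ℕ)
    have hg : aeval x g v = φ c := by
      rw [hφ, _root_.map_sum, LinearMap.sum_apply]
      refine Finset.sum_congr rfl fun i _ => ?_
      rw [_root_.map_mul, aeval_C, _root_.map_pow, aeval_X, Module.End.mul_apply, Module.algebraMap_end_apply]
    have hcoef : ∀ i : Fin r, g.coeff i = c i := by
      intro i
      show (∑ i : Fin r, C (c i) * X ^ (i : ℕ) : F[X]).coeff i = c i
      rw [finsetSum_coeff, Finset.sum_eq_single i]
      · rw [coeff_C_mul, coeff_X_pow_self, mul_one]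
      · intro k _ hk
        rw [coeff_C_mul, coeff_X_pow, if_neg (fun h => hk (Fin.ext h.symm)), mul_zero]
      · intro h; exact absurd (Finset.mem_univ _) h
    have hg0 : g ≠ 0 := by
      intro h
      apply hne
      funext i
      rw [← hcoef, h, coeff_zero]; rfl
    have hgd : g.natDegree < r := by
      have h1 : g.degree < r := degree_sum_fin_lt c
      rwa [natDegree_lt_iff_degree_lt hg0]
    obtain ⟨a, b, hab⟩ := coprime_of_lt hP hg0 (by rw [hdeg]; exact hgd)
    apply hv
    have h2 : v = aeval x (a * g + b * (X ^ r - C z)) v := by rw [hab, _root_.map_one]; rfl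
    rw [h2, _root_.map_add, LinearMap.add_apply, _root_.map_mul, Module.End.mul_apply, _root_.map_mul, Module.End.mul_apply, hkill, _root_.map_zero, add_zero, hg]
    exact aeval_inv hY a hc
  constructor
  · rw [hcy, Submodule.disjoint_def]
    rintro _ hy ⟨c, rfl⟩
    rw [key c hy, _root_.map_zero]
  · rw [hcy, LinearMap.finrank_range_of_inj, finrank_fintype_fun_eq_card, Fintype.card_fin]
    rw [← LinearMap.ker_eq_bot, LinearMap.ker_eq_bot']
    intro c hc
    exact key c (by rw [hc]; exact Y.zero_mem)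

theorem map_pow_le (hx : ∀ v, (x ^ r) v = z • v) (E : Submodule F V) : E.map (x ^ r) ≤ E := by
  rintro _ ⟨v, hv, rfl⟩
  rw [hx]; exact E.smul_mem _ hv

/-- subspaces spreading out freely -/
theorem exists_E (hr : 0 < r) (hP : Irreducible (X ^ r - C z : F[X])) (hx : ∀ v, (x ^ r) v = z • v) {W : Submodule F V} (hW : Inv x W) :
    ∀ κ : ℕ, r * κ ≤ finrank F W → ∃ E ≤ W, finrank F E = κ ∧ finrank F (cy x r E) = r * κ := by
  intro κ
  induction κ with
  | zero =>
    intro _
    refine ⟨⊥, bot_le, finrank_bot F V, ?_⟩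
    have : cy x r (⊥ : Submodule F V) = ⊥ := by
      unfold cy
      simp
    rw [this, finrank_bot, mul_zero]
  | succ κ ih =>
    intro hκ
    rw [mul_add, mul_one] at hκ
    obtain ⟨E, e1, e2, e3⟩ := ih (by omega)
    have hEi := cy_inv hr (map_pow_le hx E)
    obtain ⟨v, hvW, hv⟩ : ∃ v ∈ W, v ∉ cy x r E := by
      by_contra hcon
      push Not at hcon
      have := Submodule.finrank_mono (show W ≤ cy x r E from hcon)
      omega
    have hEle : E ≤ cy x r E := fun u hu => mem_cy (x := x) hu 0 hr
    obtain ⟨d1, d2⟩ := cy_single hr hP hx hEi hv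
    have hv0 : v ≠ 0 := fun h => hv (by rw [h]; exact Submodule.zero_mem _)
    refine ⟨E ⊔ Submodule.span F {v}, sup_le e1 ((Submodule.span_singleton_le_iff_mem _ _).2 hvW), ?_, ?_⟩
    · have h1 := Submodule.finrank_sup_add_finrank_inf_eq E (Submodule.span F {v})
      have h2 : E ⊓ Submodule.span F {v} = ⊥ := by
        rw [eq_bot_iff]
        rintro u ⟨hu, hu'⟩
        obtain ⟨a, rfl⟩ := Submodule.mem_span_singleton.1 hu'
        by_cases ha : a = 0
        · rw [ha, zero_smul]; exact Submodule.zero_mem _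
        · exfalso
          apply hv
          have := (cy x r E).smul_mem a⁻¹ (hEle hu)
          rwa [smul_smul, inv_mul_cancel₀ ha, one_smul] at this
      rw [h2, finrank_bot, add_zero, finrank_span_singleton hv0, e2] at h1
      exact h1
    · rw [cy_sup]
      have h1 := Submodule.finrank_sup_add_finrank_inf_eq (cy x r E) (cy x r (Submodule.span F {v}))
      rw [d1.eq_bot, finrank_bot, add_zero, d2, e3] at h1
      rw [h1]; ring

theorem irr_ss (hP : Irreducible (X ^ r - C z : F[X])) (hx : ∀ v, (x ^ r) v = z • v) : Module.End.IsSemisimple x := by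
  apply Module.End.isSemisimple_of_squarefree_aeval_eq_zero (p := (X ^ r - C z : F[X])) hP.squarefree
  apply LinearMap.ext
  intro v
  rw [_root_.map_sub, _root_.map_pow, aeval_X, aeval_C, LinearMap.sub_apply, hx, Module.algebraMap_end_apply, sub_self]; rfl

theorem irr_dvd (hr : 0 < r) (hP : Irreducible (X ^ r - C z : F[X])) (hx : ∀ v, (x ^ r) v = z • v) {W : Submodule F V} (hW : Inv x W) : r ∣ finrank F W := by
  obtain ⟨E, e1, e2, e3⟩ := exists_E hr hP hx hW (finrank F W / r) (Nat.mul_div_le _ _)
  have h1 := cy_le (r := r) hW e1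
  by_cases h : cy x r E = W
  · rw [← h, e3]; exact dvd_mul_right _ _
  · exfalso
    have h2 : cy x r E < W := lt_of_le_of_ne h1 h
    obtain ⟨v, hvW, hv⟩ := SetLike.exists_of_lt h2
    obtain ⟨d1, d2⟩ := cy_single hr hP hx (cy_inv hr (map_pow_le hx E)) hv
    have h3 := Submodule.finrank_sup_add_finrank_inf_eq (cy x r E) (cy x r (Submodule.span F {v}))
    rw [d1.eq_bot, finrank_bot, add_zero, d2, e3] at h3
    have h4 : cy x r E ⊔ cy x r (Submodule.span F {v}) ≤ W := sup_le h1 (cy_le hW ((Submodule.span_singleton_le_iff_mem _ _).2 hvW))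
    have h5 := Submodule.finrank_mono h4
    have h6 := Nat.div_add_mod (finrank F W) r
    have h7 := Nat.mod_lt (finrank F W) hr
    omega

theorem irr_inj (hr : 0 < r) (hz : z ≠ 0) (hx : ∀ v, (x ^ r) v = z • v) : Function.Injective x := by
  intro u v huv
  have h1 : (x ^ (r - 1)) (x u) = (x ^ (r - 1)) (x v) := by rw [huv]
  have h2 : ∀ v, (x ^ (r - 1)) (x v) = z • v := by
    intro v
    rw [← hx, ← Module.End.mul_apply, ← pow_succ, Nat.sub_add_cancel hr]
  rw [h2, h2] at h1
  exact smul_right_injective V hz h1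

/-- the case `r ∣ a` -/
theorem irr_dec_a (hr : 0 < r) (hz : z ≠ 0) (hP : Irreducible (X ^ r - C z : F[X])) (hx : ∀ v, (x ^ r) v = z • v) {a : ℕ} (hra : r ∣ a) :
    ∀ t : ℕ, ∀ W : Submodule F V, Inv x W → finrank F W = t * a → Dec x a t W := by
  obtain ⟨a', rfl⟩ := hra
  have hinj := irr_inj hr hz hx
  intro t
  induction t with
  | zero =>
    intro W _ hd
    rw [zero_mul] at hd
    rw [Submodule.finrank_eq_zero.1 hd]
    exact Dec.bot x _
  | succ t ih =>
    intro W hW hd
    rw [add_mul, one_mul] at hd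
    obtain ⟨E, e1, e2, e3⟩ := exists_E hr hP hx hW a' (by omega)
    obtain ⟨Z, z1, z2, z3, z4, z5⟩ := Ti.compl_in (irr_ss hP hx) hW (cy_inv hr (map_pow_le hx E)) (cy_le hW e1)
    have h1 : Dec x (r * a') 1 (cy x r E) := Dec.one (by
      apply Submodule.eq_of_le_of_finrank_eq
      · rintro _ ⟨v, hv, rfl⟩
        exact cy_inv hr (map_pow_le hx E) v hv
      · exact (Submodule.equivMapOfInjective x hinj _).finrank_eq.symm) e3
    have h2 := h1.sup (ih Z z2 (by omega))
    rw [z4, add_comm] at h2
    exact h2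

/-- the case `r ∣ t` -/
theorem irr_dec_t (hr : 0 < r) (hz : z ≠ 0) (hP : Irreducible (X ^ r - C z : F[X])) (hx : ∀ v, (x ^ r) v = z • v) {a : ℕ} :
    ∀ t' : ℕ, ∀ W : Submodule F V, Inv x W → finrank F W = r * t' * a → Dec x a (r * t') W := by
  have hinj := irr_inj hr hz hx
  have hinjk : ∀ k : ℕ, Function.Injective (x ^ k) := by
    intro k
    induction k with
    | zero => exact fun a b h => h
    | succ k ih =>
      intro a b h
      rw [pow_succ', Module.End.mul_apply, Module.End.mul_apply] at h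
      exact ih (hinj h)
  intro t'
  induction t' with
  | zero =>
    intro W _ hd
    rw [mul_zero, zero_mul] at hd
    rw [Submodule.finrank_eq_zero.1 hd, mul_zero]
    exact Dec.bot x _
  | succ t' ih =>
    intro W hW hd
    have hd' : finrank F W = r * t' * a + r * a := by rw [hd]; ring
    obtain ⟨E, e1, e2, e3⟩ := exists_E hr hP hx hW a (by omega)
    obtain ⟨Z, z1, z2, z3, z4, z5⟩ := Ti.compl_in (irr_ss hP hx) hW (cy_inv hr (map_pow_le hx E)) (cy_le hW e1)
    have h1 : Dec x a r (cy x r E) := Dec.cyc hr (fun i => by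
      rw [← (Submodule.equivMapOfInjective _ (hinjk i) E).finrank_eq, e2]) (by
      apply Submodule.eq_of_le_of_finrank_eq (map_pow_le hx E)
      exact (Submodule.equivMapOfInjective _ (hinjk r) _).finrank_eq.symm)
    have h2 := h1.sup (ih Z z2 (by omega))
    rw [z4] at h2
    have h3 : r + r * t' = r * (t' + 1) := by ring
    rw [h3] at h2
    exact h2

theorem irr_dec (hr : r.Prime) (hz : z ≠ 0) (hP : Irreducible (X ^ r - C z : F[X])) (hx : ∀ v, (x ^ r) v = z • v) {a t : ℕ} (hn : finrank F V = t * a) :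
    Dec x a t ⊤ := by
  have h1 : r ∣ finrank F (⊤ : Submodule F V) := irr_dvd hr.pos hP hx (fun v _ => trivial)
  rw [finrank_top, hn] at h1
  rcases (Nat.Prime.dvd_mul hr).1 h1 with h | h
  · obtain ⟨t', rfl⟩ := h
    exact irr_dec_t hr.pos hz hP hx t' ⊤ (fun v _ => trivial) (by rw [finrank_top, hn])
  · exact irr_dec_a hr.pos hz hP hx h t ⊤ (fun v _ => trivial) (by rw [finrank_top, hn])

end irr

end H99.Imp
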