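import Mathlib
import Cfsg.Agent.Lib.H99.Imp2

set_option autoImplicit false
set_option linter.unusedSimpArgs false
set_option linter.unusedSectionVars false
set_option linter.unusedVariables false

/-! The criterion for imprimitive subgroups. -/

namespace H99.Imp

open Module H99.Ti Matrix

universe u

variable {F : Type u} [Field F] [Fintype F] {n a t r : ℕ}

/-- a decomposition permuted by `f` -/
def HasD (a t : ℕ) (f : (Fin n → F) →ₗ[F] (Fin n → F)) : Prop :=
  ∃ D : Fin t → Submodule F (Fin n → F), Cfsg.Geo.IsMDecomposition a D ∧ ∃ σ : Equiv.Perm (Fin t), ∀ j, (D j).map f = D (σ j)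

theorem hasD_of_dec (ha : 0 < a) (ht : 2 ≤ t) (hn : n = t * a) {f : (Fin n → F) →ₗ[F] (Fin n → F)} (h : Dec f a t ⊤) : HasD a t f := by
  obtain ⟨D, d1, d2, d3, d4⟩ := h.fin (by rw [finrank_fintype_fun_eq_card, Fintype.card_fin, hn])
  exact ⟨D, ⟨ht, ha, d1, d2, d3⟩, d4⟩

theorem hasD_smul {f : (Fin n → F) →ₗ[F] (Fin n → F)} {w : F} (hw : w ≠ 0) : HasD a t (w • f) ↔ HasD a t f := by
  constructor
  · rintro ⟨D, d1, σ, d2⟩
    exact ⟨D, d1, σ, fun j => by rw [← d2, Submodule.map_smul _ _ _ hw]⟩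
  · rintro ⟨D, d1, σ, d2⟩
    exact ⟨D, d1, σ, fun j => by rw [← d2, Submodule.map_smul _ _ _ hw]⟩

theorem coprime_pow_one {m : ℕ} (hr : r.Prime) (hr1 : ¬ r ∣ Fintype.card F - 1) {l : F} (h : l ^ r = 1) : l = 1 := by
  have hl0 : l ≠ 0 := by
    rintro rfl
    rw [zero_pow hr.ne_zero] at h
    exact zero_ne_one h
  have h10 : l ^ (Fintype.card F - 1) = 1 := FiniteField.pow_card_sub_one_eq_one l hl0
  have h11 : orderOf l ∣ 1 := by
    have hg : Nat.Coprime r (Fintype.card F - 1) := (Nat.Prime.coprime_iff_not_dvd hr).2 hr1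
    rw [← hg]
    exact Nat.dvd_gcd (orderOf_dvd_of_pow_eq_one h) (orderOf_dvd_of_pow_eq_one h10)
  exact orderOf_eq_one_iff.1 (Nat.dvd_one.1 h11)

theorem exists_root (hr : r.Prime) (hr1 : ¬ r ∣ Fintype.card F - 1) {z : F} (hz : z ≠ 0) : ∃ w : F, w ≠ 0 ∧ w ^ r = z := by
  classical
  have hcard : Nat.card Fˣ = Fintype.card F - 1 := by rw [Nat.card_eq_fintype_card, Fintype.card_units]
  have hcop : (Nat.card Fˣ).Coprime r := by
    rw [hcard]
    exact ((Nat.Prime.coprime_iff_not_dvd hr).2 hr1).symm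
  obtain ⟨w, hw⟩ := (powCoprime hcop).surjective (Units.mk0 z hz)
  refine ⟨w, w.ne_zero, ?_⟩
  have h1 : w ^ r = Units.mk0 z hz := hw
  have := congrArg (fun u : Fˣ => (u : F)) h1
  simpa using this

/-- passing to elements of order `r` -/
theorem sl_iff (hn : 1 ≤ n) (hr : r.Prime) (hr1 : ¬ r ∣ Fintype.card F - 1) :
    (∀ x : Matrix.SpecialLinearGroup (Fin n) F,
      (∃ z : F, ((x ^ r : Matrix.SpecialLinearGroup (Fin n) F) : Matrix (Fin n) (Fin n) F) = z • (1 : Matrix (Fin n) (Fin n) F)) →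
      (∀ z : F, (x : Matrix (Fin n) (Fin n) F) ≠ z • (1 : Matrix (Fin n) (Fin n) F)) → HasD a t (Matrix.toLin' (x : Matrix (Fin n) (Fin n) F))) ↔
    (∀ f : (Fin n → F) →ₗ[F] (Fin n → F), f ^ r = 1 → f ≠ 1 → HasD a t f) := by
  have : Nonempty (Fin n) := ⟨⟨0, hn⟩⟩
  constructor
  · intro H f hfr hf1
    have hpow : (LinearMap.toMatrix' f) ^ r = 1 := by
      apply Matrix.toLin'.injective
      rw [Matrix.toLin'_pow, Matrix.toLin'_toMatrix', hfr, Matrix.toLin'_one]; rfl
    have hdet : (LinearMap.toMatrix' f).det = 1 := by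
      apply coprime_pow_one (m := 0) hr hr1
      rw [← Matrix.det_pow, hpow, Matrix.det_one]
    let x : Matrix.SpecialLinearGroup (Fin n) F := ⟨LinearMap.toMatrix' f, hdet⟩
    have hx : (x : Matrix (Fin n) (Fin n) F) = LinearMap.toMatrix' f := rfl
    have h1 := H x ⟨1, by
      rw [Matrix.SpecialLinearGroup.coe_pow, one_smul, hx]
      exact hpow⟩ (by
      intro z hz
      have hz' : LinearMap.toMatrix' f = z • (1 : Matrix (Fin n) (Fin n) F) := hz
      have h2 : f = z • (1 : (Fin n → F) →ₗ[F] (Fin n → F)) := by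
        apply LinearMap.toMatrix'.injective
        rw [hz', _root_.map_smul]
        congr 1
        exact LinearMap.toMatrix'_one.symm
      have h3 : z ^ r = 1 := by
        have h4 := hfr
        rw [h2, smul_pow, one_pow] at h4
        have h5 := congrArg (fun g : (Fin n → F) →ₗ[F] (Fin n → F) => g (fun _ => 1) (Classical.arbitrary (Fin n))) h4
        simpa using h5
      apply hf1
      rw [h2, coprime_pow_one (m := 0) hr hr1 h3, one_smul])
    have h2 : Matrix.toLin' (LinearMap.toMatrix' f) = f := Matrix.toLin'_toMatrix' f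
    have h3 : HasD a t (Matrix.toLin' (LinearMap.toMatrix' f)) := h1
    rwa [h2] at h3
  · intro H x hz hnz
    obtain ⟨z, hz⟩ := hz
    have hz0 : z ≠ 0 := by
      rintro rfl
      have h1 := (x ^ r).2
      have h2 : ((x ^ r : Matrix.SpecialLinearGroup (Fin n) F) : Matrix (Fin n) (Fin n) F).det = 1 := h1
      rw [hz, zero_smul, Matrix.det_zero] at h2
      exact zero_ne_one h2
    obtain ⟨w, hw0, hw⟩ := exists_root hr hr1 (inv_ne_zero hz0)
    set f := Matrix.toLin' (x : Matrix (Fin n) (Fin n) F) with hf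
    have hfr : f ^ r = z • 1 := by
      rw [hf, ← Matrix.toLin'_pow, ← Matrix.SpecialLinearGroup.coe_pow, hz, _root_.map_smul, Matrix.toLin'_one]; rfl
    rw [← hasD_smul hw0]
    apply H
    · rw [smul_pow, hw, hfr, smul_smul, inv_mul_cancel₀ hz0, one_smul]
    · intro h
      apply hnz w⁻¹
      apply Matrix.toLin'.injective
      rw [← hf, _root_.map_smul, Matrix.toLin'_one]
      have h1 : w⁻¹ • (w • f) = w⁻¹ • 1 := by rw [h]
      rw [smul_smul, inv_mul_cancel₀ hw0, one_smul] at h1
      exact h1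

/-- the case `r ∣ q - 1` -/
theorem case_one (ha : 0 < a) (ht : 2 ≤ t) (hn : n = t * a) (hr : r.Prime) (hrq : ¬ r ∣ Fintype.card F)
    (hc : orderOf ((Fintype.card F : ℕ) : ZMod r) = 1) (x : Matrix.SpecialLinearGroup (Fin n) F) {z : F}
    (hz : ((x ^ r : Matrix.SpecialLinearGroup (Fin n) F) : Matrix (Fin n) (Fin n) F) = z • (1 : Matrix (Fin n) (Fin n) F)) :
    HasD a t (Matrix.toLin' (x : Matrix (Fin n) (Fin n) F)) := by
  have hn1 : 0 < n := by rw [hn]; positivity
  have : Nonempty (Fin n) := ⟨⟨0, hn1⟩⟩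
  have hz0 : z ≠ 0 := by
    rintro rfl
    have h2 : ((x ^ r : Matrix.SpecialLinearGroup (Fin n) F) : Matrix (Fin n) (Fin n) F).det = 1 := (x ^ r).2
    rw [hz, zero_smul, Matrix.det_zero] at h2
    exact zero_ne_one h2
  set f := Matrix.toLin' (x : Matrix (Fin n) (Fin n) F) with hf
  have hfr : f ^ r = z • 1 := by
    rw [hf, ← Matrix.toLin'_pow, ← Matrix.SpecialLinearGroup.coe_pow, hz, _root_.map_smul, Matrix.toLin'_one]; rfl
  have hd : finrank F (Fin n → F) = t * a := by rw [finrank_fintype_fun_eq_card, Fintype.card_fin, hn]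
  by_cases hw : ∃ w : F, w ^ r = z
  · obtain ⟨w, hw⟩ := hw
    have hw0 : w ≠ 0 := by
      rintro rfl
      rw [zero_pow hr.ne_zero] at hw
      exact hz0 hw.symm
    rw [← hasD_smul (inv_ne_zero hw0)]
    apply hasD_of_dec ha ht hn
    refine dec_top hr hrq (c := 1) ?_ hc.symm Nat.one_pos hd ?_
    · rw [smul_pow, inv_pow, hw, hfr, smul_smul, inv_mul_cancel₀ hz0, one_smul]
    · rw [Nat.mod_one, Nat.mod_one, mul_zero]
  · push Not at hw
    apply hasD_of_dec ha ht hn
    refine irr_dec hr hz0 (X_pow_sub_C_irreducible_of_prime hr hw) (fun v => ?_) hd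
    rw [hfr]; rfl

/-- the number of decompositions and elements of order `r` -/
theorem le_of_dvd (ha : 0 < a) (ht : 2 ≤ t) (hn : n = t * a) (hr : r.Prime) (hrq : ¬ r ∣ Fintype.card F)
    (hΩ : r ∣ Nat.card {D : Fin t → Submodule F (Fin n → F) // Cfsg.Geo.IsMDecomposition a D} / Nat.factorial t) :
    orderOf ((Fintype.card F : ℕ) : ZMod r) ≤ n := by
  classical
  have hr' : Fact r.Prime := ⟨hr⟩
  have hd : finrank F (Fin n → F) = t * a := by rw [finrank_fintype_fun_eq_card, Fintype.card_fin, hn]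
  have hinj : ∀ D : Fin t → Submodule F (Fin n → F), Cfsg.Geo.IsMDecomposition a D → Function.Injective D := by
    intro D hD
    apply hD.indep.injective
    intro j h
    have := hD.finrank_eq j
    rw [h, finrank_bot] at this
    omega
  have h1 : Nat.factorial t ∣ Nat.card {D : Fin t → Submodule F (Fin n → F) // Cfsg.Geo.IsMDecomposition a D} :=
    Iso.factorial_dvd _ hinj (fun D σ hD => ⟨hD.two_le, hD.pos, fun j => hD.finrank_eq _, hD.indep.comp σ.injective, by
      rw [← hD.iSup_eq_top]; exact σ.iSup_comp⟩)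
  have h2 : r ∣ Nat.card {D : Fin t → Submodule F (Fin n → F) // Cfsg.Geo.IsMDecomposition a D} := hΩ.trans (Nat.div_dvd_of_dvd h1)
  -- a decomposition
  have hi0 : 0 < orderOf ((Fintype.card F : ℕ) : ZMod r) := by
    have h1 : ((Fintype.card F : ℕ) : ZMod r) ≠ 0 := by
      intro h; exact hrq ((ZMod.natCast_eq_zero_iff _ _).1 h)
    have := orderOf_pos (Units.mk0 _ h1)
    rwa [← orderOf_units, Units.val_mk0] at this
  obtain ⟨D0, hD0, -⟩ : HasD (n := n) (F := F) a t 1 := by
    apply hasD_of_dec ha ht hn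
    have h3 := dec_inv (V := Fin n → F) hr hrq (T := 1) (one_pow r) rfl hi0 (a := a) t ⊥ ⊤ bot_le (by rw [sub_self, LinearMap.ker_zero]) (inv_bot _)
      (by rw [finrank_bot, finrank_top, hd, zero_add]) (by rw [finrank_bot]; exact Nat.zero_le _)
    rwa [bot_sup_eq] at h3
  have hfinV : Finite (Fin n → F) := Module.finite_of_finite F
  have hfin : Finite ((Fin n → F) ≃ₗ[F] (Fin n → F)) := Finite.of_injective (fun g : (Fin n → F) ≃ₗ[F] (Fin n → F) => (g : (Fin n → F) → (Fin n → F))) DFunLike.coe_injective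
  have hmapD : ∀ (g : (Fin n → F) ≃ₗ[F] (Fin n → F)) (D : Fin t → Submodule F (Fin n → F)), Cfsg.Geo.IsMDecomposition a D →
      Cfsg.Geo.IsMDecomposition a (fun j => (D j).map g.toLinearMap) := by
    intro g D hD
    have hs : iSup (fun j => (D j).map g.toLinearMap) = ⊤ := by
      rw [← Submodule.map_iSup]
      rw [show (⨆ i, D i) = ⊤ from hD.iSup_eq_top, Submodule.map_top]
      exact LinearMap.range_eq_top.2 g.surjective
    have hf : ∀ j, finrank F ((D j).map g.toLinearMap) = a := fun j => (LinearEquiv.finrank_map_eq g _).trans (hD.finrank_eq j)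
    exact ⟨hD.two_le, hD.pos, hf, indep_of_dim _ hf hs hd, hs⟩
  have h3 := Iso.card_dvd_of_transitive (G := (Fin n → F) ≃ₗ[F] (Fin n → F)) (X := {D : Fin t → Submodule F (Fin n → F) // Cfsg.Geo.IsMDecomposition a D})
    (fun g D => ⟨fun j => (D.1 j).map g.toLinearMap, hmapD g D.1 D.2⟩) (fun D => Subtype.ext (funext fun j => Submodule.map_id _))
    (fun g h D => Subtype.ext (funext fun j => by
      show (D.1 j).map ((g * h : (Fin n → F) ≃ₗ[F] (Fin n → F)) : (Fin n → F) →ₗ[F] (Fin n → F)) = ((D.1 j).map h.toLinearMap).map g.toLinearMap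
      rw [← Submodule.map_comp]; rfl)) ⟨D0, hD0⟩ (by
      rintro ⟨D, hD⟩
      obtain ⟨g, hg⟩ := Iso.glue D0 D hD0.indep hD0.iSup_eq_top hD.iSup_eq_top (fun j => LinearEquiv.ofFinrankEq _ _ (by rw [hD0.finrank_eq, hD.finrank_eq]))
      refine ⟨g, Subtype.ext (funext fun j => ?_)⟩
      show (D0 j).map g.toLinearMap = D j
      apply Submodule.eq_of_le_of_finrank_eq
      · rintro _ ⟨v, hv, rfl⟩
        have := hg j ⟨v, hv⟩
        show g v ∈ D j
        rw [this]
        exact Subtype.prop _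
      · rw [LinearEquiv.finrank_map_eq g, hD0.finrank_eq, hD.finrank_eq])
  obtain ⟨g, hg⟩ := exists_prime_orderOf_dvd_card' (G := (Fin n → F) ≃ₗ[F] (Fin n → F)) r (h2.trans h3)
  let f : (Fin n → F) →ₗ[F] (Fin n → F) := g.toLinearMap
  have hk : ∀ k : ℕ, ((g ^ k : (Fin n → F) ≃ₗ[F] (Fin n → F)) : (Fin n → F) →ₗ[F] (Fin n → F)) = f ^ k := by
    intro k
    induction k with
    | zero => rfl
    | succ k ih => rw [pow_succ, pow_succ, ← ih]; rfl
  have hfr : f ^ r = 1 := by
    rw [← hk, ← hg, pow_orderOf_eq_one]; rfl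
  have hf1 : f ≠ 1 := by
    intro h1
    have : g = 1 := by
      apply LinearEquiv.ext
      intro v
      exact congrArg (fun φ : (Fin n → F) →ₗ[F] (Fin n → F) => φ v) h1
    rw [this, orderOf_one] at hg
    exact hr.one_lt.ne hg
  obtain ⟨Y, -, -, hY⟩ := Ti.exists_irrsub hr hrq hfr (L := ⊤ ⊓ LinearMap.range (f - 1)) (Iso.mov_inv (X := ⊤) (fun v _ => trivial))
    (fun v hv => Iso.mov_fpf hr hrq hfr v hv) (by
    rw [top_inf_eq]
    intro h0
    apply hf1
    exact sub_eq_zero.1 (LinearMap.range_eq_bot.1 h0))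
  rw [← hY]
  have := Submodule.finrank_le Y
  rwa [finrank_fintype_fun_eq_card, Fintype.card_fin] at this

/-- all members invariant -/
theorem fixed_ge (hr : r.Prime) (hrq : ¬ r ∣ Fintype.card F) {T : (Fin n → F) →ₗ[F] (Fin n → F)} (hT : T ^ r = 1)
    {D : Fin t → Submodule F (Fin n → F)} (hD : Cfsg.Geo.IsMDecomposition a D) (hi : ∀ j, ∀ v ∈ D j, T v ∈ D j) :
    t * (a % orderOf ((Fintype.card F : ℕ) : ZMod r)) ≤ finrank F (LinearMap.ker (T - 1)) := by
  classical
  obtain ⟨π, h1, h2, h3, h4⟩ := Iso.exists_proj D hD.indep hD.iSup_eq_top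
  let φ : (∀ j, (D j ⊓ LinearMap.ker (T - 1) : Submodule F (Fin n → F))) →ₗ[F] LinearMap.ker (T - 1) :=
    LinearMap.codRestrict _ (∑ j, (D j ⊓ LinearMap.ker (T - 1) : Submodule F (Fin n → F)).subtype ∘ₗ LinearMap.proj j) (by
      intro v
      rw [LinearMap.sum_apply]
      exact Submodule.sum_mem _ fun j _ => (v j).2.2)
  have hφ : ∀ v, (φ v : Fin n → F) = ∑ j, (v j : Fin n → F) := by
    intro v
    show (∑ j, (D j ⊓ LinearMap.ker (T - 1) : Submodule F (Fin n → F)).subtype ∘ₗ LinearMap.proj j) v = _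
    rw [LinearMap.sum_apply]; rfl
  have hinj : Function.Injective φ := by
    rw [← LinearMap.ker_eq_bot, LinearMap.ker_eq_bot']
    intro v hv
    funext j
    apply Subtype.ext
    have h5 : π j (φ v : Fin n → F) = v j := by
      rw [hφ, _root_.map_sum, Finset.sum_eq_single j]
      · exact h3 j _ (v j).2.1
      · intro k _ hk
        exact h4 j k (Ne.symm hk) _ (v k).2.1
      · intro h; exact absurd (Finset.mem_univ _) h
    rw [← h5, hv]
    exact _root_.map_zero _
  have h5 := LinearMap.finrank_le_finrank_of_injective hinj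
  rw [Module.finrank_pi_fintype] at h5
  refine le_trans ?_ h5
  have h6 : ∀ j, a % orderOf ((Fintype.card F : ℕ) : ZMod r) ≤ finrank F (D j ⊓ LinearMap.ker (T - 1) : Submodule F (Fin n → F)) := by
    intro j
    have hmi := Iso.mov_inv (T := T) (X := D j) (hi j)
    have hmf := Iso.mov_fpf hr hrq hT (X := D j)
    obtain ⟨s, hs, -⟩ := Ti.dims hr hrq hT _ _ rfl hmi hmf
    have hsup : (D j ⊓ LinearMap.range (T - 1)) ⊔ (D j ⊓ LinearMap.ker (T - 1)) = D j := by
      apply le_antisymm (sup_le inf_le_left inf_le_left)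
      intro x hx
      obtain ⟨a, ha, b, hb, rfl⟩ := Iso.fix_mov hr hrq hT (hi j) x hx
      exact Submodule.add_mem_sup ha hb
    have hle := Submodule.finrank_add_le_finrank_add_finrank (D j ⊓ LinearMap.range (T - 1)) (D j ⊓ LinearMap.ker (T - 1))
    rw [hsup, hD.finrank_eq, hs] at hle
    have h7 : (orderOf ((Fintype.card F : ℕ) : ZMod r) * s + a % orderOf ((Fintype.card F : ℕ) : ZMod r)) ≤ a ∨
        a < orderOf ((Fintype.card F : ℕ) : ZMod r) * s + a % orderOf ((Fintype.card F : ℕ) : ZMod r) := le_or_gt _ _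
    rcases h7 with h7 | h7
    · have := hle
      have h8 : a % orderOf ((Fintype.card F : ℕ) : ZMod r) + orderOf ((Fintype.card F : ℕ) : ZMod r) * s ≤ a := by omega
      omega
    · -- the moved part is bounded by `a`
      exfalso
      have h9 : orderOf ((Fintype.card F : ℕ) : ZMod r) * s ≤ a := by
        rw [← hs, ← hD.finrank_eq j]
        exact Submodule.finrank_mono inf_le_left
      have h10 := Nat.div_add_mod a (orderOf ((Fintype.card F : ℕ) : ZMod r))
      have hc0 : 0 < orderOf ((Fintype.card F : ℕ) : ZMod r) := by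
        have hr' : Fact r.Prime := ⟨hr⟩
        have h1 : ((Fintype.card F : ℕ) : ZMod r) ≠ 0 := by
          intro h; exact hrq ((ZMod.natCast_eq_zero_iff _ _).1 h)
        have := orderOf_pos (Units.mk0 _ h1)
        rwa [← orderOf_units, Units.val_mk0] at this
      have h11 : s ≤ a / orderOf ((Fintype.card F : ℕ) : ZMod r) := by
        rw [Nat.le_div_iff_mul_le hc0, mul_comm]; exact h9
      have h12 := Nat.mul_le_mul_left (orderOf ((Fintype.card F : ℕ) : ZMod r)) h11
      omega
  calc t * (a % orderOf ((Fintype.card F : ℕ) : ZMod r)) = ∑ _j : Fin t, (a % orderOf ((Fintype.card F : ℕ) : ZMod r)) := by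
        rw [Finset.sum_const, Finset.card_univ, Fintype.card_fin, smul_eq_mul]
    _ ≤ _ := Finset.sum_le_sum fun j _ => h6 j

/-- **the criterion** -/
theorem crit (ha : 0 < a) (ht : 2 ≤ t) (hn : n = t * a) (hr : r.Prime) (hrq : ¬ r ∣ Fintype.card F) {c : ℕ}
    (hc : c = orderOf ((Fintype.card F : ℕ) : ZMod r)) (hc1 : 1 < c) (hcn : c ≤ n) (hr1 : ¬ r ∣ Fintype.card F - 1) :
    (∀ f : (Fin n → F) →ₗ[F] (Fin n → F), f ^ r = 1 → f ≠ 1 → HasD a t f) ↔
      ((a = 1 ∧ 1 < c ∧ c = r - 1 ∧ n ≤ (n % c) * r) ∨ (c ≤ a ∧ n % c = t * (a % c))) := by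
  have hd : finrank F (Fin n → F) = t * a := by rw [finrank_fintype_fun_eq_card, Fintype.card_fin, hn]
  have hd' : finrank F (Fin n → F) = n := by rw [finrank_fintype_fun_eq_card, Fintype.card_fin]
  have hr' : Fact r.Prime := ⟨hr⟩
  have hnc := Nat.div_add_mod n c
  have hcr : c ∣ r - 1 := by
    have h1 : ((Fintype.card F : ℕ) : ZMod r) ≠ 0 := by
      intro h; exact hrq ((ZMod.natCast_eq_zero_iff _ _).1 h)
    have h2 := orderOf_dvd_of_pow_eq_one (ZMod.pow_card_sub_one_eq_one h1)
    rw [hc]; exact h2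
  -- the large element
  obtain ⟨f, f1, f2⟩ := realize (V := Fin n → F) hr hrq (n / c) (by rw [← hc, hd']; exact Nat.mul_div_le n c)
  rw [← hc, hd'] at f2
  have hkf : finrank F (LinearMap.ker (f - 1)) = n % c := by omega
  have hmod := Nat.mod_lt n (by omega : 0 < c)
  have hf1 : f ≠ 1 := by
    rintro rfl
    rw [sub_self, LinearMap.ker_zero, finrank_top, hd'] at hkf
    omega
  rcases le_or_gt c a with hca | hca
  · constructor
    · intro H
      right
      refine ⟨hca, ?_⟩
      obtain ⟨D, hD, σ, hσ⟩ := H f f1 hf1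
      have hσ1 : ∀ j, σ j = j := by
        intro j
        by_contra hj
        obtain ⟨h1, -, -⟩ := Iso.perm_fix hr f1 D hD.indep hD.iSup_eq_top hD.finrank_eq ha σ hσ j hj
        omega
      have h1 := fixed_ge hr hrq f1 hD (fun j v hv => by
        have h2 := hσ j
        rw [hσ1] at h2
        rw [← h2]; exact ⟨v, hv, rfl⟩)
      rw [← hc, hkf] at h1
      -- congruence
      have h2 : n % c = (t * (a % c)) % c := by rw [hn, Nat.mul_mod, Nat.mul_mod t (a % c), Nat.mod_mod]
      rw [h2, Nat.mod_eq_of_lt (by omega)]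
    · rintro (⟨h, -⟩ | ⟨-, h⟩)
      · omega
      · intro g g1 g2
        exact hasD_of_dec ha ht hn (dec_top hr hrq g1 hc (by omega) hd (by rw [← hn]; exact h))
  · constructor
    · intro H
      left
      -- a small element
      obtain ⟨g, g1, g2⟩ := realize (V := Fin n → F) hr hrq 1 (by rw [← hc, hd', mul_one]; exact hcn)
      rw [← hc, hd', mul_one] at g2
      have hg1 : g ≠ 1 := by
        rintro rfl
        rw [sub_self, LinearMap.ker_zero, finrank_top, hd'] at g2
        omega
      obtain ⟨D, hD, σ, hσ⟩ := H g g1 hg1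
      obtain ⟨j, hj⟩ : ∃ j, σ j ≠ j := by
        by_contra hcon
        push Not at hcon
        have h1 := fixed_ge hr hrq g1 hD (fun j v hv => by
          have h2 := hσ j
          rw [hcon] at h2
          rw [← h2]; exact ⟨v, hv, rfl⟩)
        rw [← hc, Nat.mod_eq_of_lt hca, ← hn] at h1
        omega
      obtain ⟨-, p2, p3⟩ := Iso.perm_fix hr g1 D hD.indep hD.iSup_eq_top hD.finrank_eq ha σ hσ j hj
      have h3 : a * (r - 1) ≤ c := by
        have h4 : (t - (r - 1)) * a + (r - 1) * a = t * a := by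
          rw [← add_mul, Nat.sub_add_cancel (by omega)]
        have h5 : (r - 1) * a = a * (r - 1) := mul_comm _ _
        omega
      have h4 : c ≤ r - 1 := Nat.le_of_dvd (by have := hr.two_le; omega) hcr
      have ha1 : a = 1 := by
        have h5 : a * (r - 1) ≤ 1 * (r - 1) := by rw [one_mul]; omega
        have := Nat.le_of_mul_le_mul_right h5 (by have := hr.two_le; omega)
        omega
      have hcr1 : c = r - 1 := by rw [ha1, one_mul] at h3; omega
      refine ⟨ha1, hc1, hcr1, ?_⟩
      obtain ⟨D', hD', σ', hσ'⟩ := H f f1 hf1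
      have h6 := orbits hr hrq hr1 f1 D' hD'.indep hD'.iSup_eq_top (fun j => by rw [hD'.finrank_eq, ha1]) σ' hσ'
      rw [hkf] at h6
      rw [ha1, mul_one] at hn
      rw [mul_comm, hn]
      rw [hn] at h6
      exact h6
    · rintro (⟨ha1, -, hcr1, hle⟩ | ⟨h, -⟩)
      · intro g g1 g2
        apply hasD_of_dec ha ht hn
        have hi : Inv g (LinearMap.range (g - 1)) := by
          have := Iso.mov_inv (T := g) (X := ⊤) (fun v _ => trivial)
          rwa [top_inf_eq] at this
        have hf : ∀ v ∈ LinearMap.range (g - 1), g v = v → v = 0 := fun v hv h => Iso.mov_fpf hr hrq g1 (X := ⊤) v ⟨trivial, hv⟩ h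
        obtain ⟨s, hs, -⟩ := Ti.dims hr hrq g1 _ _ rfl hi hf
        rw [← hc] at hs
        have hsum := LinearMap.finrank_range_add_finrank_ker (g - 1)
        rw [hs, hd'] at hsum
        have hcompl := RElt.isCompl (Iso.natCast_ne_zero hr hrq) g g1
        have hr2 := hr.two_le
        have h1 : s ≤ finrank F (LinearMap.ker (g - 1)) := by
          -- `n = c s + f`, `n ≤ (n % c) (c + 1)`
          have hr3 : r = c + 1 := by omega
          rw [hr3] at hle
          have h5 : n / c ≤ n % c := by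
            have h6 : c * (n / c) + n % c ≤ (n % c) * (c + 1) := by rw [hnc]; exact hle
            have h7 : c * (n / c) ≤ c * (n % c) := by
              have : (n % c) * (c + 1) = c * (n % c) + n % c := by ring
              omega
            exact Nat.le_of_mul_le_mul_left h7 (by omega)
          have h8 : s ≤ n / c := by
            rw [Nat.le_div_iff_mul_le (by omega), mul_comm]; omega
          have h9 : n % c ≤ finrank F (LinearMap.ker (g - 1)) := by
            have : (c * s + finrank F (LinearMap.ker (g - 1))) % c = n % c := by rw [hsum]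
            rw [Nat.mul_add_mod] at this
            rw [← this]
            exact Nat.mod_le _ _
          omega
        have h2 := dec_cyc hr hrq g1 hc (by omega) (by omega) s (LinearMap.range (g - 1)) (LinearMap.ker (g - 1)) le_rfl le_rfl hi hs h1
        have htn : n = t := by rw [hn, ha1, mul_one]
        have h3 : finrank F (LinearMap.range (g - 1)) + finrank F (LinearMap.ker (g - 1)) = t := by rw [hs]; omega
        rw [hcompl.sup_eq_top, h3] at h2
        rw [ha1]
        exact h2
      · omega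

end H99.Imp
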