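import Mathlib
import Cfsg.Agent.Lib.H99.SqScalar
import Cfsg.Agent.Lib.H99.Skew

set_option autoImplicit false
set_option linter.unusedSimpArgs false
set_option linter.unusedSectionVars false
set_option linter.unusedVariables false

/-! Conjugacy in `SL_4` of elements of order two and three modulo scalars. -/

namespace H99.Lin4

open Matrix Module H99.SqScalar

universe u

variable {F : Type u} [Field F]

theorem trace_std (s m : ℕ) (z μ : F) : (std s m z μ).trace = m * μ := by
  rw [std, Matrix.trace, Fintype.sum_sum_type]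
  have h1 : ∑ i : Fin 2 × Fin s, (Matrix.fromBlocks (Matrix.blockDiagonal fun _ : Fin s => !![(0 : F), z; 1, 0]) 0 0
      (Matrix.diagonal fun _ : Fin m => μ)).diag (Sum.inl i) = 0 := by
    apply Finset.sum_eq_zero
    rintro ⟨i, k⟩ -
    rw [Matrix.diag_apply, Matrix.fromBlocks_apply₁₁, Matrix.blockDiagonal_apply, if_pos rfl]
    fin_cases i <;> simp
  rw [h1]
  simp

/-- trace and determinant of matrices with scalar square, dimension four -/
theorem types (h2 : (2 : F) ≠ 0) {x : Matrix (Fin 4) (Fin 4) F} {z : F} (hz : z ≠ 0) (hx : x * x = z • (1 : Matrix (Fin 4) (Fin 4) F))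
    (hxs : ∀ c : F, x ≠ c • 1) :
    ∃ (s m : ℕ) (μ : F), 2 * s + m = 4 ∧ (0 < m → μ ^ 2 = z) ∧ x.trace = m * μ ∧
      ((s = 2 ∧ m = 0 ∧ x.det = z ^ 2) ∨ (s = 1 ∧ m = 2 ∧ x.det = - z ^ 2)) ∧
      ∀ e : ((Fin 2 × Fin s) ⊕ Fin m) ≃ Fin 4, ∃ P : Matrix (Fin 4) (Fin 4) F, P.det ≠ 0 ∧
        x * P = P * Matrix.reindex e e (std s m z μ) := by
  obtain ⟨s, m, μ, h1, h3, h4, h5, h6⟩ := exists_std_matrix x z hx
  rw [Fintype.card_fin] at h1
  have hs0 : s ≠ 0 := fun h => hxs μ (h4 h)
  refine ⟨s, m, μ, h1, h3, ?_, ?_, h6⟩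
  · have hcard : Fintype.card ((Fin 2 × Fin s) ⊕ Fin m) = Fintype.card (Fin 4) := by simp; omega
    let e : ((Fin 2 × Fin s) ⊕ Fin m) ≃ Fin 4 := Fintype.equivOfCardEq hcard
    obtain ⟨P, hP, hxP⟩ := h6 e
    have hPu : IsUnit P.det := isUnit_iff_ne_zero.2 hP
    have h7 : x = P * Matrix.reindex e e (std s m z μ) * P⁻¹ := by
      rw [← hxP, Matrix.mul_assoc, Matrix.mul_nonsing_inv P hPu, Matrix.mul_one]
    rw [h7, Matrix.trace_mul_comm, ← Matrix.mul_assoc, Matrix.nonsing_inv_mul P hPu, Matrix.one_mul]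
    have h8 : (Matrix.reindex e e (std s m z μ)).trace = (std s m z μ).trace := by
      rw [Matrix.trace, Matrix.trace, ← e.sum_comp]
      simp
    rw [h8, trace_std]
  · have h7 : s = 2 ∧ m = 0 ∨ s = 1 ∧ m = 2 := by omega
    rcases h7 with ⟨rfl, rfl⟩ | ⟨rfl, rfl⟩
    · left; exact ⟨rfl, rfl, by rw [h5]; ring⟩
    · right
      refine ⟨rfl, rfl, ?_⟩
      rw [h5, h3 (by norm_num)]; ring

theorem conj_sq [Fintype F] (h2 : (2 : F) ≠ 0) {x y : Matrix (Fin 4) (Fin 4) F} {z : F} (hz : z ≠ 0)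
    (hx : x * x = z • (1 : Matrix (Fin 4) (Fin 4) F)) (hy : y * y = z • (1 : Matrix (Fin 4) (Fin 4) F))
    (hxs : ∀ c : F, x ≠ c • 1) (hys : ∀ c : F, y ≠ c • 1) (htr : x.trace = y.trace) (hdet : x.det = y.det) :
    ∃ P : Matrix (Fin 4) (Fin 4) F, P.det = 1 ∧ x * P = P * y := by
  obtain ⟨s, m, μ, h1, h3, h4, h5, h6⟩ := types h2 hz hx hxs
  obtain ⟨s', m', μ', k1, k3, k4, k5, k6⟩ := types h2 hz hy hys
  have hzz : z ^ 2 ≠ - z ^ 2 := by
    intro h
    have : (2 : F) * z ^ 2 = 0 := by linear_combination h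
    rcases mul_eq_zero.1 this with h | h
    · exact h2 h
    · exact hz (pow_eq_zero_iff (two_ne_zero) |>.1 h)
  have hss : s = s' ∧ m = m' := by
    rcases h5 with ⟨a1, a2, a3⟩ | ⟨a1, a2, a3⟩ <;> rcases k5 with ⟨b1, b2, b3⟩ | ⟨b1, b2, b3⟩
    · exact ⟨by omega, by omega⟩
    · exact absurd (a3.symm.trans (hdet.trans b3)) hzz
    · exact absurd (b3.symm.trans (hdet.symm.trans a3)) hzz
    · exact ⟨by omega, by omega⟩
  obtain ⟨rfl, rfl⟩ := hss
  have hstd : std s m z μ = std s m z μ' := by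
    rcases h5 with ⟨a1, a2, a3⟩ | ⟨a1, a2, a3⟩
    · subst a1; subst a2
      unfold std
      congr 1
      ext i
      exact i.elim0
    · subst a1; subst a2
      have : μ = μ' := by
        rw [h4, k4] at htr
        push_cast at htr
        exact mul_left_cancel₀ h2 htr
      rw [this]
  have hcard : Fintype.card ((Fin 2 × Fin s) ⊕ Fin m) = Fintype.card (Fin 4) := by simp; omega
  let e : ((Fin 2 × Fin s) ⊕ Fin m) ≃ Fin 4 := Fintype.equivOfCardEq hcard
  obtain ⟨P, hP, hxP⟩ := h6 e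
  obtain ⟨Q, hQ, hyQ⟩ := k6 e
  have hQu : IsUnit Q.det := isUnit_iff_ne_zero.2 hQ
  have hPQ : x * (P * Q⁻¹) = (P * Q⁻¹) * y := by
    rw [← Matrix.mul_assoc, hxP, hstd, Matrix.mul_assoc, Matrix.mul_assoc]
    congr 1
    -- S Q⁻¹ = Q⁻¹ y
    have : Q⁻¹ * (y * Q) * Q⁻¹ = Q⁻¹ * (Q * Matrix.reindex e e (std s m z μ')) * Q⁻¹ := by rw [hyQ]
    rw [← Matrix.mul_assoc Q⁻¹ Q, Matrix.nonsing_inv_mul Q hQu, Matrix.one_mul, Matrix.mul_assoc, Matrix.mul_assoc y Q,
      Matrix.mul_nonsing_inv Q hQu, Matrix.mul_one] at this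
    exact this.symm
  apply exists_det_one_conj x y (P * Q⁻¹) z hz hx _ hPQ
  rw [Matrix.det_mul]
  refine mul_ne_zero hP ?_
  have := Matrix.det_nonsing_inv Q
  rw [this]
  exact (hQu.ringInverse).ne_zero

/-- the adapted basis of an element of order three with fixed points -/
theorem basis_three (h3 : (3 : F) ≠ 0) (h2 : (2 : F) ≠ 0) (hω : ∀ t : F, t ^ 2 + t + 1 ≠ 0) {V : Type u} [AddCommGroup V] [Module F V] [FiniteDimensional F V]
    (hV : finrank F V = 4) {T : V →ₗ[F] V} (hT : ∀ v, T (T (T v)) = v) (hT1 : ∃ v, T v ≠ v) (hT2 : ∃ v, T (T v) + T v + v ≠ 0) :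
    ∃ b : Basis (Fin 4) F V, T (b 0) = b 0 ∧ T (b 1) = b 1 ∧ T (b 2) = b 3 ∧ T (b 3) = - b 2 - b 3 := by
  have hns : ¬ IsSquare (-3 : F) := by
    rintro ⟨t, ht⟩
    apply hω ((-1 + t) / 2)
    field_simp
    linear_combination -ht
  let N : V →ₗ[F] V := T ∘ₗ T + T + LinearMap.id
  have hN : ∀ v, N v = T (T v) + T v + v := fun v => rfl
  let W := LinearMap.ker N
  let Fx := LinearMap.ker (T - LinearMap.id)
  have hW : ∀ v, v ∈ W ↔ T (T v) + T v + v = 0 := fun v => Iff.rfl
  have hFx : ∀ v, v ∈ Fx ↔ T v = v := by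
    intro v
    rw [show Fx = LinearMap.ker (T - LinearMap.id) from rfl, LinearMap.mem_ker, LinearMap.sub_apply, LinearMap.id_apply, sub_eq_zero]
  have hdisj : Disjoint Fx W := by
    rw [Submodule.disjoint_def]
    intro v hv hw
    rw [hFx] at hv
    rw [hW, hv, hv] at hw
    have : (3 : F) • v = 0 := by rw [← hw]; module
    exact (smul_eq_zero.1 this).resolve_left h3
  have hsup : Fx ⊔ W = ⊤ := by
    rw [eq_top_iff]
    intro v _
    have e : v = (3 : F)⁻¹ • N v + (3 : F)⁻¹ • ((3 : F) • v - N v) := by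
      rw [← smul_add, add_sub_cancel, smul_smul, inv_mul_cancel₀ h3, one_smul]
    rw [e]
    apply Submodule.add_mem_sup
    · apply Submodule.smul_mem
      rw [hFx, hN, map_add, map_add, hT]
      abel
    · apply Submodule.smul_mem
      rw [hW, hN]
      simp only [map_sub, map_add, map_smul, hT]
      module
  have hdim : finrank F Fx + finrank F W = 4 := by
    rw [← hV, ← finrank_top F V, ← hsup]
    have := Submodule.finrank_sup_add_finrank_inf_eq Fx W
    rw [hdisj.eq_bot, finrank_bot, add_zero] at this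
    exact this.symm
  have hTW : ∀ v ∈ W, T v ∈ W := by
    intro v hv
    rw [hW] at hv ⊢
    rw [← map_add, ← map_add, hv, map_zero]
  -- dim W is even
  let S : V →ₗ[F] V := (2 : F) • T + LinearMap.id
  have hS : ∀ v ∈ W, S (S v) = (-3 : F) • v := by
    intro v hv
    rw [hW] at hv
    show (2 : F) • T ((2 : F) • T v + v) + ((2 : F) • T v + v) = _
    rw [map_add, map_smul]
    have : T (T v) = - T v - v := by
      rw [eq_sub_iff_add_eq, eq_neg_iff_add_eq_zero, ← hv]; abel
    rw [this]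
    module
  have hSW : ∀ v ∈ W, S v ∈ W := fun v hv => W.add_mem (W.smul_mem _ (hTW v hv)) hv
  have heven : Even (finrank F W) := by
    have := Skew.even_of_stable (V := W) hns (S.restrict hSW) (by
      intro v
      apply Subtype.ext
      exact hS v v.2) ⊤ (fun _ _ => trivial)
    rw [finrank_top] at this
    exact this
  have hW0 : 0 < finrank F W := by
    obtain ⟨v, hv⟩ := hT1
    rw [Module.finrank_pos_iff_exists_ne_zero]
    refine ⟨⟨T v - v, ?_⟩, ?_⟩
    · rw [hW]
      simp only [map_sub, hT]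
      abel
    · intro h
      exact hv (sub_eq_zero.1 (congrArg Subtype.val h))
  have hF0 : 0 < finrank F Fx := by
    obtain ⟨v, hv⟩ := hT2
    rw [Module.finrank_pos_iff_exists_ne_zero]
    refine ⟨⟨T (T v) + T v + v, ?_⟩, ?_⟩
    · rw [hFx]
      simp only [map_add, hT]
      abel
    · intro h
      exact hv (congrArg Subtype.val h)
  have hW2 : finrank F W = 2 := by
    obtain ⟨k, hk⟩ := heven
    omega
  have hF2 : finrank F Fx = 2 := by omega
  let bF := Module.finBasisOfFinrankEq F Fx hF2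
  -- basis of W
  have hWnt : Nontrivial W := Module.nontrivial_of_finrank_pos hW0
  obtain ⟨w, hw0⟩ := exists_ne (0 : W)
  have hw0' : (w : V) ≠ 0 := fun h => hw0 (Subtype.ext h)
  have hli : LinearIndependent F ![(w : V), T w] := by
    rw [LinearIndependent.pair_iff]
    intro s t hst
    have hwW := (hW _).1 w.2
    by_cases ht : t = 0
    · rw [ht, zero_smul, add_zero] at hst
      exact ⟨(smul_eq_zero.1 hst).resolve_right hw0', ht⟩
    · exfalso
      have hTw : T w = (-(s / t)) • (w : V) := by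
        have h1 : t • T w = (-s) • (w : V) := by
          rw [neg_smul, eq_neg_iff_add_eq_zero, add_comm]; exact hst
        have h2 : T w = t⁻¹ • (t • T w) := by rw [smul_smul, inv_mul_cancel₀ ht, one_smul]
        rw [h2, h1, smul_smul]
        congr 1
        field_simp
      rw [hTw, map_smul, hTw, smul_smul] at hwW
      have h3 : ((-(s / t)) ^ 2 + (-(s / t)) + 1) • (w : V) = 0 := by
        rw [← hwW]; module
      exact hω _ ((smul_eq_zero.1 h3).resolve_right hw0')
  let v : Fin 4 → V := ![(bF 0 : V), (bF 1 : V), w, T w]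
  have hv : LinearIndependent F v := by
    rw [Fintype.linearIndependent_iff]
    intro g hg
    rw [Fin.sum_univ_four] at hg
    have hg' : g 0 • (bF 0 : V) + g 1 • (bF 1 : V) + (g 2 • (w : V) + g 3 • T w) = 0 := by
      rw [← hg]; simp only [v, Matrix.cons_val]; abel
    have e1 : g 0 • (bF 0 : V) + g 1 • (bF 1 : V) ∈ Fx := Fx.add_mem (Fx.smul_mem _ (bF 0).2) (Fx.smul_mem _ (bF 1).2)
    have e2 : g 2 • (w : V) + g 3 • T w ∈ W := W.add_mem (W.smul_mem _ w.2) (W.smul_mem _ (hTW _ w.2))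
    have e3 : g 0 • (bF 0 : V) + g 1 • (bF 1 : V) = 0 := by
      apply Submodule.disjoint_def.1 hdisj _ e1
      have : g 0 • (bF 0 : V) + g 1 • (bF 1 : V) = -(g 2 • (w : V) + g 3 • T w) := eq_neg_of_add_eq_zero_left hg'
      rw [this]; exact W.neg_mem e2
    have e4 : g 2 • (w : V) + g 3 • T w = 0 := by rw [e3, zero_add] at hg'; exact hg'
    have e5 := (LinearIndependent.pair_iff.1 hli) _ _ e4
    have e6 : g 0 • bF 0 + g 1 • bF 1 = 0 := Subtype.ext e3
    have e7 : ∀ i : Fin 2, ![g 0, g 1] i = 0 := by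
      apply Fintype.linearIndependent_iff.1 bF.linearIndependent
      rw [Fin.sum_univ_two]
      exact e6
    intro i
    fin_cases i
    · exact e7 0
    · exact e7 1
    · exact e5.1
    · exact e5.2
  let b := basisOfLinearIndependentOfCardEqFinrank hv (by rw [hV, Fintype.card_fin])
  have hb : ∀ i, b i = v i := fun i => by rw [coe_basisOfLinearIndependentOfCardEqFinrank]
  refine ⟨b, ?_, ?_, ?_, ?_⟩
  · rw [hb]; exact (hFx _).1 (bF 0).2
  · rw [hb]; exact (hFx _).1 (bF 1).2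
  · rw [hb, hb]; rfl
  · rw [hb, hb]
    show T (T w) = - (w : V) - T w
    have := (hW _).1 w.2
    rw [eq_sub_iff_add_eq, eq_neg_iff_add_eq_zero]
    exact this

theorem conj_three [Fintype F] (h3 : (3 : F) ≠ 0) (h2 : (2 : F) ≠ 0) (hω : ∀ t : F, t ^ 2 + t + 1 ≠ 0) {x y : Matrix (Fin 4) (Fin 4) F}
    (hx : x ^ 3 = 1) (hy : y ^ 3 = 1) (hx1 : x ≠ 1) (hy1 : y ≠ 1) (hx2 : x * x + x + 1 ≠ 0) (hy2 : y * y + y + 1 ≠ 0) :
    ∃ P : Matrix (Fin 4) (Fin 4) F, P.det = 1 ∧ x * P = P * y := by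
  have hV : finrank F (Fin 4 → F) = 4 := by rw [Module.finrank_fintype_fun_eq_card, Fintype.card_fin]
  have conv : ∀ z : Matrix (Fin 4) (Fin 4) F, z ^ 3 = 1 → z ≠ 1 → z * z + z + 1 ≠ 0 →
      ∃ b : Basis (Fin 4) F (Fin 4 → F), Matrix.toLin' z (b 0) = b 0 ∧ Matrix.toLin' z (b 1) = b 1 ∧ Matrix.toLin' z (b 2) = b 3 ∧
        Matrix.toLin' z (b 3) = - b 2 - b 3 := by
    intro z hz hz1 hz2
    apply basis_three h3 h2 hω hV
    · intro v
      rw [Matrix.toLin'_apply, Matrix.toLin'_apply, Matrix.toLin'_apply, Matrix.mulVec_mulVec, Matrix.mulVec_mulVec,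
        ← pow_two, ← pow_succ, hz, Matrix.one_mulVec]
    · by_contra h
      push Not at h
      exact hz1 (Skew.matrix_ext fun v => by rw [Matrix.one_mulVec]; exact h v)
    · by_contra h
      push Not at h
      apply hz2
      apply Skew.matrix_ext
      intro v
      rw [Matrix.add_mulVec, Matrix.add_mulVec, Matrix.one_mulVec, ← Matrix.mulVec_mulVec, Matrix.zero_mulVec]
      exact h v
  obtain ⟨bx, x0, x1, x2, x3⟩ := conv x hx hx1 hx2
  obtain ⟨by', y0, y1, y2, y3⟩ := conv y hy hy1 hy2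
  -- the family of intertwiners
  let G : F → ((Fin 4 → F) →ₗ[F] (Fin 4 → F)) := fun c => by'.constr F ![c • bx 0, bx 1, bx 2, bx 3]
  have g0 : ∀ c, G c (by' 0) = c • bx 0 := fun c => by'.constr_basis F _ 0
  have g1 : ∀ c, G c (by' 1) = bx 1 := fun c => by'.constr_basis F _ 1
  have g2 : ∀ c, G c (by' 2) = bx 2 := fun c => by'.constr_basis F _ 2
  have g3 : ∀ c, G c (by' 3) = bx 3 := fun c => by'.constr_basis F _ 3
  have hint : ∀ c, Matrix.toLin' x ∘ₗ G c = G c ∘ₗ Matrix.toLin' y := by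
    intro c
    apply by'.ext
    intro i
    fin_cases i
    · show Matrix.toLin' x (G c (by' 0)) = G c (Matrix.toLin' y (by' 0))
      rw [y0, g0, map_smul, x0]
    · show Matrix.toLin' x (G c (by' 1)) = G c (Matrix.toLin' y (by' 1))
      rw [y1, g1, x1]
    · show Matrix.toLin' x (G c (by' 2)) = G c (Matrix.toLin' y (by' 2))
      rw [y2, g2, g3, x2]
    · show Matrix.toLin' x (G c (by' 3)) = G c (Matrix.toLin' y (by' 3))
      rw [y3, g3, map_sub, map_neg, g2, g3, x3]
  -- determinants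
  have hG1 : LinearMap.det (G 1) ≠ 0 := by
    have : G 1 = (by'.equiv bx (Equiv.refl _)).toLinearMap := by
      apply by'.ext
      intro i
      rw [LinearEquiv.coe_coe, Basis.equiv_apply]
      fin_cases i
      · show G 1 (by' 0) = bx 0; rw [g0, one_smul]
      · exact g1 1
      · exact g2 1
      · exact g3 1
    rw [this]
    exact (LinearEquiv.isUnit_det' _).ne_zero
  let Sc : F → ((Fin 4 → F) →ₗ[F] (Fin 4 → F)) := fun c => by'.constr F ![c • by' 0, by' 1, by' 2, by' 3]
  have hSdet : ∀ c, LinearMap.det (Sc c) = c := by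
    intro c
    have : LinearMap.toMatrix by' by' (Sc c) = Matrix.diagonal ![c, 1, 1, 1] := by
      ext i j
      rw [LinearMap.toMatrix_apply]
      have e : Sc c (by' j) = ![c, 1, 1, 1] j • by' j := by
        have := by'.constr_basis F ![c • by' 0, by' 1, by' 2, by' 3] j
        show (by'.constr F _) (by' j) = _
        rw [this]
        fin_cases j <;> simp
      rw [e, map_smul, Basis.repr_self, Finsupp.smul_apply, Finsupp.single_apply, Matrix.diagonal_apply]
      by_cases h : j = i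
      · subst h; simp
      · rw [if_neg h, if_neg (Ne.symm h), smul_zero]
    rw [← LinearMap.det_toMatrix by', this, Matrix.det_diagonal, Fin.prod_univ_four]
    simp
  have hGS : ∀ c, G c = G 1 ∘ₗ Sc c := by
    intro c
    apply by'.ext
    intro i
    have s0 : Sc c (by' 0) = c • by' 0 := by'.constr_basis F _ 0
    have s1 : Sc c (by' 1) = by' 1 := by'.constr_basis F _ 1
    have s2 : Sc c (by' 2) = by' 2 := by'.constr_basis F _ 2
    have s3 : Sc c (by' 3) = by' 3 := by'.constr_basis F _ 3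
    fin_cases i
    · show G c (by' 0) = G 1 (Sc c (by' 0))
      rw [s0, map_smul, g0, g0, one_smul]
    · show G c (by' 1) = G 1 (Sc c (by' 1))
      rw [s1, g1, g1]
    · show G c (by' 2) = G 1 (Sc c (by' 2))
      rw [s2, g2, g2]
    · show G c (by' 3) = G 1 (Sc c (by' 3))
      rw [s3, g3, g3]
  refine ⟨LinearMap.toMatrix' (G (LinearMap.det (G 1))⁻¹), ?_, ?_⟩
  · rw [LinearMap.det_toMatrix', hGS, LinearMap.det_comp, hSdet, mul_inv_cancel₀ hG1]
  · apply Matrix.toLin'.injective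
    rw [Matrix.toLin'_mul, Matrix.toLin'_mul, Matrix.toLin'_toMatrix']
    exact hint _

end H99.Lin4
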