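import Mathlib
import Cfsg.Agent.Lib.H99.OrthSS5

set_option autoImplicit false
set_option linter.unusedSimpArgs false
set_option linter.unusedSectionVars false
set_option linter.unusedVariables false

/-! Involutions of orthogonal spaces in odd characteristic and invariant nondegenerate subspaces. -/

namespace H99.OrthSS

open Module QuadraticMap H48.QuadSplit H48.QuadStd H96.OeType

universe u

variable {F : Type u} [Field F] {V : Type u} [AddCommGroup V] [Module F V] [FiniteDimensional F V]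

theorem sup_nd {Q : QuadraticForm F V} {X Y : Submodule F V} (hX : ND (Q.restrict X)) (hY : ND (Q.restrict Y))
    (hort : ∀ a ∈ X, ∀ b ∈ Y, polar Q a b = 0) : ND (Q.restrict (X ⊔ Y)) ∧ finrank F (X ⊔ Y : Submodule F V) = finrank F X + finrank F Y := by
  have := Iso.nd_sup (refl_polar Q) (nd_on.1 hX) (nd_on.1 hY) (fun a ha b hb => by rw [polarBilin_apply_apply]; exact hort a ha b hb)
  exact ⟨nd_on.2 this.1, this.2⟩

theorem sup_equiv {Q : QuadraticForm F V} {X Y : Submodule F V} (hX : ND (Q.restrict X)) (hY : ND (Q.restrict Y))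
    (hort : ∀ a ∈ X, ∀ b ∈ Y, polar Q a b = 0) : ((Q.restrict X).prod (Q.restrict Y)).Equivalent (Q.restrict (X ⊔ Y)) := by
  have hsup := sup_nd hX hY hort
  let φ : (X × Y) →ₗ[F] (X ⊔ Y : Submodule F V) :=
    LinearMap.coprod (Submodule.inclusion le_sup_left) (Submodule.inclusion le_sup_right)
  have hφ : ∀ x, ((φ x : (X ⊔ Y : Submodule F V)) : V) = (x.1 : V) + (x.2 : V) := fun x => rfl
  have hinj : Function.Injective φ := by
    rw [← LinearMap.ker_eq_bot, LinearMap.ker_eq_bot']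
    rintro ⟨a, b⟩ h
    have h1 : (a : V) + (b : V) = 0 := by rw [← hφ (a, b), h]; rfl
    have h2 : (a : V) = 0 := by
      apply nd_on.1 hX a a.2
      intro y hy
      have : (a : V) = -(b : V) := eq_neg_of_add_eq_zero_left h1
      rw [this, polarBilin_apply_apply, polar_neg_left, polar_comm, hort y hy b b.2, neg_zero]
    have h3 : (b : V) = 0 := by rw [h2, zero_add] at h1; exact h1
    exact Prod.ext (Subtype.ext h2) (Subtype.ext h3)
  have hdim : finrank F (X × Y) = finrank F (X ⊔ Y : Submodule F V) := by rw [finrank_prod, hsup.2]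
  refine ⟨⟨LinearEquiv.ofInjectiveOfFinrankEq φ hinj hdim, fun x => ?_⟩⟩
  show Q ((φ x : (X ⊔ Y : Submodule F V)) : V) = Q x.1 + Q x.2
  rw [hφ, QuadraticMap.map_add Q, hort x.1 x.1.2 x.2 x.2.2, add_zero]

theorem map_sub {Q : QuadraticForm F V} {A : Submodule F V} (Y : Submodule F A) :
    ((Q.restrict A).restrict Y).Equivalent (Q.restrict (Y.map A.subtype)) ∧ Y.map A.subtype ≤ A ∧ finrank F (Y.map A.subtype : Submodule F V) = finrank F Y :=
  ⟨⟨⟨Submodule.equivMapOfInjective _ A.injective_subtype Y, fun v => rfl⟩⟩, by rintro _ ⟨y, _, rfl⟩; exact y.2, Submodule.finrank_map_subtype_eq _ _⟩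

theorem neg_on {Q : QuadraticForm F V} (hQ : ND Q) (h2 : (2 : F) ≠ 0) (f : V →ₗ[F] V) (hf : ∀ v, Q (f v) = Q v) (hff : f ^ 2 = 1) :
    ∀ v ∈ orth Q (fx f), f v = -v := by
  have hff' : ∀ v, f (f v) = v := fun v => by
    have := congrArg (fun φ : V →ₗ[F] V => φ v) hff
    rw [pow_two] at this
    exact this
  intro v hv
  have hC := fx_nd hQ (r := 2) (by exact_mod_cast h2) f hf hff
  have h1 : v + f v ∈ fx f := by
    rw [mem_fx, _root_.map_add, hff', add_comm]
  have h3 : ∀ c ∈ fx f, polar Q c (v + f v) = 0 := by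
    intro c hc
    rw [polar_add_right, hv c hc, zero_add]
    have : polar Q c (f v) = polar Q c v := by
      conv_lhs => rw [← mem_fx.1 hc]
      exact polar_inv hf _ _
    rw [this, hv c hc]
  have h2 := nd_on.1 hC (v + f v) h1 (fun c hc => by
    rw [polarBilin_apply_apply, polar_comm]
    exact h3 c hc)
  rw [add_comm] at h2
  exact eq_neg_of_add_eq_zero_left h2

section fin

variable [Fintype F]

/-- even-dimensional nondegenerate subspaces of all dimensions -/
theorem sub_any {Q : QuadraticForm F V} (hQ : ND Q) {x : ℕ} (hx : Even x) (hxV : x ≤ finrank F V) :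
    ∃ X : Submodule F V, ND (Q.restrict X) ∧ finrank F X = x := by
  obtain ⟨b, hb⟩ := hx
  rcases Nat.eq_zero_or_pos x with h0 | hpos
  · exact ⟨⊥, nd_on.2 Iso.nd_bot, by rw [finrank_bot, h0]⟩
  · rcases hxV.eq_or_lt with h | h
    · exact ⟨⊤, nd_on.2 (nd_top.1 hQ), by rw [finrank_top, h]⟩
    · obtain ⟨Y, y1, y2, -⟩ := sub_exists hQ (b := b) (by omega) (by omega) True
      exact ⟨Y, y1, by omega⟩

/-- the two parts of an odd-dimensional space -/
theorem two_part {Q : QuadraticForm F V} (hQ : ND Q) {d b : ℕ} (hd : finrank F V = 2 * d + 1) {A : Submodule F V} (hA : ND (Q.restrict A))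
    (hAd : finrank F A = 2 * b) {m : ℕ} (hm : Even m) (hm2 : 2 ≤ m) (hmd : m ≤ 2 * d) (t : Prop) :
    ∃ X Y : Submodule F V, X ≤ A ∧ Y ≤ orth Q A ∧ ND (Q.restrict X) ∧ ND (Q.restrict Y) ∧ finrank F X + finrank F Y = m ∧
      (PT (Q.restrict (X ⊔ Y)) ↔ t) := by
  have hB := nd_orth hQ hA
  have hBd := finrank_orth hQ A
  have hle := Submodule.finrank_le A
  have hort : ∀ X ≤ A, ∀ Y ≤ orth Q A, ∀ a ∈ X, ∀ b ∈ Y, polar Q a b = 0 := fun X hX Y hY a ha b hb => hY hb a (hX ha)
  rcases Nat.lt_or_ge b d with hbd | hbd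
  · obtain ⟨em, hem⟩ := hm
    obtain ⟨y, hy1, hy2, hy3, hy4, hy5⟩ : ∃ y, 1 ≤ y ∧ 2 * y ≤ m ∧ m - 2 * y ≤ 2 * b ∧ 2 * y < finrank F (orth Q A) ∧ 2 * y ≤ m := by
      refine ⟨max 1 (em - b), ?_, ?_, ?_, ?_, ?_⟩ <;> omega
    obtain ⟨X', x1, x2⟩ := sub_any hA (x := m - 2 * y) ⟨em - y, by omega⟩ (by omega)
    obtain ⟨xe, xle, xd⟩ := map_sub (Q := Q) X'
    obtain ⟨Y', y1, y2, y3⟩ := sub_exists hB hy1 hy4 (t ↔ PT ((Q.restrict A).restrict X'))
    obtain ⟨ye, yle, yd⟩ := map_sub (Q := Q) Y'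
    have hXn := nd_of_equivalent xe x1
    have hYn := nd_of_equivalent ye y1
    refine ⟨_, _, xle, yle, hXn, hYn, by omega, ?_⟩
    rw [← pt_iff_of_equiv (sup_equiv hXn hYn (hort _ xle _ yle)), pt_prod_iff hXn hYn (m := em - y) (m' := y) (by omega) (by omega),
      ← pt_iff_of_equiv xe, ← pt_iff_of_equiv ye, y3]
    tauto
  · have hbd' : b = d := by omega
    subst hbd'
    rcases hmd.eq_or_lt with h | h
    · -- hyperplane case
      obtain ⟨T, t1, t2⟩ := exists_fm (F := F) b (by omega) t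
      obtain ⟨Y', y1, y2, y3⟩ := sub_exists_odd T.nd (a := b) (b := 0) t1 hB (by omega) (by omega)
      have ho := nd_orth T.nd y1
      have hod := finrank_orth T.nd Y'
      obtain ⟨X', x1, x2, x3⟩ := sub_exists_odd hA (a := b) (b := b - 1) hAd ho (by omega) (by omega)
      obtain ⟨xe, xle, xd⟩ := map_sub (Q := Q) X'
      have hXn := nd_of_equivalent xe x1
      refine ⟨_, orth Q A, xle, le_rfl, hXn, hB, by omega, ?_⟩
      rw [← pt_iff_of_equiv (sup_equiv hXn hB (hort _ xle _ le_rfl)), ← t2]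
      obtain ⟨e, -, he⟩ := ortho_split y1
      have e1 : ((T.Q.restrict Y').prod (T.Q.restrict (orth T.Q Y'))).Equivalent T.Q := ⟨⟨e, he⟩⟩
      refine pt_iff_of_equiv (Equivalent.trans ?_ e1)
      exact (Equivalent.prod ((x3.trans xe).symm) y3).trans (prod_comm_equiv _ _)
    · obtain ⟨em, hem⟩ := hm
      obtain ⟨X', x1, x2, x3⟩ := sub_exists hA (b := em) (by omega) (by omega) t
      obtain ⟨xe, xle, xd⟩ := map_sub (Q := Q) X'
      have hXn := nd_of_equivalent xe x1
      refine ⟨_, ⊥, xle, bot_le, hXn, nd_on.2 Iso.nd_bot, by rw [finrank_bot]; omega, ?_⟩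
      rw [sup_bot_eq, ← pt_iff_of_equiv xe, x3]

/-- involutions of odd-dimensional spaces leave invariant a subspace of every even dimension and type -/
theorem odd_involution {Q : QuadraticForm F V} (hQ : ND Q) {d : ℕ} (hd : finrank F V = 2 * d + 1) (h2 : (2 : F) ≠ 0)
    (f : V →ₗ[F] V) (hf : ∀ v, Q (f v) = Q v) (hff : f ^ 2 = 1) {m : ℕ} (hm : Even m) (hm2 : 2 ≤ m) (hmd : m ≤ 2 * d) (t : Prop) :
    ∃ W : Submodule F V, finrank F W = m ∧ ND (Q.restrict W) ∧ (PT (Q.restrict W) ↔ t) ∧ ∀ v ∈ W, f v ∈ W := by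
  -- reduce to an even-dimensional fixed space
  have key : ∀ (g : V →ₗ[F] V), (∀ v, Q (g v) = Q v) → g ^ 2 = 1 → Even (finrank F (fx g)) →
      ∃ W : Submodule F V, finrank F W = m ∧ ND (Q.restrict W) ∧ (PT (Q.restrict W) ↔ t) ∧ ∀ v ∈ W, g v ∈ W := by
    rintro g hg hgg ⟨b, hb⟩
    have hC := fx_nd hQ (r := 2) (by exact_mod_cast h2) g hg hgg
    have hneg := neg_on hQ h2 g hg hgg
    obtain ⟨X, Y, h1, h3, h4, h5, h6, h7⟩ := two_part hQ hd hC (b := b) (by omega) hm hm2 hmd t
    have hsup := sup_nd h4 h5 (fun a ha b hb => h3 hb a (h1 ha))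
    refine ⟨X ⊔ Y, by rw [hsup.2, h6], hsup.1, h7, ?_⟩
    intro v hv
    obtain ⟨a, ha, b, hb, rfl⟩ := Submodule.mem_sup.1 hv
    rw [_root_.map_add, mem_fx.1 (h1 ha), hneg b (h3 hb)]
    exact Submodule.add_mem_sup ha (Y.neg_mem hb)
  rcases Nat.even_or_odd (finrank F (fx f)) with he | ho
  · exact key f hf hff he
  · have hC := fx_nd hQ (r := 2) (by exact_mod_cast h2) f hf hff
    have hneg := neg_on hQ h2 f hf hff
    have hdd := finrank_orth hQ (fx f)
    have hng : fx (-f) = orth Q (fx f) := by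
      apply le_antisymm
      · intro v hv c hc
        have h1 : -f v = v := mem_fx.1 hv
        have h3 : polar Q c v = -polar Q c v := by
          conv_rhs => rw [← polar_inv hf c v, mem_fx.1 hc]
          rw [← polar_neg_right, h1]
        have h4 : 2 * polar Q c v = 0 := by linear_combination h3
        exact (mul_eq_zero.1 h4).resolve_left h2
      · intro v hv
        rw [mem_fx]
        show -f v = v
        rw [hneg v hv, neg_neg]
    obtain ⟨W, w1, w2, w3, w4⟩ := key (-f) (fun v => by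
      show Q (-f v) = _
      rw [QuadraticMap.map_neg, hf]) (by rw [neg_sq, hff]) (by
      rw [hng]
      obtain ⟨k, hk⟩ := ho
      exact ⟨d - k, by omega⟩)
    refine ⟨W, w1, w2, w3, fun v hv => ?_⟩
    have := W.neg_mem (w4 v hv)
    rw [LinearMap.neg_apply, neg_neg] at this
    exact this

end fin

end H99.OrthSS
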