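import Mathlib
import Cfsg.Agent.Lib.H99.OrthTwo
import Cfsg.Agent.Lib.H95.SpOrthEven

set_option autoImplicit false
set_option linter.unusedSimpArgs false
set_option linter.unusedSectionVars false
set_option linter.unusedVariables false

/-! Involutions in characteristic two, fixed nonsingular points. -/

namespace H99.OrthTwo

open Module QuadraticMap H48.QuadSplit H48.QuadStd H96.OeType
open scoped Matrix

section inv

variable {F : Type*} [Field F] [CharP F 2] {V : Type*} [AddCommGroup V] [Module F V] [FiniteDimensional F V]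

theorem add_self0 {F : Type*} [Field F] [CharP F 2] {V : Type*} [AddCommGroup V] [Module F V] (v : V) : v + v = 0 := by
  rw [← two_smul F, show (2 : F) = 0 from by exact_mod_cast CharP.cast_eq_zero F 2, zero_smul]

/-- if the fixed points of an involution are singular vectors only, they form a maximal totally singular space -/
theorem invol_ts {Q : QuadraticForm F V} (hQ : ND Q) {m : ℕ} (hd : finrank F V = 2 * m) (f : V →ₗ[F] V) (hf : ∀ v, Q (f v) = Q v)
    (hff : ∀ v, f (f v) = v) (hts : ∀ v, f v = v → Q v = 0) : Even m ∧ PT Q := by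
  classical
  set N : V →ₗ[F] V := f + LinearMap.id with hN
  have hNv : ∀ v, N v = f v + v := fun v => rfl
  have hNN : ∀ v, N (N v) = 0 := by
    intro v
    rw [hNv, hNv, _root_.map_add, hff]
    rw [add_comm (v) (f v)]
    exact add_self0 (F := F) _
  have hker : ∀ v, N v = 0 ↔ f v = v := by
    intro v
    rw [hNv]
    constructor
    · intro h
      have h1 : f v + v + v = v := by rw [h, zero_add]
      rwa [add_assoc, add_self0 (F := F), add_zero] at h1
    · intro h; rw [h]; exact add_self0 (F := F) v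
  have hB : ∀ u v, polar Q (f u) (f v) = polar Q u v := by
    intro u v
    rw [polar, polar, ← _root_.map_add f, hf, hf, hf]
  have hB1 : ∀ u v, polar Q (f u) v = polar Q u (f v) := by
    intro u v
    rw [← hB (f u) v, hff]
  have hNB : ∀ u v, polar Q (N u) v = polar Q u (N v) := by
    intro u v
    rw [hNv, hNv, polar_add_left, polar_add_right, hB1]
  have hq : ∀ v, polar Q v (N v) = 0 := by
    intro v
    have h1 : Q (N v) = 0 := hts _ ((hker _).1 (hNN v))
    rw [hNv] at h1
    have h2 := hf v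
    have h3 : polar Q v (f v) = Q (v + f v) - Q v - Q (f v) := rfl
    rw [add_comm v (f v), h1, h2] at h3
    rw [hNv, polar_add_right, polar_self, h3]
    have h4 : (2 : ℕ) • Q v = 0 := by rw [two_nsmul]; exact CharTwo.add_self_eq_zero _
    rw [h4]
    have h5 := CharTwo.add_self_eq_zero (Q v)
    linear_combination -h5
  let K := LinearMap.ker N
  have hKts : ∀ x ∈ K, Q x = 0 := fun x hx => hts x ((hker x).1 hx)
  have hrn : finrank F (LinearMap.range N) + finrank F K = finrank F V := LinearMap.finrank_range_add_finrank_ker N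
  have hle : LinearMap.range N ≤ K := by
    rintro _ ⟨v, rfl⟩
    exact hNN v
  have h1 := Submodule.finrank_mono hle
  have h2 := H95.SpOrthEven.isotropic_finrank_le (polarBilin Q) (fun v hv => hQ v (fun w => by
    rw [← polarBilin_apply_apply]; exact hv w)) K (fun x hx y hy => by
    rw [polarBilin_apply_apply, polar, hKts _ (K.add_mem hx hy), hKts x hx, hKts y hy]; ring)
  have hKd : finrank F K = m := by omega
  refine ⟨?_, K, hKts, by omega⟩
  -- the alternating form
  let β : LinearMap.BilinForm F V := (polarBilin Q).compl₂ N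
  have hβ : ∀ u v, β u v = polar Q u (N v) := fun u v => rfl
  have hβa : ∀ v, β v v = 0 := fun v => hq v
  have hβr : β.IsRefl := LinearMap.IsAlt.isRefl (B := β) hβa
  obtain ⟨C, hC⟩ := Submodule.exists_isCompl K
  have hCd : finrank F C = m := by
    have := Submodule.finrank_add_eq_of_isCompl hC
    omega
  refine Iso.even_of_alt hβr m C hCd ?_ (fun x _ => hβa x)
  intro x hx hxy
  have h3 : ∀ y, β x y = 0 := by
    intro y
    obtain ⟨a, b, ha, hb, rfl⟩ := (Submodule.codisjoint_iff_exists_add_eq.1 hC.codisjoint) y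
    rw [hβ, _root_.map_add, show N a = 0 from ha, zero_add, ← hβ]
    exact hxy b hb
  have h4 : N x = 0 := by
    apply hQ
    intro y
    rw [hNB, ← hβ, h3]
  exact (Submodule.disjoint_def.1 hC.disjoint) x h4 hx

end inv

section mat

variable {F : Type*} [Field F] {ι : Type} [Fintype ι] [DecidableEq ι]

theorem mem_iso {Q : QuadraticForm F (ι → F)} {x : GL ι F} (hx : x ∈ Cfsg.Geo.omegaGL (⇑Q)) :
    ∀ v, Q ((x : Matrix ι ι F) *ᵥ v) = Q v := by
  obtain ⟨y, _, rfl⟩ := hx
  exact (H17.OrthDet.mem_isometryGroup_iff _ _).mp y.2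

theorem fix_of_line [CharP F 2] {Q : QuadraticForm F (ι → F)} {x : GL ι F} (hx : ∀ v, Q ((x : Matrix ι ι F) *ᵥ v) = Q v)
    {W : Submodule F (ι → F)} (hW : finrank F W = 1 ∧ ∃ v ∈ W, Q v ≠ 0) (hxW : W.map (Matrix.toLin' (x : Matrix ι ι F)) ≤ W) :
    ∃ v, Q v ≠ 0 ∧ (x : Matrix ι ι F) *ᵥ v = v := by
  obtain ⟨h1, v, hv, hQv⟩ := hW
  have hv0 : v ≠ 0 := by rintro rfl; exact hQv (QuadraticMap.map_zero Q)
  have h2 : (x : Matrix ι ι F) *ᵥ v ∈ W := by
    apply hxW
    exact ⟨v, hv, Matrix.toLin'_apply _ _⟩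
  obtain ⟨c, hc⟩ := exists_smul_eq_of_finrank_eq_one h1 (x := (⟨v, hv⟩ : W)) (by
    intro h; exact hv0 (congrArg Subtype.val h)) ⟨_, h2⟩
  have hc' : c • v = (x : Matrix ι ι F) *ᵥ v := congrArg Subtype.val hc
  refine ⟨v, hQv, ?_⟩
  have h3 := hx v
  rw [← hc', QuadraticMap.map_smul, smul_eq_mul] at h3
  have h4 : (c * c - 1) * Q v = 0 := by linear_combination h3
  have h5 := (mul_eq_zero.1 h4).resolve_right hQv
  have h6 : (c - 1) ^ 2 = 0 := by
    have h2 := CharTwo.two_eq_zero (R := F)
    linear_combination h5 + (1 - c) * h2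
  have h7 : c = 1 := sub_eq_zero.1 (pow_eq_zero_iff (two_ne_zero) |>.1 h6)
  rw [← hc', h7, one_smul]

theorem line_of_fix {Q : QuadraticForm F (ι → F)} {x : GL ι F} {v : ι → F} (hv : Q v ≠ 0) (hxv : (x : Matrix ι ι F) *ᵥ v = v) :
    ∃ W : Submodule F (ι → F), (finrank F W = 1 ∧ ∃ v ∈ W, Q v ≠ 0) ∧ W.map (Matrix.toLin' (x : Matrix ι ι F)) ≤ W := by
  have hv0 : v ≠ 0 := by rintro rfl; exact hv (QuadraticMap.map_zero Q)
  refine ⟨Submodule.span F {v}, ⟨finrank_span_singleton hv0, v, Submodule.mem_span_singleton_self v, hv⟩, ?_⟩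
  rw [Submodule.map_span_le]
  rintro _ rfl
  rw [Matrix.toLin'_apply, hxv]
  exact Submodule.mem_span_singleton_self _

theorem scal_one [CharP F 2] {Q : QuadraticForm F (ι → F)} {A : Matrix ι ι F} (hx : ∀ v, Q (A *ᵥ v) = Q v) {v : ι → F} (hv : Q v ≠ 0)
    {z : F} (hz : A = z • (1 : Matrix ι ι F)) : z = 1 := by
  have h3 := hx v
  rw [hz, Matrix.smul_mulVec, Matrix.one_mulVec, QuadraticMap.map_smul, smul_eq_mul] at h3
  have h4 : (z * z - 1) * Q v = 0 := by linear_combination h3
  have h5 := (mul_eq_zero.1 h4).resolve_right hv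
  have h6 : (z - 1) ^ 2 = 0 := by
    have h2 := CharTwo.two_eq_zero (R := F)
    linear_combination h5 + (1 - z) * h2
  exact sub_eq_zero.1 (pow_eq_zero_iff (two_ne_zero) |>.1 h6)

theorem iso_pow {Q : QuadraticForm F (ι → F)} {x : GL ι F} (hx : ∀ v, Q ((x : Matrix ι ι F) *ᵥ v) = Q v) (r : ℕ) :
    ∀ v, Q (((x ^ r : GL ι F) : Matrix ι ι F) *ᵥ v) = Q v := by
  induction r with
  | zero => intro v; rw [pow_zero, Units.val_one, Matrix.one_mulVec]
  | succ r ih =>
    intro v
    rw [pow_succ, Units.val_mul, ← Matrix.mulVec_mulVec, ih, hx]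

/-- characteristic two: elements of order `r` modulo scalars have order `r` -/
theorem pow_one_of_scal [CharP F 2] {Q : QuadraticForm F (ι → F)} {x : GL ι F} (hx : ∀ v, Q ((x : Matrix ι ι F) *ᵥ v) = Q v) {v : ι → F} (hv : Q v ≠ 0)
    {r : ℕ} {z : F} (hz : ((x ^ r : GL ι F) : Matrix ι ι F) = z • (1 : Matrix ι ι F)) : x ^ r = 1 := by
  have h1 := scal_one (iso_pow hx r) hv hz
  apply Units.ext
  rw [hz, h1, one_smul, Units.val_one]

theorem exists_nonsing {Q : QuadraticForm F (ι → F)} (hQ : ND Q) [Nonempty ι] : ∃ v, Q v ≠ 0 := by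
  by_contra hcon
  push Not at hcon
  have h1 : ∀ x : ι → F, x = 0 := by
    intro x
    apply hQ
    intro y
    rw [polar, hcon, hcon, hcon]; ring
  have h2 := h1 (fun _ => 1)
  have h3 := congrFun h2 (Classical.arbitrary ι)
  exact one_ne_zero h3

end mat

end H99.OrthTwo
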