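import Mathlib
import Cfsg.Prelude.Def_GeometricClasses
import Cfsg.Agent.Lib.H7.MinusOrd
import Cfsg.Agent.Lib.H48.QuadSim
import Cfsg.Agent.Lib.H99.SpIdx
import Cfsg.Agent.Lib.H99.NoForm

set_option autoImplicit false
set_option linter.unusedSimpArgs false
set_option linter.unusedSectionVars false

/-! Abstract nondegenerate quadratic forms on `α → F`: classification, index, singular vectors. -/

namespace H99.Quad

open Matrix H48.QuadStd H7.Hyp H7.HypStd H7.HypOrd

variable {F : Type*} [Field F]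

/-- bundled version of a quadratic form given as a function -/
noncomputable def toQF {α : Type} [Fintype α] [DecidableEq α] {Q : (α → F) → F}
    (hQ : Cfsg.Geo.IsNondegenerateQuadraticForm Q) : QuadraticForm F (α → F) where
  toFun := Q
  toFun_smul a x := by rw [hQ.smul, smul_eq_mul]; ring
  exists_companion' := ⟨LinearMap.mk₂ F (QuadraticMap.polar Q) (fun x y v => hQ.polar_bilinear.add_left x y v)
    (fun c x v => hQ.polar_bilinear.smul_left c x v) (fun v x y => hQ.polar_bilinear.add_right v x y)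
    (fun c v x => hQ.polar_bilinear.smul_right c v x), fun x y => by simp [QuadraticMap.polar]⟩

theorem coe_toQF {α : Type} [Fintype α] [DecidableEq α] {Q : (α → F) → F}
    (hQ : Cfsg.Geo.IsNondegenerateQuadraticForm Q) : ⇑(toQF hQ) = Q := rfl

theorem nd_toQF {α : Type} [Fintype α] [DecidableEq α] {Q : (α → F) → F}
    (hQ : Cfsg.Geo.IsNondegenerateQuadraticForm Q) : H48.QuadSplit.ND (toQF hQ) := by
  intro x hx
  by_contra h
  obtain ⟨-, y, hy⟩ := hQ.nondegenerate x h
  exact hy (hx y)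

theorem ses_polar {α : Type} [Fintype α] [DecidableEq α] {Q : (α → F) → F}
    (hQ : Cfsg.Geo.IsNondegenerateQuadraticForm Q) : Form.Ses (RingHom.id F) (QuadraticMap.polar Q) where
  add_left := hQ.polar_bilinear.add_left
  smul_left := hQ.polar_bilinear.smul_left
  add_right := hQ.polar_bilinear.add_right
  smul_right := hQ.polar_bilinear.smul_right
  nd := nd_toQF hQ

theorem isom_le {α : Type} [Fintype α] [DecidableEq α] (Q : (α → F) → F) :
    Cfsg.isometryGroup F Q ≤ Cfsg.Geo.quadSimilarityGroup Q := by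
  intro g hg
  exact ⟨1, fun v => by rw [Units.val_one, one_mul]; exact hg v v⟩

theorem index_mul [Fintype F] {n : ℕ} {Q : (Fin n → F) → F} (hQ : Cfsg.Geo.IsNondegenerateQuadraticForm Q) :
    ∃ a : ℕ, (Cfsg.isometryGroup F Q).index * Nat.card (O (toQF hQ)) =
      Fintype.card F ^ a * ∏ j ∈ Finset.range n, (Fintype.card F ^ (j + 1) - 1) := by
  obtain ⟨a, ha⟩ := SpIdx.card_GL (F := F) n
  refine ⟨a, ?_⟩
  rw [← ha, coe_toQF, ← card_isometryGroup]
  exact (Cfsg.isometryGroup F Q).index_mul_card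

theorem pow_eq_one_of_dvd {q r k : ℕ} (hq : 1 ≤ q) (h : r ∣ q ^ k - 1) : ((q : ℕ) : ZMod r) ^ k = 1 := by
  have h8 : ((q ^ k - 1 : ℕ) : ZMod r) = 0 := (ZMod.natCast_eq_zero_iff _ _).2 h
  rw [Nat.cast_sub (Nat.one_le_pow _ _ hq), sub_eq_zero] at h8
  push_cast at h8
  exact h8

theorem not_dvd_odd {q r m : ℕ} (hq : 1 ≤ q) (hr : r.Prime) (heven : Even (orderOf ((q : ℕ) : ZMod r))) :
    ¬ r ∣ ∏ i ∈ Finset.range m, (q ^ (2 * i + 1) - 1) := by
  intro h6
  obtain ⟨i, -, hi⟩ := (hr.prime.dvd_finsetProd_iff _).1 h6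
  have h9 := orderOf_dvd_of_pow_eq_one (pow_eq_one_of_dvd hq hi)
  have h10 := heven.two_dvd.trans h9
  omega

theorem prod_ne_zero {q : ℕ} (hq : 1 < q) (m : ℕ) : ∏ i ∈ Finset.range m, (q ^ (2 * (i + 1)) - 1) ≠ 0 := by
  rw [Finset.prod_ne_zero_iff]
  intro i _
  have : 1 < q ^ (2 * (i + 1)) := Nat.one_lt_pow (by omega) hq
  omega

/-- divisibility of the index of the isometry group by a prime of even order type -/
theorem dvd_cases [Fintype F] {n : ℕ} {Q : (Fin n → F) → F} (hQ : Cfsg.Geo.IsNondegenerateQuadraticForm Q)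
    {r : ℕ} (hr : r.Prime) (hrq : ¬ r ∣ Fintype.card F)
    (heven : Even (orderOf ((Fintype.card F : ℕ) : ZMod r))) (hdvd : r ∣ (Cfsg.Geo.quadSimilarityGroup Q).index)
    (hn : 1 ≤ n) :
    ∃ m, n = 2 * (m + 1) ∧ (((toQF hQ).Equivalent (qPlus (m + 1) F) ∧ ((Fintype.card F : ℕ) : ZMod r) ^ (m + 1) = -1) ∨
      (∃ z : F, (∀ t : F, t ^ 2 + t + z ≠ 0) ∧ (toQF hQ).Equivalent (qMinus m F 1 z) ∧
        ((Fintype.card F : ℕ) : ZMod r) ^ (m + 1) = 1)) := by
  have hq1 : 1 < Fintype.card F := Fintype.one_lt_card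
  set q := Fintype.card F with hq
  have hnq : Nat.card F = q := Nat.card_eq_fintype_card
  have h1 := hdvd.trans (Subgroup.index_dvd_of_le (isom_le Q))
  obtain ⟨a, ha⟩ := index_mul hQ
  rw [← hq] at ha
  rcases Nat.even_or_odd' n with ⟨m, hm | hm⟩
  · obtain ⟨m, rfl⟩ : ∃ m', m = m' + 1 := ⟨m - 1, by omega⟩
    refine ⟨m, hm, ?_⟩
    have hsplit : ∏ j ∈ Finset.range n, (q ^ (j + 1) - 1) =
        (∏ i ∈ Finset.range m, (q ^ (2 * (i + 1)) - 1)) * (q ^ (2 * (m + 1)) - 1) *
          ∏ i ∈ Finset.range (m + 1), (q ^ (2 * i + 1) - 1) := by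
      rw [hm, SpIdx.prod_even_odd, Finset.prod_range_succ]
      rfl
    have hd : (q ^ (2 * (m + 1)) - 1) = (q ^ (m + 1) - 1) * (q ^ (m + 1) + 1) := by
      obtain ⟨b, hb⟩ : ∃ b, q ^ (m + 1) = b + 1 := ⟨q ^ (m + 1) - 1, (Nat.sub_add_cancel (Nat.one_le_pow _ _ (by omega))).symm⟩
      rw [mul_comm 2, pow_mul, hb]
      simp only [Nat.add_sub_cancel]
      have : (b + 1) ^ 2 = b * (b + 1 + 1) + 1 := by ring
      rw [this, Nat.add_sub_cancel]
    have hP0 := prod_ne_zero hq1 m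
    have hm0 : q ^ (m + 1) - 1 ≠ 0 := by
      have : 1 < q ^ (m + 1) := Nat.one_lt_pow (by omega) hq1
      omega
    rcases classify_even (m + 1) (Fin n → F) (toQF hQ) (nd_toQF hQ) (by rw [Module.finrank_fintype_fun_eq_card, Fintype.card_fin, hm]) with h | ⟨-, z, hz, h⟩
    · left
      refine ⟨h, ?_⟩
      rw [card_O_congr h, card_O_plus, hnq, hsplit, hd] at ha
      have h3 : ((Cfsg.isometryGroup F Q).index * (2 * q ^ ((m + 1) * m))) *
          ((q ^ (m + 1) - 1) * ∏ i ∈ Finset.range m, (q ^ (2 * (i + 1)) - 1)) =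
          (q ^ a * (q ^ (m + 1) + 1) * ∏ i ∈ Finset.range (m + 1), (q ^ (2 * i + 1) - 1)) *
          ((q ^ (m + 1) - 1) * ∏ i ∈ Finset.range m, (q ^ (2 * (i + 1)) - 1)) := by
        linear_combination ha
      have h4 := Nat.eq_of_mul_eq_mul_right (Nat.pos_of_ne_zero (mul_ne_zero hm0 hP0)) h3
      have h5 : r ∣ q ^ a * (q ^ (m + 1) + 1) * ∏ i ∈ Finset.range (m + 1), (q ^ (2 * i + 1) - 1) := by
        rw [← h4]; exact h1.mul_right _
      rcases (Nat.Prime.dvd_mul hr).1 h5 with h6 | h6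
      · rcases (Nat.Prime.dvd_mul hr).1 h6 with h7 | h7
        · exact absurd (hr.dvd_of_dvd_pow h7) hrq
        · have h8 : ((q ^ (m + 1) + 1 : ℕ) : ZMod r) = 0 := (ZMod.natCast_eq_zero_iff _ _).2 h7
          push_cast at h8
          exact eq_neg_of_add_eq_zero_left h8
      · exact absurd h6 (not_dvd_odd hq1.le hr heven)
    · right
      rw [Nat.add_sub_cancel] at h
      refine ⟨z, hz, h, ?_⟩
      have hani : H7.AnisoPlane.Aniso (1 : F) z := by
        intro z1 z2 h12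
        by_cases h2 : z2 = 0
        · subst h2
          refine ⟨?_, rfl⟩
          have : z1 ^ 2 = 0 := by linear_combination h12
          exact pow_eq_zero_iff (two_ne_zero) |>.1 this
        · exfalso
          apply hz (z1 / z2)
          field_simp
          linear_combination h12
      rw [card_O_congr h, H7.MinusOrd.card_O_minus m hani, hnq, hsplit, hd] at ha
      have h3 : ((Cfsg.isometryGroup F Q).index * (2 * q ^ ((m + 1) * m))) *
          ((q ^ (m + 1) + 1) * ∏ i ∈ Finset.range m, (q ^ (2 * (i + 1)) - 1)) =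
          (q ^ a * (q ^ (m + 1) - 1) * ∏ i ∈ Finset.range (m + 1), (q ^ (2 * i + 1) - 1)) *
          ((q ^ (m + 1) + 1) * ∏ i ∈ Finset.range m, (q ^ (2 * (i + 1)) - 1)) := by
        linear_combination ha
      have h4 := Nat.eq_of_mul_eq_mul_right (Nat.pos_of_ne_zero (mul_ne_zero (by omega) hP0)) h3
      have h5 : r ∣ q ^ a * (q ^ (m + 1) - 1) * ∏ i ∈ Finset.range (m + 1), (q ^ (2 * i + 1) - 1) := by
        rw [← h4]; exact h1.mul_right _
      rcases (Nat.Prime.dvd_mul hr).1 h5 with h6 | h6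
      · rcases (Nat.Prime.dvd_mul hr).1 h6 with h7 | h7
        · exact absurd (hr.dvd_of_dvd_pow h7) hrq
        · exact pow_eq_one_of_dvd hq1.le h7
      · exact absurd h6 (not_dvd_odd hq1.le hr heven)
  · exfalso
    obtain ⟨h2, c, hc, h⟩ := classify_odd m (Fin n → F) (toQF hQ) (nd_toQF hQ) (by rw [Module.finrank_fintype_fun_eq_card, Fintype.card_fin, hm])
    rw [card_O_congr h, card_O_odd m h2 hc, hnq] at ha
    have hsplit : ∏ j ∈ Finset.range n, (q ^ (j + 1) - 1) =
        (∏ i ∈ Finset.range m, (q ^ (2 * (i + 1)) - 1)) *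
          ∏ i ∈ Finset.range (m + 1), (q ^ (2 * i + 1) - 1) := by
      rw [hm, Finset.prod_range_succ, SpIdx.prod_even_odd, Finset.prod_range_succ, mul_assoc]
      rfl
    rw [hsplit] at ha
    have hP0 := prod_ne_zero hq1 m
    have h3 : ((Cfsg.isometryGroup F Q).index * (2 * q ^ (m ^ 2))) * ∏ i ∈ Finset.range m, (q ^ (2 * (i + 1)) - 1) =
          (q ^ a * ∏ i ∈ Finset.range (m + 1), (q ^ (2 * i + 1) - 1)) *
          ∏ i ∈ Finset.range m, (q ^ (2 * (i + 1)) - 1) := by
      linear_combination ha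
    have h4 := Nat.eq_of_mul_eq_mul_right (Nat.pos_of_ne_zero hP0) h3
    have h5 : r ∣ q ^ a * ∏ i ∈ Finset.range (m + 1), (q ^ (2 * i + 1) - 1) := by
      rw [← h4]; exact h1.mul_right _
    rcases (Nat.Prime.dvd_mul hr).1 h5 with h6 | h6
    · exact hrq (hr.dvd_of_dvd_pow h6)
    · exact not_dvd_odd hq1.le hr heven h6

/-- a fixed point free similarity of prime order has singular vectors counted modulo `r` -/
theorem cnt_modEq {α : Type} [Fintype α] [DecidableEq α] [Finite F] {r : ℕ} [Fact r.Prime] (X : Matrix α α F) (hX : X ^ r = 1)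
    (hfree : ∀ v, X *ᵥ v = v → v = 0) (Q : QuadraticForm F (α → F)) {c : F} (hc : ∀ v, Q (X *ᵥ v) = c * Q v) :
    cnt Q 0 ≡ 1 [MOD r] := by
  classical
  have := Fintype.ofFinite {v : α → F // Q v = 0}
  let f : Function.End {v : α → F // Q v = 0} := fun v => ⟨X *ᵥ v.1, by rw [hc, v.2, mul_zero]⟩
  have hfk : ∀ k : ℕ, ∀ v : {v : α → F // Q v = 0}, ((f ^ k) v : α → F) = (X ^ k) *ᵥ (v : α → F) := by
    intro k
    induction k with
    | zero => intro v; rw [pow_zero, pow_zero, Matrix.one_mulVec]; rfl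
    | succ k ih =>
      intro v
      rw [pow_succ', pow_succ', ← Matrix.mulVec_mulVec, ← ih]
      rfl
  have hfr : f ^ r ^ 1 = 1 := by
    funext v
    apply Subtype.ext
    rw [hfk, pow_one, hX, Matrix.one_mulVec]
    rfl
  have h1 := Equiv.Perm.card_fixedPoints_modEq hfr
  have h2 : cnt Q 0 = Fintype.card {v : α → F // Q v = 0} := Nat.card_eq_fintype_card
  rw [h2]
  have h3 : Fintype.card f.fixedPoints = 1 := by
    rw [Fintype.card_eq_one_iff]
    refine ⟨⟨⟨0, QuadraticMap.map_zero Q⟩, Subtype.ext (Matrix.mulVec_zero X)⟩, ?_⟩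
    rintro ⟨v, hv⟩
    apply Subtype.ext
    apply Subtype.ext
    exact hfree _ (congrArg Subtype.val hv)
  rw [h3] at h1
  exact h1

theorem neq_one_of_mod {q r : ℕ} [Fact r.Prime] (hr2 : r ≠ 2) {m : ℕ} (hq0 : ((q : ℕ) : ZMod r) ≠ 0) (hq1 : ((q : ℕ) : ZMod r) ≠ 1)
    (N : ℕ) (h : N ≡ 1 [MOD r])
    (hN : (N + q ^ m = q ^ (2 * m + 1) + q ^ (m + 1) ∧ ((q : ℕ) : ZMod r) ^ (m + 1) = -1) ∨
      (N + q ^ (m + 1) = q ^ (2 * m + 1) + q ^ m ∧ ((q : ℕ) : ZMod r) ^ (m + 1) = 1)) : False := by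
  have h1 : ((N : ℕ) : ZMod r) = 1 := by
    have := (ZMod.natCast_eq_natCast_iff N 1 r).2 h
    simpa using this
  have h2 : (2 : ZMod r) ≠ 0 := by
    intro h2
    have : ((2 : ℕ) : ZMod r) = 0 := by exact_mod_cast h2
    rw [ZMod.natCast_eq_zero_iff] at this
    exact hr2 ((Nat.prime_dvd_prime_iff_eq Fact.out Nat.prime_two).1 this)
  have hqm : ((q : ℕ) : ZMod r) ^ m ≠ 0 := pow_ne_zero _ hq0
  rcases hN with ⟨hN, hm⟩ | ⟨hN, hm⟩
  · have h3 := congrArg (fun k : ℕ => (k : ZMod r)) hN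
    push_cast at h3
    have h4 : ((q : ℕ) : ZMod r) ^ (2 * m + 1) = q ^ m * q ^ (m + 1) := by rw [← pow_add]; congr 1; ring
    rw [h1, h4, hm] at h3
    have h5 : (2 : ZMod r) * (((q : ℕ) : ZMod r) ^ m - q ^ (m + 1)) = 0 := by
      rw [hm]; linear_combination h3
    rcases mul_eq_zero.1 h5 with h6 | h6
    · exact h2 h6
    · apply hq1
      rw [pow_succ] at h6
      have h7 : ((q : ℕ) : ZMod r) ^ m * (1 - q) = 0 := by linear_combination h6
      rcases mul_eq_zero.1 h7 with h8 | h8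
      · exact absurd h8 hqm
      · linear_combination -h8
  · have h3 := congrArg (fun k : ℕ => (k : ZMod r)) hN
    push_cast at h3
    have h4 : ((q : ℕ) : ZMod r) ^ (2 * m + 1) = q ^ m * q ^ (m + 1) := by rw [← pow_add]; congr 1; ring
    rw [h1, h4, hm] at h3
    have h5 : (2 : ZMod r) * (((q : ℕ) : ZMod r) ^ m - q ^ (m + 1)) = 0 := by
      rw [hm]; linear_combination -h3
    rcases mul_eq_zero.1 h5 with h6 | h6
    · exact h2 h6
    · apply hq1
      rw [pow_succ] at h6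
      have h7 : ((q : ℕ) : ZMod r) ^ m * (1 - q) = 0 := by linear_combination h6
      rcases mul_eq_zero.1 h7 with h8 | h8
      · exact absurd h8 hqm
      · linear_combination -h8

/-- `t` copies of a block -/
def rep {i t n : ℕ} (e : (Fin i × Fin t) ≃ Fin n) (C : Matrix (Fin i) (Fin i) F) : Matrix (Fin n) (Fin n) F :=
  Matrix.reindexAlgEquiv F F e (Matrix.blockDiagonal fun _ => C)

theorem rep_pow {i t n : ℕ} (e : (Fin i × Fin t) ≃ Fin n) (C : Matrix (Fin i) (Fin i) F) {r : ℕ} (hC : C ^ r = 1) :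
    rep e C ^ r = 1 := by
  rw [rep, ← map_pow, ← Matrix.blockDiagonal_pow]
  have : ((fun _ => C : Fin t → Matrix (Fin i) (Fin i) F) ^ r) = 1 := by
    funext k
    exact hC
  rw [this, Matrix.blockDiagonal_one, map_one]

theorem rep_sub {i t n : ℕ} (e : (Fin i × Fin t) ≃ Fin n) (C : Matrix (Fin i) (Fin i) F) (z : F)
    (h : (C - z • (1 : Matrix (Fin i) (Fin i) F)).det ≠ 0) : (rep e C - z • (1 : Matrix (Fin n) (Fin n) F)).det ≠ 0 := by
  have h1 : rep e C - z • (1 : Matrix (Fin n) (Fin n) F) =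
      Matrix.reindexAlgEquiv F F e (Matrix.blockDiagonal fun _ => C - z • (1 : Matrix (Fin i) (Fin i) F)) := by
    have h2 : (Matrix.blockDiagonal fun _ : Fin t => C - z • (1 : Matrix (Fin i) (Fin i) F)) =
        (Matrix.blockDiagonal fun _ : Fin t => C) - z • (1 : Matrix (Fin i × Fin t) (Fin i × Fin t) F) := by
      have h3 : (fun _ : Fin t => C - z • (1 : Matrix (Fin i) (Fin i) F)) =
          (fun _ => C) - z • (1 : Fin t → Matrix (Fin i) (Fin i) F) := by funext k; rfl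
      rw [h3, Matrix.blockDiagonal_sub, Matrix.blockDiagonal_smul, Matrix.blockDiagonal_one]
    rw [h2, map_sub, map_smul, map_one]
    rfl
  rw [h1, Matrix.coe_reindexAlgEquiv, Matrix.det_reindex_self, Matrix.det_blockDiagonal, Finset.prod_const]
  exact pow_ne_zero _ h

end H99.Quad
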