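import Mathlib
import Cfsg.Agent.Lib.H99.OrthTwo2
import Cfsg.Agent.Lib.H99.Quad
import Cfsg.Agent.Lib.H99.Skew

set_option autoImplicit false
set_option linter.unusedSimpArgs false
set_option linter.unusedSectionVars false
set_option linter.unusedVariables false

/-! Symplectic and orthogonal groups in characteristic two. -/

namespace H99.OrthTwo

open Module QuadraticMap H48.QuadSplit H48.QuadStd H96.OeType H48.CharTwoQ
open scoped Matrix

universe u

section

variable {F : Type u} [Field F] {V : Type u} [AddCommGroup V] [Module F V] [FiniteDimensional F V]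

theorem pt_two {Q : QuadraticForm F V} {W : Submodule F V} (h2 : finrank F W = 2) :
    PT (Q.restrict W) ↔ ∃ w ∈ W, w ≠ 0 ∧ Q w = 0 := by
  constructor
  · rintro ⟨U, hU, hd⟩
    rw [h2] at hd
    have h1 : finrank F U = 1 := by omega
    obtain ⟨u, hu, hu0⟩ := Submodule.exists_mem_ne_zero_of_ne_bot (p := U) (by
      rintro rfl
      rw [finrank_bot] at h1
      omega)
    exact ⟨u, u.2, fun h => hu0 (Subtype.ext h), hU u hu⟩
  · rintro ⟨w, hw, hw0, hQ⟩
    refine ⟨Submodule.span F {⟨w, hw⟩}, ?_, ?_⟩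
    · intro u hu
      obtain ⟨c, rfl⟩ := Submodule.mem_span_singleton.1 hu
      rw [QuadraticMap.map_smul]
      have : (Q.restrict W) ⟨w, hw⟩ = 0 := hQ
      rw [this, smul_zero]
    · rw [finrank_span_singleton (by intro h; exact hw0 (congrArg Subtype.val h)), h2]

theorem logic1 {A B X : Prop} (h1 : ¬ A) (h2 : B) : ¬ ((A ↔ X) ↔ (B ↔ X)) := by tauto

theorem logic2 {A B X : Prop} (h1 : A) (h2 : ¬ B) : ¬ ((A ↔ X) ↔ (B ↔ X)) := by tauto

/-- in characteristic two adding the square of a multiple of `B(k, ·)` can change the type -/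
theorem type_change [Fintype F] [CharP F 2] {Q : QuadraticForm F V} (hQ : ND Q) {m : ℕ} (hd : finrank F V = 2 * m) {k : V} (hk : Q k ≠ 0) :
    ∃ c : F, ¬ (PT (addSq Q (c • polarBilin Q k)) ↔ PT Q) := by
  classical
  obtain ⟨k', hk'⟩ : ∃ k', polar Q k k' = 1 := by
    by_contra hcon
    push Not at hcon
    apply hk
    have : k = 0 := by
      apply hQ
      intro y
      by_contra hy
      apply hcon ((polar Q k y)⁻¹ • y)
      rw [polar_smul_right, smul_eq_mul, inv_mul_cancel₀ hy]
    rw [this]; exact QuadraticMap.map_zero Q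
  have h2nd : ∀ (R : QuadraticForm F V) v, polar R v v = 0 := fun R v => by rw [← polarBilin_apply_apply]; exact polar_alt R v
  have hk'k : polar Q k' k = 1 := by rw [polar_comm]; exact hk'
  let W : Submodule F V := Submodule.span F {k, k'}
  have hkW : k ∈ W := Submodule.subset_span (by simp)
  have hk'W : k' ∈ W := Submodule.subset_span (by simp)
  have hmem : ∀ w ∈ W, ∃ a b : F, w = a • k + b • k' := by
    intro w hw
    obtain ⟨a, b, h⟩ := Submodule.mem_span_pair.1 hw
    exact ⟨a, b, h.symm⟩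
  have hli : LinearIndependent F ![k, k'] := by
    rw [LinearIndependent.pair_iff]
    intro s t hst
    have h1 : polar Q k (s • k + t • k') = 0 := by rw [hst]; exact polar_zero_right Q k
    have h2 : polar Q (s • k + t • k') k' = 0 := by rw [hst]; exact polar_zero_left Q k'
    rw [polar_add_right, polar_smul_right, polar_smul_right, h2nd, hk', smul_zero, zero_add, smul_eq_mul, mul_one] at h1
    rw [polar_add_left, polar_smul_left, polar_smul_left, h2nd, hk', smul_zero, add_zero, smul_eq_mul, mul_one] at h2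
    exact ⟨h2, h1⟩
  have hWd : finrank F W = 2 := by
    have h1 := finrank_span_eq_card hli
    have h2 : Set.range ![k, k'] = {k, k'} := by
      simp only [Matrix.range_cons, Matrix.range_empty, Set.union_empty, Set.singleton_union]
    rw [h2, Fintype.card_fin] at h1
    exact h1
  have key : ∀ R : QuadraticForm F V, (∀ u v, polar R u v = polar Q u v) → ND (R.restrict W) := by
    intro R hR
    rintro ⟨w, hw⟩ h
    obtain ⟨a, b, rfl⟩ := hmem w hw
    have h1 : polar R (a • k + b • k') k = 0 := h ⟨k, hkW⟩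
    have h2 : polar R (a • k + b • k') k' = 0 := h ⟨k', hk'W⟩
    rw [hR, polar_add_left, polar_smul_left, polar_smul_left, h2nd, hk'k, smul_zero, zero_add, smul_eq_mul, mul_one] at h1
    rw [hR, polar_add_left, polar_smul_left, polar_smul_left, h2nd, hk', smul_zero, add_zero, smul_eq_mul, mul_one] at h2
    apply Subtype.ext
    show a • k + b • k' = 0
    rw [h1, h2, zero_smul, zero_smul, add_zero]
  -- type of the plane
  have hplane : ∀ c : F, PT ((addSq Q (c • polarBilin Q k)).restrict W) ↔ ∃ t : F, t ^ 2 + t + Q k * (Q k' + c ^ 2) = 0 := by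
    intro c
    have hval : ∀ a b : F, addSq Q (c • polarBilin Q k) (a • k + b • k') = a ^ 2 * Q k + a * b + b ^ 2 * (Q k' + c ^ 2) := by
      intro a b
      rw [addSq_apply, LinearMap.smul_apply, polarBilin_apply_apply, polar_add_right, polar_smul_right, polar_smul_right, h2nd, hk', smul_zero, zero_add,
        QuadraticMap.map_add Q, QuadraticMap.map_smul, QuadraticMap.map_smul, polar_smul_left, polar_smul_right, hk']
      simp only [smul_eq_mul]
      ring
    rw [pt_two hWd]
    constructor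
    · rintro ⟨w, hw, hw0, hQw⟩
      obtain ⟨a, b, rfl⟩ := hmem w hw
      rw [hval] at hQw
      have hb : b ≠ 0 := by
        rintro rfl
        apply hw0
        have : a ^ 2 * Q k = 0 := by linear_combination hQw
        have ha : a = 0 := pow_eq_zero_iff (two_ne_zero) |>.1 ((mul_eq_zero.1 this).resolve_right hk)
        rw [ha, zero_smul, zero_smul, add_zero]
      refine ⟨Q k * a / b, ?_⟩
      field_simp
      linear_combination Q k * hQw
    · rintro ⟨t, ht⟩
      refine ⟨(t / Q k) • k + (1 : F) • k', W.add_mem (W.smul_mem _ hkW) (W.smul_mem _ hk'W), ?_, ?_⟩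
      · intro h
        have := (LinearIndependent.pair_iff.1 hli) _ _ h
        exact one_ne_zero this.2
      · rw [hval]
        field_simp
        linear_combination ht
  have hpol : ∀ c : F, ∀ u v, polar (addSq Q (c • polarBilin Q k)) u v = polar Q u v := fun c => polar_addSq Q _
  have hND : ∀ c : F, ND (addSq Q (c • polarBilin Q k)) := by
    intro c x hx
    apply hQ
    intro y
    rw [← hpol c]; exact hx y
  have hsplit : ∀ c : F, PT (addSq Q (c • polarBilin Q k)) ↔ ((∃ t : F, t ^ 2 + t + Q k * (Q k' + c ^ 2) = 0) ↔ PT (Q.restrict (orth Q W))) := by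
    intro c
    rw [pt_split_iff (hND c) (key _ (hpol c)) (m := 1) (by rw [hWd]) hd, hplane]
    have ho : orth (addSq Q (c • polarBilin Q k)) W = orth Q W := by
      ext v
      constructor
      · intro h u hu; rw [← hpol c]; exact h u hu
      · intro h u hu; rw [hpol c]; exact h u hu
    rw [ho]
    have hr : (addSq Q (c • polarBilin Q k)).restrict (orth Q W) = Q.restrict (orth Q W) := by
      ext ⟨v, hv⟩
      show addSq Q (c • polarBilin Q k) v = Q v
      rw [addSq_apply, LinearMap.smul_apply, polarBilin_apply_apply, hv k hkW, smul_zero]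
      ring
    rw [hr]
  have h0 : PT Q ↔ ((∃ t : F, t ^ 2 + t + Q k * (Q k' + 0 ^ 2) = 0) ↔ PT (Q.restrict (orth Q W))) := by
    rw [← hsplit 0]
    have : addSq Q ((0 : F) • polarBilin Q k) = Q := by
      ext v
      rw [addSq_apply, zero_smul, LinearMap.zero_apply]; ring
    rw [this]
  by_cases hc : ∃ t : F, t ^ 2 + t + Q k * (Q k' + 0 ^ 2) = 0
  · -- make it anisotropic
    have hns : ¬ Function.Surjective (fun t : F => t ^ 2 + t) := by
      intro hs
      have hi := Finite.injective_iff_surjective.2 hs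
      have : (0 : F) = 1 := hi (by
        show (0 : F) ^ 2 + 0 = 1 ^ 2 + 1
        have := CharTwo.add_self_eq_zero (1 : F)
        linear_combination -this)
      exact zero_ne_one this
    obtain ⟨z, hz⟩ : ∃ z : F, ∀ t : F, t ^ 2 + t ≠ z := by
      by_contra hcon
      push Not at hcon
      exact hns hcon
    refine ⟨sqrt (z / Q k - Q k'), ?_⟩
    rw [hsplit, h0, sqrt_sq]
    have h1 : ¬ ∃ t : F, t ^ 2 + t + Q k * (Q k' + (z / Q k - Q k')) = 0 := by
      rintro ⟨t, ht⟩
      apply hz t
      have h3 : Q k * (Q k' + (z / Q k - Q k')) = z := by field_simp; ring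
      rw [h3] at ht
      have := CharTwo.add_self_eq_zero z
      linear_combination ht - this
    exact logic1 h1 hc
  · refine ⟨sqrt (Q k'), ?_⟩
    rw [hsplit, h0, sqrt_sq]
    have h1 : ∃ t : F, t ^ 2 + t + Q k * (Q k' + Q k') = 0 := ⟨0, by
      rw [CharTwo.add_self_eq_zero]; ring⟩
    exact logic2 h1 hc

end

section sp

variable {F : Type u} [Field F]

theorem polar_plus [CharP F 2] (d : ℕ) (u v : Fin d ⊕ Fin d → F) : polar (qPlus d F) u v = Cfsg.sympForm d F u v := by
  rw [Cfsg.sympForm, polar, qPlus_apply, qPlus_apply, qPlus_apply, Matrix.J, Matrix.fromBlocks_mulVec]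
  simp only [Matrix.zero_mulVec, Matrix.neg_mulVec, Matrix.one_mulVec, zero_add, add_zero]
  rw [dotProduct, Fintype.sum_sum_type, ← Finset.sum_sub_distrib, ← Finset.sum_sub_distrib, ← Finset.sum_add_distrib]
  refine Finset.sum_congr rfl fun i _ => ?_
  simp only [Pi.add_apply, Sum.elim_inl, Sum.elim_inr, Pi.neg_apply, Function.comp_apply]
  have := CharTwo.add_self_eq_zero (u (Sum.inl i) * v (Sum.inr i))
  linear_combination this

theorem mem_sp {d : ℕ} {g : GL (Fin d ⊕ Fin d) F} : g ∈ Cfsg.spGL d F ↔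
    ∀ u v, Cfsg.sympForm d F ((g : Matrix (Fin d ⊕ Fin d) (Fin d ⊕ Fin d) F) *ᵥ u) ((g : Matrix (Fin d ⊕ Fin d) (Fin d ⊕ Fin d) F) *ᵥ v) = Cfsg.sympForm d F u v := Iff.rfl

theorem iso_le_sp {d : ℕ} {Q : (Fin d ⊕ Fin d → F) → F} (hQf : ∀ u v, QuadraticMap.polar Q u v = Cfsg.sympForm d F u v) :
    Cfsg.isometryGroup F Q ≤ Cfsg.spGL d F := by
  intro g hg
  rw [mem_sp]
  intro u v
  have h := (H17.OrthDet.mem_isometryGroup_iff _ _).mp hg
  rw [← hQf, ← hQf, QuadraticMap.polar, QuadraticMap.polar, ← Matrix.mulVec_add, h, h, h]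

/-- index of the orthogonal group in the symplectic group -/
theorem idx [Fintype F] {m : ℕ} {Q : (Fin (m + 1) ⊕ Fin (m + 1) → F) → F} (hQ : Cfsg.Geo.IsNondegenerateQuadraticForm Q)
    (hQf : ∀ u v, QuadraticMap.polar Q u v = Cfsg.sympForm (m + 1) F u v) :
    (PT (Quad.toQF hQ) → (Cfsg.isometryGroup F Q).relIndex (Cfsg.spGL (m + 1) F) * 2 = Fintype.card F ^ (m + 1) * (Fintype.card F ^ (m + 1) + 1)) ∧
    (¬ PT (Quad.toQF hQ) → (Cfsg.isometryGroup F Q).relIndex (Cfsg.spGL (m + 1) F) * 2 = Fintype.card F ^ (m + 1) * (Fintype.card F ^ (m + 1) - 1)) := by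
  set q := Fintype.card F with hq
  have hq1 : 1 < q := Fintype.one_lt_card
  have hd : finrank F (Fin (m + 1) ⊕ Fin (m + 1) → F) = 2 * (m + 1) := by
    rw [finrank_fintype_fun_eq_card, Fintype.card_sum, Fintype.card_fin]; ring
  have h1 : (Nat.card (Cfsg.isometryGroup F Q)) * (Cfsg.isometryGroup F Q).relIndex (Cfsg.spGL (m + 1) F) = Nat.card (Cfsg.spGL (m + 1) F) := by
    have := Subgroup.relIndex_mul_relIndex ⊥ (Cfsg.isometryGroup F Q) (Cfsg.spGL (m + 1) F) bot_le (iso_le_sp hQf)
    rwa [Subgroup.relIndex_bot_left, Subgroup.relIndex_bot_left] at this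
  have h2 : Nat.card (Cfsg.isometryGroup F Q) = Nat.card (H7.Hyp.O (Quad.toQF hQ)) := H7.HypOrd.card_isometryGroup (Quad.toQF hQ)
  rw [h2, Skew.card_sp, ← hq, Finset.prod_range_succ] at h1
  have hP0 := Quad.prod_ne_zero hq1 m
  have hdd : (q ^ (2 * (m + 1)) - 1) = (q ^ (m + 1) - 1) * (q ^ (m + 1) + 1) := by
    obtain ⟨b, hb⟩ : ∃ b, q ^ (m + 1) = b + 1 := ⟨q ^ (m + 1) - 1, (Nat.sub_add_cancel (Nat.one_le_pow _ _ (by omega))).symm⟩
    rw [mul_comm 2, pow_mul, hb]
    simp only [Nat.add_sub_cancel]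
    have : (b + 1) ^ 2 = b * (b + 1 + 1) + 1 := by ring
    rw [this, Nat.add_sub_cancel]
  have hm0 : q ^ (m + 1) - 1 ≠ 0 := by
    have : 1 < q ^ (m + 1) := Nat.one_lt_pow (by omega) hq1
    omega
  have hpw : q ^ ((m + 1) ^ 2) = q ^ ((m + 1) * m) * q ^ (m + 1) := by rw [← pow_add]; congr 1; ring
  rw [hdd, hpw] at h1
  have hqp : 0 < q ^ ((m + 1) * m) := by positivity
  constructor
  · intro hp
    have he := equiv_of_pt (Quad.nd_toQF hQ) hd hp
    rw [H7.HypStd.card_O_congr he, H7.HypOrd.card_O_plus, Nat.card_eq_fintype_card, ← hq] at h1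
    apply Nat.eq_of_mul_eq_mul_right (Nat.pos_of_ne_zero (mul_ne_zero hm0 (mul_ne_zero hP0 hqp.ne')))
    linear_combination h1
  · intro hp
    obtain ⟨-, z, hz, he⟩ := equiv_of_not_pt (Quad.nd_toQF hQ) hd hp
    rw [Nat.add_sub_cancel] at he
    have hani : H7.AnisoPlane.Aniso (1 : F) z := by
      intro z1 z2 h12
      by_cases h2 : z2 = 0
      · subst h2
        refine ⟨?_, rfl⟩
        have : z1 ^ 2 = 0 := by linear_combination h12
        exact pow_eq_zero_iff (two_ne_zero) |>.1 this
      · exfalso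
        apply hz (z1 / z2)
        field_simp
        linear_combination h12
    rw [H7.HypStd.card_O_congr he, H7.MinusOrd.card_O_minus m hani, Nat.card_eq_fintype_card, ← hq] at h1
    apply Nat.eq_of_mul_eq_mul_right (Nat.pos_of_ne_zero (mul_ne_zero (by omega : q ^ (m + 1) + 1 ≠ 0) (mul_ne_zero hP0 hqp.ne')))
    linear_combination h1

end sp

end H99.OrthTwo
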