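import Mathlib
import Cfsg.Agent.Lib.H99.OrthInv
import Cfsg.Agent.Lib.H99.OrthTwo3
import Cfsg.Agent.Lib.H17.OrthTrans2

set_option autoImplicit false
set_option linter.unusedSimpArgs false
set_option linter.unusedSectionVars false
set_option linter.unusedVariables false

/-! Isometries with square `-1`, and spinor norms of involutions modulo scalars, in odd characteristic. -/

namespace H99.OrthSS

open Module QuadraticMap H48.QuadSplit H48.QuadStd H96.OeType H17.OrthAbs H17.OrthTheta H17.OrthOmega

universe u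

section theta

variable {F : Type*} [Field F] [Finite F] {V : Type*} [AddCommGroup V] [Module F V] [FiniteDimensional F V] [Finite V]

theorem exists_ns {Q : QuadraticForm F V} {A : Submodule F V} (hA : ND (Q.restrict A)) (hA0 : 0 < finrank F A) :
    ∃ v ∈ A, Q v ≠ 0 := by
  by_contra hcon
  push Not at hcon
  obtain ⟨v, hv, hv0⟩ := Submodule.exists_mem_ne_zero_of_ne_bot (p := A) (by rintro rfl; rw [finrank_bot] at hA0; omega)
  apply hv0
  apply nd_on.1 hA v hv
  intro y hy
  rw [polarBilin_apply_apply, polar, hcon _ (A.add_mem hv hy), hcon v hv, hcon y hy]; ring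

/-- the plane spanned by `v` and `w` -/
theorem plane_nd {Q : QuadraticForm F V} (h2 : (2 : F) ≠ 0) {v w : V} (hv : Q v ≠ 0) (hw : Q w = Q v) (hvw : polar Q v w = 0) :
    ND (Q.restrict (Submodule.span F {v, w})) ∧ finrank F (Submodule.span F {v, w}) = 2 := by
  have h2n : ∀ x : V, polar Q x x = 2 * Q x := fun x => by rw [polar_self, ← Nat.cast_smul_eq_nsmul F, smul_eq_mul]; norm_num
  have hwv : polar Q w v = 0 := by rw [polar_comm]; exact hvw
  have hli : LinearIndependent F ![v, w] := by
    rw [LinearIndependent.pair_iff]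
    intro s t hst
    have h1 : polar Q v (s • v + t • w) = 0 := by rw [hst]; exact polar_zero_right Q v
    have h3 : polar Q w (s • v + t • w) = 0 := by rw [hst]; exact polar_zero_right Q w
    rw [polar_add_right, polar_smul_right, polar_smul_right, h2n, hvw, smul_zero, add_zero, smul_eq_mul] at h1
    rw [polar_add_right, polar_smul_right, polar_smul_right, h2n, hwv, smul_zero, zero_add, smul_eq_mul, hw] at h3
    exact ⟨(mul_eq_zero.1 h1).resolve_right (mul_ne_zero h2 hv), (mul_eq_zero.1 h3).resolve_right (mul_ne_zero h2 hv)⟩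
  constructor
  · rw [nd_on]
    intro x hx hxy
    obtain ⟨a, b, rfl⟩ := Submodule.mem_span_pair.1 hx
    have h1 := hxy v (Submodule.subset_span (by simp))
    have h3 := hxy w (Submodule.subset_span (by simp))
    rw [polarBilin_apply_apply, polar_add_left, polar_smul_left, polar_smul_left, h2n, hwv, smul_zero, add_zero, smul_eq_mul] at h1
    rw [polarBilin_apply_apply, polar_add_left, polar_smul_left, polar_smul_left, h2n, hvw, smul_zero, zero_add, smul_eq_mul, hw] at h3
    rw [(mul_eq_zero.1 h1).resolve_right (mul_ne_zero h2 hv), (mul_eq_zero.1 h3).resolve_right (mul_ne_zero h2 hv), zero_smul, zero_smul, add_zero]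
  · have h1 := finrank_span_eq_card hli
    have h3 : Set.range ![v, w] = {v, w} := by
      simp only [Matrix.range_cons, Matrix.range_empty, Set.union_empty, Set.singleton_union]
    rw [h3, Fintype.card_fin] at h1
    exact h1

/-- value of a sign character on an element with square `-1` on `A` -/
theorem theta_J {Q : QuadraticForm F V} (hQ : ND Q) (h2 : (2 : F) ≠ 0) (χ : ↥(O Q) →* ℤˣ) (σ : ℤˣ)
    (hχ : ∀ v w (hv : Q v ≠ 0) (hw : Q w ≠ 0), Q w = 2 * Q v → χ (rf Q w hw) * χ (rf Q v hv) = σ) :
    ∀ (k : ℕ) (A : Submodule F V), finrank F A = 2 * k → ND (Q.restrict A) → ∀ g : ↥(O Q), (∀ v ∈ A, (g : V ≃ₗ[F] V) v ∈ A) →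
      (∀ v ∈ A, (g : V ≃ₗ[F] V) ((g : V ≃ₗ[F] V) v) = -v) → (∀ v ∈ orth Q A, (g : V ≃ₗ[F] V) v = v) → χ g = σ ^ k := by
  intro k
  induction k with
  | zero =>
    intro A hA hAn g h1 h3 h4
    have hA0 : A = ⊥ := Submodule.finrank_eq_zero.1 (by omega)
    have : g = 1 := by
      apply Subtype.ext
      apply LinearEquiv.ext
      intro v
      apply h4
      rw [hA0]
      intro u hu
      rw [(Submodule.mem_bot F).1 hu]; exact polar_zero_left Q v
    rw [this, _root_.map_one, pow_zero]
  | succ k ih =>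
    intro A hA hAn g h1 h3 h4
    obtain ⟨v, hv, hQv⟩ := exists_ns hAn (by omega)
    set w := (g : V ≃ₗ[F] V) v with hw
    have hg : ∀ x, Q ((g : V ≃ₗ[F] V) x) = Q x := g.2
    have hpg : ∀ x y, polar Q ((g : V ≃ₗ[F] V) x) ((g : V ≃ₗ[F] V) y) = polar Q x y := fun x y => by
      rw [polar, polar, ← _root_.map_add, hg, hg, hg]
    have hQw : Q w = Q v := hg v
    have hgw : (g : V ≃ₗ[F] V) w = -v := h3 v hv
    have hwA : w ∈ A := h1 v hv
    have hvw : polar Q v w = 0 := by
      have h5 := hpg v w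
      rw [hgw, ← hw, polar_neg_right, polar_comm] at h5
      have h6 : 2 * polar Q v w = 0 := by linear_combination -h5
      exact (mul_eq_zero.1 h6).resolve_left h2
    have hwv : polar Q w v = 0 := by rw [polar_comm]; exact hvw
    have h2n : ∀ x : V, polar Q x x = 2 * Q x := fun x => by rw [polar_self, ← Nat.cast_smul_eq_nsmul F, smul_eq_mul]; norm_num
    obtain ⟨hPn, hPd⟩ := plane_nd h2 hQv hQw hvw
    set P := Submodule.span F {v, w} with hP
    have hvP : v ∈ P := Submodule.subset_span (by simp)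
    have hwP : w ∈ P := Submodule.subset_span (by simp)
    have hPA : P ≤ A := by
      rw [hP, Submodule.span_le]
      rintro x (rfl | rfl)
      · exact hv
      · exact hwA
    have hQs : Q (v + w) = 2 * Q v := by
      rw [QuadraticMap.map_add Q, hvw, hQw]; ring
    have hQs0 : Q (v + w) ≠ 0 := by rw [hQs]; exact mul_ne_zero h2 hQv
    -- the rotation of the plane
    have hrv : ∀ x ∈ orth Q P, refl Q v hQv x = x := fun x hx => refl_fix Q v hQv x (hx v hvP)
    have hrs : ∀ x ∈ orth Q P, refl Q (v + w) hQs0 x = x := fun x hx => refl_fix Q _ hQs0 x (by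
      rw [polar_add_left, hx v hvP, hx w hwP, add_zero])
    have hr1 : refl Q v hQv v = -v := refl_self Q v hQv
    have hr2 : refl Q v hQv w = w := refl_fix Q v hQv w hvw
    have hr3 : refl Q (v + w) hQs0 v = -w := by
      rw [refl_apply, polar_add_left, h2n, hwv, add_zero, hQs, inv_mul_cancel₀ (mul_ne_zero h2 hQv), one_smul]; abel
    have hr4 : refl Q (v + w) hQs0 w = -v := by
      rw [refl_apply, polar_add_left, h2n, hvw, zero_add, hQw, hQs, inv_mul_cancel₀ (mul_ne_zero h2 hQv), one_smul]; abel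
    -- new element
    let g' : ↥(O Q) := rf Q v hQv * (rf Q (v + w) hQs0 * g)
    have hg' : ∀ x, (g' : V ≃ₗ[F] V) x = refl Q v hQv (refl Q (v + w) hQs0 ((g : V ≃ₗ[F] V) x)) := fun x => rfl
    have hsplit := Iso.split (refl_polar Q) (nd_on.1 hAn) (nd_on.1 hPn) hPA
    set A' : Submodule F V := A ⊓ orth Q P with hA'
    have hA'n : ND (Q.restrict A') := nd_on.2 hsplit.1
    have hA'd : finrank F A' = 2 * k := by
      have : finrank F P + finrank F A' = finrank F A := hsplit.2.1
      omega
    have hgP : ∀ x ∈ P, (g : V ≃ₗ[F] V) x ∈ P := by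
      intro x hx
      obtain ⟨a, b, rfl⟩ := Submodule.mem_span_pair.1 hx
      rw [_root_.map_add, _root_.map_smul, _root_.map_smul, hgw, ← hw]
      exact P.add_mem (P.smul_mem _ hwP) (P.smul_mem _ (P.neg_mem hvP))
    have hgo : ∀ x ∈ orth Q P, (g : V ≃ₗ[F] V) x ∈ orth Q P := by
      intro x hx y hy
      have h5 : (g : V ≃ₗ[F] V) ((g : V ≃ₗ[F] V) y) = -y := h3 y (hPA hy)
      have h6 : y = (g : V ≃ₗ[F] V) (-(g : V ≃ₗ[F] V) y) := by rw [_root_.map_neg, h5, neg_neg]
      rw [h6, hpg]
      exact hx _ (P.neg_mem (hgP y hy))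
    have hfix : ∀ x ∈ orth Q P, (g' : V ≃ₗ[F] V) x = (g : V ≃ₗ[F] V) x := by
      intro x hx
      rw [hg', hrs _ (hgo x hx), hrv _ (hgo x hx)]
    have hih := ih A' hA'd hA'n g' (by
      rintro x ⟨hx1, hx2⟩
      rw [hfix x hx2]
      exact ⟨h1 x hx1, hgo x hx2⟩) (by
      rintro x ⟨hx1, hx2⟩
      rw [hfix x hx2, hfix _ (hgo x hx2)]
      exact h3 x hx1) (by
      intro x hx
      -- x = p + y with p ∈ P and y ∈ orth Q P
      obtain ⟨e, he, -⟩ := ortho_split hPn
      obtain ⟨⟨p, y⟩, rfl⟩ := e.surjective x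
      rw [he] at hx ⊢
      have hy : (y : V) ∈ orth Q A := by
        intro a ha
        -- split a
        obtain ⟨⟨p', y'⟩, hpy⟩ := e.surjective a
        rw [he] at hpy
        have hy'A : (y' : V) ∈ A := by
          have : (y' : V) = a - p' := by rw [← hpy]; simp
          rw [this]
          exact A.sub_mem ha (hPA p'.2)
        have h7 := hx (y' : V) ⟨hy'A, y'.2⟩
        rw [polar_add_right] at h7
        have h8 : polar Q (y' : V) (p : V) = 0 := by rw [polar_comm]; exact y'.2 _ p.2
        rw [h8, zero_add] at h7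
        rw [← hpy, polar_add_left]
        have h9 : polar Q (p' : V) (y : V) = 0 := y.2 _ p'.2
        show polar Q (p' : V) (y : V) + polar Q (y' : V) (y : V) = 0
        rw [h9, h7, add_zero]
      have hpp : ∀ x ∈ P, (g' : V ≃ₗ[F] V) x = x := by
        intro x hx
        obtain ⟨a, b, rfl⟩ := Submodule.mem_span_pair.1 hx
        rw [_root_.map_add, _root_.map_smul, _root_.map_smul, hg', hg', hgw, ← hw, hr4, _root_.map_neg, hr1, neg_neg, _root_.map_neg, hr3, neg_neg, hr2]
      rw [_root_.map_add, hpp _ p.2, hfix _ y.2, h4 _ hy])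
    have h5 : χ g' = χ (rf Q v hQv) * (χ (rf Q (v + w) hQs0) * χ g) := by
      rw [_root_.map_mul, _root_.map_mul]
    have h6 : (χ (rf Q v hQv) * χ (rf Q (v + w) hQs0)) * χ g = σ ^ k := by rw [mul_assoc, ← h5, hih]
    rw [mul_comm (χ (rf Q v hQv)), hχ v (v + w) hQv hQs0 hQs] at h6
    have h7 : σ * σ = 1 := Int.units_mul_self σ
    calc χ g = (σ * σ) * χ g := by rw [h7, one_mul]
      _ = σ * (σ * χ g) := by rw [mul_assoc]
      _ = σ ^ (k + 1) := by rw [h6, pow_succ, mul_comm]

/-- value of a sign character on an element equal to `-1` on `A` -/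
theorem theta_neg {Q : QuadraticForm F V} (hQ : ND Q) (h2 : (2 : F) ≠ 0) (χ : ↥(O Q) →* ℤˣ) (hχ : ∀ v (hv : Q v ≠ 0), χ (rf Q v hv) = -1) :
    ∀ (k : ℕ) (A : Submodule F V), finrank F A = k → ND (Q.restrict A) → ∀ g : ↥(O Q), (∀ v ∈ A, (g : V ≃ₗ[F] V) v = -v) →
      (∀ v ∈ orth Q A, (g : V ≃ₗ[F] V) v = v) → χ g = (-1) ^ k := by
  intro k
  induction k with
  | zero =>
    intro A hA hAn g h1 h4
    have hA0 : A = ⊥ := Submodule.finrank_eq_zero.1 (by omega)
    have : g = 1 := by
      apply Subtype.ext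
      apply LinearEquiv.ext
      intro v
      apply h4
      rw [hA0]
      intro u hu
      rw [(Submodule.mem_bot F).1 hu]; exact polar_zero_left Q v
    rw [this, _root_.map_one, pow_zero]
  | succ k ih =>
    intro A hA hAn g h1 h4
    obtain ⟨v, hv, hQv⟩ := exists_ns hAn (by omega)
    have h2n : ∀ x : V, polar Q x x = 2 * Q x := fun x => by rw [polar_self, ← Nat.cast_smul_eq_nsmul F, smul_eq_mul]; norm_num
    have hv0 : v ≠ 0 := by rintro rfl; exact hQv (QuadraticMap.map_zero Q)
    set P := Submodule.span F {v} with hP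
    have hvP : v ∈ P := Submodule.mem_span_singleton_self v
    have hPd : finrank F P = 1 := finrank_span_singleton hv0
    have hPA : P ≤ A := by
      rw [hP, Submodule.span_le]
      rintro x rfl
      exact hv
    have hPn : ND (Q.restrict P) := by
      rw [nd_on]
      intro x hx hxy
      obtain ⟨a, rfl⟩ := Submodule.mem_span_singleton.1 hx
      have h5 := hxy v hvP
      rw [polarBilin_apply_apply, polar_smul_left, h2n, smul_eq_mul] at h5
      rw [(mul_eq_zero.1 h5).resolve_right (mul_ne_zero h2 hQv), zero_smul]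
    have hrv : ∀ x ∈ orth Q P, refl Q v hQv x = x := fun x hx => refl_fix Q v hQv x (hx v hvP)
    let g' : ↥(O Q) := rf Q v hQv * g
    have hg' : ∀ x, (g' : V ≃ₗ[F] V) x = refl Q v hQv ((g : V ≃ₗ[F] V) x) := fun x => rfl
    have hsplit := Iso.split (refl_polar Q) (nd_on.1 hAn) (nd_on.1 hPn) hPA
    set A' : Submodule F V := A ⊓ orth Q P with hA'
    have hA'n : ND (Q.restrict A') := nd_on.2 hsplit.1
    have hA'd : finrank F A' = k := by
      have : finrank F P + finrank F A' = finrank F A := hsplit.2.1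
      omega
    have hih := ih A' hA'd hA'n g' (by
      rintro x ⟨hx1, hx2⟩
      rw [hg', h1 x hx1, _root_.map_neg, hrv x hx2]) (by
      intro x hx
      obtain ⟨e, he, -⟩ := ortho_split hPn
      obtain ⟨⟨p, y⟩, rfl⟩ := e.surjective x
      rw [he] at hx ⊢
      have hy : (y : V) ∈ orth Q A := by
        intro a ha
        obtain ⟨⟨p', y'⟩, hpy⟩ := e.surjective a
        rw [he] at hpy
        have hy'A : (y' : V) ∈ A := by
          have : (y' : V) = a - p' := by rw [← hpy]; simp
          rw [this]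
          exact A.sub_mem ha (hPA p'.2)
        have h7 := hx (y' : V) ⟨hy'A, y'.2⟩
        rw [polar_add_right] at h7
        have h8 : polar Q (y' : V) (p : V) = 0 := by rw [polar_comm]; exact y'.2 _ p.2
        rw [h8, zero_add] at h7
        rw [← hpy, polar_add_left]
        have h9 : polar Q (p' : V) (y : V) = 0 := y.2 _ p'.2
        show polar Q (p' : V) (y : V) + polar Q (y' : V) (y : V) = 0
        rw [h9, h7, add_zero]
      obtain ⟨a, ha⟩ := Submodule.mem_span_singleton.1 p.2
      have hp : (g' : V ≃ₗ[F] V) (p : V) = p := by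
        rw [hg', h1 _ (hPA p.2), _root_.map_neg, ← ha, _root_.map_smul, refl_self, smul_neg, neg_neg]
      rw [_root_.map_add, hp, hg' (y : V), h4 _ hy, hrv _ y.2])
    have h5 : χ g' = χ (rf Q v hQv) * χ g := by rw [_root_.map_mul]
    rw [hih, hχ] at h5
    rw [pow_succ, h5]
    simp

end theta

end H99.OrthSS
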