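import Mathlib
import Cfsg.Agent.Lib.H99.OrthJ

set_option autoImplicit false
set_option linter.unusedSimpArgs false
set_option linter.unusedSectionVars false
set_option linter.unusedVariables false

/-! Isometries with square `-1`: structure, existence, membership in `Ω`. -/

namespace H99.OrthSS

open Module QuadraticMap H48.QuadSplit H48.QuadStd H96.OeType

universe u

section struct

variable {F : Type u} [Field F] [Fintype F]

theorem add_sq_zero {a b : F} (h : a * a + b * b = 0) (hne : a ≠ 0 ∨ b ≠ 0) : IsSquare (-1 : F) := by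
  by_cases hb : b = 0
  · subst hb
    exfalso
    rcases hne with h1 | h1
    · apply h1
      have : a * a = 0 := by linear_combination h
      exact mul_self_eq_zero.1 this
    · exact h1 rfl
  · refine ⟨a / b, ?_⟩
    field_simp
    linear_combination -h

/-- **structure of isometries with square `-1`** -/
theorem J_struct (h2 : (2 : F) ≠ 0) :
    ∀ (n : ℕ) (V : Type u) [AddCommGroup V] [Module F V] [FiniteDimensional F V] (Q : QuadraticForm F V) (f : V →ₗ[F] V),
      finrank F V = n → ND Q → (∀ v, Q (f v) = Q v) → (∀ v, f (f v) = -v) →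
      ∃ k, n = 2 * k ∧ (PT Q ↔ (IsSquare (-1 : F) ∨ Even k)) ∧
        ∀ j ≤ k, ∃ Y : Submodule F V, (∀ v ∈ Y, f v ∈ Y) ∧ ND (Q.restrict Y) ∧ finrank F Y = 2 * j := by
  intro n
  induction n using Nat.strong_induction_on with
  | _ n ih =>
    intro V _ _ _ Q f hn hQ hf hff
    have : Finite V := Module.finite_of_finite F
    have hbot : ∃ Y : Submodule F V, (∀ v ∈ Y, f v ∈ Y) ∧ ND (Q.restrict Y) ∧ finrank F Y = 2 * 0 :=
      ⟨⊥, fun v hv => by rw [(Submodule.mem_bot F).1 hv, _root_.map_zero]; exact Submodule.zero_mem _, nd_on.2 Iso.nd_bot, by rw [finrank_bot]⟩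
    rcases Nat.eq_zero_or_pos n with h0 | hpos
    · refine ⟨0, by rw [h0], ?_, ?_⟩
      · refine iff_of_true ⟨⊥, ?_, by rw [finrank_bot, hn, h0]⟩ (Or.inr Even.zero)
        intro u hu
        rw [(Submodule.mem_bot F).1 hu]; exact QuadraticMap.map_zero Q
      · intro k hk
        rw [Nat.le_zero.1 hk]
        exact hbot
    · obtain ⟨v, -, hQv⟩ := exists_ns (Q := Q) (A := ⊤) (nd_on.2 (nd_top.1 hQ)) (by rw [finrank_top]; omega)
      have hpf := polar_inv hf
      have hvw : polar Q v (f v) = 0 := by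
        have h5 := hpf v (f v)
        rw [hff, polar_neg_right, polar_comm] at h5
        have h6 : 2 * polar Q v (f v) = 0 := by linear_combination -h5
        exact (mul_eq_zero.1 h6).resolve_left h2
      obtain ⟨hPn, hPd⟩ := plane_nd h2 hQv (hf v) hvw
      set P := Submodule.span F {v, f v} with hP
      have hPi : ∀ x ∈ P, f x ∈ P := by
        intro x hx
        obtain ⟨a, b, rfl⟩ := Submodule.mem_span_pair.1 hx
        rw [_root_.map_add, _root_.map_smul, _root_.map_smul, hff]
        exact P.add_mem (P.smul_mem _ (Submodule.subset_span (by simp))) (P.smul_mem _ (P.neg_mem (Submodule.subset_span (by simp))))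
      have hPt : PT (Q.restrict P) ↔ IsSquare (-1 : F) := by
        rw [OrthTwo.pt_two hPd]
        have hval : ∀ a b : F, Q (a • v + b • f v) = (a * a + b * b) * Q v := by
          intro a b
          rw [QuadraticMap.map_add Q, QuadraticMap.map_smul, QuadraticMap.map_smul, polar_smul_left, polar_smul_right, hvw, hf]
          simp only [smul_eq_mul]; ring
        constructor
        · rintro ⟨w, hw, hw0, hQw⟩
          obtain ⟨a, b, rfl⟩ := Submodule.mem_span_pair.1 hw
          rw [hval] at hQw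
          refine add_sq_zero ((mul_eq_zero.1 hQw).resolve_right hQv) ?_
          by_contra hcon
          push Not at hcon
          apply hw0
          rw [hcon.1, hcon.2, zero_smul, zero_smul, add_zero]
        · rintro ⟨a, ha⟩
          refine ⟨a • v + (1 : F) • f v, P.add_mem (P.smul_mem _ (Submodule.subset_span (by simp))) (P.smul_mem _ (Submodule.subset_span (by simp))), ?_, ?_⟩
          · intro h
            have h3 : polar Q (f v) (a • v + (1 : F) • f v) = 0 := by rw [h]; exact polar_zero_right Q _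
            have hwv : polar Q (f v) v = 0 := by rw [polar_comm]; exact hvw
            rw [polar_add_right, polar_smul_right, polar_smul_right, hwv, smul_zero, zero_add, one_smul, polar_self, hf,
              ← Nat.cast_smul_eq_nsmul F, smul_eq_mul] at h3
            exact (mul_ne_zero (by exact_mod_cast h2) hQv) h3
          · rw [hval, ← ha]; ring
      have hfo := finrank_orth hQ P
      have hbij : ∀ x ∈ orth Q P, f x ∈ orth Q P := by
        intro x hx y hy
        have h6 : y = f (-f y) := by rw [_root_.map_neg, hff, neg_neg]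
        rw [h6, hpf]
        exact hx _ (P.neg_mem (hPi y hy))
      obtain ⟨k, k1, k2, k3⟩ := ih (finrank F (orth Q P)) (by omega) (orth Q P) (Q.restrict (orth Q P)) (f.restrict hbij) rfl
        (nd_orth hQ hPn) (fun v => hf v) (fun v => Subtype.ext (hff v))
      have hsum : n = 2 * (k + 1) := by omega
      refine ⟨k + 1, hsum, ?_, ?_⟩
      · rw [pt_split_iff hQ hPn (m := 1) (m' := k + 1) (by rw [hPd]) (by rw [hn, hsum]), hPt, k2, Nat.even_add_one]
        tauto
      · intro j hj
        rcases Nat.eq_zero_or_pos j with hk0 | hk0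
        · rw [hk0]; exact hbot
        · obtain ⟨Y, z1, z2, z3⟩ := k3 (j - 1) (by omega)
          obtain ⟨ye, yle, yd⟩ := map_sub (Q := Q) Y
          have hsup := sup_nd hPn (nd_of_equivalent ye z2) (fun a ha b hb => yle hb a ha)
          refine ⟨P ⊔ Y.map (orth Q P).subtype, ?_, hsup.1, ?_⟩
          · intro v hv
            obtain ⟨a, ha, b, ⟨b', hb', rfl⟩, rfl⟩ := Submodule.mem_sup.1 hv
            rw [_root_.map_add]
            exact Submodule.add_mem_sup (hPi a ha) ⟨_, z1 b' hb', rfl⟩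
          · rw [hsup.2, yd, hPd, z3]
            omega

/-- forms with an isometry of square `-1` -/
def HasJ {V : Type*} [AddCommGroup V] [Module F V] (Q : QuadraticForm F V) : Prop :=
  ∃ f : V →ₗ[F] V, (∀ v, Q (f v) = Q v) ∧ ∀ v, f (f v) = -v

theorem HasJ.equiv {V V' : Type*} [AddCommGroup V] [Module F V] [AddCommGroup V'] [Module F V'] {Q : QuadraticForm F V} {Q' : QuadraticForm F V'}
    (h : HasJ Q) (he : Q.Equivalent Q') : HasJ Q' := by
  obtain ⟨f, f1, f2⟩ := h
  obtain ⟨e⟩ := he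
  have h1 : ∀ v, e (e.toLinearEquiv.symm v) = v := fun v => e.toLinearEquiv.apply_symm_apply v
  have h2 : ∀ v, e.toLinearEquiv.symm (e v) = v := fun v => e.toLinearEquiv.symm_apply_apply v
  let g : V' →ₗ[F] V' := e.toLinearEquiv.toLinearMap ∘ₗ f ∘ₗ e.toLinearEquiv.symm.toLinearMap
  have hg : ∀ v, g v = e (f (e.toLinearEquiv.symm v)) := fun v => rfl
  refine ⟨g, fun v => by rw [hg, e.map_app, f1, ← e.map_app, h1], fun v => ?_⟩
  rw [hg, hg, h2, f2]
  have : e (-(e.toLinearEquiv.symm v)) = -(e (e.toLinearEquiv.symm v)) := _root_.map_neg e.toLinearEquiv _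
  rw [this, h1]

theorem HasJ.prod {V V' : Type*} [AddCommGroup V] [Module F V] [AddCommGroup V'] [Module F V'] {Q : QuadraticForm F V} {Q' : QuadraticForm F V'}
    (h : HasJ Q) (h' : HasJ Q') : HasJ (Q.prod Q') := by
  obtain ⟨f, f1, f2⟩ := h
  obtain ⟨g, g1, g2⟩ := h'
  refine ⟨f.prodMap g, ?_, ?_⟩
  · rintro ⟨a, b⟩
    show Q (f a) + Q' (g b) = Q a + Q' b
    rw [f1, g1]
  · rintro ⟨a, b⟩
    show (f (f a), g (g b)) = _
    rw [f2, g2]; rfl

theorem exists_J (h2 : (2 : F) ≠ 0) (k : ℕ) : ∃ A : Fm F, finrank F A.V = 2 * k ∧ HasJ A.Q := by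
  induction k with
  | zero =>
    refine ⟨⟨PUnit, 0, fun x _ => Subsingleton.elim _ _⟩, ?_, 1, fun v => rfl, fun v => Subsingleton.elim _ _⟩
    rw [mul_zero]
    exact finrank_zero_of_subsingleton (M := PUnit.{u + 1})
  | succ k ih =>
    obtain ⟨A, a1, a2⟩ := ih
    have hB : HasJ ((qUn (1 : F)).prod (qUn (1 : F))) := by
      refine ⟨LinearMap.prod (-(LinearMap.snd F F F)) (LinearMap.fst F F F), ?_, ?_⟩
      · rintro ⟨a, b⟩
        show qUn 1 (-b) + qUn 1 a = qUn 1 a + qUn 1 b
        rw [qUn_apply, qUn_apply, qUn_apply]; ring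
      · rintro ⟨a, b⟩
        show (-a, -b) = -(a, b)
        rfl
    refine ⟨⟨A.V × (F × F), A.Q.prod ((qUn (1 : F)).prod (qUn (1 : F))), nd_prod.2 ⟨A.nd, nd_prod.2 ⟨nd_qUn h2 one_ne_zero, nd_qUn h2 one_ne_zero⟩⟩⟩, ?_, a2.prod hB⟩
    show finrank F (A.V × (F × F)) = _
    rw [finrank_prod, finrank_prod, finrank_self, a1]; ring

/-- existence of isometries with square `-1` -/
theorem hasJ_of {V : Type u} [AddCommGroup V] [Module F V] [FiniteDimensional F V] {Q : QuadraticForm F V} (h2 : (2 : F) ≠ 0) (hQ : ND Q) {k : ℕ}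
    (hV : finrank F V = 2 * k) (ht : PT Q ↔ (IsSquare (-1 : F) ∨ Even k)) : HasJ Q := by
  obtain ⟨A, a1, a2⟩ := exists_J (F := F) h2 k
  obtain ⟨f, f1, f2⟩ := a2
  obtain ⟨k', k1, k2, -⟩ := J_struct h2 _ A.V A.Q f rfl A.nd f1 f2
  have : k' = k := by omega
  subst this
  exact HasJ.equiv ⟨f, f1, f2⟩ (equiv_of_same A.nd hQ a1 hV (k2.trans ht.symm))

end struct

section mat

open H17.OrthAbs H17.OrthTheta H17.OrthOmega

variable {F : Type u} [Field F] [Fintype F] {ι : Type} [Fintype ι] [DecidableEq ι]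

theorem mem_omega_iff (h2 : (2 : F) ≠ 0) {Q : QuadraticForm F (ι → F)} (hQ : ND Q) (hd : 2 ≤ Fintype.card ι) (R : Reps F) {x : GL ι F}
    (hx : x ∈ Cfsg.isometryGroup F (⇑Q)) :
    x ∈ Cfsg.Geo.omegaGL (⇑Q) ↔ theta Q R.c₁ (H17.OrthTrans.equiv Q ⟨x, hx⟩) = 1 ∧ theta Q R.c₂ (H17.OrthTrans.equiv Q ⟨x, hx⟩) = 1 := by
  rw [← mem_commutator_iff h2 Q R (nd_iff.1 hQ) (by rw [finrank_fintype_fun_eq_card]; exact hd),
    H17.OrthTrans2.mem_commutator_equiv]
  constructor
  · rintro ⟨y, hy, hyx⟩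
    have : y = ⟨x, hx⟩ := Subtype.ext hyx
    rw [← this]; exact hy
  · intro h
    exact ⟨⟨x, hx⟩, h, rfl⟩

/-- **membership of isometries of square `-1`** -/
theorem J_mem (h2 : (2 : F) ≠ 0) {Q : QuadraticForm F (ι → F)} (hQ : ND Q) {k : ℕ} (hk : Fintype.card ι = 2 * k) (hk1 : 1 ≤ k) {x : GL ι F}
    (hx : ∀ v, Q (Matrix.toLin' (x : Matrix ι ι F) v) = Q v) (hxx : ∀ v, Matrix.toLin' (x : Matrix ι ι F) (Matrix.toLin' (x : Matrix ι ι F) v) = -v) :
    x ∈ Cfsg.Geo.omegaGL (⇑Q) ↔ (Even k ∨ IsSquare (2 : F)) := by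
  classical
  have hxm : x ∈ Cfsg.isometryGroup F (⇑Q) := (H17.OrthDet.mem_isometryGroup_iff _ _).mpr (fun v => by rw [← Matrix.toLin'_apply]; exact hx v)
  obtain ⟨R, -⟩ := exists_reps (F := F) h2 1 one_ne_zero
  have : Finite (ι → F) := inferInstance
  rw [mem_omega_iff h2 hQ (by omega) R hxm]
  have hgen : ∀ c : F, c ≠ 0 → ∀ σ : ℤˣ, (∀ v w (hv : Q v ≠ 0) (hw : Q w ≠ 0), Q w = 2 * Q v → theta Q c (rf Q w hw) * theta Q c (rf Q v hv) = σ) →
      theta Q c (H17.OrthTrans.equiv Q ⟨x, hxm⟩) = σ ^ k := by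
    intro c hc σ hσ
    have hap : ∀ v, ((H17.OrthTrans.equiv Q ⟨x, hxm⟩ : ↥(O Q)) : (ι → F) ≃ₗ[F] (ι → F)) v = Matrix.toLin' (x : Matrix ι ι F) v := by
      intro v
      rw [H17.OrthTrans.equiv_apply, Matrix.toLin'_apply]
    refine theta_J hQ h2 (theta Q c) σ hσ k ⊤ (by rw [finrank_top, finrank_fintype_fun_eq_card, hk]) (nd_on.2 (nd_top.1 hQ)) _ (fun v _ => trivial) ?_ ?_
    · intro v _
      rw [hap, hap, hxx]
    · intro v hv
      have : v = 0 := hQ v (fun y => by rw [polar_comm]; exact hv y trivial)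
      rw [this, _root_.map_zero]
  have hcl : ∀ (c : F) (hc : c ≠ 0) (v : ι → F) (hv : Q v ≠ 0), theta Q c (rf Q v hv) = if IsSquare (Q v / c) then -1 else 1 := by
    intro c hc v hv
    have key : (∃ t : F, t ≠ 0 ∧ Q v = c * t ^ 2) ↔ IsSquare (Q v / c) := by
      constructor
      · rintro ⟨t, -, ht⟩
        exact ⟨t, by rw [ht]; field_simp⟩
      · rintro ⟨t, ht⟩
        rw [div_eq_iff hc] at ht
        refine ⟨t, ?_, by rw [ht]; ring⟩
        rintro rfl
        apply hv
        rw [ht]; ring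
    rw [theta_refl h2 Q c hc v hv]
    by_cases h : IsSquare (Q v / c)
    · rw [if_pos h, if_pos (key.2 h)]
    · rw [if_neg h, if_neg (fun h' => h (key.1 h'))]
  by_cases hs : IsSquare (2 : F)
  · have h3 : ∀ c : F, c ≠ 0 → theta Q c (H17.OrthTrans.equiv Q ⟨x, hxm⟩) = 1 := by
      intro c hc
      rw [hgen c hc 1, one_pow]
      intro v w hv hw hvw
      rw [hcl c hc w hw, hcl c hc v hv]
      have : IsSquare (Q w / c) ↔ IsSquare (Q v / c) := by
        obtain ⟨t, ht⟩ := hs
        rw [hvw, mul_div_assoc, ht]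
        constructor
        · rintro ⟨s, hs⟩
          have ht0 : t ≠ 0 := by rintro rfl; rw [mul_zero] at ht; exact h2 ht
          exact ⟨s / t, by rw [div_mul_div_comm, eq_div_iff (mul_ne_zero ht0 ht0)]; linear_combination hs⟩
        · rintro ⟨s, hs⟩
          exact ⟨t * s, by rw [hs]; ring⟩
      by_cases h : IsSquare (Q v / c)
      · rw [if_pos (this.2 h), if_pos h]; simp
      · rw [if_neg (fun h' => h (this.1 h')), if_neg h]; simp
    exact iff_of_true ⟨h3 _ R.h₁, h3 _ R.h₂⟩ (Or.inr hs)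
  · have h3 : ∀ c : F, c ≠ 0 → theta Q c (H17.OrthTrans.equiv Q ⟨x, hxm⟩) = (-1) ^ k := by
      intro c hc
      rw [hgen c hc (-1)]
      intro v w hv hw hvw
      rw [hcl c hc w hw, hcl c hc v hv]
      have : IsSquare (Q w / c) ↔ ¬ IsSquare (Q v / c) := by
        have hv' : Q v / c ≠ 0 := div_ne_zero hv hc
        rw [hvw, mul_div_assoc]
        constructor
        · intro h1 h3
          apply hs
          have : (2 : F) = 2 * (Q v / c) * (Q v / c) / (Q v / c * (Q v / c)) := by field_simp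
          rw [this]
          exact (h1.mul h3).div (IsSquare.mul_self _)
        · intro h
          exact H48.FinFieldSq.isSquare_mul_of_not hs h
      by_cases h : IsSquare (Q v / c)
      · rw [if_neg (fun h' => (this.1 h') h), if_pos h]; simp
      · rw [if_pos (this.2 h), if_neg h]; simp
    rw [h3 _ R.h₁, h3 _ R.h₂]
    constructor
    · rintro ⟨h, -⟩
      left
      by_contra hne
      rw [Nat.not_even_iff_odd] at hne
      rw [hne.neg_one_pow] at h
      exact absurd h (by decide)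
    · rintro (h | h)
      · rw [h.neg_one_pow]; exact ⟨rfl, rfl⟩
      · exact absurd h hs

/-- involutions in `Ω` have even-dimensional eigenspaces -/
theorem inv_even (h2 : (2 : F) ≠ 0) {Q : QuadraticForm F (ι → F)} (hQ : ND Q) (hd : 2 ≤ Fintype.card ι) {x : GL ι F}
    (hx : x ∈ Cfsg.Geo.omegaGL (⇑Q)) (hiso : ∀ v, Q (Matrix.toLin' (x : Matrix ι ι F) v) = Q v) (hxx : (Matrix.toLin' (x : Matrix ι ι F)) ^ 2 = 1) :
    Even (finrank F (orth Q (fx (Matrix.toLin' (x : Matrix ι ι F))))) := by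
  classical
  have hxm : x ∈ Cfsg.isometryGroup F (⇑Q) := (H17.OrthDet.mem_isometryGroup_iff _ _).mpr (fun v => by rw [← Matrix.toLin'_apply]; exact hiso v)
  obtain ⟨R, -⟩ := exists_reps (F := F) h2 1 one_ne_zero
  have : Finite (ι → F) := inferInstance
  have h3 := (mem_omega_iff h2 hQ hd R hxm).1 hx
  have hap : ∀ v, ((H17.OrthTrans.equiv Q ⟨x, hxm⟩ : ↥(O Q)) : (ι → F) ≃ₗ[F] (ι → F)) v = Matrix.toLin' (x : Matrix ι ι F) v := by
    intro v
    rw [H17.OrthTrans.equiv_apply, Matrix.toLin'_apply]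
  set f := Matrix.toLin' (x : Matrix ι ι F) with hf
  have hC := fx_nd hQ (r := 2) (by exact_mod_cast h2) f hiso hxx
  have hneg := neg_on hQ h2 f hiso hxx
  have h4 := theta_neg hQ h2 (theta Q R.c₁ * theta Q R.c₂) (by
    intro v hv
    rw [MonoidHom.mul_apply]
    rcases R.cover (Q v) hv with h | h
    · rw [theta_of_class h2 Q v hv R.c₁ R.h₁ h, theta_of_not_class h2 Q v hv R.c₂ R.h₂ (fun h' => R.excl _ hv h h'), mul_one]
    · rw [theta_of_not_class h2 Q v hv R.c₁ R.h₁ (fun h' => R.excl _ hv h' h), theta_of_class h2 Q v hv R.c₂ R.h₂ h, one_mul])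
    (finrank F (orth Q (fx f))) (orth Q (fx f)) rfl (nd_orth hQ hC) (H17.OrthTrans.equiv Q ⟨x, hxm⟩) (fun v hv => by rw [hap]; exact hneg v hv) (by
    intro v hv
    rw [hap]
    apply mem_fx.1
    -- double orthogonal
    have h5 : orth Q (orth Q (fx f)) = fx f := by
      symm
      apply Submodule.eq_of_le_of_finrank_eq
      · intro a ha b hb
        rw [polar_comm]; exact hb a ha
      · have h6 := finrank_orth hQ (fx f)
        have h7 := finrank_orth hQ (orth Q (fx f))
        omega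
    rw [← h5]; exact hv)
  rw [MonoidHom.mul_apply, h3.1, h3.2, mul_one] at h4
  by_contra hne
  rw [Nat.not_even_iff_odd] at hne
  rw [hne.neg_one_pow] at h4
  exact absurd h4 (by decide)

end mat

end H99.OrthSS
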