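import Mathlib
import Cfsg.Agent.Lib.H99.OrthUni3

set_option autoImplicit false
set_option linter.unusedSimpArgs false
set_option linter.unusedSectionVars false
set_option linter.unusedVariables false

/-! Unipotent elements of type `2^k` on nondegenerate subspaces. -/

namespace H99.OrthUni3

open Module QuadraticMap H48.QuadSplit H48.QuadStd H99.OrthUni H99.OrthUni2
open scoped Matrix

variable {ι : Type} [Fintype ι] [DecidableEq ι] {F : Type*} [Field F]

theorem count_le_sub (ν μ : Multiset ℕ) (S : Finset ℕ) (hν : ν ≤ μ) (hμ : ∀ e ∈ μ, e ∈ S) :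
    ν.sum = ∑ e ∈ S, ν.count e * e ∧ Multiset.card ν = ∑ e ∈ S, ν.count e := by
  have h1 : ν.toFinset ⊆ S := by
    intro e he
    rw [Multiset.mem_toFinset] at he
    exact hμ e (Multiset.mem_of_le hν he)
  constructor
  · rw [Finset.sum_multiset_count_of_subset ν _ h1]; rfl
  · exact (Multiset.sum_count_eq_card (fun e he => hμ e (Multiset.mem_of_le hν he))).symm

/-- subspaces of Jordan type `2^k` are of plus type -/
theorem sub_type2 [Fintype F] (p : ℕ) [hpf : Fact p.Prime] (h2 : (2 : F) ≠ 0) (Q : QuadraticForm F (ι → F))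
    (μ : Multiset ℕ) (hμ : ∀ e ∈ μ, 0 < e ∧ e ≤ p) (x : GL ι F) (hxp : x ^ p = 1)
    (hiso : ∀ u, Q ((x : Matrix ι ι F) *ᵥ u) = Q u) (hN : (Matrix.toLin' (x : Matrix ι ι F) - 1) ^ p = 0)
    (hr : ∀ k, finrank F (LinearMap.range ((Matrix.toLin' (x : Matrix ι ι F) - 1) ^ k)) = (μ.map (fun e => e - k)).sum)
    (W : Submodule F (ι → F)) (hW : Cfsg.Geo.IsNondegenerateOn (polar Q) W) (hxW : W.map (Matrix.toLin' (x : Matrix ι ι F)) ≤ W) :
    ∃ ν : Multiset ℕ, ν ≤ μ ∧ ν.sum = finrank F W ∧ (∀ e, Even e → Even (ν.count e)) ∧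
      (ν.count 1 = 0 → 2 * Multiset.card ν = ν.sum → Cfsg.Geo.IsPlusTypeOn (⇑Q) W) := by
  set T := Matrix.toLin' (x : Matrix ι ι F) with hT
  have hB : ∀ u v, polarBilin Q (T u) (T v) = polarBilin Q u v := by
    intro u v
    rw [polarBilin_apply_apply, polarBilin_apply_apply]
    exact H48.QuadWitt.polar_isom (Q := Q) (Q' := Q) (g := T) (fun _ _ => _root_.map_add _ _ _) hiso u v
  have hsymm : ∀ u v, polarBilin Q u v = polarBilin Q v u := by
    intro u v
    rw [polarBilin_apply_apply, polarBilin_apply_apply, polar_comm]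
  have hrefl : (polarBilin Q).IsRefl := fun u v h => by rw [hsymm]; exact h
  have hWnd : Iso.ND (polarBilin Q) W := by
    intro w hw h
    by_contra hne
    obtain ⟨y, hy, hy'⟩ := (hW w hw hne).2
    exact hy' (by have := h y hy; rwa [polarBilin_apply_apply] at this)
  have hWi : ∀ v ∈ W, T v ∈ W := fun v hv => hxW ⟨v, hv, rfl⟩
  have hTp : T ^ p = 1 := by
    have := congrArg (fun g : GL ι F => Matrix.toLin' (g : Matrix ι ι F)) hxp
    simp only [Units.val_pow_eq_pow_val, Units.val_one, Matrix.toLin'_pow, Matrix.toLin'_one] at this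
    exact this
  have hoi : ∀ v ∈ LinearMap.BilinForm.orthogonal (polarBilin Q) W, T v ∈ LinearMap.BilinForm.orthogonal (polarBilin Q) W :=
    Iso.inv_orth hTp hpf.out.pos hB hWi
  have hsub : ∀ U : Submodule F (ι → F), (∀ v ∈ U, T v ∈ U) → U.map (T - 1) ≤ U := by
    rintro U hU _ ⟨v, hv, rfl⟩
    exact U.sub_mem (hU v hv) hv
  obtain ⟨ν, h1, h2', h3, h4⟩ := core (T - 1) p hN μ hμ hr W _ (hWnd.isCompl hrefl) (hsub W hWi) (hsub _ hoi)
  refine ⟨ν, h1, h2', ?_, ?_⟩
  · intro e he
    by_cases hep : 1 ≤ e ∧ e ≤ p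
    · obtain ⟨m, hm⟩ := parity h2 hsymm hB hWi hWnd (e - 1) (by
        obtain ⟨k, hk⟩ := he
        exact ⟨k - 1, by omega⟩)
      rw [Nat.sub_add_cancel hep.1] at hm
      have h5 := h4 e hep.1 hep.2
      rw [hm] at h5
      push_cast at h5
      refine ⟨m, ?_⟩
      have : ((ν.count e : ℕ) : ℤ) = ((m + m : ℕ) : ℤ) := by push_cast; linarith
      exact_mod_cast this
    · have : e ∉ ν := by
        intro h
        have := hμ e (Multiset.mem_of_le h1 h)
        omega
      rw [Multiset.count_eq_zero_of_notMem this]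
      exact Even.zero
  · intro hc1 hcs
    have h5 := h4 1 le_rfl hpf.out.one_lt.le
    rw [hc1, Nat.sub_self] at h5
    push_cast at h5
    have hg1 : gk (T - 1) W 1 = Multiset.card ν := by rw [h3]; omega
    have r0 := rank_step (T - 1) W 0
    have r1 := rank_step (T - 1) W 1
    have e0 : W.map ((T - 1) ^ 0) = W := by rw [pow_zero]; exact Submodule.map_id W
    rw [e0, zero_add, ← h3] at r0
    rw [hg1] at r1
    have hz : finrank F (W.map ((T - 1) ^ (1 + 1)) : Submodule F (ι → F)) = 0 := by omega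
    have hz' := Submodule.finrank_eq_zero.1 hz
    have hNN : ∀ w ∈ W, (T - 1) ((T - 1) w) = 0 := by
      intro w hw
      have : ((T - 1) ^ (1 + 1) : (ι → F) →ₗ[F] (ι → F)) w ∈ W.map ((T - 1) ^ (1 + 1)) := ⟨w, hw, rfl⟩
      rw [hz', Submodule.mem_bot, pow_succ, pow_one] at this
      exact this
    refine ⟨W.map (T - 1), hsub W hWi, ?_, ?_⟩
    · rintro _ ⟨w, hw, rfl⟩
      set n := (T - 1) w with hn
      have e1 : T w = w + n := by
        have : n = T w - w := rfl
        rw [this]; abel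
      have e0 : T n = n := by
        have h3 := hNN w hw
        have h4 : (T - 1) n = T n - n := rfl
        rw [← hn, h4] at h3
        exact sub_eq_zero.1 h3
      have hiso' : ∀ u, Q (T u) = Q u := fun u => by rw [hT, Matrix.toLin'_apply]; exact hiso u
      have e2 : T (T w) = w + (2 : F) • n := by
        rw [e1, _root_.map_add, e0, e1, two_smul]; abel
      have q1 := hiso' w
      rw [e1, QuadraticMap.map_add Q] at q1
      have q2 : Q (T (T w)) = Q w := by rw [hiso', hiso']
      rw [e2, QuadraticMap.map_add Q, QuadraticMap.map_smul, polar_smul_right, smul_eq_mul, smul_eq_mul] at q2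
      have q3 : 2 * Q n = 0 := by linear_combination q2 - 2 * q1
      exact (mul_eq_zero.1 q3).resolve_left h2
    · rw [pow_one] at r0
      omega

/-- **derangements of order `p`**: if every element of order `p` fixes a non-plus type space then contradiction from a type
with few odd parts -/
theorem exists_pure [Fintype F] (p : ℕ) [hpf : Fact p.Prime] [CharP F p] (hp2 : p ≠ 2) (Q : QuadraticForm F (ι → F)) (hQ : ND Q)
    (a o : ℕ) (ho : Odd o) (hop : o ≤ p) (ha : Even a) (ha0 : 0 < a) (hnil : HasNil Q (Multiset.replicate a 2 + {o})) (m : ℕ) (hm : Even m) :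
    ∃ x : GL ι F, x ∈ Cfsg.Geo.omegaGL (⇑Q) ∧ x ^ p = 1 ∧ (∀ z : F, (x : Matrix ι ι F) ≠ z • (1 : Matrix ι ι F)) ∧
      ∀ W : Submodule F (ι → F), finrank F W = m → Cfsg.Geo.IsNondegenerateOn (polar Q) W →
        W.map (Matrix.toLin' (x : Matrix ι ι F)) ≤ W → Cfsg.Geo.IsPlusTypeOn (⇑Q) W := by
  have hp3 : 3 ≤ p := by
    have := hpf.out.two_le
    omega
  have hμ : ∀ e ∈ (Multiset.replicate a 2 + {o} : Multiset ℕ), 0 < e ∧ e ≤ p := by
    intro e he
    rw [Multiset.mem_add, Multiset.mem_singleton] at he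
    rcases he with he | rfl
    · rw [Multiset.eq_of_mem_replicate he]; omega
    · exact ⟨ho.pos, hop⟩
  obtain ⟨x, h1, h2, h3, h4, h5, h6⟩ := exists_elt p hp2 Q hQ (Multiset.replicate a 2 + {o}) hμ ⟨2, by
    rw [Multiset.mem_add]; left; rw [Multiset.mem_replicate]; exact ⟨ha0.ne', rfl⟩, by decide⟩ hnil
  refine ⟨x, h1, h2, h3, fun W w1 w2 w3 => ?_⟩
  obtain ⟨ν, n1, n2, n3, n4⟩ := sub_type2 p (two_ne' p hp2) Q _ hμ x h2 h4 h5 h6 W w2 w3
  have ho2 : o ≠ 2 := by rintro rfl; exact absurd ho (by decide)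
  obtain ⟨s1, s2⟩ := count_le_sub ν _ {2, o} n1 (by
    intro e he
    rw [Multiset.mem_add, Multiset.mem_singleton] at he
    rcases he with he | rfl
    · rw [Multiset.eq_of_mem_replicate he]; simp
    · simp)
  rw [Finset.sum_pair (Ne.symm ho2)] at s1 s2
  have c1 := Multiset.count_le_of_le o n1
  rw [Multiset.count_add, Multiset.count_replicate, if_neg (Ne.symm ho2), Multiset.count_singleton_self] at c1
  rw [n2, w1] at s1
  have hc0 : ν.count o = 0 := by
    by_contra h
    have h1 : ν.count o = 1 := by omega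
    rw [h1] at s1
    obtain ⟨k, hk⟩ := hm
    obtain ⟨l, hl⟩ := ho
    omega
  rw [hc0] at s1 s2
  refine n4 ?_ (by rw [n2, w1, s1, s2]; ring)
  by_cases h1o : o = 1
  · rw [← h1o]; exact hc0
  · apply Multiset.count_eq_zero_of_notMem
    intro h
    have := Multiset.mem_of_le n1 h
    rw [Multiset.mem_add, Multiset.mem_singleton] at this
    rcases this with h | h
    · have := Multiset.eq_of_mem_replicate h; omega
    · exact h1o h.symm

end H99.OrthUni3
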