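import Mathlib
import Cfsg.Agent.Lib.H99.OrthInv
import Cfsg.Agent.Lib.H99.OrthUni4

set_option autoImplicit false
set_option linter.unusedSimpArgs false
set_option linter.unusedSectionVars false
set_option linter.unusedVariables false

/-! Nondegenerate even-dimensional subspaces of odd-dimensional orthogonal spaces: the criterion. -/

namespace H99.OrthSS

open Module QuadraticMap H48.QuadSplit H48.QuadStd H96.OeType

universe u

theorem cl_iff {F : Type u} [Field F] [Fintype F] {V : Type u} [AddCommGroup V] [Module F V] [FiniteDimensional F V] {Q : QuadraticForm F V}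
    {R : Fm F} {e : ℕ} {t : Prop} (h1 : finrank F R.V = 2 * e) (h2 : PT R.Q ↔ t) (W : Submodule F V) :
    W ∈ Cl Q R ↔ finrank F W = 2 * e ∧ ND (Q.restrict W) ∧ (PT (Q.restrict W) ↔ t) := by
  constructor
  · intro h
    exact ⟨by rw [Cl.dim h, h1], Cl.nd h, by rw [← pt_iff_of_equiv h, h2]⟩
  · rintro ⟨w1, w2, w3⟩
    exact equiv_of_same (m := e) R.nd w2 h1 w1 (h2.trans w3.symm)

/-- arithmetic of the odd-dimensional case -/
theorem arith_odd {i n m : ℕ} (hc : 0 < cc i) (hn : Odd n) (hm : Even m) (hmn : m < n) (hcm : cc i ≤ m) (t₀ t : Prop) :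
    (∀ s, 1 ≤ s → allowed i n t₀ s → okE i n m t₀ t s) ↔ (m % cc i < n % cc i ∧ (m % cc i = 0 → (t ↔ (Odd i ∨ Even (m / cc i))))) := by
  obtain ⟨ec, hec⟩ := even_cc i
  obtain ⟨c, hcc⟩ : ∃ c, cc i = c := ⟨_, rfl⟩
  unfold allowed okE
  rw [hcc] at hc hcm hec ⊢
  have hnk := Nat.div_add_mod n c
  have hmk := Nat.div_add_mod m c
  have hnl := Nat.mod_lt n hc
  have hml := Nat.mod_lt m hc
  have hn1 : 1 ≤ n / c := (Nat.one_le_div_iff hc).2 (by omega)
  have hpar : ∀ x y : ℕ, c * x + c * y = 2 * (ec * x + ec * y) := by intro x y; rw [hec]; ring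
  have hpar1 : ∀ x : ℕ, c * x = 2 * (ec * x) := by intro x; rw [hec]; ring
  obtain ⟨kn, hkn⟩ := hn
  obtain ⟨km, hkm⟩ := hm
  constructor
  · intro H
    obtain ⟨j, j1, j2, j3, j4, -⟩ := H (n / c) hn1 ⟨by omega, fun h => by
      exfalso
      have := hpar1 (n / c)
      omega⟩
    have hjm : j = m / c := by
      apply le_antisymm
      · rw [Nat.le_div_iff_mul_le hc, mul_comm]; exact j2
      · by_contra hlt
        have : c * (j + 1) ≤ c * (m / c) := Nat.mul_le_mul_left _ (by omega)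
        rw [mul_add] at this
        omega
    subst hjm
    have h1 := hpar1 (n / c)
    have h2 := hpar1 (m / c)
    refine ⟨by omega, fun h => j4 (by omega)⟩
  · rintro ⟨H1, H2⟩ s hs1 ⟨hs2, -⟩
    have hsn : s ≤ n / c := by rw [Nat.le_div_iff_mul_le hc, mul_comm]; exact hs2
    have h3 := hpar1 s
    rcases le_total s (m / c) with h | h
    · refine ⟨s, le_rfl, (Nat.mul_le_mul_left c h).trans (by omega), by omega, ?_, ?_⟩
      · intro h4
        have h5 : c * (m / c) ≤ c * s := by omega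
        have h6 : s = m / c := le_antisymm h (Nat.le_of_mul_le_mul_left h5 hc)
        rw [h6]
        exact H2 (by rw [h6] at h4; omega)
      · intro h4
        exfalso
        omega
    · have h5 : c * s ≤ c * (n / c) := Nat.mul_le_mul_left c hsn
      refine ⟨m / c, h, by omega, by omega, fun h4 => H2 (by omega), ?_⟩
      intro h4
      exfalso
      have h6 := hpar1 (m / c)
      omega

/-- **criterion in odd dimension**, `r` odd different from `p` -/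
theorem crit_odd {F : Type u} [Field F] [Fintype F] {r : ℕ} (hr : r.Prime) (hr2 : r ≠ 2) (hrq : ¬ r ∣ Fintype.card F)
    (hodd : Odd (Fintype.card F)) (d m : ℕ) (hd : 3 ≤ d) (hm : 2 ≤ m) (hme : Even m) (hmn : m ≤ 2 * d) (t : Prop)
    (P : Submodule F (Unit ⊕ (Fin d ⊕ Fin d) → F) → Prop)
    (hP : ∀ W, P W ↔ (finrank F W = m ∧ ND ((qOdd d F 1).restrict W) ∧ (PT ((qOdd d F 1).restrict W) ↔ t)))
    (hrΩ : r ∣ Nat.card {W : Submodule F (Unit ⊕ (Fin d ⊕ Fin d) → F) // P W}) :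
    (∀ x : GL (Unit ⊕ (Fin d ⊕ Fin d)) F, x ∈ Cfsg.Geo.omegaGL (⇑(qOdd d F 1)) → orderOf x = r →
      ∃ W : Submodule F (Unit ⊕ (Fin d ⊕ Fin d) → F), P W ∧ W.map (Matrix.toLin' (x : Matrix (Unit ⊕ (Fin d ⊕ Fin d)) (Unit ⊕ (Fin d ⊕ Fin d)) F)) ≤ W) ↔
    (cc (oi F r) ≤ m ∧ m % cc (oi F r) < (2 * d + 1) % cc (oi F r) ∧
      (m % cc (oi F r) = 0 → (t ↔ (Odd (oi F r) ∨ Even (m / cc (oi F r)))))) := by
  have : Fact r.Prime := ⟨hr⟩
  have h2 : (2 : F) ≠ 0 := by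
    intro h
    have h' : ((Fintype.card F : ℕ) : F) = 0 := Nat.cast_card_eq_zero F
    obtain ⟨k, hk⟩ := hodd
    rw [hk] at h'
    push_cast at h'
    rw [h, zero_mul, zero_add] at h'
    exact one_ne_zero h'
  have hQ : ND (qOdd d F 1) := nd_qOdd d h2 one_ne_zero
  have hcard : Fintype.card F ≠ 2 ∨ Fintype.card (Unit ⊕ (Fin d ⊕ Fin d)) ≠ 4 := Or.inr (by
    rw [Fintype.card_sum, Fintype.card_sum, Fintype.card_fin, Fintype.card_unit]; omega)
  have hcι : Fintype.card (Unit ⊕ (Fin d ⊕ Fin d)) = 2 * d + 1 := by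
    rw [Fintype.card_sum, Fintype.card_sum, Fintype.card_fin, Fintype.card_unit]; ring
  obtain ⟨e, he⟩ := hme
  obtain ⟨R, R1, R2⟩ := exists_fm (F := F) e (by omega) t
  have hPC : ∀ W, P W ↔ W ∈ Cl (qOdd d F 1) R := by
    intro W
    rw [hP, cl_iff R1 R2, show m = 2 * e by omega]
  have hord : ∀ x : GL (Unit ⊕ (Fin d ⊕ Fin d)) F, orderOf x = r ↔ (x ^ r = 1 ∧ x ≠ 1) := by
    intro x
    constructor
    · intro h
      refine ⟨by rw [← h, pow_orderOf_eq_one], ?_⟩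
      rintro rfl
      rw [orderOf_one] at h
      exact hr.one_lt.ne h
    · rintro ⟨h1, h3⟩
      exact orderOf_eq_prime h1 h3
  have hre : (∀ x : GL (Unit ⊕ (Fin d ⊕ Fin d)) F, x ∈ Cfsg.Geo.omegaGL (⇑(qOdd d F 1)) → orderOf x = r →
      ∃ W : Submodule F (Unit ⊕ (Fin d ⊕ Fin d) → F), P W ∧ W.map (Matrix.toLin' (x : Matrix (Unit ⊕ (Fin d ⊕ Fin d)) (Unit ⊕ (Fin d ⊕ Fin d)) F)) ≤ W) ↔
      (∀ x : GL (Unit ⊕ (Fin d ⊕ Fin d)) F, x ∈ Cfsg.Geo.omegaGL (⇑(qOdd d F 1)) → x ^ r = 1 → x ≠ 1 →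
      ∃ W : Submodule F (Unit ⊕ (Fin d ⊕ Fin d) → F), P W ∧ W.map (Matrix.toLin' (x : Matrix (Unit ⊕ (Fin d ⊕ Fin d)) (Unit ⊕ (Fin d ⊕ Fin d)) F)) ≤ W) := by
    constructor
    · intro H x hx h1 h3
      exact H x hx ((hord x).2 ⟨h1, h3⟩)
    · intro H x hx h1
      exact H x hx ((hord x).1 h1).1 ((hord x).1 h1).2
  rw [hre]
  have hcc := cc_pos (F := F) hr hrq
  have hcore := core hr hr2 hrq hQ hcard P (okE (oi F r) (2 * d + 1) m (PT (qOdd d F 1)) t) (fun f f1 f2 s f3 => by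
    rw [← okE_iff hQ hr hr2 hrq f f1 f2 (s := s) (n := 2 * d + 1) (m := m) (by rw [finrank_fintype_fun_eq_card, hcι]) ⟨e, he⟩ (by rw [← hcι]; exact f3) t]
    constructor
    · rintro ⟨W, w1, w2⟩
      obtain ⟨a1, a2, a3⟩ := (hP W).1 w1
      exact ⟨W, a1, a2, a3, w2⟩
    · rintro ⟨W, a1, a2, a3, a4⟩
      exact ⟨W, (hP W).2 ⟨a1, a2, a3⟩, a4⟩)
  rw [hcι] at hcore
  constructor
  · intro H
    have hcm : cc (oi F r) ≤ m := by
      have := core_dvd hr hr2 hrq hQ hcard (by rw [hcι]; omega) R (by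
        obtain ⟨Y, y1, y2, y3⟩ := sub_exists hQ (b := e) (by omega) (by rw [finrank_fintype_fun_eq_card, hcι]; omega) t
        exact ⟨Y, (cl_iff R1 R2 Y).2 ⟨y2, y1, y3⟩⟩) (by
        have : {W : Submodule F (Unit ⊕ (Fin d ⊕ Fin d) → F) // P W} = (Cl (qOdd d F 1) R) := by
          have : {W | P W} = Cl (qOdd d F 1) R := Set.ext hPC
          rw [← this]; rfl
        rw [← this]; exact hrΩ) (fun x hx h1 h3 => by
        obtain ⟨W, w1, w2⟩ := H x hx h1 h3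
        exact ⟨W, (hPC W).1 w1, w2⟩)
      rw [R1] at this
      omega
    exact ⟨hcm, (arith_odd hcc ⟨d, rfl⟩ ⟨e, he⟩ (by omega) hcm _ _).1 (hcore.1 H)⟩
  · rintro ⟨hcm, H⟩
    exact hcore.2 ((arith_odd hcc ⟨d, rfl⟩ ⟨e, he⟩ (by omega) hcm _ _).2 H)

/-- **involutions in odd dimension** -/
theorem crit_two {F : Type u} [Field F] [Fintype F] (hodd : Odd (Fintype.card F)) (d m : ℕ) (hd : 3 ≤ d) (hm : 2 ≤ m) (hme : Even m) (hmn : m ≤ 2 * d) (t : Prop)
    (P : Submodule F (Unit ⊕ (Fin d ⊕ Fin d) → F) → Prop)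
    (hP : ∀ W, P W ↔ (finrank F W = m ∧ ND ((qOdd d F 1).restrict W) ∧ (PT ((qOdd d F 1).restrict W) ↔ t))) :
    ∀ x : GL (Unit ⊕ (Fin d ⊕ Fin d)) F, x ∈ Cfsg.Geo.omegaGL (⇑(qOdd d F 1)) → orderOf x = 2 →
      ∃ W : Submodule F (Unit ⊕ (Fin d ⊕ Fin d) → F), P W ∧ W.map (Matrix.toLin' (x : Matrix (Unit ⊕ (Fin d ⊕ Fin d)) (Unit ⊕ (Fin d ⊕ Fin d)) F)) ≤ W := by
  intro x hx hx2
  have h2 : (2 : F) ≠ 0 := by
    intro h
    have h' : ((Fintype.card F : ℕ) : F) = 0 := Nat.cast_card_eq_zero F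
    obtain ⟨k, hk⟩ := hodd
    rw [hk] at h'
    push_cast at h'
    rw [h, zero_mul, zero_add] at h'
    exact one_ne_zero h'
  have hQ : ND (qOdd d F 1) := nd_qOdd d h2 one_ne_zero
  have hcι : Fintype.card (Unit ⊕ (Fin d ⊕ Fin d)) = 2 * d + 1 := by
    rw [Fintype.card_sum, Fintype.card_sum, Fintype.card_fin, Fintype.card_unit]; ring
  have hiso : ∀ v, (qOdd d F 1) (Matrix.toLin' (x : Matrix (Unit ⊕ (Fin d ⊕ Fin d)) (Unit ⊕ (Fin d ⊕ Fin d)) F) v) = (qOdd d F 1) v := by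
    intro v
    rw [Matrix.toLin'_apply]
    obtain ⟨y, _, rfl⟩ := hx
    exact (H17.OrthDet.mem_isometryGroup_iff _ _).mp y.2 v
  have hx22 : x ^ 2 = 1 := by rw [← hx2, pow_orderOf_eq_one]
  obtain ⟨W, w1, w2, w3, w4⟩ := odd_involution hQ (d := d) (by rw [finrank_fintype_fun_eq_card, hcι]) h2 _ hiso (toLin_pow_one hx22) hme hm hmn t
  exact ⟨W, (hP W).2 ⟨w1, w2, w3⟩, inv_map.2 w4⟩

end H99.OrthSS
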