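import Mathlib
import Cfsg.Agent.Lib.H99.OrthJ2
import Cfsg.Agent.Lib.H99.OrthOddDim

set_option autoImplicit false
set_option linter.unusedSimpArgs false
set_option linter.unusedSectionVars false
set_option linter.unusedVariables false

/-! Nondegenerate subspaces of even-dimensional orthogonal spaces: the criteria. -/

namespace H99.OrthSS

open Module QuadraticMap H48.QuadSplit H48.QuadStd H96.OeType

universe u

section gen

variable {F : Type u} [Field F] [Fintype F] {V : Type u} [AddCommGroup V] [Module F V] [FiniteDimensional F V]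

theorem sub_copy {Q : QuadraticForm F V} (hQ : ND Q) (A : Fm F) {b : ℕ} (hA : finrank F A.V = 2 * b) (hb : 2 * b < finrank F V) :
    ∃ Y : Submodule F V, ND (Q.restrict Y) ∧ A.Q.Equivalent (Q.restrict Y) := by
  rcases Nat.eq_zero_or_pos b with h0 | hpos
  · refine ⟨⊥, nd_on.2 Iso.nd_bot, ?_⟩
    have h1 : finrank F A.V = 0 := by omega
    exact equiv_of_same (m := 0) A.nd (nd_on.2 Iso.nd_bot) h1 (finrank_bot F V) (iff_of_true (by
      refine ⟨⊥, ?_, by rw [finrank_bot, h1]⟩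
      intro u hu
      rw [(Submodule.mem_bot F).1 hu]; exact QuadraticMap.map_zero _) (pt_bot Q (finrank_bot F V)))
  · obtain ⟨Y, y1, y2, y3⟩ := sub_exists hQ hpos hb (PT A.Q)
    exact ⟨Y, y1, equiv_of_same (m := b) A.nd y1 hA y2 y3.symm⟩

/-- gluing an odd-dimensional piece -/
theorem glue_odd {Q : QuadraticForm F V} {C : Submodule F V} (hC : ND (Q.restrict C)) {a : ℕ} (hCd : finrank F C = 2 * a)
    (A : Fm F) {b : ℕ} (hA : finrank F A.V = 2 * b) (R : Fm F) {e : ℕ} (hR : finrank F R.V = 2 * e + 1) (h1 : b ≤ e) (h2 : e - b < a) :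
    ∃ Y : Submodule F V, Y ≤ C ∧ ND (Q.restrict Y) ∧ finrank F Y + 2 * b = 2 * e + 1 ∧ ((Q.restrict Y).prod A.Q).Equivalent R.Q := by
  obtain ⟨Z, z1, z2⟩ := sub_copy R.nd A hA (by omega)
  have ho := nd_orth R.nd z1
  have hod := finrank_orth R.nd Z
  have hzd := finrank_eq_of_equivalent z2
  obtain ⟨Y', y1, y2, y3⟩ := sub_exists_odd hC (a := a) (b := e - b) hCd ho (by omega) h2
  obtain ⟨ye, yle, yd⟩ := map_sub (Q := Q) Y'
  refine ⟨_, yle, nd_of_equivalent ye y1, by omega, ?_⟩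
  obtain ⟨E, -, hE⟩ := ortho_split z1
  have e1 : ((R.Q.restrict Z).prod (R.Q.restrict (orth R.Q Z))).Equivalent R.Q := ⟨⟨E, hE⟩⟩
  exact ((Equivalent.prod ((y3.trans ye).symm) z2).trans (prod_comm_equiv _ _)).trans e1

/-- the two parts of an even-dimensional space, even target -/
theorem two_part_even {Q : QuadraticForm F V} (hQ : ND Q) {d a : ℕ} (hd : finrank F V = 2 * d) (hd3 : 3 ≤ d) {A : Submodule F V} (hA : ND (Q.restrict A))
    (hAd : finrank F A = 2 * a) (ha : 1 ≤ a) (had : a + 1 ≤ d) {m : ℕ} (hm : Even m) (hm2 : 2 ≤ m) (hmd : m + 2 ≤ 2 * d) (t : Prop) :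
    ∃ X Y : Submodule F V, X ≤ A ∧ Y ≤ orth Q A ∧ ND (Q.restrict X) ∧ ND (Q.restrict Y) ∧ finrank F X + finrank F Y = m ∧
      (PT (Q.restrict (X ⊔ Y)) ↔ t) := by
  have hB := nd_orth hQ hA
  have hBd := finrank_orth hQ A
  obtain ⟨em, hem⟩ := hm
  have hort : ∀ X ≤ A, ∀ Y ≤ orth Q A, ∀ a ∈ X, ∀ b ∈ Y, polar Q a b = 0 := fun X hX Y hY a ha b hb => hY hb a (hX ha)
  -- first part free
  have keyA : ∀ x : ℕ, 1 ≤ x → x < a → 2 * x ≤ m → m - 2 * x ≤ 2 * (d - a) → ∃ X Y : Submodule F V, X ≤ A ∧ Y ≤ orth Q A ∧ ND (Q.restrict X) ∧ ND (Q.restrict Y) ∧ finrank F X + finrank F Y = m ∧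
      (PT (Q.restrict (X ⊔ Y)) ↔ t) := by
    intro x hx1 hx2 hx3 hx4
    obtain ⟨Y', y1, y2⟩ := sub_any hB (x := m - 2 * x) ⟨em - x, by omega⟩ (by omega)
    obtain ⟨ye, yle, yd⟩ := map_sub (Q := Q) Y'
    obtain ⟨X', x1, x2, x3⟩ := sub_exists hA hx1 (by omega) (t ↔ PT ((Q.restrict (orth Q A)).restrict Y'))
    obtain ⟨xe, xle, xd⟩ := map_sub (Q := Q) X'
    have hXn := nd_of_equivalent xe x1
    have hYn := nd_of_equivalent ye y1
    refine ⟨_, _, xle, yle, hXn, hYn, by omega, ?_⟩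
    rw [← pt_iff_of_equiv (sup_equiv hXn hYn (hort _ xle _ yle)), pt_prod_iff hXn hYn (m := x) (m' := em - x) (by omega) (by omega),
      ← pt_iff_of_equiv xe, ← pt_iff_of_equiv ye, x3]
    generalize PT (restrict (restrict Q (orth Q A)) Y') = P
    tauto
  have keyB : ∀ y : ℕ, 1 ≤ y → y < d - a → 2 * y ≤ m → m - 2 * y ≤ 2 * a → ∃ X Y : Submodule F V, X ≤ A ∧ Y ≤ orth Q A ∧ ND (Q.restrict X) ∧ ND (Q.restrict Y) ∧ finrank F X + finrank F Y = m ∧
      (PT (Q.restrict (X ⊔ Y)) ↔ t) := by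
    intro y hy1 hy2 hy3 hy4
    obtain ⟨X', x1, x2⟩ := sub_any hA (x := m - 2 * y) ⟨em - y, by omega⟩ (by omega)
    obtain ⟨xe, xle, xd⟩ := map_sub (Q := Q) X'
    obtain ⟨Y', y1, y2, y3⟩ := sub_exists hB hy1 (by omega) (t ↔ PT ((Q.restrict A).restrict X'))
    obtain ⟨ye, yle, yd⟩ := map_sub (Q := Q) Y'
    have hXn := nd_of_equivalent xe x1
    have hYn := nd_of_equivalent ye y1
    refine ⟨_, _, xle, yle, hXn, hYn, by omega, ?_⟩
    rw [← pt_iff_of_equiv (sup_equiv hXn hYn (hort _ xle _ yle)), pt_prod_iff hXn hYn (m := em - y) (m' := y) (by omega) (by omega),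
      ← pt_iff_of_equiv xe, ← pt_iff_of_equiv ye, y3]
    generalize PT (restrict (restrict Q A) X') = P
    tauto
  by_cases h1 : m < 2 * a
  · exact keyA em (by omega) (by omega) (by omega) (by omega)
  · by_cases h2 : m < 2 * (d - a)
    · exact keyB em (by omega) (by omega) (by omega) (by omega)
    · by_cases h3 : 2 ≤ d - a
      · exact keyB (d - a - 1) (by omega) (by omega) (by omega) (by omega)
      · exact keyA (a - 1) (by omega) (by omega) (by omega) (by omega)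

/-- odd target -/
theorem two_part_odd {Q : QuadraticForm F V} (hQ : ND Q) {d a : ℕ} (hd : finrank F V = 2 * d) {A : Submodule F V} (hA : ND (Q.restrict A))
    (hAd : finrank F A = 2 * a) (had : a + 1 ≤ d) (R : Fm F) {e : ℕ} (hR : finrank F R.V = 2 * e + 1) (he : e < d) :
    ∃ X Y : Submodule F V, X ≤ A ∧ Y ≤ orth Q A ∧ ND (Q.restrict X) ∧ ND (Q.restrict Y) ∧ R.Q.Equivalent (Q.restrict (X ⊔ Y)) := by
  have hB := nd_orth hQ hA
  have hBd := finrank_orth hQ A
  have hort : ∀ X ≤ A, ∀ Y ≤ orth Q A, ∀ a ∈ X, ∀ b ∈ Y, polar Q a b = 0 := fun X hX Y hY a ha b hb => hY hb a (hX ha)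
  -- x = even part in A
  obtain ⟨x, hx1, hx2, hx3⟩ : ∃ x, x ≤ e ∧ x ≤ a ∧ e - x < d - a := ⟨e - min e (d - a - 1), by omega, by omega, by omega⟩
  obtain ⟨X', x1, x2⟩ := sub_any hA (x := 2 * x) (even_two_mul x) (by omega)
  obtain ⟨xe, xle, xd⟩ := map_sub (Q := Q) X'
  have hXn := nd_of_equivalent xe x1
  obtain ⟨Y, y1, y2, y3, y4⟩ := glue_odd (C := orth Q A) hB (a := d - a) (by omega) ⟨_, Q.restrict (X'.map A.subtype), hXn⟩ (b := x)
    (by show finrank F (X'.map A.subtype : Submodule F V) = _; omega) R hR hx1 hx3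
  refine ⟨_, Y, xle, y1, hXn, y2, ?_⟩
  exact (y4.symm.trans (prod_comm_equiv _ _)).trans (sup_equiv hXn y2 (hort _ xle _ y1))

end gen

section crit

/-- invariant subspace in an odd-dimensional class -/
def okO (i n m : ℕ) (s : ℕ) : Prop := ∃ j, j ≤ s ∧ cc i * j ≤ m ∧ m + cc i * s ≤ n + cc i * j

theorem okO_iff {F : Type u} [Field F] [Fintype F] {r : ℕ} {V : Type u} [AddCommGroup V] [Module F V] [FiniteDimensional F V] {Q : QuadraticForm F V} (hQ : ND Q)
    (hr : r.Prime) (hr2 : r ≠ 2) (hrq : ¬ r ∣ Fintype.card F) (f : V →ₗ[F] V) (hf : ∀ v, Q (f v) = Q v) (hfr : f ^ r = 1)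
    {s n m : ℕ} (hn : finrank F V = n) (hne : Even n) (hm : Odd m) (hs : finrank F (fx f) + cc (oi F r) * s = n) (R : Fm F) (hR : finrank F R.V = m) :
    (∃ W ∈ Cl Q R, ∀ v ∈ W, f v ∈ W) ↔ okO (oi F r) n m s := by
  have hcc := cc_pos (F := F) hr hrq
  obtain ⟨ec, hec⟩ := even_cc (oi F r)
  obtain ⟨em, hem⟩ := hm
  obtain ⟨N, hN⟩ := hne
  have hCnd := fx_nd hQ (rF hr hrq) f hf hfr
  constructor
  · rintro ⟨W, w1, w4⟩
    obtain ⟨j, C', c1, c2, c3, c4, c5, -⟩ := W_nec hQ hr hr2 hrq f hf hfr W (Cl.nd w1) w4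
    have hjs : j ≤ s := by
      by_contra hlt
      have : cc (oi F r) * (s + 1) ≤ cc (oi F r) * j := Nat.mul_le_mul_left _ (by omega)
      rw [mul_add] at this
      omega
    have hC'le := Submodule.finrank_mono c1
    have := Cl.dim w1
    exact ⟨j, hjs, by omega, by omega⟩
  · rintro ⟨j, j1, j2, j3⟩
    have e1 : cc (oi F r) * s = 2 * (ec * s) := by rw [hec]; ring
    have e2 : cc (oi F r) * j = 2 * (ec * j) := by rw [hec]; ring
    have hj' : cc (oi F r) * j + finrank F (fx f) ≤ finrank F V := by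
      have : cc (oi F r) * j ≤ cc (oi F r) * s := Nat.mul_le_mul_left _ j1
      omega
    -- the moved part
    obtain ⟨W0, -, -, -, A, a1, a2, -⟩ := W_suf hQ hr hr2 hrq f hf hfr j hj' ⊥ bot_le (nd_on.2 Iso.nd_bot)
    obtain ⟨Y, y1, y2, y3, y4⟩ := glue_odd (C := fx f) hCnd (a := N - ec * s) (by omega) A (b := ec * j) (by rw [a1, e2]) R (e := em) (by omega)
      (by omega) (by omega)
    obtain ⟨W, w1, w2, w3, A', a1', a2', a3'⟩ := W_suf hQ hr hr2 hrq f hf hfr j hj' Y y1 y2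
    refine ⟨W, ?_, w2⟩
    have h5 : A.Q.Equivalent A'.Q := equiv_of_same (m := ec * j) A.nd A'.nd (by rw [a1, e2]) (by rw [a1', e2]) (a2.trans a2'.symm)
    exact (y4.symm.trans ((Equivalent.refl _).prod h5)).trans a3'

theorem arith_even1 {i n m : ℕ} (hc : 0 < cc i) (hn : Even n) (hm : Even m) (hm0 : 0 < m) (hmn : m < n) (hcm : cc i ≤ m) (t₀ t : Prop)
    (H : ∀ s, 1 ≤ s → allowed i n t₀ s → okE i n m t₀ t s) :
    (n % cc i = 0 ∧ ¬ (t₀ ↔ (Odd i ∨ Even (n / cc i)))) ∨ (n % cc i = 0 ∧ m % cc i = 0 ∧ (t ↔ (Odd i ∨ Even (m / cc i)))) ∨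
      (0 < n % cc i ∧ m % cc i ≤ n % cc i ∧ (m % cc i = 0 → (t ↔ (Odd i ∨ Even (m / cc i)))) ∧
        (m % cc i = n % cc i → (t ↔ ((t₀ ↔ (Odd i ∨ Even (n / cc i))) ↔ (Odd i ∨ Even (m / cc i)))))) := by
  obtain ⟨c, hcc⟩ : ∃ c, cc i = c := ⟨_, rfl⟩
  unfold allowed okE at H
  rw [hcc] at hc hcm H ⊢
  have hnk := Nat.div_add_mod n c
  have hmk := Nat.div_add_mod m c
  have hnl := Nat.mod_lt n hc
  have hml := Nat.mod_lt m hc
  have hn1 : 1 ≤ n / c := (Nat.one_le_div_iff hc).2 (by omega)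
  by_cases hk : n % c = 0
  · by_cases hmt : t₀ ↔ (Odd i ∨ Even (n / c))
    · right; left
      obtain ⟨j, j1, j2, j3, j4, -⟩ := H (n / c) hn1 ⟨by omega, fun _ => hmt⟩
      have hj : c * j = m := by omega
      have hjm : j = m / c := by rw [← hj, Nat.mul_div_cancel_left _ hc]
      refine ⟨hk, by rw [← hj, Nat.mul_mod_right], ?_⟩
      rw [← hjm]; exact j4 hj
    · left; exact ⟨hk, hmt⟩
  · right; right
    obtain ⟨j, j1, j2, j3, j4, j5⟩ := H (n / c) hn1 ⟨by omega, fun h => by exfalso; omega⟩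
    have hjm : j = m / c := by
      apply le_antisymm
      · rw [Nat.le_div_iff_mul_le hc, mul_comm]; exact j2
      · by_contra hlt
        have : c * (j + 1) ≤ c * (m / c) := Nat.mul_le_mul_left _ (by omega)
        rw [mul_add] at this
        omega
    subst hjm
    refine ⟨by omega, by omega, fun h => j4 (by omega), fun h => j5 (by omega)⟩

theorem lg1 {t A B : Prop} (h : ¬ (t ↔ A)) (hn : ¬ (B ↔ A)) : t ↔ B := by tauto

theorem lg2 {t0 t O s k : Prop} (h1 : ¬ (t0 ↔ O ∨ ¬ s)) (h2 : ¬ (t ↔ O ∨ ¬ k)) : t ↔ ((t0 ↔ (O ∨ s)) ↔ (O ∨ k)) := by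
  by_cases hO : O <;> by_cases hs : s <;> by_cases hk : k <;> by_cases h0 : t0 <;> by_cases ht : t <;> simp_all

theorem lg3 {t0 t O s k : Prop} (h1 : t ↔ (O ∨ k)) (h2 : t0 ↔ (O ∨ s)) : t ↔ ((t0 ↔ (O ∨ s)) ↔ (O ∨ k)) := by
  rw [h1, h2]; simp

theorem arith_even2 {i n m : ℕ} (hc : 0 < cc i) (hn : Even n) (hm : Even m) (hm0 : 0 < m) (hmn : m < n) (t₀ t : Prop)
    (H : (n % cc i = 0 ∧ ¬ (t₀ ↔ (Odd i ∨ Even (n / cc i)))) ∨ (n % cc i = 0 ∧ m % cc i = 0 ∧ (t ↔ (Odd i ∨ Even (m / cc i)))) ∨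
      (0 < n % cc i ∧ m % cc i ≤ n % cc i ∧ (m % cc i = 0 → (t ↔ (Odd i ∨ Even (m / cc i)))) ∧
        (m % cc i = n % cc i → (t ↔ ((t₀ ↔ (Odd i ∨ Even (n / cc i))) ↔ (Odd i ∨ Even (m / cc i))))))) :
    ∀ s, 1 ≤ s → allowed i n t₀ s → okE i n m t₀ t s := by
  obtain ⟨c, hcc⟩ : ∃ c, cc i = c := ⟨_, rfl⟩
  unfold allowed okE
  rw [hcc] at hc H ⊢
  have hnk := Nat.div_add_mod n c
  have hmk := Nat.div_add_mod m c
  have hnl := Nat.mod_lt n hc
  have hml := Nat.mod_lt m hc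
  rintro s hs1 ⟨hs2, hs3⟩
  have hsn : s ≤ n / c := by rw [Nat.le_div_iff_mul_le hc, mul_comm]; exact hs2
  have hcs : c * s ≤ c * (n / c) := Nat.mul_le_mul_left c hsn
  rcases lt_or_ge s (m / c) with h | h
  · -- all blocks
    have h1 : c * (s + 1) ≤ c * (m / c) := Nat.mul_le_mul_left c h
    rw [mul_add] at h1
    exact ⟨s, le_rfl, by omega, by omega, fun h => by exfalso; omega, fun h => by exfalso; omega⟩
  · have hcm : c * (m / c) ≤ c * s := Nat.mul_le_mul_left c h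
    rcases H with ⟨H1, H2⟩ | ⟨H1, H2, H3⟩ | ⟨H1, H2, H3, H4⟩
    · -- mismatch
      have hslt : s < n / c := by
        rcases hsn.eq_or_lt with h' | h'
        · exfalso
          apply H2
          rw [← h']
          exact hs3 (by rw [h']; omega)
        · exact h'
      have h2 : c * (s + 1) ≤ c * (n / c) := Nat.mul_le_mul_left c hslt
      rw [mul_add] at h2
      by_cases hl : m % c = 0
      · -- two candidates
        have hm1 : 1 ≤ m / c := by
          by_contra h0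
          have : m / c = 0 := Nat.lt_one_iff.1 (not_le.1 h0)
          rw [this, mul_zero] at hmk
          omega
        by_cases ht : t ↔ (Odd i ∨ Even (m / c))
        · refine ⟨m / c, h, by omega, by omega, fun _ => ht, fun h' => by exfalso; omega⟩
        · obtain ⟨k, hk⟩ : ∃ k, m / c = k + 1 := ⟨m / c - 1, (Nat.sub_add_cancel hm1).symm⟩
          have h3 : c * (m / c) = c * k + c := by rw [hk, mul_add, mul_one]
          refine ⟨k, by omega, by omega, by omega, fun h' => by exfalso; omega, fun h' => ?_⟩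
          -- c * (s + 1) = n
          have hs4 : s + 1 = n / c := by
            have h5 : c * (s + 1) = c * (n / c) := by rw [mul_add]; omega
            exact Nat.eq_of_mul_eq_mul_left hc h5
          rw [← hs4, Nat.even_add_one] at H2
          rw [hk, Nat.even_add_one] at ht
          exact lg2 H2 ht
      · exact ⟨m / c, h, by omega, by omega, fun h' => by exfalso; omega, fun h' => by exfalso; omega⟩
    · refine ⟨m / c, h, by omega, by omega, fun _ => H3, fun h' => ?_⟩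
      have hs4 : s = n / c := by
        have h5 : c * s = c * (n / c) := by omega
        exact Nat.eq_of_mul_eq_mul_left hc h5
      have h6 := hs3 (by rw [hs4]; omega)
      exact lg3 H3 h6
    · refine ⟨m / c, h, by omega, by omega, fun h' => H3 (by omega), fun h' => ?_⟩
      have hs4 : s = n / c := by
        rcases hsn.eq_or_lt with h5 | h5
        · exact h5
        · exfalso
          have h6 : c * (s + 1) ≤ c * (n / c) := Nat.mul_le_mul_left c h5
          rw [mul_add] at h6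
          omega
      rw [hs4]
      exact H4 (by rw [hs4] at h'; omega)

theorem arith_odd1 {i n m : ℕ} (hc : 0 < cc i) (hn : Even n) (hm : Odd m) (hmn : m < n) (hcm : cc i ≤ m) (t₀ : Prop)
    (H : ∀ s, 1 ≤ s → allowed i n t₀ s → okO i n m s) :
    (n % cc i = 0 ∧ ¬ (t₀ ↔ (Odd i ∨ Even (n / cc i)))) ∨ (0 < n % cc i ∧ m % cc i < n % cc i) := by
  obtain ⟨ec, hec⟩ := even_cc i
  obtain ⟨c, hcc⟩ : ∃ c, cc i = c := ⟨_, rfl⟩
  unfold allowed okO at H
  rw [hcc] at hc hcm H hec ⊢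
  have hnk := Nat.div_add_mod n c
  have hmk := Nat.div_add_mod m c
  have hnl := Nat.mod_lt n hc
  have hml := Nat.mod_lt m hc
  have hn1 : 1 ≤ n / c := (Nat.one_le_div_iff hc).2 (by omega)
  have hpar1 : ∀ x : ℕ, c * x = 2 * (ec * x) := by intro x; rw [hec]; ring
  obtain ⟨kn, hkn⟩ := hn
  obtain ⟨km, hkm⟩ := hm
  by_cases hk : n % c = 0
  · by_cases hmt : t₀ ↔ (Odd i ∨ Even (n / c))
    · exfalso
      obtain ⟨j, j1, j2, j3⟩ := H (n / c) hn1 ⟨by omega, fun _ => hmt⟩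
      have := hpar1 j
      omega
    · left; exact ⟨hk, hmt⟩
  · right
    obtain ⟨j, j1, j2, j3⟩ := H (n / c) hn1 ⟨by omega, fun h => by exfalso; omega⟩
    have hjm : j = m / c := by
      apply le_antisymm
      · rw [Nat.le_div_iff_mul_le hc, mul_comm]; exact j2
      · by_contra hlt
        have : c * (j + 1) ≤ c * (m / c) := Nat.mul_le_mul_left _ (by omega)
        rw [mul_add] at this
        omega
    subst hjm
    have h1 := hpar1 (n / c)
    have h2 := hpar1 (m / c)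
    exact ⟨by omega, by omega⟩

theorem arith_odd2 {i n m : ℕ} (hc : 0 < cc i) (hn : Even n) (hm : Odd m) (hmn : m < n) (t₀ : Prop)
    (H : (n % cc i = 0 ∧ ¬ (t₀ ↔ (Odd i ∨ Even (n / cc i)))) ∨ (0 < n % cc i ∧ m % cc i < n % cc i)) :
    ∀ s, 1 ≤ s → allowed i n t₀ s → okO i n m s := by
  obtain ⟨c, hcc⟩ : ∃ c, cc i = c := ⟨_, rfl⟩
  unfold allowed okO
  rw [hcc] at hc H ⊢
  have hnk := Nat.div_add_mod n c
  have hmk := Nat.div_add_mod m c
  have hnl := Nat.mod_lt n hc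
  have hml := Nat.mod_lt m hc
  rintro s hs1 ⟨hs2, hs3⟩
  have hsn : s ≤ n / c := by rw [Nat.le_div_iff_mul_le hc, mul_comm]; exact hs2
  have hcs : c * s ≤ c * (n / c) := Nat.mul_le_mul_left c hsn
  rcases lt_or_ge s (m / c) with h | h
  · have h1 : c * (s + 1) ≤ c * (m / c) := Nat.mul_le_mul_left c h
    rw [mul_add] at h1
    exact ⟨s, le_rfl, by omega, by omega⟩
  · have hcm : c * (m / c) ≤ c * s := Nat.mul_le_mul_left c h
    rcases H with ⟨H1, H2⟩ | ⟨H1, H2⟩
    · have hslt : s < n / c := by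
        rcases hsn.eq_or_lt with h' | h'
        · exfalso
          apply H2
          rw [← h']
          exact hs3 (by rw [h']; omega)
        · exact h'
      have h2 : c * (s + 1) ≤ c * (n / c) := Nat.mul_le_mul_left c hslt
      rw [mul_add] at h2
      exact ⟨m / c, h, by omega, by omega⟩
    · exact ⟨m / c, h, by omega, by omega⟩

end crit

end H99.OrthSS
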