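import Mathlib
import Cfsg.Agent.Lib.H99.OrthEvenDim

set_option autoImplicit false
set_option linter.unusedSimpArgs false
set_option linter.unusedSectionVars false
set_option linter.unusedVariables false

/-! Nondegenerate subspaces of even-dimensional orthogonal spaces: the criteria for groups. -/

namespace H99.OrthSS

open Module QuadraticMap H48.QuadSplit H48.QuadStd H96.OeType

universe u

variable {F : Type u} [Field F] [Fintype F] {ι : Type} [Fintype ι] [DecidableEq ι]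

theorem iso_of_omega {Q : QuadraticForm F (ι → F)} {x : GL ι F} (hx : x ∈ Cfsg.Geo.omegaGL (⇑Q)) :
    ∀ v, Q (Matrix.toLin' (x : Matrix ι ι F) v) = Q v := by
  intro v
  rw [Matrix.toLin'_apply]
  obtain ⟨y, _, rfl⟩ := hx
  exact (H17.OrthDet.mem_isometryGroup_iff _ _).mp y.2 v

/-- **even subspaces, odd `r ≠ p`** -/
theorem crit_even {r : ℕ} (hr : r.Prime) (hr2 : r ≠ 2) (hrq : ¬ r ∣ Fintype.card F) {Q : QuadraticForm F (ι → F)} (hQ : ND Q)
    (d m : ℕ) (hcι : Fintype.card ι = 2 * d) (hd : 3 ≤ d) (hm : 2 ≤ m) (hme : Even m) (hmn : m + 2 ≤ 2 * d) (t : Prop)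
    (P : Submodule F (ι → F) → Prop)
    (hP : ∀ W, P W ↔ (finrank F W = m ∧ ND (Q.restrict W) ∧ (PT (Q.restrict W) ↔ t)))
    (hrΩ : r ∣ Nat.card {W : Submodule F (ι → F) // P W}) :
    (∀ x : GL ι F, x ∈ Cfsg.Geo.omegaGL (⇑Q) → (∃ z : F, ((x ^ r : GL ι F) : Matrix ι ι F) = z • (1 : Matrix ι ι F)) →
      (∀ z : F, (x : Matrix ι ι F) ≠ z • (1 : Matrix ι ι F)) → ∃ W, P W ∧ W.map (Matrix.toLin' (x : Matrix ι ι F)) ≤ W) ↔
    (cc (oi F r) ≤ m ∧ (((2 * d) % cc (oi F r) = 0 ∧ ¬ (PT Q ↔ (Odd (oi F r) ∨ Even ((2 * d) / cc (oi F r))))) ∨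
      ((2 * d) % cc (oi F r) = 0 ∧ m % cc (oi F r) = 0 ∧ (t ↔ (Odd (oi F r) ∨ Even (m / cc (oi F r))))) ∨
      (0 < (2 * d) % cc (oi F r) ∧ m % cc (oi F r) ≤ (2 * d) % cc (oi F r) ∧ (m % cc (oi F r) = 0 → (t ↔ (Odd (oi F r) ∨ Even (m / cc (oi F r))))) ∧
        (m % cc (oi F r) = (2 * d) % cc (oi F r) → (t ↔ ((PT Q ↔ (Odd (oi F r) ∨ Even ((2 * d) / cc (oi F r)))) ↔ (Odd (oi F r) ∨ Even (m / cc (oi F r))))))))) := by
  have hcard : Fintype.card F ≠ 2 ∨ Fintype.card ι ≠ 4 := Or.inr (by omega)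
  have hne : Nonempty ι := Fintype.card_pos_iff.1 (by omega)
  obtain ⟨e, he⟩ := hme
  obtain ⟨R, R1, R2⟩ := exists_fm (F := F) e (by omega) t
  have hPC : ∀ W, P W ↔ W ∈ Cl Q R := by
    intro W
    rw [hP, cl_iff R1 R2, show m = 2 * e by omega]
  rw [proj_iff hr hr2 hQ hcard P]
  have hcc := cc_pos (F := F) hr hrq
  have hcore := core hr hr2 hrq hQ hcard P (okE (oi F r) (2 * d) m (PT Q) t) (fun f f1 f2 s f3 => by
    rw [← okE_iff hQ hr hr2 hrq f f1 f2 (s := s) (n := 2 * d) (m := m) (by rw [finrank_fintype_fun_eq_card, hcι]) ⟨e, he⟩ (by rw [← hcι]; exact f3) t]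
    constructor
    · rintro ⟨W, w1, w2⟩
      obtain ⟨a1, a2, a3⟩ := (hP W).1 w1
      exact ⟨W, a1, a2, a3, w2⟩
    · rintro ⟨W, a1, a2, a3, a4⟩
      exact ⟨W, (hP W).2 ⟨a1, a2, a3⟩, a4⟩)
  rw [hcι] at hcore
  constructor
  · intro H
    have hcm : cc (oi F r) ≤ m := by
      have := core_dvd hr hr2 hrq hQ hcard (by omega) R (by
        obtain ⟨Y, y1, y2, y3⟩ := sub_exists hQ (b := e) (by omega) (by rw [finrank_fintype_fun_eq_card, hcι]; omega) t
        exact ⟨Y, (cl_iff R1 R2 Y).2 ⟨y2, y1, y3⟩⟩) (by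
        have : {W : Submodule F (ι → F) // P W} = (Cl Q R) := by
          have : {W | P W} = Cl Q R := Set.ext hPC
          rw [← this]; rfl
        rw [← this]; exact hrΩ) (fun x hx h1 h3 => by
        obtain ⟨W, w1, w2⟩ := H x hx h1 h3
        exact ⟨W, (hPC W).1 w1, w2⟩)
      rw [R1] at this
      omega
    exact ⟨hcm, arith_even1 hcc (even_two_mul d) ⟨e, he⟩ (by omega) (by omega) hcm _ _ (hcore.1 H)⟩
  · rintro ⟨hcm, H⟩
    exact hcore.2 (arith_even2 hcc (even_two_mul d) ⟨e, he⟩ (by omega) (by omega) _ _ H)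

/-- **odd subspaces, odd `r ≠ p`** -/
theorem crit_oddm {r : ℕ} (hr : r.Prime) (hr2 : r ≠ 2) (hrq : ¬ r ∣ Fintype.card F) {Q : QuadraticForm F (ι → F)} (hQ : ND Q)
    (d m : ℕ) (hcι : Fintype.card ι = 2 * d) (hd : 3 ≤ d) (hm : Odd m) (hmn : m < 2 * d) (R : Fm F) (hR : finrank F R.V = m)
    (P : Submodule F (ι → F) → Prop) (hP : ∀ W, P W ↔ W ∈ Cl Q R) (hne : (Cl Q R).Nonempty)
    (hrΩ : r ∣ Nat.card {W : Submodule F (ι → F) // P W}) :
    (∀ x : GL ι F, x ∈ Cfsg.Geo.omegaGL (⇑Q) → (∃ z : F, ((x ^ r : GL ι F) : Matrix ι ι F) = z • (1 : Matrix ι ι F)) →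
      (∀ z : F, (x : Matrix ι ι F) ≠ z • (1 : Matrix ι ι F)) → ∃ W, P W ∧ W.map (Matrix.toLin' (x : Matrix ι ι F)) ≤ W) ↔
    (cc (oi F r) ≤ m ∧ (((2 * d) % cc (oi F r) = 0 ∧ ¬ (PT Q ↔ (Odd (oi F r) ∨ Even ((2 * d) / cc (oi F r))))) ∨
      (0 < (2 * d) % cc (oi F r) ∧ m % cc (oi F r) < (2 * d) % cc (oi F r)))) := by
  have hcard : Fintype.card F ≠ 2 ∨ Fintype.card ι ≠ 4 := Or.inr (by omega)
  have hneι : Nonempty ι := Fintype.card_pos_iff.1 (by omega)
  rw [proj_iff hr hr2 hQ hcard P]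
  have hcc := cc_pos (F := F) hr hrq
  have hcore := core hr hr2 hrq hQ hcard P (okO (oi F r) (2 * d) m) (fun f f1 f2 s f3 => by
    rw [← okO_iff hQ hr hr2 hrq f f1 f2 (s := s) (n := 2 * d) (m := m) (by rw [finrank_fintype_fun_eq_card, hcι]) (even_two_mul d) hm (by rw [← hcι]; exact f3) R hR]
    constructor
    · rintro ⟨W, w1, w2⟩
      exact ⟨W, (hP W).1 w1, w2⟩
    · rintro ⟨W, a1, a2⟩
      exact ⟨W, (hP W).2 a1, a2⟩)
  rw [hcι] at hcore
  constructor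
  · intro H
    have hcm : cc (oi F r) ≤ m := by
      have := core_dvd hr hr2 hrq hQ hcard (by omega) R hne (by
        have : {W : Submodule F (ι → F) // P W} = (Cl Q R) := by
          have : {W | P W} = Cl Q R := Set.ext hP
          rw [← this]; rfl
        rw [← this]; exact hrΩ) (fun x hx h1 h3 => by
        obtain ⟨W, w1, w2⟩ := H x hx h1 h3
        exact ⟨W, (hP W).1 w1, w2⟩)
      rw [hR] at this
      exact this
    exact ⟨hcm, arith_odd1 hcc (even_two_mul d) hm hmn hcm _ (hcore.1 H)⟩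
  · rintro ⟨hcm, H⟩
    exact hcore.2 (arith_odd2 hcc (even_two_mul d) hm hmn _ H)

/-- the isometries of square `-1` occur in `Ω` -/
def exJ (Q : QuadraticForm F (ι → F)) (d : ℕ) : Prop := (PT Q ↔ (IsSquare (-1 : F) ∨ Even d)) ∧ (Even d ∨ IsSquare (2 : F))

theorem sq_cases {Q : QuadraticForm F (ι → F)} (hQ : ND Q) [Nonempty ι] {x : GL ι F} (hx : x ∈ Cfsg.Geo.omegaGL (⇑Q))
    (h : ∃ z : F, ((x ^ 2 : GL ι F) : Matrix ι ι F) = z • (1 : Matrix ι ι F)) :
    (Matrix.toLin' (x : Matrix ι ι F)) ^ 2 = 1 ∨ ∀ v, Matrix.toLin' (x : Matrix ι ι F) (Matrix.toLin' (x : Matrix ι ι F) v) = -v := by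
  obtain ⟨z, hz⟩ := h
  obtain ⟨v0, hv0⟩ : ∃ v, Q v ≠ 0 := by
    by_contra hcon
    push Not at hcon
    have h1 : ∀ x : ι → F, x = 0 := by
      intro x
      apply hQ
      intro y
      rw [polar, hcon, hcon, hcon]; ring
    exact one_ne_zero (congrFun (h1 (fun _ => 1)) (Classical.arbitrary ι))
  have hiso := iso_of_omega hx
  have hsq : ∀ v, Matrix.toLin' (x : Matrix ι ι F) (Matrix.toLin' (x : Matrix ι ι F) v) = z • v := by
    intro v
    have h1 : Matrix.toLin' (((x ^ 2 : GL ι F) : Matrix ι ι F)) v = z • v := by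
      rw [hz, Matrix.toLin'_apply, Matrix.smul_mulVec, Matrix.one_mulVec]
    rw [pow_two, Units.val_mul, Matrix.toLin'_mul] at h1
    exact h1
  have h1 : z * z = 1 := by
    have h3 : Q (z • v0) = Q v0 := by rw [← hsq, hiso, hiso]
    rw [QuadraticMap.map_smul, smul_eq_mul] at h3
    exact mul_right_cancel₀ hv0 (by rw [h3, one_mul])
  rcases mul_self_eq_one_iff.1 h1 with h2 | h2
  · left
    apply LinearMap.ext
    intro v
    rw [pow_two]
    show Matrix.toLin' (x : Matrix ι ι F) (Matrix.toLin' (x : Matrix ι ι F) v) = v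
    rw [hsq, h2, one_smul]
  · right
    intro v
    rw [hsq, h2, neg_smul, one_smul]

theorem inv_split (h2 : (2 : F) ≠ 0) {Q : QuadraticForm F (ι → F)} (hQ : ND Q) (d : ℕ) (hcι : Fintype.card ι = 2 * d) (hd : 1 ≤ d)
    {x : GL ι F} (hx : x ∈ Cfsg.Geo.omegaGL (⇑Q)) (hx2 : (Matrix.toLin' (x : Matrix ι ι F)) ^ 2 = 1)
    (hns : ∀ z : F, (x : Matrix ι ι F) ≠ z • (1 : Matrix ι ι F)) :
    ∃ A : Submodule F (ι → F), ND (Q.restrict A) ∧ (∀ v ∈ A, Matrix.toLin' (x : Matrix ι ι F) v = v) ∧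
      (∀ v ∈ orth Q A, Matrix.toLin' (x : Matrix ι ι F) v = -v) ∧ ∃ a, finrank F A = 2 * a ∧ 1 ≤ a ∧ a + 1 ≤ d := by
  have hiso := iso_of_omega hx
  have hC := fx_nd hQ (r := 2) (by exact_mod_cast h2) _ hiso hx2
  have hneg := neg_on hQ h2 _ hiso hx2
  have hev := inv_even h2 hQ (by omega) hx hiso hx2
  have hod := finrank_orth hQ (fx (Matrix.toLin' (x : Matrix ι ι F)))
  have hle := Submodule.finrank_le (fx (Matrix.toLin' (x : Matrix ι ι F)))
  rw [finrank_fintype_fun_eq_card, hcι] at hod hle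
  obtain ⟨b, hb⟩ := hev
  refine ⟨_, hC, fun v hv => mem_fx.1 hv, hneg, d - b, by omega, ?_, ?_⟩
  · -- not `-1`
    by_contra h0
    have h1 : finrank F (fx (Matrix.toLin' (x : Matrix ι ι F))) = 0 := by omega
    rw [Submodule.finrank_eq_zero] at h1
    rw [h1] at hneg
    apply hns (-1)
    apply Matrix.toLin'.injective
    apply LinearMap.ext
    intro v
    rw [hneg v (fun u hu => by rw [(Submodule.mem_bot F).1 hu]; exact polar_zero_left Q v), Matrix.toLin'_apply, Matrix.smul_mulVec, Matrix.one_mulVec, neg_smul, one_smul]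
  · by_contra h0
    have h1 : finrank F (fx (Matrix.toLin' (x : Matrix ι ι F))) = finrank F (ι → F) := by
      rw [finrank_fintype_fun_eq_card, hcι]; omega
    have h3 := Submodule.eq_top_of_finrank_eq h1
    apply hns 1
    apply Matrix.toLin'.injective
    apply LinearMap.ext
    intro v
    rw [mem_fx.1 (show v ∈ fx (Matrix.toLin' (x : Matrix ι ι F)) by rw [h3]; trivial), Matrix.toLin'_apply, Matrix.smul_mulVec, Matrix.one_mulVec, one_smul]

theorem exJ_of {Q : QuadraticForm F (ι → F)} (h2 : (2 : F) ≠ 0) (hQ : ND Q) (d : ℕ) (hcι : Fintype.card ι = 2 * d) (hd : 1 ≤ d) {x : GL ι F} (hx : x ∈ Cfsg.Geo.omegaGL (⇑Q))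
    (hxx : ∀ v, Matrix.toLin' (x : Matrix ι ι F) (Matrix.toLin' (x : Matrix ι ι F) v) = -v) : exJ Q d := by
  have hiso := iso_of_omega hx
  obtain ⟨k, k1, k2, -⟩ := J_struct h2 _ (ι → F) Q _ rfl hQ hiso hxx
  rw [finrank_fintype_fun_eq_card, hcι] at k1
  have : k = d := by omega
  subst this
  exact ⟨k2, (J_mem h2 hQ hcι hd hiso hxx).1 hx⟩

theorem exists_of_exJ {Q : QuadraticForm F (ι → F)} (h2 : (2 : F) ≠ 0) (hQ : ND Q) (d : ℕ) (hcι : Fintype.card ι = 2 * d) (hd : 1 ≤ d) (h : exJ Q d) :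
    ∃ x : GL ι F, x ∈ Cfsg.Geo.omegaGL (⇑Q) ∧ (∀ v, Matrix.toLin' (x : Matrix ι ι F) (Matrix.toLin' (x : Matrix ι ι F) v) = -v) ∧
      (∃ z : F, ((x ^ 2 : GL ι F) : Matrix ι ι F) = z • (1 : Matrix ι ι F)) ∧ (∀ z : F, (x : Matrix ι ι F) ≠ z • (1 : Matrix ι ι F)) := by
  obtain ⟨f, f1, f2⟩ := hasJ_of (V := ι → F) h2 hQ (k := d) (by rw [finrank_fintype_fun_eq_card, hcι]) h.1
  obtain ⟨x, x1, x2⟩ := exists_gl' f (r := 4) (by norm_num) (by
    apply LinearMap.ext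
    intro v
    show f (f (f (f v))) = v
    rw [f2, f2, neg_neg])
  have hne : Nonempty ι := Fintype.card_pos_iff.1 (by omega)
  have hxx : ∀ v, Matrix.toLin' (x : Matrix ι ι F) (Matrix.toLin' (x : Matrix ι ι F) v) = -v := fun v => by rw [x1, f2]
  have hx := (J_mem h2 hQ hcι hd (x := x) (fun v => by rw [x1, f1]) hxx).2 h.2
  refine ⟨x, hx, hxx, ⟨-1, ?_⟩, ?_⟩
  · apply Matrix.toLin'.injective
    apply LinearMap.ext
    intro v
    rw [pow_two, Units.val_mul, Matrix.toLin'_mul]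
    show Matrix.toLin' (x : Matrix ι ι F) (Matrix.toLin' (x : Matrix ι ι F) v) = _
    rw [hxx, Matrix.toLin'_apply, Matrix.smul_mulVec, Matrix.one_mulVec, neg_smul, one_smul]
  · intro z hz
    have h3 : ∀ v, Matrix.toLin' (x : Matrix ι ι F) v = z • v := by
      intro v
      rw [hz, Matrix.toLin'_apply, Matrix.smul_mulVec, Matrix.one_mulVec]
    obtain ⟨v0, hv0⟩ : ∃ v, Q v ≠ 0 := by
      by_contra hcon
      push Not at hcon
      have h1 : ∀ x : ι → F, x = 0 := by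
        intro x
        apply hQ
        intro y
        rw [polar, hcon, hcon, hcon]; ring
      exact one_ne_zero (congrFun (h1 (fun _ => 1)) (Classical.arbitrary ι))
    have h4 := iso_of_omega hx v0
    rw [h3, QuadraticMap.map_smul, smul_eq_mul] at h4
    have h5 : z * z = 1 := mul_right_cancel₀ hv0 (by rw [h4, one_mul])
    have h6 := hxx v0
    rw [h3, h3, smul_smul, h5, one_smul] at h6
    have h7 : (2 : F) • v0 = 0 := by
      rw [two_smul]
      nth_rw 1 [h6]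
      exact neg_add_cancel v0
    rcases smul_eq_zero.1 h7 with h8 | h8
    · exact h2 h8
    · rw [h8, QuadraticMap.map_zero] at hv0
      exact hv0 rfl

/-- **even subspaces, involutions** -/
theorem crit_even_two (h2 : (2 : F) ≠ 0) {Q : QuadraticForm F (ι → F)} (hQ : ND Q)
    (d m : ℕ) (hcι : Fintype.card ι = 2 * d) (hd : 3 ≤ d) (hm : 2 ≤ m) (hme : Even m) (hmn : m + 2 ≤ 2 * d) (t : Prop)
    (P : Submodule F (ι → F) → Prop)
    (hP : ∀ W, P W ↔ (finrank F W = m ∧ ND (Q.restrict W) ∧ (PT (Q.restrict W) ↔ t))) :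
    (∀ x : GL ι F, x ∈ Cfsg.Geo.omegaGL (⇑Q) → (∃ z : F, ((x ^ 2 : GL ι F) : Matrix ι ι F) = z • (1 : Matrix ι ι F)) →
      (∀ z : F, (x : Matrix ι ι F) ≠ z • (1 : Matrix ι ι F)) → ∃ W, P W ∧ W.map (Matrix.toLin' (x : Matrix ι ι F)) ≤ W) ↔
    (¬ exJ Q d ∨ (t ↔ (IsSquare (-1 : F) ∨ Even (m / 2)))) := by
  have hne : Nonempty ι := Fintype.card_pos_iff.1 (by omega)
  constructor
  · intro H
    by_contra hcon
    rw [not_or, not_not] at hcon
    obtain ⟨h3, h4⟩ := hcon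
    obtain ⟨x, x1, x2, x3, x4⟩ := exists_of_exJ h2 hQ d hcι (by omega) h3
    obtain ⟨W, W1, W2⟩ := H x x1 x3 x4
    obtain ⟨a1, a2, a3⟩ := (hP W).1 W1
    have hWi : ∀ v ∈ W, Matrix.toLin' (x : Matrix ι ι F) v ∈ W := inv_map.1 W2
    obtain ⟨k, k1, k2, -⟩ := J_struct h2 _ W (Q.restrict W) ((Matrix.toLin' (x : Matrix ι ι F)).restrict hWi) rfl a2
      (fun v => iso_of_omega x1 v) (fun v => Subtype.ext (x2 v))
    have : k = m / 2 := by omega
    subst this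
    exact h4 (a3.symm.trans k2)
  · intro H x hx hx2 hns
    rcases sq_cases hQ hx hx2 with h3 | h3
    · obtain ⟨A, A1, A2, A3, a, a1, a2, a3⟩ := inv_split h2 hQ d hcι (by omega) hx h3 hns
      obtain ⟨X, Y, h4, h5, h6, h7, h8, h9⟩ := two_part_even hQ (d := d) (a := a) (by rw [finrank_fintype_fun_eq_card, hcι]) hd A1 a1 a2 a3 hme hm hmn t
      have hsup := sup_nd h6 h7 (fun a ha b hb => h5 hb a (h4 ha))
      refine ⟨X ⊔ Y, (hP _).2 ⟨by rw [hsup.2, h8], hsup.1, h9⟩, inv_map.2 ?_⟩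
      intro v hv
      obtain ⟨a, ha, b, hb, rfl⟩ := Submodule.mem_sup.1 hv
      rw [_root_.map_add, A2 _ (h4 ha), A3 b (h5 hb)]
      exact Submodule.add_mem_sup ha (Y.neg_mem hb)
    · have h4 := exJ_of h2 hQ d hcι (by omega) hx h3
      have h5 := H.resolve_left (not_not.2 h4)
      obtain ⟨k, k1, k2, k3⟩ := J_struct h2 _ (ι → F) Q _ rfl hQ (iso_of_omega hx) h3
      rw [finrank_fintype_fun_eq_card, hcι] at k1
      obtain ⟨Y, y1, y2, y3⟩ := k3 (m / 2) (by omega)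
      obtain ⟨k', k1', k2', -⟩ := J_struct h2 _ Y (Q.restrict Y) ((Matrix.toLin' (x : Matrix ι ι F)).restrict y1) rfl y2
        (fun v => iso_of_omega hx v) (fun v => Subtype.ext (h3 v))
      have : k' = m / 2 := by omega
      subst this
      obtain ⟨e, he⟩ := hme
      exact ⟨Y, (hP _).2 ⟨by omega, y2, k2'.trans h5.symm⟩, inv_map.2 y1⟩

/-- **odd subspaces, involutions** -/
theorem crit_oddm_two (h2 : (2 : F) ≠ 0) {Q : QuadraticForm F (ι → F)} (hQ : ND Q)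
    (d m : ℕ) (hcι : Fintype.card ι = 2 * d) (hd : 3 ≤ d) (hm : Odd m) (hmn : m < 2 * d) (R : Fm F) (hR : finrank F R.V = m)
    (P : Submodule F (ι → F) → Prop) (hP : ∀ W, P W ↔ W ∈ Cl Q R) :
    (∀ x : GL ι F, x ∈ Cfsg.Geo.omegaGL (⇑Q) → (∃ z : F, ((x ^ 2 : GL ι F) : Matrix ι ι F) = z • (1 : Matrix ι ι F)) →
      (∀ z : F, (x : Matrix ι ι F) ≠ z • (1 : Matrix ι ι F)) → ∃ W, P W ∧ W.map (Matrix.toLin' (x : Matrix ι ι F)) ≤ W) ↔
    ¬ exJ Q d := by
  have hne : Nonempty ι := Fintype.card_pos_iff.1 (by omega)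
  constructor
  · intro H h3
    obtain ⟨x, x1, x2, x3, x4⟩ := exists_of_exJ h2 hQ d hcι (by omega) h3
    obtain ⟨W, W1, W2⟩ := H x x1 x3 x4
    have hW := (hP W).1 W1
    have hWi : ∀ v ∈ W, Matrix.toLin' (x : Matrix ι ι F) v ∈ W := inv_map.1 W2
    obtain ⟨k, k1, k2, -⟩ := J_struct h2 _ W (Q.restrict W) ((Matrix.toLin' (x : Matrix ι ι F)).restrict hWi) rfl (Cl.nd hW)
      (fun v => iso_of_omega x1 v) (fun v => Subtype.ext (x2 v))
    rw [Cl.dim hW, hR] at k1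
    rw [k1] at hm
    exact (Nat.not_odd_iff_even.2 (even_two_mul k)) hm
  · intro H x hx hx2 hns
    rcases sq_cases hQ hx hx2 with h3 | h3
    · obtain ⟨A, A1, A2, A3, a, a1, a2, a3⟩ := inv_split h2 hQ d hcι (by omega) hx h3 hns
      obtain ⟨e, he⟩ := hm
      obtain ⟨X, Y, h4, h5, h6, h7, h8⟩ := two_part_odd hQ (d := d) (a := a) (by rw [finrank_fintype_fun_eq_card, hcι]) A1 a1 a3 R (e := e) (by omega) (by omega)
      refine ⟨X ⊔ Y, (hP _).2 h8, inv_map.2 ?_⟩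
      intro v hv
      obtain ⟨a, ha, b, hb, rfl⟩ := Submodule.mem_sup.1 hv
      rw [_root_.map_add, A2 _ (h4 ha), A3 b (h5 hb)]
      exact Submodule.add_mem_sup ha (Y.neg_mem hb)
    · exact absurd (exJ_of h2 hQ d hcι (by omega) hx h3) H

end H99.OrthSS
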