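import Mathlib
import Cfsg.Agent.Lib.H99.OrthEvenDim2

set_option autoImplicit false
set_option linter.unusedSimpArgs false
set_option linter.unusedSectionVars false
set_option linter.unusedVariables false

/-! Nondegenerate subspaces of even-dimensional orthogonal spaces: the final criteria for `r` odd different from `p`. -/

namespace H99.OrthSS

open Module QuadraticMap H48.QuadSplit H48.QuadStd H96.OeType

universe u

section le

variable {F : Type u} [Field F] [Fintype F] {V : Type u} [AddCommGroup V] [Module F V] [FiniteDimensional F V]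

theorem le_of_mis {r : ℕ} (hr : r.Prime) (hr2 : r ≠ 2) (hrq : ¬ r ∣ Fintype.card F) {Q : QuadraticForm F V} (hQ : ND Q) {n : ℕ} (hV : finrank F V = n)
    (hn : 0 < n) (hk : n % cc (oi F r) = 0) (hmis : ¬ (PT Q ↔ (Odd (oi F r) ∨ Even (n / cc (oi F r))))) (R : Fm F)
    (hsub : ∀ C : Submodule F V, ND (Q.restrict C) → finrank F C = cc (oi F r) → finrank F R.V < cc (oi F r) → ∃ W ≤ C, R.Q.Equivalent (Q.restrict W))
    (hdvd : r ∣ Nat.card (Cl Q R)) : cc (oi F r) ≤ finrank F R.V := by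
  by_contra hlt
  push Not at hlt
  have hcc := cc_pos (F := F) hr hrq
  obtain ⟨c, hc⟩ : ∃ c, cc (oi F r) = c := ⟨_, rfl⟩
  rw [hc] at hcc hlt hk hmis hsub
  have hnk := Nat.div_add_mod n c
  rw [hk, add_zero] at hnk
  have hpos : 1 ≤ n / c := by
    by_contra h
    have h0 : n / c = 0 := Nat.lt_one_iff.1 (not_le.1 h)
    rw [h0, mul_zero] at hnk
    omega
  have hsubn : c * (n / c - 1) + c = n := by
    obtain ⟨k, hk⟩ : ∃ k, n / c = k + 1 := ⟨n / c - 1, (Nat.sub_add_cancel hpos).symm⟩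
    rw [hk, Nat.add_sub_cancel]
    rw [hk] at hnk
    rw [← hnk]; ring
  obtain ⟨f, f1, f2, f3⟩ := realize hr hr2 hrq hQ (n / c - 1) (by rw [hV, hc]; omega) (by rw [hV, hc]; intro h; omega)
  rw [hV, hc] at f3
  have hfd : finrank F (fx f) = c := by omega
  have hCnd := fx_nd hQ (rF hr hrq) f f1 f2
  have hmm : ¬ (PT (Q.restrict (fx f)) ↔ Odd (oi F r)) := by
    obtain ⟨ec, hec⟩ := even_cc (oi F r)
    rw [hc] at hec
    obtain ⟨s', s1, s2, -⟩ := blocks hQ hr hr2 hrq f f1 f2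
    have : s' = n / c - 1 := by
      have : c * s' = c * (n / c - 1) := by rw [hV, hc] at s1; omega
      exact Nat.eq_of_mul_eq_mul_left hcc this
    subst this
    have h3 := pt_split_iff hQ hCnd (m := ec) (m' := ec * (n / c)) (by rw [hfd, hec]; ring) (by
      have h5 : c * (n / c) = 2 * (ec * (n / c)) := by
        generalize n / c = y
        rw [hec]; ring
      rw [hV]; omega)
    rw [s2] at h3
    obtain ⟨k, hk⟩ : ∃ k, n / c = k + 1 := ⟨n / c - 1, (Nat.sub_add_cancel hpos).symm⟩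
    rw [hk, Nat.add_sub_cancel] at h3
    rw [hk, Nat.even_add_one] at hmis
    exact l6 hmis h3
  obtain ⟨W, W1, W2⟩ := hsub (fx f) hCnd hfd hlt
  exact not_dvd hr hr2 hrq hQ R (by rw [hc]; exact hlt) f f1 f2 (Or.inr ⟨by rw [hc]; exact hfd, hmm⟩) hdvd ⟨W, W2, fun v hv => by
    rw [mem_fx.1 (W1 hv)]; exact hv⟩

theorem sub_even_in {Q : QuadraticForm F V} (R : Fm F) {b : ℕ} (hb : 1 ≤ b) (hR : finrank F R.V = 2 * b) {c : ℕ} :
    ∀ C : Submodule F V, ND (Q.restrict C) → finrank F C = c → finrank F R.V < c → ∃ W ≤ C, R.Q.Equivalent (Q.restrict W) := by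
  intro C hC hCd hlt
  obtain ⟨Y, y1, y2, y3⟩ := sub_exists hC (b := b) hb (by omega) (PT R.Q)
  obtain ⟨ye, yle, yd⟩ := map_sub (Q := Q) Y
  exact ⟨_, yle, (equiv_of_same (m := b) R.nd y1 hR y2 y3.symm).trans ye⟩

theorem sub_odd_in {Q : QuadraticForm F V} (R : Fm F) (hR : Odd (finrank F R.V)) {c : ℕ} (hce : Even c) :
    ∀ C : Submodule F V, ND (Q.restrict C) → finrank F C = c → finrank F R.V < c → ∃ W ≤ C, R.Q.Equivalent (Q.restrict W) := by
  intro C hC hCd hlt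
  obtain ⟨b, hb⟩ := hR
  obtain ⟨a, ha⟩ := hce
  obtain ⟨Y, y1, y2, y3⟩ := sub_exists_odd hC (a := a) (b := b) (by omega) R.nd hb (by omega)
  obtain ⟨ye, yle, yd⟩ := map_sub (Q := Q) Y
  exact ⟨_, yle, y3.trans ye⟩

end le

section mat

variable {F : Type u} [Field F] [Fintype F] {ι : Type} [Fintype ι] [DecidableEq ι]

theorem crit_even' {r : ℕ} (hr : r.Prime) (hr2 : r ≠ 2) (hrq : ¬ r ∣ Fintype.card F) {Q : QuadraticForm F (ι → F)} (hQ : ND Q)
    (d m : ℕ) (hcι : Fintype.card ι = 2 * d) (hd : 3 ≤ d) (hm : 2 ≤ m) (hme : Even m) (hmn : m + 2 ≤ 2 * d) (t : Prop)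
    (P : Submodule F (ι → F) → Prop)
    (hP : ∀ W, P W ↔ (finrank F W = m ∧ ND (Q.restrict W) ∧ (PT (Q.restrict W) ↔ t)))
    (hrΩ : r ∣ Nat.card {W : Submodule F (ι → F) // P W}) :
    (∀ x : GL ι F, x ∈ Cfsg.Geo.omegaGL (⇑Q) → (∃ z : F, ((x ^ r : GL ι F) : Matrix ι ι F) = z • (1 : Matrix ι ι F)) →
      (∀ z : F, (x : Matrix ι ι F) ≠ z • (1 : Matrix ι ι F)) → ∃ W, P W ∧ W.map (Matrix.toLin' (x : Matrix ι ι F)) ≤ W) ↔
    (((2 * d) % cc (oi F r) = 0 ∧ ¬ (PT Q ↔ (Odd (oi F r) ∨ Even ((2 * d) / cc (oi F r))))) ∨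
      ((2 * d) % cc (oi F r) = 0 ∧ m % cc (oi F r) = 0 ∧ (t ↔ (Odd (oi F r) ∨ Even (m / cc (oi F r))))) ∨
      (cc (oi F r) ≤ m ∧ 0 < (2 * d) % cc (oi F r) ∧ m % cc (oi F r) ≤ (2 * d) % cc (oi F r) ∧ (m % cc (oi F r) = 0 → (t ↔ (Odd (oi F r) ∨ Even (m / cc (oi F r))))) ∧
        (m % cc (oi F r) = (2 * d) % cc (oi F r) → (t ↔ ((PT Q ↔ (Odd (oi F r) ∨ Even ((2 * d) / cc (oi F r)))) ↔ (Odd (oi F r) ∨ Even (m / cc (oi F r)))))))) := by
  rw [crit_even hr hr2 hrq hQ d m hcι hd hm hme hmn t P hP hrΩ]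
  constructor
  · rintro ⟨h1, h3 | h3 | h3⟩
    · exact Or.inl h3
    · exact Or.inr (Or.inl h3)
    · exact Or.inr (Or.inr ⟨h1, h3⟩)
  · rintro (h3 | h3 | h3)
    · obtain ⟨e, he⟩ := hme
      obtain ⟨R, R1, R2⟩ := exists_fm (F := F) e (by omega) t
      have hPC : ∀ W, P W ↔ W ∈ Cl Q R := by
        intro W
        rw [hP, cl_iff R1 R2, show m = 2 * e by omega]
      have := le_of_mis hr hr2 hrq hQ (n := 2 * d) (by rw [finrank_fintype_fun_eq_card, hcι]) (by omega) h3.1 h3.2 R (sub_even_in R (b := e) (by omega) R1) (by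
        have : {W : Submodule F (ι → F) // P W} = (Cl Q R) := by
          have : {W | P W} = Cl Q R := Set.ext hPC
          rw [← this]; rfl
        rw [← this]; exact hrΩ)
      exact ⟨by omega, Or.inl h3⟩
    · exact ⟨Nat.le_of_dvd (by omega) (Nat.dvd_of_mod_eq_zero h3.2.1), Or.inr (Or.inl h3)⟩
    · exact ⟨h3.1, Or.inr (Or.inr h3.2)⟩

theorem crit_oddm' {r : ℕ} (hr : r.Prime) (hr2 : r ≠ 2) (hrq : ¬ r ∣ Fintype.card F) {Q : QuadraticForm F (ι → F)} (hQ : ND Q)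
    (d m : ℕ) (hcι : Fintype.card ι = 2 * d) (hd : 3 ≤ d) (hm : Odd m) (hmn : m < 2 * d) (R : Fm F) (hR : finrank F R.V = m)
    (P : Submodule F (ι → F) → Prop) (hP : ∀ W, P W ↔ W ∈ Cl Q R) (hne : (Cl Q R).Nonempty)
    (hrΩ : r ∣ Nat.card {W : Submodule F (ι → F) // P W}) :
    (∀ x : GL ι F, x ∈ Cfsg.Geo.omegaGL (⇑Q) → (∃ z : F, ((x ^ r : GL ι F) : Matrix ι ι F) = z • (1 : Matrix ι ι F)) →
      (∀ z : F, (x : Matrix ι ι F) ≠ z • (1 : Matrix ι ι F)) → ∃ W, P W ∧ W.map (Matrix.toLin' (x : Matrix ι ι F)) ≤ W) ↔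
    (((2 * d) % cc (oi F r) = 0 ∧ ¬ (PT Q ↔ (Odd (oi F r) ∨ Even ((2 * d) / cc (oi F r))))) ∨
      (cc (oi F r) ≤ m ∧ 0 < (2 * d) % cc (oi F r) ∧ m % cc (oi F r) < (2 * d) % cc (oi F r))) := by
  rw [crit_oddm hr hr2 hrq hQ d m hcι hd hm hmn R hR P hP hne hrΩ]
  constructor
  · rintro ⟨h1, h3 | h3⟩
    · exact Or.inl h3
    · exact Or.inr ⟨h1, h3⟩
  · rintro (h3 | h3)
    · have := le_of_mis hr hr2 hrq hQ (n := 2 * d) (by rw [finrank_fintype_fun_eq_card, hcι]) (by omega) h3.1 h3.2 R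
        (sub_odd_in R (by rw [hR]; exact hm) (even_cc _)) (by
        have : {W : Submodule F (ι → F) // P W} = (Cl Q R) := by
          have : {W | P W} = Cl Q R := Set.ext hP
          rw [← this]; rfl
        rw [← this]; exact hrΩ)
      exact ⟨by omega, Or.inl h3⟩
    · exact ⟨h3.1, Or.inr h3.2⟩

end mat

section q

variable {F : Type u} [Field F] [Fintype F]

theorem two_ne_of_odd (hodd : Odd (Fintype.card F)) : (2 : F) ≠ 0 := by
  intro h
  have h' : ((Fintype.card F : ℕ) : F) = 0 := Nat.cast_card_eq_zero F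
  obtain ⟨k, hk⟩ := hodd
  rw [hk] at h'
  push_cast at h'
  rw [h, zero_mul, zero_add] at h'
  exact one_ne_zero h'

theorem not_dvd_card {p : ℕ} [Fact p.Prime] [CharP F p] {r : ℕ} (hr : r.Prime) (hrp : r ≠ p) : ¬ r ∣ Fintype.card F := by
  obtain ⟨n, -, hn⟩ := FiniteField.card F p
  rw [hn]
  intro h
  exact hrp ((Nat.prime_dvd_prime_iff_eq hr Fact.out).1 (hr.dvd_of_dvd_pow h))

theorem odd_card {p : ℕ} [Fact p.Prime] [CharP F p] (hp : p ≠ 2) : Odd (Fintype.card F) := by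
  obtain ⟨n, -, hn⟩ := FiniteField.card F p
  rw [hn]
  exact ((Fact.out : p.Prime).odd_of_ne_two hp).pow

end q

end H99.OrthSS
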