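import Mathlib
import Cfsg.Agent.Lib.H99.OrthEvenDim3

set_option autoImplicit false
set_option linter.unusedSimpArgs false
set_option linter.unusedSectionVars false
set_option linter.unusedVariables false

/-! Arithmetic for the final statements. -/

namespace H99.OrthSS

theorem div_sum {n m i : ℕ} (hi : 0 < i) (h : m % i = n % i) : (n + m - 2 * (n % i)) / i = n / i + m / i := by
  have h1 := Nat.div_add_mod n i
  have h2 := Nat.div_add_mod m i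
  have h3 : n + m - 2 * (n % i) = i * (n / i + m / i) := by
    rw [mul_add]; omega
  rw [h3, Nat.mul_div_cancel_left _ hi]

/-- the criterion for even `m`, abstractly: type `t₀` of the space, type `t` of the subspace -/
def critE (i c n m : ℕ) (t₀ t : Prop) : Prop :=
  (n % c = 0 ∧ ¬ (t₀ ↔ (Odd i ∨ Even (n / c)))) ∨
      (n % c = 0 ∧ m % c = 0 ∧ (t ↔ (Odd i ∨ Even (m / c)))) ∨
      (c ≤ m ∧ 0 < n % c ∧ m % c ≤ n % c ∧ (m % c = 0 → (t ↔ (Odd i ∨ Even (m / c)))) ∧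
        (m % c = n % c → (t ↔ ((t₀ ↔ (Odd i ∨ Even (n / c))) ↔ (Odd i ∨ Even (m / c))))))

theorem critE_odd {i c n m : ℕ} (ho : Odd i) (t₀ t : Prop) :
    critE i c n m t₀ t ↔ ((n % c = 0 ∧ ¬ t₀) ∨ (n % c = 0 ∧ m % c = 0 ∧ t) ∨
      (c ≤ m ∧ 0 < n % c ∧ m % c ≤ n % c ∧ (m % c = 0 → t) ∧ (m % c = n % c → (t ↔ t₀)))) := by
  unfold critE
  have h1 : ∀ X : Prop, (Odd i ∨ X) ↔ True := fun X => iff_true_intro (Or.inl ho)
  simp only [h1, iff_true]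

theorem critE_even {i n m : ℕ} (he : Even i) (hi : 0 < i) (t₀ t : Prop) :
    critE i i n m t₀ t ↔ ((n % i = 0 ∧ ¬ (t₀ ↔ Even (n / i))) ∨ (n % i = 0 ∧ m % i = 0 ∧ (t ↔ Even (m / i))) ∨
      (i ≤ m ∧ 0 < n % i ∧ m % i ≤ n % i ∧ (m % i = 0 → (t ↔ Even (m / i))) ∧
        (m % i = n % i → ((t ↔ t₀) ↔ Even ((n + m - 2 * (n % i)) / i))))) := by
  unfold critE
  have h1 : ∀ X : Prop, (Odd i ∨ X) ↔ X := fun X => ⟨fun h => h.resolve_left (Nat.not_odd_iff_even.2 he), Or.inr⟩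
  simp only [h1]
  have h2 : m % i = n % i → ((t ↔ ((t₀ ↔ Even (n / i)) ↔ Even (m / i))) ↔ ((t ↔ t₀) ↔ Even ((n + m - 2 * (n % i)) / i))) := by
    intro h
    rw [div_sum hi h, Nat.even_add]
    tauto
  constructor
  · rintro (h | h | ⟨a1, a2, a3, a4, a5⟩)
    · exact Or.inl h
    · exact Or.inr (Or.inl h)
    · exact Or.inr (Or.inr ⟨a1, a2, a3, a4, fun h => (h2 h).1 (a5 h)⟩)
  · rintro (h | h | ⟨a1, a2, a3, a4, a5⟩)
    · exact Or.inl h
    · exact Or.inr (Or.inl h)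
    · exact Or.inr (Or.inr ⟨a1, a2, a3, a4, fun h => (h2 h).2 (a5 h)⟩)

/-- the criterion for odd `m` -/
def critO (i c n m : ℕ) (t₀ : Prop) : Prop :=
  (n % c = 0 ∧ ¬ (t₀ ↔ (Odd i ∨ Even (n / c)))) ∨ (c ≤ m ∧ 0 < n % c ∧ m % c < n % c)

theorem critO_odd {i c n m : ℕ} (ho : Odd i) (t₀ : Prop) :
    critO i c n m t₀ ↔ ((n % c = 0 ∧ ¬ t₀) ∨ (c ≤ m ∧ 0 < n % c ∧ m % c < n % c)) := by
  unfold critO
  have h1 : ∀ X : Prop, (Odd i ∨ X) ↔ True := fun X => iff_true_intro (Or.inl ho)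
  simp only [h1, iff_true]

theorem critO_even {i n m : ℕ} (he : Even i) (t₀ : Prop) :
    critO i i n m t₀ ↔ ((n % i = 0 ∧ ¬ (t₀ ↔ Even (n / i))) ∨ (i ≤ m ∧ 0 < n % i ∧ m % i < n % i)) := by
  unfold critO
  have h1 : ∀ X : Prop, (Odd i ∨ X) ↔ X := fun X => ⟨fun h => h.resolve_left (Nat.not_odd_iff_even.2 he), Or.inr⟩
  simp only [h1]

section q

variable {F : Type*} [Field F] [Fintype F]

theorem exJ_plus {ι : Type} [Fintype ι] [DecidableEq ι] {Q : QuadraticForm F (ι → F)} (hPT : H96.OeType.PT Q) (hodd : Odd (Fintype.card F)) (d : ℕ) :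
    exJ Q d ↔ (d % 2 = 0 ∨ Fintype.card F % 8 = 1) := by
  unfold exJ
  rw [FiniteField.isSquare_neg_one_iff, FiniteField.isSquare_two_iff, Nat.even_iff]
  rw [Nat.odd_iff] at hodd
  have h1 : (H96.OeType.PT Q ↔ (Fintype.card F % 4 ≠ 3 ∨ d % 2 = 0)) ↔ (Fintype.card F % 4 ≠ 3 ∨ d % 2 = 0) := by
    constructor
    · intro h; exact h.1 hPT
    · intro h; exact iff_of_true hPT h
  rw [h1]
  omega

theorem exJ_minus {ι : Type} [Fintype ι] [DecidableEq ι] {Q : QuadraticForm F (ι → F)} (hPT : ¬ H96.OeType.PT Q) (hodd : Odd (Fintype.card F)) (d : ℕ) :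
    exJ Q d ↔ (d % 2 = 1 ∧ Fintype.card F % 8 = 7) := by
  unfold exJ
  rw [FiniteField.isSquare_neg_one_iff, FiniteField.isSquare_two_iff, Nat.even_iff]
  rw [Nat.odd_iff] at hodd
  have h1 : (H96.OeType.PT Q ↔ (Fintype.card F % 4 ≠ 3 ∨ d % 2 = 0)) ↔ ¬ (Fintype.card F % 4 ≠ 3 ∨ d % 2 = 0) := by
    constructor
    · intro h h'; exact hPT (h.2 h')
    · intro h; exact iff_of_false hPT h
  rw [h1]
  omega

end q

end H99.OrthSS
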