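import Mathlib
import Cfsg.Agent.Lib.H99.OrthArith
import Cfsg.Agent.Lib.H99.OrthTwo

set_option autoImplicit false
set_option linter.unusedSimpArgs false
set_option linter.unusedSectionVars false
set_option linter.unusedVariables false

/-! Isometry classes and the minus form. -/

namespace H99.OrthSS

section iso

open Module QuadraticMap H48.QuadSplit H48.QuadStd H96.OeType H99.OrthTwo

universe u

theorem isom_iff {F : Type u} [Field F] [Fintype F] {ι : Type} [Fintype ι] [DecidableEq ι] {Q : QuadraticForm F (ι → F)} {m : ℕ} {W₀ : Submodule F (ι → F)}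
    (h0 : finrank F W₀ = m) (h1 : ND (Q.restrict W₀)) (W : Submodule F (ι → F)) :
    (finrank F W = m ∧ Cfsg.Geo.IsNondegenerateOn (polar (⇑Q)) W ∧ Cfsg.Geo.AreIsometricFor (⇑Q) W W₀) ↔
      W ∈ Cl Q (⟨W₀, Q.restrict W₀, h1⟩ : Fm F) := by
  constructor
  · rintro ⟨-, -, e, he⟩
    exact Equivalent.symm ⟨⟨e, he⟩⟩
  · intro h
    have hd := Cl.dim h
    refine ⟨by rw [hd]; exact h0, H96.OeTyp2.nd_on_iff.2 (Cl.nd h), ?_⟩
    obtain ⟨e⟩ := Equivalent.symm h
    exact ⟨e.toLinearEquiv, fun w => e.map_app w⟩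

theorem not_pt_minus {F : Type u} [Field F] [Fintype F] (m : ℕ) {a b : F}
    (hab : ∀ z₁ z₂ : F, z₁ ^ 2 + a * z₁ * z₂ + b * z₂ ^ 2 = 0 → z₁ = 0 ∧ z₂ = 0) : ¬ PT (qMinus m F a b) := by
  intro h
  have hd : finrank F ((Fin m ⊕ Fin m) ⊕ Fin 2 → F) = 2 * (m + 1) := by
    rw [finrank_fintype_fun_eq_card, Fintype.card_sum, Fintype.card_sum, Fintype.card_fin, Fintype.card_fin]; ring
  have h1 := ns_congr (equiv_of_pt (nd_qMinus m (disc_ne_zero hab)) hd h)
  rw [ns_plus, ns_minus m hab] at h1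
  have hq1 : 1 < Fintype.card F := Fintype.one_lt_card
  have h2 := Nat.eq_of_mul_eq_mul_left (by omega) h1
  have h3 := Nat.eq_of_mul_eq_mul_left (by positivity) h2
  omega

end iso

end H99.OrthSS
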