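import Mathlib
import Cfsg.Agent.Lib.H99.Iso2

set_option autoImplicit false
set_option linter.unusedSimpArgs false
set_option linter.unusedSectionVars false
set_option linter.unusedVariables false

/-! Orthogonal decompositions into planes permuted by an isometry whose square is scalar. -/

namespace H99.OrthDec

open Module Submodule H99.Iso

variable {F : Type*} [Field F] {V : Type*} [AddCommGroup V] [Module F V] [FiniteDimensional F V] {B : LinearMap.BilinForm F V}

theorem frank_map {T : V →ₗ[F] V} (hinj : Function.Injective T) (P : Submodule F V) : finrank F (P.map T) = finrank F P :=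
  (Submodule.equivMapOfInjective T hinj P).finrank_eq.symm

theorem nd_pair (hA : B.IsAlt) {u v : V} (h : B u v ≠ 0) : ND B (span F {u, v}) ∧ finrank F (span F {u, v}) = 2 := by
  have huu : B u u = 0 := hA u
  have hvv : B v v = 0 := hA v
  have hvu : B v u = - B u v := (hA.neg_eq u v).symm
  have key : ∀ a b : F, (B (a • u + b • v) u = 0 → b = 0) ∧ (B (a • u + b • v) v = 0 → a = 0) := by
    intro a b
    constructor
    · intro e
      simp only [map_add, map_smul, LinearMap.add_apply, LinearMap.smul_apply, huu, hvu, smul_eq_mul] at e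
      have : b * B u v = 0 := by linear_combination -e
      exact (mul_eq_zero.1 this).resolve_right h
    · intro e
      simp only [map_add, map_smul, LinearMap.add_apply, LinearMap.smul_apply, hvv, smul_eq_mul] at e
      have : a * B u v = 0 := by linear_combination e
      exact (mul_eq_zero.1 this).resolve_right h
  constructor
  · intro x hx hx'
    obtain ⟨a, b, rfl⟩ := Submodule.mem_span_pair.1 hx
    rw [(key a b).1 (hx' u (subset_span (by simp))), (key a b).2 (hx' v (subset_span (by simp)))]
    simp
  · have li : LinearIndependent F ![u, v] := by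
      rw [LinearIndependent.pair_iff]
      intro s t hst
      exact ⟨(key s t).2 (by rw [hst]; simp), (key s t).1 (by rw [hst]; simp)⟩
    have := finrank_span_eq_card li
    rwa [Matrix.range_cons_cons_empty, Fintype.card_fin] at this

theorem exists_dual2 {X : Submodule F V} (hX : ND B X) {v v' : V} (hv : v ∈ X) (hv' : v' ∈ X) (h0 : v' ≠ 0)
    (h : ∀ c : F, v ≠ c • v') : ∃ w ∈ X, B v w = 1 ∧ B v' w = 0 := by
  by_contra hcon
  push Not at hcon
  have h1 : ∀ w ∈ X, B v' w = 0 → B v w = 0 := by
    intro w hw e
    by_contra hne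
    apply hcon ((B v w)⁻¹ • w) (X.smul_mem _ hw)
    · rw [map_smul, smul_eq_mul, inv_mul_cancel₀ hne]
    · rw [map_smul, e, smul_zero]
  obtain ⟨w0, hw0, hne⟩ : ∃ w ∈ X, B v' w ≠ 0 := by
    by_contra hc
    push Not at hc
    exact h0 (hX v' hv' hc)
  apply h (B v w0 / B v' w0)
  rw [← sub_eq_zero]
  apply hX _ (X.sub_mem hv (X.smul_mem _ hv'))
  intro w hw
  have e1 := h1 (w - (B v' w / B v' w0) • w0) (X.sub_mem hw (X.smul_mem _ hw0)) (by
    rw [map_sub, map_smul, smul_eq_mul, div_mul_cancel₀ _ hne, sub_self])
  rw [map_sub, map_smul, smul_eq_mul] at e1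
  rw [map_sub, map_smul, LinearMap.sub_apply, LinearMap.smul_apply, smul_eq_mul]
  rw [← e1]
  field_simp

theorem exists_plane (hA : B.IsAlt) {T : V →ₗ[F] V} (hiso : ∀ u v, B (T u) (T v) = B u v) {z : F}
    (hT : ∀ v, T (T v) = z • v) (hinj : Function.Injective T) {X : Submodule F V} (hTX : ∀ v ∈ X, T v ∈ X) (hX : ND B X) (hX0 : X ≠ ⊥) :
    ∃ P ≤ X, ND B P ∧ finrank F P = 2 ∧ (P.map T = P ∨ ∀ u ∈ P, ∀ v ∈ P.map T, B u v = 0) := by
  have stab : ∀ P : Submodule F V, (∀ v ∈ P, T v ∈ P) → P.map T = P := by
    intro P hP
    apply Submodule.eq_of_le_of_finrank_eq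
    · rintro _ ⟨v, hv, rfl⟩; exact hP v hv
    · exact frank_map hinj P
  by_cases h1 : ∃ v ∈ X, B v (T v) ≠ 0
  · obtain ⟨v, hv, hne⟩ := h1
    obtain ⟨p1, p2⟩ := nd_pair hA hne
    refine ⟨span F {v, T v}, ?_, p1, p2, Or.inl ?_⟩
    · rw [span_le]; rintro _ (rfl | rfl)
      · exact hv
      · exact hTX _ hv
    · apply stab
      intro w hw
      obtain ⟨a, b, rfl⟩ := Submodule.mem_span_pair.1 hw
      rw [Submodule.mem_span_pair]
      refine ⟨b * z, a, ?_⟩
      rw [map_add, map_smul, map_smul, hT, mul_smul, add_comm]
  · push Not at h1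
    have hsa : ∀ u ∈ X, ∀ v ∈ X, B u (T v) = B (T u) v := by
      intro u hu v hv
      have e := h1 (u + v) (X.add_mem hu hv)
      have e1 := h1 u hu
      have e2 := h1 v hv
      have e3 := hA.neg_eq (T u) v
      simp only [map_add, LinearMap.add_apply] at e
      linear_combination e - e1 - e2 + e3
    by_cases h2 : ∃ v ∈ X, ∀ c : F, v ≠ c • T v
    · obtain ⟨v, hv, hc⟩ := h2
      have hv0 : T v ≠ 0 := by
        intro h
        have : v = 0 := hinj (by rw [h, map_zero])
        exact hc 0 (by rw [this]; simp)
      obtain ⟨w, hw, hw1, hw2⟩ := exists_dual2 hX hv (hTX v hv) hv0 hc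
      obtain ⟨p1, p2⟩ := nd_pair hA (u := v) (v := w) (by rw [hw1]; exact one_ne_zero)
      refine ⟨span F {v, w}, ?_, p1, p2, Or.inr ?_⟩
      · rw [span_le]; rintro _ (rfl | rfl)
        · exact hv
        · exact hw
      · rintro x hx _ ⟨y, hy, rfl⟩
        obtain ⟨a, b, rfl⟩ := Submodule.mem_span_pair.1 hx
        obtain ⟨c, d, rfl⟩ := Submodule.mem_span_pair.1 hy
        have e1 := h1 v hv
        have e2 := h1 w hw
        have e3 : B v (T w) = 0 := by rw [hsa v hv w hw]; exact hw2
        have e4 : B w (T v) = 0 := by
          have := hA.neg_eq (T v) w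
          rw [← this, hw2, neg_zero]
        simp only [map_add, map_smul, LinearMap.add_apply, LinearMap.smul_apply, e1, e2, e3, e4, smul_zero, add_zero]
    · push Not at h2
      have h3 : ∀ v ∈ X, ∃ c : F, T v = c • v := by
        intro v hv
        obtain ⟨c, hc⟩ := h2 v hv
        by_cases h0 : c = 0
        · rw [h0, zero_smul] at hc
          exact ⟨0, by rw [hc]; simp⟩
        · refine ⟨c⁻¹, ?_⟩
          rw [eq_inv_smul_iff₀ h0]; exact hc.symm
      obtain ⟨v, hv, hv0⟩ := Submodule.exists_mem_ne_zero_of_ne_bot hX0
      obtain ⟨w, hw, hne⟩ : ∃ w ∈ X, B v w ≠ 0 := by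
        by_contra hc
        push Not at hc
        exact hv0 (hX v hv hc)
      obtain ⟨p1, p2⟩ := nd_pair hA hne
      refine ⟨span F {v, w}, ?_, p1, p2, Or.inl ?_⟩
      · rw [span_le]; rintro _ (rfl | rfl)
        · exact hv
        · exact hw
      · apply stab
        intro x hx
        obtain ⟨a, b, rfl⟩ := Submodule.mem_span_pair.1 hx
        obtain ⟨c, hc⟩ := h3 v hv
        obtain ⟨d, hd⟩ := h3 w hw
        rw [Submodule.mem_span_pair]
        refine ⟨a * c, b * d, ?_⟩
        rw [map_add, map_smul, map_smul, hc, hd, mul_smul, mul_smul]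

theorem exists_fam (hA : B.IsAlt) {T : V →ₗ[F] V} (hiso : ∀ u v, B (T u) (T v) = B u v) {z : F}
    (hT : ∀ v, T (T v) = z • v) (hz : z ≠ 0) (hinj : Function.Injective T) :
    ∀ n : ℕ, ∀ X : Submodule F V, finrank F X = n → (∀ v ∈ X, T v ∈ X) → ND B X →
    ∃ (ι : Type) (_ : Fintype ι) (E : ι → Submodule F V) (τ : ι → ι), (∀ i, E i ≤ X) ∧ (∀ i, finrank F (E i) = 2) ∧
      (∀ i, ND B (E i)) ∧ (∀ i j, i ≠ j → ∀ u ∈ E i, ∀ v ∈ E j, B u v = 0) ∧ (⨆ i, E i = X) ∧ (∀ i, τ (τ i) = i) ∧
      ∀ i, (E i).map T = E (τ i) := by
  have hB : B.IsRefl := hA.isRefl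
  have hinvO : ∀ P : Submodule F V, (∀ v ∈ P, ∃ w ∈ P, T w = v) → ∀ v ∈ B.orthogonal P, T v ∈ B.orthogonal P := by
    intro P hP v hv w hw
    obtain ⟨w', hw', rfl⟩ := hP w hw
    show B (T w') (T v) = 0
    rw [hiso]; exact hv w' hw'
  intro n
  induction n using Nat.strong_induction_on with
  | _ n ih =>
    intro X hn hTX hX
    by_cases hX0 : X = ⊥
    · refine ⟨Empty, inferInstance, fun i => i.elim, fun i => i.elim, fun i => i.elim, fun i => i.elim, fun i => i.elim,
        fun i => i.elim, ?_, fun i => i.elim, fun i => i.elim⟩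
      rw [hX0, iSup_of_empty]
    obtain ⟨P, hPX, hP, hP2, hcase⟩ := exists_plane hA hiso hT hinj hTX hX hX0
    have hmap2 : (P.map T).map T = P := by
      apply Submodule.eq_of_le_of_finrank_eq
      · rintro _ ⟨_, ⟨v, hv, rfl⟩, rfl⟩
        rw [hT]; exact P.smul_mem _ hv
      · rw [frank_map hinj, frank_map hinj]
    rcases hcase with hst | horth
    · obtain ⟨s1, s2, s3, s4⟩ := split hB hX hP hPX
      obtain ⟨ι, fι, E, τ, e1, e2, e3, e4, e5, e6, e7⟩ := ih _ (by omega) (X ⊓ B.orthogonal P) rfl (by
        rintro v ⟨hv, hv'⟩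
        refine ⟨hTX v hv, hinvO P ?_ v hv'⟩
        intro v hv
        rw [← hst] at hv
        obtain ⟨w, hw, rfl⟩ := hv
        exact ⟨w, hw, rfl⟩) s1
      have hPE : ∀ i, ∀ u ∈ P, ∀ v ∈ E i, B u v = 0 := fun i u hu v hv => (e1 i hv).2 u hu
      refine ⟨Option ι, inferInstance, fun o => o.elim P E, fun o => o.elim none (fun i => some (τ i)), ?_, ?_, ?_, ?_, ?_, ?_, ?_⟩
      · rintro (_ | i)
        · exact hPX
        · exact (e1 i).trans inf_le_left
      · rintro (_ | i)
        · exact hP2
        · exact e2 i
      · rintro (_ | i)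
        · exact hP
        · exact e3 i
      · rintro (_ | i) (_ | j) hij u hu v hv
        · exact absurd rfl hij
        · exact hPE j u hu v hv
        · exact hB _ _ (hPE i v hv u hu)
        · exact e4 i j (fun h => hij (by rw [h])) u hu v hv
      · rw [iSup_option]
        show P ⊔ (⨆ i, E i) = X
        rw [e5, s3]
      · rintro (_ | i)
        · rfl
        · show some (τ (τ i)) = some i
          rw [e6]
      · rintro (_ | i)
        · exact hst
        · exact e7 i
    · have hPT : ND B (P.map T) := by
        rintro _ ⟨u, hu, rfl⟩ h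
        rw [hP u hu (fun y hy => by rw [← hiso]; exact h _ ⟨y, hy, rfl⟩), map_zero]
      obtain ⟨q1, q2⟩ := nd_sup hB hP hPT horth
      have hle : P ⊔ P.map T ≤ X := by
        refine sup_le hPX ?_
        rintro _ ⟨v, hv, rfl⟩; exact hTX v (hPX hv)
      have hPT2 : finrank F (P.map T) = 2 := by rw [frank_map hinj, hP2]
      obtain ⟨s1, s2, s3, s4⟩ := split hB hX q1 hle
      obtain ⟨ι, fι, E, τ, e1, e2, e3, e4, e5, e6, e7⟩ := ih _ (by omega) (X ⊓ B.orthogonal (P ⊔ P.map T)) rfl (by
        rintro v ⟨hv, hv'⟩
        refine ⟨hTX v hv, hinvO _ ?_ v hv'⟩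
        intro v hv
        obtain ⟨a, ha, b, hb, rfl⟩ := Submodule.mem_sup.1 hv
        rw [← hmap2] at ha
        obtain ⟨a', ha', rfl⟩ := ha
        obtain ⟨b', hb', rfl⟩ := hb
        exact ⟨a' + b', Submodule.add_mem _ (Submodule.mem_sup_right ha') (Submodule.mem_sup_left hb'), map_add _ _ _⟩) s1
      have hPE : ∀ i, ∀ u ∈ P, ∀ v ∈ E i, B u v = 0 := fun i u hu v hv => (e1 i hv).2 u (Submodule.mem_sup_left hu)
      have hPE' : ∀ i, ∀ u ∈ P.map T, ∀ v ∈ E i, B u v = 0 := fun i u hu v hv => (e1 i hv).2 u (Submodule.mem_sup_right hu)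
      refine ⟨Option (Option ι), inferInstance, fun o => o.elim P (fun o => o.elim (P.map T) E),
        fun o => o.elim (some none) (fun o => o.elim none (fun i => some (some (τ i)))), ?_, ?_, ?_, ?_, ?_, ?_, ?_⟩
      · rintro (_ | _ | i)
        · exact hPX
        · exact le_sup_right.trans hle
        · exact (e1 i).trans inf_le_left
      · rintro (_ | _ | i)
        · exact hP2
        · exact hPT2
        · exact e2 i
      · rintro (_ | _ | i)
        · exact hP
        · exact hPT
        · exact e3 i
      · rintro (_ | _ | i) (_ | _ | j) hij u hu v hv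
        · exact absurd rfl hij
        · exact horth u hu v hv
        · exact hPE j u hu v hv
        · exact hB _ _ (horth v hv u hu)
        · exact absurd rfl hij
        · exact hPE' j u hu v hv
        · exact hB _ _ (hPE i v hv u hu)
        · exact hB _ _ (hPE' i v hv u hu)
        · exact e4 i j (fun h => hij (by rw [h])) u hu v hv
      · rw [iSup_option, iSup_option]
        show P ⊔ (P.map T ⊔ (⨆ i, E i)) = X
        rw [e5, ← sup_assoc, s3]
      · rintro (_ | _ | i)
        · rfl
        · rfl
        · show some (some (τ (τ i))) = some (some i)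
          rw [e6]
      · rintro (_ | _ | i)
        · rfl
        · exact hmap2
        · exact e7 i

/-! combinatorics -/

theorem exists_even_stable {ι : Type*} [DecidableEq ι] (τ : ι → ι) (hτ : ∀ i, τ (τ i) = i) (S : Finset ι)
    (hS : ∀ i ∈ S, τ i ∈ S) : ∀ k : ℕ, 2 * k ≤ S.card → ∃ A ⊆ S, (∀ i ∈ A, τ i ∈ A) ∧ A.card = 2 * k := by
  intro k
  induction k with
  | zero => intro _; exact ⟨∅, by simp, by simp, by simp⟩
  | succ k ih =>
    intro hk
    obtain ⟨A, hAS, hA, hAc⟩ := ih (by omega)
    have hinj : Function.Injective τ := fun i j h => by rw [← hτ i, h, hτ]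
    have hd : (S \ A).card = S.card - A.card := Finset.card_sdiff_of_subset hAS
    by_cases h : ∃ i ∈ S \ A, τ i ≠ i
    · obtain ⟨i, hi, hne⟩ := h
      rw [Finset.mem_sdiff] at hi
      have hτi : τ i ∉ A := fun h' => hi.2 (by rw [← hτ i]; exact hA _ h')
      refine ⟨insert i (insert (τ i) A), ?_, ?_, ?_⟩
      · intro x hx
        rw [Finset.mem_insert, Finset.mem_insert] at hx
        rcases hx with rfl | rfl | hx
        · exact hi.1
        · exact hS _ hi.1
        · exact hAS hx
      · intro x hx
        rw [Finset.mem_insert, Finset.mem_insert] at hx ⊢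
        rcases hx with rfl | rfl | hx
        · right; left; rfl
        · left; exact hτ i
        · right; right; exact hA x hx
      · rw [Finset.card_insert_of_notMem, Finset.card_insert_of_notMem hτi, hAc]
        · ring
        · rw [Finset.mem_insert]
          rintro (h | h)
          · exact hne h.symm
          · exact hi.2 h
    · push Not at h
      obtain ⟨C, hC, hCc⟩ := Finset.exists_subset_card_eq (s := S \ A) (n := 2) (by omega)
      have hdis : Disjoint A C := (Finset.disjoint_sdiff (s := A) (t := S)).mono_right hC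
      refine ⟨A ∪ C, ?_, ?_, ?_⟩
      · exact Finset.union_subset hAS (hC.trans Finset.sdiff_subset)
      · intro x hx
        rw [Finset.mem_union] at hx ⊢
        rcases hx with hx | hx
        · left; exact hA x hx
        · right; rw [h x (hC hx)]; exact hx
      · rw [Finset.card_union_of_disjoint hdis, hAc, hCc]; ring

theorem exists_disj {ι : Type*} [DecidableEq ι] (τ : ι → ι) (hτ : ∀ i, τ (τ i) = i) (S : Finset ι)
    (hS : ∀ i ∈ S, τ i ∈ S) (hfix : ∀ i ∈ S, τ i ≠ i) : ∀ k : ℕ, 2 * k ≤ S.card → ∃ A ⊆ S, Disjoint A (A.image τ) ∧ A.card = k := by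
  have hinj : Function.Injective τ := fun i j h => by rw [← hτ i, h, hτ]
  intro k
  induction k with
  | zero => intro _; exact ⟨∅, by simp, by simp, by simp⟩
  | succ k ih =>
    intro hk
    obtain ⟨A, hAS, hA, hAc⟩ := ih (by omega)
    have hc1 : (A ∪ A.image τ).card = 2 * k := by
      rw [Finset.card_union_of_disjoint hA, Finset.card_image_of_injective _ hinj, hAc]; ring
    obtain ⟨i, hi, hi'⟩ := Finset.exists_mem_notMem_of_card_lt_card (s := A ∪ A.image τ) (t := S) (by omega)
    rw [Finset.mem_union, not_or] at hi'
    refine ⟨insert i A, ?_, ?_, ?_⟩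
    · intro x hx
      rw [Finset.mem_insert] at hx
      rcases hx with rfl | hx
      · exact hi
      · exact hAS hx
    · rw [Finset.image_insert, Finset.disjoint_insert_left]
      refine ⟨?_, ?_⟩
      · rw [Finset.mem_insert]
        rintro (h | h)
        · exact hfix i hi h.symm
        · exact hi'.2 h
      · rw [Finset.disjoint_insert_right]
        refine ⟨?_, hA⟩
        intro h
        apply hi'.2
        rw [Finset.mem_image]
        exact ⟨_, h, hτ i⟩
    · rw [Finset.card_insert_of_notMem hi'.1, hAc]

theorem exists_part {ι : Type*} [DecidableEq ι] (τ : ι → ι) (hτ : ∀ i, τ (τ i) = i) (h : ℕ) (hh : 0 < h) :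
    ∀ (t : ℕ) (S : Finset ι), (∀ i ∈ S, τ i ∈ S) → S.card = t * h →
      ∃ (g : ι → ℕ) (σ : ℕ → ℕ), (∀ i ∈ S, g i < t) ∧ (∀ j < t, (S.filter (fun i => g i = j)).card = h) ∧
        (∀ j < t, σ j < t) ∧ (∀ j < t, σ (σ j) = j) ∧ ∀ i ∈ S, g (τ i) = σ (g i) := by
  have hinj : Function.Injective τ := fun i j h => by rw [← hτ i, h, hτ]
  intro t
  induction t using Nat.strong_induction_on with
  | _ t ih =>
    intro S hS hSc
    rcases Nat.eq_zero_or_pos t with ht | ht
    · subst ht
      rw [zero_mul, Finset.card_eq_zero] at hSc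
      subst hSc
      exact ⟨fun _ => 0, id, by simp, by simp, by simp, by simp, by simp⟩
    -- case A : a stable subset of size h
    have caseA : (∃ A ⊆ S, (∀ i ∈ A, τ i ∈ A) ∧ A.card = h) → ∃ (g : ι → ℕ) (σ : ℕ → ℕ), (∀ i ∈ S, g i < t) ∧
        (∀ j < t, (S.filter (fun i => g i = j)).card = h) ∧
        (∀ j < t, σ j < t) ∧ (∀ j < t, σ (σ j) = j) ∧ ∀ i ∈ S, g (τ i) = σ (g i) := by
      rintro ⟨A, hAS, hA, hAc⟩
      obtain ⟨s, rfl⟩ : ∃ s, t = s + 1 := ⟨t - 1, by omega⟩
      have hA' : ∀ i, τ i ∈ A → i ∈ A := fun i hi => by rw [← hτ i]; exact hA _ hi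
      obtain ⟨g, σ, g1, g2, g3, g4, g5⟩ := ih s (by omega) (S \ A) (by
        intro i hi
        rw [Finset.mem_sdiff] at hi ⊢
        exact ⟨hS i hi.1, fun h' => hi.2 (hA' i h')⟩) (by
        rw [Finset.card_sdiff_of_subset hAS, hSc, hAc, add_mul, one_mul, Nat.add_sub_cancel])
      refine ⟨fun i => if i ∈ A then s else g i, fun j => if j = s then s else σ j, ?_, ?_, ?_, ?_, ?_⟩
      · intro i hi
        dsimp only
        split_ifs with h'
        · omega
        · have := g1 i (Finset.mem_sdiff.2 ⟨hi, h'⟩); omega
      · intro j hj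
        by_cases hjs : j = s
        · subst hjs
          rw [← hAc]
          congr 1
          ext i
          rw [Finset.mem_filter]
          beta_reduce
          constructor
          · rintro ⟨hi, hi'⟩
            by_contra hiA
            rw [if_neg hiA] at hi'
            have := g1 i (Finset.mem_sdiff.2 ⟨hi, hiA⟩)
            omega
          · intro hi
            exact ⟨hAS hi, if_pos hi⟩
        · rw [← g2 j (by omega)]
          congr 1
          ext i
          rw [Finset.mem_filter, Finset.mem_filter, Finset.mem_sdiff]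
          beta_reduce
          constructor
          · rintro ⟨hi, hi'⟩
            have hiA : i ∉ A := by
              intro hiA
              rw [if_pos hiA] at hi'
              exact hjs hi'.symm
            rw [if_neg hiA] at hi'
            exact ⟨⟨hi, hiA⟩, hi'⟩
          · rintro ⟨⟨hi, hiA⟩, hi'⟩
            exact ⟨hi, by rw [if_neg hiA]; exact hi'⟩
      · intro j hj
        dsimp only
        split_ifs with h'
        · omega
        · have := g3 j (by omega); omega
      · intro j hj
        dsimp only
        by_cases h' : j = s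
        · rw [if_pos h', if_pos rfl, h']
        · have := g3 j (by omega)
          rw [if_neg h', if_neg (by omega), g4 j (by omega)]
      · intro i hi
        dsimp only
        by_cases hiA : i ∈ A
        · rw [if_pos (hA i hiA), if_pos hiA, if_pos rfl]
        · have hi2 := g1 i (Finset.mem_sdiff.2 ⟨hi, hiA⟩)
          rw [if_neg (fun h' => hiA (hA' i h')), if_neg hiA, if_neg (by omega)]
          exact g5 i (Finset.mem_sdiff.2 ⟨hi, hiA⟩)
    rcases Nat.even_or_odd' h with ⟨m, hm | hm⟩
    · apply caseA
      obtain ⟨A, a1, a2, a3⟩ := exists_even_stable τ hτ S hS m (by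
        rw [hSc, ← hm]; exact Nat.le_mul_of_pos_left _ ht)
      exact ⟨A, a1, a2, by rw [a3, hm]⟩
    · by_cases hfix : ∃ i ∈ S, τ i = i
      · apply caseA
        obtain ⟨i, hi, hii⟩ := hfix
        have hle : h ≤ S.card := by rw [hSc]; exact Nat.le_mul_of_pos_left _ ht
        obtain ⟨A, a1, a2, a3⟩ := exists_even_stable τ hτ (S.erase i) (by
          intro j hj
          rw [Finset.mem_erase] at hj ⊢
          exact ⟨fun h' => hj.1 (by rw [← hτ j, h', hii]), hS j hj.2⟩) m (by
          rw [Finset.card_erase_of_mem hi]; omega)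
        refine ⟨insert i A, ?_, ?_, ?_⟩
        · intro j hj
          rw [Finset.mem_insert] at hj
          rcases hj with rfl | hj
          · exact hi
          · exact Finset.mem_of_mem_erase (a1 hj)
        · intro j hj
          rw [Finset.mem_insert] at hj ⊢
          rcases hj with rfl | hj
          · left; exact hii
          · right; exact a2 j hj
        · rw [Finset.card_insert_of_notMem, a3, hm]
          intro h'
          have := a1 h'
          rw [Finset.mem_erase] at this
          exact this.1 rfl
      · push Not at hfix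
        -- the cardinality of S is even
        have hSe : Even S.card := by
          have : ∃ k, S.card = 2 * k := by
            by_contra hcon
            push Not at hcon
            have hodd : ¬ Even S.card := fun ⟨k, hk⟩ => hcon k (by omega)
            rw [Nat.not_even_iff_odd] at hodd
            obtain ⟨k, hk⟩ := hodd
            obtain ⟨A, a1, a2, a3⟩ := exists_disj τ hτ S hS hfix k (by omega)
            have hc1 : (A ∪ A.image τ).card = 2 * k := by
              rw [Finset.card_union_of_disjoint a2, Finset.card_image_of_injective _ hinj, a3]; ring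
            have hsub : A ∪ A.image τ ⊆ S := by
              apply Finset.union_subset a1
              intro x hx
              rw [Finset.mem_image] at hx
              obtain ⟨y, hy, rfl⟩ := hx
              exact hS y (a1 hy)
            have hst : ∀ i, τ i ∈ A ∪ A.image τ → i ∈ A ∪ A.image τ := by
              intro i hi
              rw [Finset.mem_union, Finset.mem_image] at hi ⊢
              rcases hi with hi | ⟨y, hy, hy'⟩
              · right; exact ⟨_, hi, hτ i⟩
              · left; rw [← hinj hy']; exact hy
            have hone : (S \ (A ∪ A.image τ)).card = 1 := by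
              rw [Finset.card_sdiff_of_subset hsub, hc1, hk]; omega
            obtain ⟨i, hi⟩ := Finset.card_eq_one.1 hone
            have hi1 : i ∈ S \ (A ∪ A.image τ) := by rw [hi]; exact Finset.mem_singleton_self i
            have hi2 : τ i ∈ S \ (A ∪ A.image τ) := by
              rw [Finset.mem_sdiff] at hi1 ⊢
              exact ⟨hS i hi1.1, fun h' => hi1.2 (hst i h')⟩
            rw [hi, Finset.mem_singleton] at hi2
            exact hfix i (Finset.mem_sdiff.1 hi1).1 hi2
          obtain ⟨k, hk⟩ := this
          exact ⟨k, by omega⟩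
        have ht2 : Even t := by
          rw [hSc, Nat.even_mul] at hSe
          rcases hSe with h' | h'
          · exact h'
          · exfalso; obtain ⟨k, hk⟩ := h'; omega
        obtain ⟨s, rfl⟩ : ∃ s, t = s + 2 := ⟨t - 2, by obtain ⟨k, hk⟩ := ht2; omega⟩
        obtain ⟨A, a1, a2, a3⟩ := exists_disj τ hτ S hS hfix h (by rw [hSc]; nlinarith)
        have hc1 : (A ∪ A.image τ).card = 2 * h := by
          rw [Finset.card_union_of_disjoint a2, Finset.card_image_of_injective _ hinj, a3]; ring
        have hsub : A ∪ A.image τ ⊆ S := by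
          apply Finset.union_subset a1
          intro x hx
          rw [Finset.mem_image] at hx
          obtain ⟨y, hy, rfl⟩ := hx
          exact hS y (a1 hy)
        have hst : ∀ i, τ i ∈ A ∪ A.image τ → i ∈ A ∪ A.image τ := by
          intro i hi
          rw [Finset.mem_union, Finset.mem_image] at hi ⊢
          rcases hi with hi | ⟨y, hy, hy'⟩
          · right; exact ⟨_, hi, hτ i⟩
          · left; rw [← hinj hy']; exact hy
        obtain ⟨g, σ, g1, g2, g3, g4, g5⟩ := ih s (by omega) (S \ (A ∪ A.image τ)) (by
          intro i hi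
          rw [Finset.mem_sdiff] at hi ⊢
          exact ⟨hS i hi.1, fun h' => hi.2 (hst i h')⟩) (by
          rw [Finset.card_sdiff_of_subset hsub, hSc, hc1, add_mul, Nat.add_sub_cancel])
        have hAn : ∀ i ∈ A, τ i ∉ A := fun i hi h' => by
          exact (Finset.disjoint_left.1 a2) h' (Finset.mem_image_of_mem τ hi)
        refine ⟨fun i => if i ∈ A then s + 1 else if τ i ∈ A then s else g i,
          fun j => if j = s + 1 then s else if j = s then s + 1 else σ j, ?_, ?_, ?_, ?_, ?_⟩
        · intro i hi
          dsimp only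
          split_ifs with h1 h2
          · omega
          · omega
          · have := g1 i (Finset.mem_sdiff.2 ⟨hi, fun h' => by
              rw [Finset.mem_union, Finset.mem_image] at h'
              rcases h' with h' | ⟨y, hy, rfl⟩
              · exact h1 h'
              · rw [hτ] at h2; exact h2 hy⟩)
            omega
        · intro j hj
          have hmem : ∀ i, i ∈ S → i ∉ A → τ i ∉ A → i ∈ S \ (A ∪ A.image τ) := by
            intro i hi h1 h2
            refine Finset.mem_sdiff.2 ⟨hi, fun h' => ?_⟩
            rw [Finset.mem_union, Finset.mem_image] at h'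
            rcases h' with h' | ⟨y, hy, rfl⟩
            · exact h1 h'
            · rw [hτ] at h2; exact h2 hy
          by_cases hj1 : j = s + 1
          · subst hj1
            rw [← a3]
            congr 1
            ext i
            rw [Finset.mem_filter]
            beta_reduce
            constructor
            · rintro ⟨hi, hi'⟩
              by_contra hiA
              rw [if_neg hiA] at hi'
              split_ifs at hi' with h2
              · omega
              · have := g1 i (hmem i hi hiA h2)
                omega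
            · intro hi
              exact ⟨a1 hi, if_pos hi⟩
          · by_cases hj2 : j = s
            · subst hj2
              rw [← a3, ← Finset.card_image_of_injective A hinj]
              congr 1
              ext i
              rw [Finset.mem_filter, Finset.mem_image]
              beta_reduce
              constructor
              · rintro ⟨hi, hi'⟩
                split_ifs at hi' with h1 h2
                · omega
                · exact ⟨τ i, h2, hτ i⟩
                · have := g1 i (hmem i hi h1 h2)
                  omega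
              · rintro ⟨y, hy, rfl⟩
                refine ⟨hS y (a1 hy), ?_⟩
                rw [if_neg (hAn y hy), hτ, if_pos hy]
            · rw [← g2 j (by omega)]
              congr 1
              ext i
              rw [Finset.mem_filter, Finset.mem_filter]
              beta_reduce
              constructor
              · rintro ⟨hi, hi'⟩
                split_ifs at hi' with h1 h2
                · omega
                · omega
                · exact ⟨hmem i hi h1 h2, hi'⟩
              · rintro ⟨hi, hi'⟩
                rw [Finset.mem_sdiff, Finset.mem_union, Finset.mem_image, not_or] at hi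
                refine ⟨hi.1, ?_⟩
                rw [if_neg hi.2.1, if_neg (fun h' => hi.2.2 ⟨τ i, h', hτ i⟩)]
                exact hi'
        · intro j hj
          dsimp only
          split_ifs with h1 h2
          · omega
          · omega
          · have := g3 j (by omega); omega
        · intro j hj
          dsimp only
          by_cases h1 : j = s + 1
          · rw [if_pos h1, if_neg (by omega), if_pos rfl, h1]
          · by_cases h2 : j = s
            · rw [if_neg h1, if_pos h2, if_pos rfl, h2]
            · have := g3 j (by omega)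
              rw [if_neg h1, if_neg h2, if_neg (by omega), if_neg (by omega), g4 j (by omega)]
        · intro i hi
          dsimp only
          by_cases h1 : i ∈ A
          · rw [if_pos h1, if_neg (hAn i h1), hτ, if_pos h1, if_pos rfl]
          · by_cases h2 : τ i ∈ A
            · rw [if_pos h2, if_neg h1, if_pos h2, if_neg (by omega), if_pos rfl]
            · have hm' : i ∈ S \ (A ∪ A.image τ) := by
                refine Finset.mem_sdiff.2 ⟨hi, fun h' => ?_⟩
                rw [Finset.mem_union, Finset.mem_image] at h'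
                rcases h' with h' | ⟨y, hy, rfl⟩
                · exact h1 h'
                · rw [hτ] at h2; exact h2 hy
              have := g1 i hm'
              rw [if_neg h2, if_neg (by rw [hτ]; exact h1), if_neg h1, if_neg h2, if_neg (by omega), if_neg (by omega)]
              exact g5 i hm'

theorem nd_finset (hB : B.IsRefl) {ι : Type*} [DecidableEq ι] (E : ι → Submodule F V) (h2 : ∀ i, finrank F (E i) = 2)
    (hN : ∀ i, ND B (E i)) (ho : ∀ i j, i ≠ j → ∀ u ∈ E i, ∀ v ∈ E j, B u v = 0) (S : Finset ι) :
    ND B (S.sup E) ∧ finrank F (S.sup E : Submodule F V) = 2 * S.card := by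
  induction S using Finset.induction_on with
  | empty => exact ⟨by rw [Finset.sup_empty]; exact nd_bot, by simp⟩
  | insert i S hi ih =>
    rw [Finset.sup_insert]
    have horth : ∀ u ∈ E i, ∀ v ∈ S.sup E, B u v = 0 := by
      intro u hu v hv
      have hle : S.sup E ≤ LinearMap.ker (B u) := by
        rw [Finset.sup_le_iff]
        intro j hj w hw
        exact ho i j (fun h => hi (h ▸ hj)) u hu w hw
      exact hle hv
    obtain ⟨n1, n2⟩ := nd_sup hB (hN i) ih.1 horth
    refine ⟨n1, ?_⟩
    rw [n2, h2, ih.2, Finset.card_insert_of_notMem hi]; ring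

theorem exists_dec (hA : B.IsAlt) {T : V →ₗ[F] V} (hiso : ∀ u v, B (T u) (T v) = B u v) {z : F}
    (hT : ∀ v, T (T v) = z • v) (hz : z ≠ 0) (hinj : Function.Injective T) (hN : ND B (⊤ : Submodule F V))
    (h t : ℕ) (hh : 0 < h) (hd : finrank F V = (2 * h) * t) :
    ∃ (D : Fin t → Submodule F V) (σ : Equiv.Perm (Fin t)), (∀ j, finrank F (D j) = 2 * h) ∧ (∀ j, ND B (D j)) ∧
      (∀ i j, i ≠ j → ∀ u ∈ D i, ∀ v ∈ D j, B u v = 0) ∧ iSup D = ⊤ ∧ ∀ j, (D j).map T = D (σ j) := by
  classical
  have hB : B.IsRefl := hA.isRefl
  obtain ⟨ι, fι, E, τ, e1, e2, e3, e4, e5, e6, e7⟩ := exists_fam hA hiso hT hz hinj _ ⊤ rfl (fun _ _ => trivial) hN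
  have hcard : Fintype.card ι = t * h := by
    have := (nd_finset hB E e2 e3 e4 Finset.univ).2
    rw [Finset.sup_univ_eq_iSup, e5, finrank_top, hd, Finset.card_univ] at this
    have h' : 2 * (t * h) = 2 * Fintype.card ι := by rw [← this]; ring
    omega
  obtain ⟨g, σ, g1, g2, g3, g4, g5⟩ := exists_part τ e6 h hh t Finset.univ (fun _ _ => Finset.mem_univ _)
    (by rw [Finset.card_univ, hcard])
  let D : Fin t → Submodule F V := fun j => (Finset.univ.filter (fun i => g i = (j : ℕ))).sup E
  have hDf : ∀ j, finrank F (D j) = 2 * h := by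
    intro j
    rw [(nd_finset hB E e2 e3 e4 _).2, g2 j j.2]
  let π : Fin t → Fin t := fun j => ⟨σ j, g3 j j.2⟩
  have hπ : Function.Involutive π := fun j => Fin.ext (g4 j j.2)
  refine ⟨D, hπ.toPerm π, hDf, fun j => (nd_finset hB E e2 e3 e4 _).1, ?_, ?_, ?_⟩
  · intro i j hij u hu v hv
    have hle : ∀ k, g k = (i : ℕ) → ∀ u ∈ E k, ∀ v ∈ D j, B u v = 0 := by
      intro k hk u hu v hv
      have : D j ≤ LinearMap.ker (B u) := by
        show (Finset.univ.filter (fun i => g i = (j : ℕ))).sup E ≤ _
        rw [Finset.sup_le_iff]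
        intro l hl w hw
        rw [Finset.mem_filter] at hl
        exact e4 k l (fun h' => hij (Fin.ext (by rw [← hk, ← hl.2, h']))) u hu w hw
      exact this hv
    have : D i ≤ LinearMap.ker (B v) := by
      show (Finset.univ.filter (fun k => g k = (i : ℕ))).sup E ≤ _
      rw [Finset.sup_le_iff]
      intro k hk w hw
      rw [Finset.mem_filter] at hk
      exact hB _ _ (hle k hk.2 w hw v hv)
    exact hB _ _ (this hu)
  · rw [eq_top_iff, ← e5]
    apply iSup_le
    intro i
    have hi : g i < t := g1 i (Finset.mem_univ i)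
    refine le_trans ?_ (le_iSup D ⟨g i, hi⟩)
    exact Finset.le_sup (f := E) (Finset.mem_filter.2 ⟨Finset.mem_univ i, rfl⟩)
  · intro j
    apply Submodule.eq_of_le_of_finrank_eq
    · rw [Submodule.map_le_iff_le_comap]
      show (Finset.univ.filter (fun k => g k = (j : ℕ))).sup E ≤ _
      rw [Finset.sup_le_iff]
      intro k hk
      rw [Finset.mem_filter] at hk
      rw [← Submodule.map_le_iff_le_comap, e7]
      apply Finset.le_sup (f := E)
      rw [Finset.mem_filter]
      refine ⟨Finset.mem_univ _, ?_⟩
      rw [g5 k (Finset.mem_univ k), hk.2]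
      rfl
    · rw [frank_map hinj, hDf, hDf]

end H99.OrthDec
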