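import Mathlib
import Cfsg.Agent.Lib.H99.OrthArith2
import Cfsg.Agent.Lib.H99.OrthTwo3
import Cfsg.Agent.Lib.H99.OrthDec

set_option autoImplicit false
set_option linter.unusedSimpArgs false
set_option linter.unusedSectionVars false
set_option linter.unusedVariables false

/-! Involutions of orthogonal spaces in characteristic two and their invariant nondegenerate subspaces. -/

namespace H99.OrthC2

open Module QuadraticMap H48.QuadSplit H48.QuadStd H96.OeType H99.OrthSS

universe u

variable {F : Type u} [Field F] [Fintype F] [CharP F 2] {V : Type u} [AddCommGroup V] [Module F V] [FiniteDimensional F V]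

omit [Fintype F] in
theorem polar_self0 (Q : QuadraticForm F V) (v : V) : polar Q v v = 0 := by
  have := OrthTwo.polar_alt Q v
  rwa [polarBilin_apply_apply] at this

omit [Fintype F] in
theorem polar_fv {Q : QuadraticForm F V} {f : V →ₗ[F] V} (hf : ∀ v, Q (f v) = Q v) (hff : ∀ v, f (f v) = v) (u v : V) :
    polar Q (f u) v = polar Q u (f v) := by
  have := polar_inv hf (f u) v
  rw [hff] at this
  exact this.symm

omit [Fintype F] in
/-- invariance of the orthogonal complement -/
theorem orth_inv2 {Q : QuadraticForm F V} {f : V →ₗ[F] V} (hf : ∀ v, Q (f v) = Q v) (hff : ∀ v, f (f v) = v) {P : Submodule F V}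
    (hP : ∀ v ∈ P, f v ∈ P) : ∀ v ∈ orth Q P, f v ∈ orth Q P := by
  intro v hv a ha
  rw [← polar_fv hf hff]
  exact hv _ (hP a ha)

omit [Fintype F] in
/-- the plane of a vector not orthogonal to its image -/
theorem plane {Q : QuadraticForm F V} {f : V →ₗ[F] V} (hff : ∀ v, f (f v) = v) {v : V} (hv : polar Q v (f v) ≠ 0) :
    ND (Q.restrict (Submodule.span F {v, f v})) ∧ finrank F (Submodule.span F {v, f v}) = 2 ∧ ∀ x ∈ Submodule.span F {v, f v}, f x ∈ Submodule.span F {v, f v} := by
  have h1 := OrthDec.nd_pair (B := polarBilin Q) (fun v => OrthTwo.polar_alt Q v) (u := v) (v := f v) (by rw [polarBilin_apply_apply]; exact hv)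
  refine ⟨nd_on.2 h1.1, h1.2, ?_⟩
  intro x hx
  obtain ⟨a, b, rfl⟩ := Submodule.mem_span_pair.1 hx
  rw [_root_.map_add, _root_.map_smul, _root_.map_smul, hff]
  exact Submodule.add_mem _ (Submodule.smul_mem _ _ (Submodule.subset_span (by simp))) (Submodule.smul_mem _ _ (Submodule.subset_span (by simp)))

/-- gluing a subspace of the complement -/
theorem glue {Q : QuadraticForm F V} {f : V →ₗ[F] V} {P : Submodule F V} (hP : ND (Q.restrict P)) (hPi : ∀ v ∈ P, f v ∈ P) {a : ℕ} (hPd : finrank F P = 2 * a)
    {W' : Submodule F (orth Q P)} (hW : ND ((Q.restrict (orth Q P)).restrict W')) {e : ℕ} (hWd : finrank F W' = 2 * e) (hWi : ∀ v ∈ W', ∃ w ∈ W', (w : V) = f (v : V)) :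
    ∃ W : Submodule F V, ND (Q.restrict W) ∧ finrank F W = 2 * (a + e) ∧ (PT (Q.restrict W) ↔ (PT (Q.restrict P) ↔ PT ((Q.restrict (orth Q P)).restrict W'))) ∧
      ∀ v ∈ W, f v ∈ W := by
  obtain ⟨ye, yle, yd⟩ := map_sub (Q := Q) W'
  have hWn := nd_of_equivalent ye hW
  have hort : ∀ a ∈ P, ∀ b ∈ W'.map (orth Q P).subtype, polar Q a b = 0 := fun a ha b hb => yle hb a ha
  have hsup := sup_nd hP hWn hort
  refine ⟨P ⊔ W'.map (orth Q P).subtype, hsup.1, by rw [hsup.2, yd, hPd, hWd]; ring, ?_, ?_⟩
  · rw [← pt_iff_of_equiv (sup_equiv hP hWn hort), pt_prod_iff hP hWn (m := a) (m' := e) hPd (by rw [yd, hWd]), ← pt_iff_of_equiv ye]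
  · intro v hv
    obtain ⟨a, ha, b, ⟨b', hb', rfl⟩, rfl⟩ := Submodule.mem_sup.1 hv
    rw [_root_.map_add]
    obtain ⟨w, hw, hww⟩ := hWi b' hb'
    refine Submodule.add_mem_sup (hPi a ha) ⟨w, hw, hww⟩

/-- in the complement alone -/
theorem glue0 {Q : QuadraticForm F V} {f : V →ₗ[F] V} {P : Submodule F V}
    {W' : Submodule F (orth Q P)} (hW : ND ((Q.restrict (orth Q P)).restrict W')) {e : ℕ} (hWd : finrank F W' = e) (hWi : ∀ v ∈ W', ∃ w ∈ W', (w : V) = f (v : V)) :
    ∃ W : Submodule F V, ND (Q.restrict W) ∧ finrank F W = e ∧ (PT (Q.restrict W) ↔ PT ((Q.restrict (orth Q P)).restrict W')) ∧ ∀ v ∈ W, f v ∈ W := by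
  obtain ⟨ye, yle, yd⟩ := map_sub (Q := Q) W'
  refine ⟨_, nd_of_equivalent ye hW, by rw [yd, hWd], by rw [← pt_iff_of_equiv ye], ?_⟩
  rintro _ ⟨b', hb', rfl⟩
  obtain ⟨w, hw, hww⟩ := hWi b' hb'
  exact ⟨w, hw, hww⟩

theorem exists_sq (a : F) : ∃ b : F, b * b = a := by
  obtain ⟨b, hb⟩ := FiniteField.isSquare_of_char_two (F := F) (ringChar.eq F 2) a
  exact ⟨b, hb.symm⟩

/-- **planes of free type** -/
theorem free_one {Q : QuadraticForm F V} (hQ : ND Q) {f : V →ₗ[F] V} (hf : ∀ v, Q (f v) = Q v) (hff : ∀ v, f (f v) = v)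
    {v : V} (hv : polar Q v (f v) ≠ 0) (hd : 2 < finrank F V) (t : Prop) :
    ∃ W : Submodule F V, ND (Q.restrict W) ∧ finrank F W = 2 ∧ (PT (Q.restrict W) ↔ t) ∧ ∀ v ∈ W, f v ∈ W := by
  obtain ⟨p1, p2, p3⟩ := plane (Q := Q) hff hv
  have : Finite V := Module.finite_of_finite F
  set P := Submodule.span F {v, f v} with hP
  have hO := nd_orth hQ p1
  have hOd := finrank_orth hQ P
  have hOi := orth_inv2 hf hff p3
  have hvP : v ∈ P := Submodule.subset_span (by simp)
  have hfvP : f v ∈ P := Submodule.subset_span (by simp)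
  -- a nonsingular vector orthogonal to its image
  have hw : ∃ w ∈ orth Q P, Q w ≠ 0 ∧ polar Q w (f w) = 0 := by
    by_cases hb : ∃ w ∈ orth Q P, polar Q w (f w) ≠ 0
    · obtain ⟨w, hw, hwf⟩ := hb
      refine ⟨w + f w, (orth Q P).add_mem hw (hOi w hw), ?_, ?_⟩
      · rw [QuadraticMap.map_add Q, hf, CharTwo.add_self_eq_zero, zero_add]; exact hwf
      · rw [_root_.map_add, hff, add_comm (f w) w]
        exact polar_self0 Q _
    · push Not at hb
      obtain ⟨w, hw, hQw⟩ := exists_ns (Q := Q) (A := orth Q P) hO (by omega)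
      exact ⟨w, hw, hQw, hb w hw⟩
  obtain ⟨w, hw1, hw2, hw3⟩ := hw
  -- change the vector
  have key : ∀ τ : F, ∃ v' : V, Q v' = τ ∧ polar Q v' (f v') = polar Q v (f v) := by
    intro τ
    obtain ⟨l, hl⟩ := exists_sq ((τ + Q v) / Q w)
    refine ⟨v + l • w, ?_, ?_⟩
    · rw [QuadraticMap.map_add Q, QuadraticMap.map_smul, polar_smul_right, hw1 v hvP, smul_zero, add_zero, smul_eq_mul, hl, div_mul_cancel₀ _ hw2]
      have := CharTwo.add_self_eq_zero (Q v)
      linear_combination this
    · rw [_root_.map_add, _root_.map_smul, polar_add_left, polar_add_right, polar_add_right, polar_smul_left, polar_smul_left, polar_smul_right, polar_smul_right, hw3,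
        hOi w hw1 v hvP, polar_comm (⇑Q) w (f v), hw1 (f v) hfvP]
      simp
  -- type of the plane
  have typ : ∀ v' : V, polar Q v' (f v') = polar Q v (f v) → (PT (Q.restrict (Submodule.span F {v', f v'})) ↔ ∃ s : F, Q v' + (s + s * s) * polar Q v (f v) = 0) := by
    intro v' hv'
    obtain ⟨q1, q2, q3⟩ := plane (Q := Q) hff (v := v') (by rw [hv']; exact hv)
    rw [OrthTwo.pt_two q2]
    have hval : ∀ a b : F, Q (a • v' + b • f v') = (a + b) * (a + b) * Q v' + a * b * polar Q v (f v) := by
      intro a b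
      rw [QuadraticMap.map_add Q, QuadraticMap.map_smul, QuadraticMap.map_smul, hf, polar_smul_left, polar_smul_right, hv']
      simp only [smul_eq_mul]
      have h2 : (2 : F) = 0 := CharTwo.two_eq_zero
      linear_combination (-a * b * Q v') * h2
    constructor
    · rintro ⟨x, hx, hx0, hQx⟩
      obtain ⟨a, b, rfl⟩ := Submodule.mem_span_pair.1 hx
      rw [hval] at hQx
      have hab : a + b ≠ 0 := by
        intro h0
        have hb : b = a := by
          have h2 : (2 : F) = 0 := CharTwo.two_eq_zero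
          linear_combination h0 - a * h2
        rw [h0, hb] at hQx
        have h3 : a * a * polar Q v (f v) = 0 := by linear_combination hQx
        have h4 : a = 0 := mul_self_eq_zero.1 ((mul_eq_zero.1 h3).resolve_right hv)
        apply hx0
        rw [hb, h4, zero_smul, zero_smul, add_zero]
      refine ⟨b / (a + b), ?_⟩
      field_simp
      have h2 : (2 : F) = 0 := CharTwo.two_eq_zero
      linear_combination hQx + (b * b * polar Q v (f v)) * h2
    · rintro ⟨s, hs⟩
      refine ⟨(1 + s) • v' + s • f v', Submodule.add_mem _ (Submodule.smul_mem _ _ (Submodule.subset_span (by simp))) (Submodule.smul_mem _ _ (Submodule.subset_span (by simp))), ?_, ?_⟩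
      · intro h
        have h3 : polar Q v' ((1 + s) • v' + s • f v') = 0 := by rw [h]; exact polar_zero_right Q _
        have h4 : polar Q (f v') ((1 + s) • v' + s • f v') = 0 := by rw [h]; exact polar_zero_right Q _
        rw [polar_add_right, polar_smul_right, polar_smul_right, polar_self0, smul_zero, zero_add, hv', smul_eq_mul] at h3
        rw [polar_add_right, polar_smul_right, polar_smul_right, polar_self0, smul_zero, add_zero, polar_comm, hv', smul_eq_mul] at h4
        have h5 := (mul_eq_zero.1 h3).resolve_right hv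
        have h6 := (mul_eq_zero.1 h4).resolve_right hv
        rw [h5, add_zero] at h6
        exact one_ne_zero h6
      · rw [hval]
        have h2 : (2 : F) = 0 := CharTwo.two_eq_zero
        linear_combination hs + (2 * s * Q v' + 2 * s * s * Q v') * h2
  by_cases ht : t
  · obtain ⟨v', k1, k2⟩ := key 0
    obtain ⟨q1, q2, q3⟩ := plane (Q := Q) hff (v := v') (by rw [k2]; exact hv)
    exact ⟨_, q1, q2, iff_of_true ((typ v' k2).2 ⟨0, by rw [k1]; ring⟩) ht, q3⟩
  · obtain ⟨z, hz⟩ := H6.GrDict.exists_irred F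
    obtain ⟨v', k1, k2⟩ := key (z * polar Q v (f v))
    obtain ⟨q1, q2, q3⟩ := plane (Q := Q) hff (v := v') (by rw [k2]; exact hv)
    refine ⟨_, q1, q2, iff_of_false ?_ ht, q3⟩
    rw [typ v' k2]
    rintro ⟨s, hs⟩
    rw [k1] at hs
    apply hz s
    have h3 : (s ^ 2 + s + z) * polar Q v (f v) = 0 := by linear_combination hs
    exact (mul_eq_zero.1 h3).resolve_right hv

/-- **free types**: there is a vector not orthogonal to its image -/
theorem free_b : ∀ (d : ℕ) (V : Type u) [AddCommGroup V] [Module F V] [FiniteDimensional F V] (Q : QuadraticForm F V) (f : V →ₗ[F] V),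
    finrank F V = 2 * d → ND Q → (∀ v, Q (f v) = Q v) → (∀ v, f (f v) = v) → (∃ v, polar Q v (f v) ≠ 0) → ∀ e, 1 ≤ e → e + 1 ≤ d → ∀ t : Prop,
      ∃ W : Submodule F V, ND (Q.restrict W) ∧ finrank F W = 2 * e ∧ (PT (Q.restrict W) ↔ t) ∧ ∀ v ∈ W, f v ∈ W := by
  intro d
  induction d with
  | zero => intro V _ _ _ Q f _ _ _ _ _ e h1 h2; omega
  | succ d ih =>
    intro V _ _ _ Q f hd hQ hf hff hb e he1 he2 t
    obtain ⟨v, hv⟩ := hb
    rcases he1.eq_or_lt with h1 | h1
    · rw [← h1, mul_one]
      exact free_one hQ hf hff hv (by omega) t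
    · -- using a plane with a good complement
      have step : ∀ v : V, polar Q v (f v) ≠ 0 → (∃ w ∈ orth Q (Submodule.span F {v, f v}), polar Q w (f w) ≠ 0) →
          ∃ W : Submodule F V, ND (Q.restrict W) ∧ finrank F W = 2 * e ∧ (PT (Q.restrict W) ↔ t) ∧ ∀ v ∈ W, f v ∈ W := by
        intro v hv hw
        obtain ⟨w, hw, hwf⟩ := hw
        obtain ⟨p1, p2, p3⟩ := plane (Q := Q) hff hv
        have hO := nd_orth hQ p1
        have hOd := finrank_orth hQ (Submodule.span F {v, f v})
        have hOi := orth_inv2 hf hff p3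
        obtain ⟨W', w1, w2, w3, w4⟩ := ih (orth Q (Submodule.span F {v, f v})) (Q.restrict _) (f.restrict hOi) (by omega) hO (fun v => hf v)
          (fun v => Subtype.ext (hff v)) ⟨⟨w, hw⟩, hwf⟩ (e - 1) (by omega) (by omega) (t ↔ PT (Q.restrict (Submodule.span F {v, f v})))
        obtain ⟨W, a1, a2, a3, a4⟩ := glue (Q := Q) (f := f) p1 p3 (a := 1) (by rw [p2]) (W' := W') w1 (e := e - 1) w2 (fun v hv => ⟨_, w4 v hv, rfl⟩)
        refine ⟨W, a1, by rw [a2]; congr 1; omega, ?_, a4⟩
        rw [a3, w3]
        generalize PT (Q.restrict (Submodule.span F {v, f v})) = P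
        tauto
      obtain ⟨p1, p2, p3⟩ := plane (Q := Q) hff hv
      have hO := nd_orth hQ p1
      have hOd := finrank_orth hQ (Submodule.span F {v, f v})
      have hOi := orth_inv2 hf hff p3
      have hvP : v ∈ Submodule.span F {v, f v} := Submodule.subset_span (by simp)
      have hfvP : f v ∈ Submodule.span F {v, f v} := Submodule.subset_span (by simp)
      by_cases hw : ∃ w ∈ orth Q (Submodule.span F {v, f v}), polar Q w (f w) ≠ 0
      · exact step v hv hw
      · push Not at hw
        by_cases hid : ∀ w ∈ orth Q (Submodule.span F {v, f v}), f w = w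
        · obtain ⟨Y, y1, y2, y3⟩ := sub_exists hO (b := e - 1) (by omega) (by omega) (t ↔ PT (Q.restrict (Submodule.span F {v, f v})))
          obtain ⟨W, a1, a2, a3, a4⟩ := glue (Q := Q) (f := f) p1 p3 (a := 1) (by rw [p2]) (W' := Y) y1 (e := e - 1) y2 (fun v hv => ⟨v, hv, (hid v v.2).symm⟩)
          refine ⟨W, a1, by rw [a2]; congr 1; omega, ?_, a4⟩
          rw [a3, y3]
          generalize PT (Q.restrict (Submodule.span F {v, f v})) = P
          tauto
        · push Not at hid
          obtain ⟨w, hw1, hw2⟩ := hid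
          have hn : f w + w ∈ orth Q (Submodule.span F {v, f v}) := (orth Q _).add_mem (hOi w hw1) hw1
          have hn0 : f w + w ≠ 0 := by
            intro h
            apply hw2
            have h3 : f w + w + w = w := by rw [h, zero_add]
            rwa [add_assoc, OrthTwo.add_self0 (F := F), add_zero] at h3
          obtain ⟨w0, hw0, hw0n⟩ : ∃ w0 ∈ orth Q (Submodule.span F {v, f v}), polar Q w0 (f w + w) ≠ 0 := by
            by_contra hcon
            push Not at hcon
            apply hn0
            refine nd_on.1 hO _ hn (fun y hy => ?_)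
            rw [polarBilin_apply_apply, polar_comm]
            exact hcon y hy
          -- scale
          set β := polar Q v (f v) with hβ
          obtain ⟨w2, hw2m, hw2n⟩ : ∃ w2 ∈ orth Q (Submodule.span F {v, f v}), polar Q w2 (f w + w) = β :=
            ⟨(β / polar Q w0 (f w + w)) • w0, (orth Q _).smul_mem _ hw0, by rw [polar_smul_left, smul_eq_mul, div_mul_cancel₀ _ hw0n]⟩
          rw [polar_add_right] at hw2n
          -- orthogonality facts
          have o1 : ∀ y ∈ orth Q (Submodule.span F {v, f v}), polar Q v y = 0 := fun y hy => hy v hvP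
          have o2 : ∀ y ∈ orth Q (Submodule.span F {v, f v}), polar Q (f v) y = 0 := fun y hy => hy (f v) hfvP
          have o3 : ∀ y ∈ orth Q (Submodule.span F {v, f v}), polar Q y v = 0 := fun y hy => by rw [polar_comm]; exact o1 y hy
          have o4 : ∀ y ∈ orth Q (Submodule.span F {v, f v}), polar Q y (f v) = 0 := fun y hy => by rw [polar_comm]; exact o2 y hy
          have hfw := hOi w hw1
          have hfw2 := hOi w2 hw2m
          have hβ' : polar Q (f v) v = β := by rw [polar_comm]
          have hw2w : polar Q w2 (f w2) = 0 := hw w2 hw2m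
          have hww : polar Q w (f w) = 0 := hw w hw1
          -- the new vector
          have hv' : polar Q (v + w) (f (v + w)) = β := by
            rw [_root_.map_add, polar_add_left, polar_add_right, polar_add_right, ← hβ, o1 _ hfw, o4 _ hw1, hww]
            ring
          refine step (v + w) (by rw [hv']; exact hv) ?_
          -- the vector in the complement
          obtain ⟨c, hc⟩ : ∃ c : F, c * β = polar Q w2 w := ⟨polar Q w2 w / β, div_mul_cancel₀ _ hv⟩
          refine ⟨v + w2 + c • (f v + v), ?_, ?_⟩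
          · have h2F : (2 : F) = 0 := CharTwo.two_eq_zero
            have e1 : polar Q (v + w2 + c • (f v + v)) (v + w) = 0 := by
              simp only [polar_add_left, polar_add_right, polar_smul_left, polar_smul_right, polar_self0, smul_eq_mul]
              rw [o1 w hw1, o3 w2 hw2m, hβ', o2 w hw1]
              linear_combination hc + polar Q w2 w * h2F
            have e2 : polar Q (v + w2 + c • (f v + v)) (f (v + w)) = 0 := by
              rw [_root_.map_add]
              simp only [polar_add_left, polar_add_right, polar_smul_left, polar_smul_right, polar_self0, smul_eq_mul]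
              rw [← hβ, o1 _ hfw, o4 w2 hw2m, o2 _ hfw]
              linear_combination hc + hw2n + β * h2F
            intro x hx
            obtain ⟨a, b, rfl⟩ := Submodule.mem_span_pair.1 hx
            rw [polar_add_left, polar_smul_left, polar_smul_left, polar_comm (⇑Q) (v + w), e1, polar_comm (⇑Q) (f (v + w)), e2]
            simp
          · have e3 : f (v + w2 + c • (f v + v)) = f v + f w2 + c • (f v + v) := by
              rw [_root_.map_add, _root_.map_add, _root_.map_smul, _root_.map_add, hff, add_comm v (f v)]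
            have e4 : polar Q (v + w2 + c • (f v + v)) (f (v + w2 + c • (f v + v))) = β := by
              have h2F : (2 : F) = 0 := CharTwo.two_eq_zero
              rw [e3]
              simp only [polar_add_left, polar_add_right, polar_smul_left, polar_smul_right, polar_self0, smul_eq_mul]
              rw [← hβ, hβ', o1 _ hfw2, o4 w2 hw2m, o3 w2 hw2m, o2 _ hfw2, hw2w]
              linear_combination (c * β + c * c * β) * h2F
            rw [e4]; exact hv

omit [Fintype F] in
/-- the four-dimensional block -/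
theorem four {Q : QuadraticForm F V} {f : V →ₗ[F] V} (hf : ∀ v, Q (f v) = Q v) (hff : ∀ v, f (f v) = v) (hb : ∀ v, polar Q v (f v) = 0)
    {v w : V} (hvw : polar Q w (f v + v) ≠ 0) :
    ∃ X : Submodule F V, ND (Q.restrict X) ∧ finrank F X = 4 ∧ PT (Q.restrict X) ∧ ∀ x ∈ X, f x ∈ X := by
  classical
  set β := polar Q w (f v + v) with hβ
  -- the four vectors
  let g : Fin 4 → V := ![v, w, f v + v, f w + w]
  set X := Submodule.span F (Set.range g) with hX
  have hsym : ∀ a b, polar Q (f a + a) b = polar Q a (f b + b) := by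
    intro a b
    rw [polar_add_left, polar_add_right, polar_fv hf hff]
  have hself : ∀ a, polar Q a (f a + a) = 0 := by
    intro a
    rw [polar_add_right, hb, polar_self0, add_zero]
  have hNN : ∀ a, f (f a + a) + (f a + a) = 0 := by
    intro a
    rw [_root_.map_add, hff, add_comm a (f a)]
    exact OrthTwo.add_self0 (F := F) _
  have hNN2 : ∀ a b, polar Q (f a + a) (f b + b) = 0 := by
    intro a b
    rw [hsym, hNN, polar_zero_right]
  have hvw2 : polar Q v (f w + w) = β := by rw [← hsym, polar_comm, hβ]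
  have hQN : ∀ a, Q (f a + a) = 0 := by
    intro a
    rw [QuadraticMap.map_add Q, hf, CharTwo.add_self_eq_zero, zero_add, polar_comm, hb]
  -- pairing with a combination
  have comb : ∀ c : Fin 4 → F, ∀ u, polar Q u (∑ i, c i • g i) = c 0 * polar Q u v + c 1 * polar Q u w + c 2 * polar Q u (f v + v) + c 3 * polar Q u (f w + w) := by
    intro c u
    rw [Fin.sum_univ_four]
    show polar Q u (c 0 • v + c 1 • w + c 2 • (f v + v) + c 3 • (f w + w)) = _
    rw [polar_add_right, polar_add_right, polar_add_right, polar_smul_right, polar_smul_right, polar_smul_right, polar_smul_right]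
    rfl
  have key : ∀ c : Fin 4 → F, (∀ j, polar Q (g j) (∑ i, c i • g i) = 0) → ∀ i, c i = 0 := by
    intro c hc
    have h2 := hc 2
    have h3 := hc 3
    rw [comb] at h2 h3
    have e21 : polar Q (f v + v) v = 0 := by rw [polar_comm]; exact hself v
    have e22 : polar Q (f v + v) w = β := by rw [polar_comm]
    have e31 : polar Q (f w + w) v = β := by rw [polar_comm]; exact hvw2
    have e32 : polar Q (f w + w) w = 0 := by rw [polar_comm]; exact hself w
    have h2' : c 0 * polar Q (f v + v) v + c 1 * polar Q (f v + v) w + c 2 * polar Q (f v + v) (f v + v) + c 3 * polar Q (f v + v) (f w + w) = 0 := h2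
    have h3' : c 0 * polar Q (f w + w) v + c 1 * polar Q (f w + w) w + c 2 * polar Q (f w + w) (f v + v) + c 3 * polar Q (f w + w) (f w + w) = 0 := h3
    rw [e21, e22, hNN2, hNN2] at h2'
    rw [e31, e32, hNN2, hNN2] at h3'
    have c1 : c 1 = 0 := (mul_eq_zero.1 (show c 1 * β = 0 by linear_combination h2')).resolve_right hvw
    have c0 : c 0 = 0 := (mul_eq_zero.1 (show c 0 * β = 0 by linear_combination h3')).resolve_right hvw
    have h0 := hc 0
    have h1 := hc 1
    rw [comb] at h0 h1
    have h0' : c 0 * polar Q v v + c 1 * polar Q v w + c 2 * polar Q v (f v + v) + c 3 * polar Q v (f w + w) = 0 := h0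
    have h1' : c 0 * polar Q w v + c 1 * polar Q w w + c 2 * polar Q w (f v + v) + c 3 * polar Q w (f w + w) = 0 := h1
    rw [c0, c1, hself, hvw2] at h0'
    rw [c0, c1, hself, ← hβ] at h1'
    have c3 : c 3 = 0 := (mul_eq_zero.1 (show c 3 * β = 0 by linear_combination h0')).resolve_right hvw
    have c2 : c 2 = 0 := (mul_eq_zero.1 (show c 2 * β = 0 by linear_combination h1')).resolve_right hvw
    intro i
    fin_cases i
    · exact c0
    · exact c1
    · exact c2
    · exact c3
  have hli : LinearIndependent F g := by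
    rw [Fintype.linearIndependent_iff]
    intro c hc
    apply key c
    intro j
    rw [hc]; exact polar_zero_right Q _
  have hXd : finrank F X = 4 := by
    rw [hX, finrank_span_eq_card hli, Fintype.card_fin]
  have hgX : ∀ i, g i ∈ X := fun i => Submodule.subset_span ⟨i, rfl⟩
  refine ⟨X, ?_, hXd, ?_, ?_⟩
  · apply nd_on.2
    intro x hx h
    obtain ⟨c, rfl⟩ := (Submodule.mem_span_range_iff_exists_fun F).1 hx
    have h3 := key c (fun j => by
      have := h (g j) (hgX j)
      rwa [polarBilin_apply_apply, polar_comm] at this)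
    simp [h3]
  · -- the image is singular
    let g2 : Fin 2 → X := ![⟨f v + v, hgX 2⟩, ⟨f w + w, hgX 3⟩]
    have hli2 : LinearIndependent F g2 := by
      rw [LinearIndependent.pair_iff]
      intro s t hst
      have h3 : s • (f v + v) + t • (f w + w) = 0 := congrArg Subtype.val hst
      have h4 := Fintype.linearIndependent_iff.1 hli ![0, 0, s, t] (by
        rw [Fin.sum_univ_four]
        show (0 : F) • v + (0 : F) • w + s • (f v + v) + t • (f w + w) = 0
        rw [zero_smul, zero_smul, zero_add, zero_add, h3])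
      exact ⟨h4 2, h4 3⟩
    refine ⟨Submodule.span F (Set.range g2), ?_, by rw [finrank_span_eq_card hli2, Fintype.card_fin, hXd]⟩
    intro u hu
    obtain ⟨c, rfl⟩ := (Submodule.mem_span_range_iff_exists_fun F).1 hu
    rw [Fin.sum_univ_two]
    show Q (c 0 • (f v + v) + c 1 • (f w + w)) = 0
    rw [QuadraticMap.map_add Q, QuadraticMap.map_smul, QuadraticMap.map_smul, polar_smul_left, polar_smul_right, hQN, hQN, hNN2]
    simp
  · intro x hx
    obtain ⟨c, rfl⟩ := (Submodule.mem_span_range_iff_exists_fun F).1 hx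
    rw [_root_.map_sum]
    refine Submodule.sum_mem _ (fun i _ => ?_)
    rw [_root_.map_smul]
    refine X.smul_mem _ ?_
    have hfa : ∀ a, a ∈ X → f a + a ∈ X → f a ∈ X := by
      intro a h1 h2
      have : f a = (f a + a) - a := by abel
      rw [this]; exact X.sub_mem h2 h1
    fin_cases i
    · exact hfa v (hgX 0) (hgX 2)
    · exact hfa w (hgX 1) (hgX 3)
    · exact hfa (f v + v) (hgX 2) (by rw [hNN]; exact X.zero_mem)
    · exact hfa (f w + w) (hgX 3) (by rw [hNN]; exact X.zero_mem)

/-- **no vector is paired with its image** -/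
theorem free_a : ∀ (d : ℕ) (V : Type u) [AddCommGroup V] [Module F V] [FiniteDimensional F V] (Q : QuadraticForm F V) (f : V →ₗ[F] V),
    finrank F V = 2 * d → ND Q → (∀ v, Q (f v) = Q v) → (∀ v, f (f v) = v) → (∀ v, polar Q v (f v) = 0) →
      ∃ A h, 2 * A + h = d ∧ (h = 0 → PT Q) ∧ ∀ A' ≤ A, ∀ e ≤ h, ∀ t : Prop, (e = 0 → t) → (e = h → (t ↔ PT Q)) →
        ∃ W : Submodule F V, ND (Q.restrict W) ∧ finrank F W = 2 * (2 * A' + e) ∧ (PT (Q.restrict W) ↔ t) ∧ ∀ v ∈ W, f v ∈ W := by
  intro d
  induction d using Nat.strong_induction_on with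
  | _ d ih =>
    intro V _ _ _ Q f hd hQ hf hff hb
    by_cases hid : ∀ w, f w = w
    · refine ⟨0, d, by ring, ?_, ?_⟩
      · intro h0
        refine ⟨⊥, ?_, by rw [finrank_bot, hd, h0]⟩
        intro u hu
        rw [(Submodule.mem_bot F).1 hu]; exact QuadraticMap.map_zero _
      · intro A' hA' e he t ht0 ht1
        rw [Nat.le_zero.1 hA']
        rcases Nat.eq_zero_or_pos e with h0 | hpos
        · exact ⟨⊥, nd_on.2 Iso.nd_bot, by rw [finrank_bot, h0], iff_of_true (pt_bot Q (finrank_bot F V)) (ht0 h0), fun v _ => by rw [hid]; assumption⟩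
        · rcases he.eq_or_lt with h1 | h1
          · refine ⟨⊤, nd_on.2 (nd_top.1 hQ), by rw [finrank_top, hd, h1]; ring, ?_, fun v _ => trivial⟩
            rw [ht1 h1]
            exact pt_iff_of_equiv ⟨⟨Submodule.topEquiv, fun v => rfl⟩⟩
          · obtain ⟨Y, y1, y2, y3⟩ := sub_exists hQ (b := e) hpos (by omega) t
            exact ⟨Y, y1, by rw [y2]; ring, y3, fun v _ => by rw [hid]; assumption⟩
    · push Not at hid
      obtain ⟨v, hv⟩ := hid
      have hn0 : f v + v ≠ 0 := by
        intro h
        apply hv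
        have h3 : f v + v + v = v := by rw [h, zero_add]
        rwa [add_assoc, OrthTwo.add_self0 (F := F), add_zero] at h3
      obtain ⟨w, hw⟩ : ∃ w, polar Q w (f v + v) ≠ 0 := by
        by_contra hcon
        push Not at hcon
        apply hn0
        apply hQ
        intro y
        rw [polar_comm]; exact hcon y
      obtain ⟨X, x1, x2, x3, x4⟩ := four hf hff hb hw
      have hO := nd_orth hQ x1
      have hOd := finrank_orth hQ X
      have hOi := orth_inv2 hf hff x4
      have hle := Submodule.finrank_le X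
      obtain ⟨A, h, i1, i2, i3⟩ := ih (d - 2) (by omega) (orth Q X) (Q.restrict _) (f.restrict hOi) (by omega) hO (fun v => hf v)
          (fun v => Subtype.ext (hff v)) (fun v => hb v)
      have htyp : PT Q ↔ PT (Q.restrict (orth Q X)) := by
        rw [pt_split_iff hQ x1 (m := 2) (m' := d) (by rw [x2]) hd]
        constructor
        · intro h; exact h.1 x3
        · intro h; exact iff_of_true x3 h
      refine ⟨A + 1, h, by omega, fun h0 => htyp.2 (i2 h0), ?_⟩
      intro A' hA' e he t ht0 ht1
      rcases Nat.lt_or_ge A A' with hlt | hle'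
      · obtain ⟨W', w1, w2, w3, w4⟩ := i3 A le_rfl e he t ht0 (fun h => (ht1 h).trans htyp)
        obtain ⟨W, a1, a2, a3, a4⟩ := glue (Q := Q) (f := f) x1 x4 (a := 2) (by rw [x2]) (W' := W') w1 (e := 2 * A + e) w2 (fun v hv => ⟨_, w4 v hv, rfl⟩)
        refine ⟨W, a1, by rw [a2]; congr 1; omega, ?_, a4⟩
        rw [a3, w3]
        constructor
        · intro h; exact h.1 x3
        · intro h; exact iff_of_true x3 h
      · obtain ⟨W', w1, w2, w3, w4⟩ := i3 A' hle' e he t ht0 (fun h => (ht1 h).trans htyp)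
        obtain ⟨W, a1, a2, a3, a4⟩ := glue0 (Q := Q) (f := f) (P := X) (W' := W') w1 w2 (fun v hv => ⟨_, w4 v hv, rfl⟩)
        exact ⟨W, a1, a2, a3.trans w3, a4⟩

/-- **summary**: invariant nondegenerate subspaces of an involution in characteristic two -/
theorem invol_sub {Q : QuadraticForm F V} (hQ : ND Q) {d : ℕ} (hd : finrank F V = 2 * d) {f : V →ₗ[F] V} (hf : ∀ v, Q (f v) = Q v) (hff : ∀ v, f (f v) = v)
    {m : ℕ} (hm : Even m) (hm2 : 2 ≤ m) (hmd : m + 2 ≤ 2 * d) (t : Prop)
    (H : (PT Q ∧ t ∧ (Odd d ∨ m % 4 = 0)) ∨ (¬ PT Q ∧ ¬ t ∧ (Even d ∨ m % 4 = 2))) :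
    ∃ W : Submodule F V, finrank F W = m ∧ ND (Q.restrict W) ∧ (PT (Q.restrict W) ↔ t) ∧ ∀ v ∈ W, f v ∈ W := by
  obtain ⟨e, he⟩ := hm
  by_cases hb : ∃ v, polar Q v (f v) ≠ 0
  · obtain ⟨W, w1, w2, w3, w4⟩ := free_b d V Q f hd hQ hf hff hb e (by omega) (by omega) t
    exact ⟨W, by omega, w1, w3, w4⟩
  · push Not at hb
    obtain ⟨A, h, i1, i2, i3⟩ := free_a d V Q f hd hQ hf hff hb
    have key : ∃ A' e', A' ≤ A ∧ e' ≤ h ∧ e = 2 * A' + e' ∧ (e' = 0 → t) ∧ (e' = h → (t ↔ PT Q)) := by
      rcases H with ⟨h1, h2, h3⟩ | ⟨h1, h2, h3⟩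
      · have : ∃ A' e', A' ≤ A ∧ e' ≤ h ∧ e = 2 * A' + e' := by
          rw [Nat.odd_iff] at h3
          rcases Nat.lt_or_ge (e / 2) A with h4 | h4
          · exact ⟨e / 2, e % 2, by omega, by omega, by omega⟩
          · exact ⟨A, e - 2 * A, by omega, by omega, by omega⟩
        obtain ⟨A', e', a1, a2, a3⟩ := this
        exact ⟨A', e', a1, a2, a3, fun _ => h2, fun _ => iff_of_true h2 h1⟩
      · have hh : h ≠ 0 := fun h0 => h1 (i2 h0)
        have : ∃ A' e', A' ≤ A ∧ e' ≤ h ∧ e = 2 * A' + e' ∧ e' ≠ 0 := by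
          rw [Nat.even_iff] at h3
          rcases Nat.lt_or_ge ((e - 1) / 2) A with h4 | h4
          · refine ⟨(e - 1) / 2, e - 2 * ((e - 1) / 2), by omega, ?_, by omega, by omega⟩
            omega
          · exact ⟨A, e - 2 * A, by omega, by omega, by omega, by omega⟩
        obtain ⟨A', e', a1, a2, a3, a4⟩ := this
        exact ⟨A', e', a1, a2, a3, fun h => absurd h a4, fun _ => iff_of_false h2 h1⟩
    obtain ⟨A', e', a1, a2, a3, a4, a5⟩ := key
    obtain ⟨W, w1, w2, w3, w4⟩ := i3 A' a1 e' a2 t a4 a5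
    exact ⟨W, by omega, w1, w3, w4⟩

end H99.OrthC2
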