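import Mathlib
import Cfsg.Agent.Lib.H99.OrthEvenDim3
import Cfsg.Agent.Lib.H99.OrthTwo2
import Cfsg.Agent.Lib.H48.MaxSing

set_option autoImplicit false
set_option linter.unusedSimpArgs false
set_option linter.unusedSectionVars false
set_option linter.unusedVariables false

/-! An element of order `p` of `Ω⁺` all of whose invariant nondegenerate subspaces of even dimension are hyperbolic. -/

namespace H99.OrthSiegel

open Module QuadraticMap H48.QuadSplit H48.QuadStd H96.OeType H99.OrthSS

variable {F : Type*} [Field F] {d : ℕ}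

/-- the sign -/
def sg (i : Fin d) : F := if i < Fin.rev i then 1 else if Fin.rev i < i then -1 else 0

theorem sg_rev (i : Fin d) : (sg (Fin.rev i) : F) = - sg i := by
  unfold sg
  rw [Fin.rev_rev]
  rcases lt_trichotomy i (Fin.rev i) with h | h | h
  · rw [if_neg (not_lt.2 h.le), if_pos h, if_pos h]
  · rw [← h, if_neg (lt_irrefl _), if_neg (lt_irrefl _), neg_zero]
  · rw [if_pos h, if_neg (not_lt.2 h.le), if_pos h, neg_neg]

/-- the nilpotent part -/
def nil (d : ℕ) (F : Type*) [Field F] : (Fin d ⊕ Fin d → F) →ₗ[F] (Fin d ⊕ Fin d → F) where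
  toFun v := Sum.elim (fun i => sg i * v (Sum.inr (Fin.rev i))) (fun _ => 0)
  map_add' v w := by
    funext i; rcases i with i | i
    · show sg i * (v (Sum.inr (Fin.rev i)) + w (Sum.inr (Fin.rev i))) = _
      rw [mul_add]; rfl
    · exact (add_zero (0 : F)).symm
  map_smul' c v := by
    funext i; rcases i with i | i
    · show sg i * (c * v (Sum.inr (Fin.rev i))) = c * (sg i * v (Sum.inr (Fin.rev i)))
      ring
    · exact (mul_zero c).symm

theorem nil_inl (v : Fin d ⊕ Fin d → F) (i : Fin d) : nil d F v (Sum.inl i) = sg i * v (Sum.inr (Fin.rev i)) := rfl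
theorem nil_inr (v : Fin d ⊕ Fin d → F) (i : Fin d) : nil d F v (Sum.inr i) = 0 := rfl

theorem nil_nil (v : Fin d ⊕ Fin d → F) : nil d F (nil d F v) = 0 := by
  funext i; rcases i with i | i
  · rw [nil_inl, nil_inr, mul_zero]; rfl
  · rfl

/-- the isometry -/
def sie (d : ℕ) (F : Type*) [Field F] : (Fin d ⊕ Fin d → F) →ₗ[F] (Fin d ⊕ Fin d → F) := 1 + nil d F

theorem sie_apply (v : Fin d ⊕ Fin d → F) : sie d F v = v + nil d F v := rfl

theorem sie_pow (k : ℕ) (v : Fin d ⊕ Fin d → F) : (sie d F ^ k) v = v + (k : F) • nil d F v := by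
  induction k with
  | zero => rw [pow_zero, Nat.cast_zero, zero_smul, add_zero]; rfl
  | succ k ih =>
    rw [pow_succ']
    show sie d F ((sie d F ^ k) v) = _
    rw [ih, sie_apply, _root_.map_add, _root_.map_smul, nil_nil, smul_zero, add_zero, Nat.cast_succ, add_smul, one_smul, add_assoc]

theorem sie_iso (v : Fin d ⊕ Fin d → F) : qPlus d F (sie d F v) = qPlus d F v := by
  rw [sie_apply, qPlus_apply, qPlus_apply]
  have h0 : ∑ i : Fin d, sg i * v (Sum.inr (Fin.rev i)) * v (Sum.inr i) = 0 := by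
    refine Finset.sum_involution (fun i _ => Fin.rev i) ?_ ?_ ?_ ?_
    · intro i _
      rw [Fin.rev_rev, sg_rev]; ring
    · intro i _ hne h
      apply hne
      have : (sg i : F) = 0 := by
        unfold sg
        rw [h, if_neg (lt_irrefl _), if_neg (lt_irrefl _)]
      rw [this, zero_mul, zero_mul]
    · intro i _; exact Finset.mem_univ _
    · intro i _; exact Fin.rev_rev i
  have : ∀ i : Fin d, (v + nil d F v) (Sum.inl i) * (v + nil d F v) (Sum.inr i) =
      v (Sum.inl i) * v (Sum.inr i) + sg i * v (Sum.inr (Fin.rev i)) * v (Sum.inr i) := by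
    intro i
    show (v (Sum.inl i) + nil d F v (Sum.inl i)) * (v (Sum.inr i) + nil d F v (Sum.inr i)) = _
    rw [nil_inl, nil_inr]; ring
  rw [Finset.sum_congr rfl (fun i _ => this i), Finset.sum_add_distrib, h0, add_zero]

/-- the standard maximal singular subspace -/
def Us (d : ℕ) (F : Type*) [Field F] : Submodule F (Fin d ⊕ Fin d → F) where
  carrier := {v | ∀ i, v (Sum.inr i) = 0}
  add_mem' := fun {v w} hv hw i => by show v (Sum.inr i) + w (Sum.inr i) = 0; rw [hv, hw, add_zero]
  zero_mem' := fun i => rfl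
  smul_mem' := fun c v hv i => by show c * v (Sum.inr i) = 0; rw [hv, mul_zero]

theorem mem_Us {v : Fin d ⊕ Fin d → F} : v ∈ Us d F ↔ ∀ i, v (Sum.inr i) = 0 := Iff.rfl

theorem Us_ts {v : Fin d ⊕ Fin d → F} (hv : v ∈ Us d F) : qPlus d F v = 0 := by
  rw [qPlus_apply]
  exact Finset.sum_eq_zero (fun i _ => by rw [mem_Us.1 hv i, mul_zero])

theorem nil_mem (v : Fin d ⊕ Fin d → F) : nil d F v ∈ Us d F := fun i => rfl

theorem nil_Us {v : Fin d ⊕ Fin d → F} (hv : v ∈ Us d F) : nil d F v = 0 := by
  funext i; rcases i with i | i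
  · rw [nil_inl, mem_Us.1 hv, mul_zero]; rfl
  · rfl

theorem finrank_Us : finrank F (Us d F) = d := by
  let φ : (Fin d → F) →ₗ[F] (Fin d ⊕ Fin d → F) :=
    { toFun := fun v => Sum.elim v (fun _ => 0)
      map_add' := fun v w => by ext i; rcases i with i | i <;> simp
      map_smul' := fun c v => by ext i; rcases i with i | i <;> simp }
  have hinj : Function.Injective φ := by
    intro v w h
    funext i
    exact congrFun h (Sum.inl i)
  have : Us d F = LinearMap.range φ := by
    ext v
    constructor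
    · intro hv
      refine ⟨fun i => v (Sum.inl i), ?_⟩
      funext i; rcases i with i | i
      · rfl
      · exact (mem_Us.1 hv i).symm
    · rintro ⟨w, rfl⟩ i
      rfl
  rw [this, LinearMap.finrank_range_of_inj hinj, finrank_fintype_fun_eq_card, Fintype.card_fin]

/-- invariant subspaces meet `Us` in at least half their dimension -/
theorem half {W : Submodule F (Fin d ⊕ Fin d → F)} (hW : ∀ v ∈ W, sie d F v ∈ W) :
    finrank F W ≤ 2 * finrank F (W ⊓ Us d F : Submodule F (Fin d ⊕ Fin d → F)) + (if Even d then 0 else 1) := by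
  have hN : ∀ v ∈ W, nil d F v ∈ W := by
    intro v hv
    have := W.sub_mem (hW v hv) hv
    rwa [sie_apply, add_sub_cancel_left] at this
  let g : W →ₗ[F] (Fin d ⊕ Fin d → F) := (nil d F).domRestrict W
  have h1 := LinearMap.finrank_range_add_finrank_ker g
  have hr : finrank F (LinearMap.range g) ≤ finrank F (W ⊓ Us d F : Submodule F (Fin d ⊕ Fin d → F)) := by
    apply Submodule.finrank_mono
    rintro _ ⟨w, rfl⟩
    exact ⟨hN _ w.2, nil_mem _⟩
  -- the kernel
  have hkv : ∀ w : W, w ∈ LinearMap.ker g → ∀ i, i ≠ Fin.rev i → (w : Fin d ⊕ Fin d → F) (Sum.inr i) = 0 := by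
    intro w hw i hi
    have h3 := congrFun (LinearMap.mem_ker.1 hw) (Sum.inl (Fin.rev i))
    have h4 : nil d F (w : Fin d ⊕ Fin d → F) (Sum.inl (Fin.rev i)) = 0 := h3
    rw [nil_inl, Fin.rev_rev] at h4
    refine (mul_eq_zero.1 h4).resolve_left ?_
    unfold sg
    rw [Fin.rev_rev]
    rcases lt_or_gt_of_ne hi with h | h
    · rw [if_neg (not_lt.2 h.le), if_pos h]; exact neg_ne_zero.2 one_ne_zero
    · rw [if_pos h]; exact one_ne_zero
  have hk : finrank F (LinearMap.ker g) ≤ finrank F (W ⊓ Us d F : Submodule F (Fin d ⊕ Fin d → F)) + (if Even d then 0 else 1) := by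
    have hKmap : finrank F ((LinearMap.ker g).map W.subtype : Submodule F (Fin d ⊕ Fin d → F)) = finrank F (LinearMap.ker g) :=
      Submodule.finrank_map_subtype_eq _ _
    by_cases he : Even d
    · rw [if_pos he, add_zero, ← hKmap]
      apply Submodule.finrank_mono
      rintro _ ⟨w, hw, rfl⟩
      refine ⟨w.2, fun i => hkv w hw i ?_⟩
      intro h
      have h5 := congrArg Fin.val h
      rw [Fin.val_rev] at h5
      obtain ⟨k, hk⟩ := he
      have := i.2
      omega
    · rw [if_neg he]
      rw [Nat.not_even_iff_odd] at he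
      obtain ⟨k, hk⟩ := he
      have hkd : k < d := by omega
      set K : Submodule F (Fin d ⊕ Fin d → F) := (LinearMap.ker g).map W.subtype with hKdef
      let π : K →ₗ[F] F := (LinearMap.proj (Sum.inr ⟨k, hkd⟩) : (Fin d ⊕ Fin d → F) →ₗ[F] F).domRestrict K
      have h6 := LinearMap.finrank_range_add_finrank_ker π
      have h7 : finrank F (LinearMap.range π) ≤ 1 := by
        have := Submodule.finrank_le (LinearMap.range π)
        rwa [finrank_self] at this
      have h8 : finrank F (LinearMap.ker π) ≤ finrank F (W ⊓ Us d F : Submodule F (Fin d ⊕ Fin d → F)) := by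
        have h9 : finrank F ((LinearMap.ker π).map K.subtype : Submodule F (Fin d ⊕ Fin d → F)) = finrank F (LinearMap.ker π) :=
          Submodule.finrank_map_subtype_eq _ _
        rw [← h9]
        apply Submodule.finrank_mono
        rintro _ ⟨w, hw, rfl⟩
        obtain ⟨w', hw', hww⟩ := w.2
        refine ⟨by show (w : Fin d ⊕ Fin d → F) ∈ W; rw [← hww]; exact w'.2, fun i => ?_⟩
        by_cases hi : i = Fin.rev i
        · have h10 := congrArg Fin.val hi
          rw [Fin.val_rev] at h10
          have h11 : i = ⟨k, hkd⟩ := by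
            apply Fin.ext
            show (i : ℕ) = k
            have := i.2
            omega
          rw [h11]
          exact hw
        · show (w : Fin d ⊕ Fin d → F) (Sum.inr i) = 0
          rw [← hww]
          exact hkv w' hw' i hi
      omega
  omega

section fin

variable [Fintype F]

/-- **the element** -/
theorem exists_sie (p : ℕ) [hpf : Fact p.Prime] [CharP F p] (hd : 3 ≤ d) :
    ∃ x : GL (Fin d ⊕ Fin d) F, x ∈ Cfsg.Geo.omegaGL (⇑(qPlus d F)) ∧ x ^ p = 1 ∧
      (∀ z : F, (x : Matrix (Fin d ⊕ Fin d) (Fin d ⊕ Fin d) F) ≠ z • (1 : Matrix (Fin d ⊕ Fin d) (Fin d ⊕ Fin d) F)) ∧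
      Matrix.toLin' (x : Matrix (Fin d ⊕ Fin d) (Fin d ⊕ Fin d) F) = sie d F := by
  obtain ⟨x, x1, x2⟩ := exists_gl' (sie d F) hpf.out.pos (by
    apply LinearMap.ext
    intro v
    rw [sie_pow, CharP.cast_eq_zero, zero_smul, add_zero]; rfl)
  have hcι : Fintype.card (Fin d ⊕ Fin d) = 2 * d := by rw [Fintype.card_sum, Fintype.card_fin]; ring
  have hcard : Fintype.card F ≠ 2 ∨ Fintype.card (Fin d ⊕ Fin d) ≠ 4 := Or.inr (by omega)
  have hx : x ∈ Cfsg.isometryGroup F (⇑(qPlus d F)) := (H17.OrthDet.mem_isometryGroup_iff _ _).mpr (fun v => by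
    rw [← Matrix.toLin'_apply, x1, sie_iso])
  refine ⟨x, ?_, x2, ?_, x1⟩
  · by_cases hp2 : p = 2
    · subst hp2
      refine ⟨⟨_, hx⟩, ?_, rfl⟩
      show (⟨_, hx⟩ : ↥(Cfsg.isometryGroup F (⇑(qPlus d F)))) ∈ Cfsg.Omega F (⇑(qPlus d F))
      have hMS : H48.MaxSing.MS (qPlus d F) d (Us d F) := ⟨fun v hv => Us_ts hv, finrank_Us⟩
      rw [H48.MaxSing.mem_Omega_iff_parity (nd_qPlus d) (m := d) hcι hcard hMS]
      have h1 : (Us d F).map (Matrix.toLin' (x : Matrix (Fin d ⊕ Fin d) (Fin d ⊕ Fin d) F)) = Us d F := by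
        rw [x1]
        ext v
        constructor
        · rintro ⟨w, hw, rfl⟩
          rw [sie_apply, nil_Us hw, add_zero]; exact hw
        · intro hv
          exact ⟨v, hv, by rw [sie_apply, nil_Us hv, add_zero]⟩
      rw [h1, inf_idem, finrank_Us]
    · exact OrthUni3.mem_omega_of_odd _ (nd_iff.1 (nd_qPlus d)) hcard hx (hpf.out.odd_of_ne_two hp2) x2
  · intro z hz
    -- z = 1
    have h3 : ∀ v, sie d F v = z • v := by
      intro v
      rw [← x1, hz, Matrix.toLin'_apply, Matrix.smul_mulVec, Matrix.one_mulVec]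
    have h0 : (0 : ℕ) < d := by omega
    let i0 : Fin d := ⟨0, h0⟩
    let il : Fin d := Fin.rev i0
    have h4 := congrFun (h3 (Pi.single (Sum.inr il) 1)) (Sum.inl i0)
    rw [sie_apply] at h4
    have h5 : (Pi.single (Sum.inr il) (1 : F) : Fin d ⊕ Fin d → F) (Sum.inl i0) = 0 := by simp
    have h6 : nil d F (Pi.single (Sum.inr il) 1) (Sum.inl i0) = 1 := by
      rw [nil_inl]
      have : (Pi.single (Sum.inr il) (1 : F) : Fin d ⊕ Fin d → F) (Sum.inr (Fin.rev i0)) = 1 := by
        show (Pi.single (Sum.inr il) (1 : F) : Fin d ⊕ Fin d → F) (Sum.inr il) = 1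
        simp
      rw [this, mul_one]
      unfold sg
      rw [if_pos]
      rw [Fin.lt_def, Fin.val_rev]
      show 0 < d - (0 + 1)
      omega
    have h7 : (Pi.single (Sum.inr il) (1 : F) : Fin d ⊕ Fin d → F) (Sum.inl i0) + nil d F (Pi.single (Sum.inr il) 1) (Sum.inl i0) =
      z * (Pi.single (Sum.inr il) (1 : F) : Fin d ⊕ Fin d → F) (Sum.inl i0) := h4
    rw [h5, h6, mul_zero, zero_add] at h7
    exact one_ne_zero h7

/-- all invariant nondegenerate even-dimensional subspaces are hyperbolic; there are no odd-dimensional ones if `d` is even -/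
theorem sie_plus {W : Submodule F (Fin d ⊕ Fin d → F)} (hWnd : ND ((qPlus d F).restrict W)) (hW : ∀ v ∈ W, sie d F v ∈ W) :
    (Even (finrank F W) → PT ((qPlus d F).restrict W)) ∧ (Even d → Even (finrank F W)) := by
  have h1 := half hW
  have h2 : 2 * finrank F (W ⊓ Us d F : Submodule F (Fin d ⊕ Fin d → F)) ≤ finrank F W := by
    have h3 := H95.SpOrthEven.isotropic_finrank_le (polarBilin ((qPlus d F).restrict W)) (fun v hv => hWnd v (fun w => by
      rw [← polarBilin_apply_apply]; exact hv w)) ((W ⊓ Us d F).comap W.subtype) (fun x hx y hy => by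
      have hx' : (x : Fin d ⊕ Fin d → F) ∈ Us d F := hx.2
      have hy' : (y : Fin d ⊕ Fin d → F) ∈ Us d F := hy.2
      rw [polarBilin_apply_apply]
      show qPlus d F ((x : Fin d ⊕ Fin d → F) + y) - qPlus d F x - qPlus d F y = 0
      rw [Us_ts ((Us d F).add_mem hx' hy'), Us_ts hx', Us_ts hy']; ring)
    have h4 : finrank F ((W ⊓ Us d F).comap W.subtype) = finrank F (W ⊓ Us d F : Submodule F (Fin d ⊕ Fin d → F)) :=
      (Submodule.comapSubtypeEquivOfLe (inf_le_left : W ⊓ Us d F ≤ W)).finrank_eq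
    omega
  constructor
  · rintro ⟨k, hk⟩
    refine ⟨(W ⊓ Us d F).comap W.subtype, ?_, ?_⟩
    · intro u hu
      exact Us_ts hu.2
    · have h4 : finrank F ((W ⊓ Us d F).comap W.subtype) = finrank F (W ⊓ Us d F : Submodule F (Fin d ⊕ Fin d → F)) :=
        (Submodule.comapSubtypeEquivOfLe (inf_le_left : W ⊓ Us d F ≤ W)).finrank_eq
      split_ifs at h1 <;> omega
  · intro he
    rw [if_pos he] at h1
    exact ⟨finrank F (W ⊓ Us d F : Submodule F (Fin d ⊕ Fin d → F)), by omega⟩

end fin

end H99.OrthSiegel
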