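import Mathlib
import Cfsg.Agent.Lib.H99.OrthArith
import Cfsg.Agent.Lib.H99.OrthSiegel
import Cfsg.Agent.Lib.H99.OrthUni4

set_option autoImplicit false
set_option linter.unusedSimpArgs false
set_option linter.unusedSectionVars false
set_option linter.unusedVariables false

/-! Elements of order `p` and odd-dimensional nondegenerate subspaces. -/

namespace H99.OrthUni3

open Module QuadraticMap H48.QuadSplit H48.QuadStd H99.OrthUni H99.OrthUni2
open scoped Matrix

variable {ι : Type} [Fintype ι] [DecidableEq ι] {F : Type*} [Field F]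

/-- in dimension `2d`, `d` odd, some element of order `p` leaves no nondegenerate subspace of the odd dimension `m` invariant -/
theorem no_odd [Fintype F] (p : ℕ) [hpf : Fact p.Prime] [CharP F p] (hp2 : p ≠ 2) (Q : QuadraticForm F (ι → F)) (hQ : ND Q) (d m : ℕ)
    (hd : 3 ≤ d) (hdo : Odd d) (hm : Odd m) (hmd : m ≤ 2 * d)
    (hnil : ∀ μ : Multiset ℕ, (∀ e, Even e → Even (μ.count e)) → μ.sum = 2 * d → (∃ e ∈ μ, Odd e) → HasNil Q μ)
    (h : ∀ x : GL ι F, x ∈ Cfsg.Geo.omegaGL (⇑Q) → x ^ p = 1 → (∀ z : F, (x : Matrix ι ι F) ≠ z • (1 : Matrix ι ι F)) →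
      ∃ W : Submodule F (ι → F), finrank F W = m ∧ Cfsg.Geo.IsNondegenerateOn (polar Q) W ∧ W.map (Matrix.toLin' (x : Matrix ι ι F)) ≤ W) : False := by
  have hp3 : 3 ≤ p := by
    have := hpf.out.two_le
    omega
  obtain ⟨k, hk⟩ := hdo
  obtain ⟨l, hl⟩ := hm
  -- generic: `a` twos, two `o`s
  have key : ∀ (a o : ℕ), Even a → Odd o → o ≤ 3 → 2 * a + 2 * o = 2 * d → ∃ a', Even a' ∧ 2 * a' + o = m := by
    intro a o ha ho ho3 hs
    have hmem : ∀ e ∈ (Multiset.replicate a 2 + {o, o} : Multiset ℕ), e = 2 ∨ e = o := by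
      intro e he
      rw [Multiset.mem_add] at he
      rcases he with he | he
      · exact Or.inl (Multiset.eq_of_mem_replicate he)
      · right
        simpa using he
    have ho2 : o ≠ 2 := by rintro rfl; exact absurd ho (by decide)
    have hop := ho.pos
    have hsum : (Multiset.replicate a 2 + {o, o} : Multiset ℕ).sum = 2 * d := by
      rw [Multiset.sum_add, Multiset.sum_replicate]
      simp
      omega
    obtain ⟨ν, n1, n2, n3⟩ := final p hp2 Q hQ m h (Multiset.replicate a 2 + {o, o}) (by
      intro e he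
      rcases hmem e he with rfl | rfl
      · omega
      · omega) (by rw [hsum]; exact hmd) (hnil _ (by
      intro e he
      rw [Multiset.count_add, Multiset.count_replicate]
      have : ({o, o} : Multiset ℕ).count e = 0 := by
        apply Multiset.count_eq_zero_of_notMem
        intro h'
        have : e = o := by simpa using h'
        rw [this] at he
        exact (Nat.not_even_iff_odd.2 ho) he
      rw [this, add_zero]
      split_ifs
      · exact ha
      · exact Even.zero) hsum ⟨o, by simp, ho⟩)
    obtain ⟨s1, s2⟩ := count_le_sub ν _ {2, o} n1 (by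
      intro e he
      rcases hmem e he with rfl | rfl <;> simp)
    rw [Finset.sum_pair (Ne.symm ho2)] at s1 s2
    have c1 := Multiset.count_le_of_le o n1
    rw [Multiset.count_add, Multiset.count_replicate, if_neg (Ne.symm ho2)] at c1
    have c2 : ({o, o} : Multiset ℕ).count o = 2 := by simp
    rw [c2] at c1
    rw [n2] at s1
    refine ⟨ν.count 2, n3 2 (by decide), ?_⟩
    have hc : ν.count o = 1 := by
      obtain ⟨j, hj⟩ := ho
      rcases (by omega : ν.count o = 0 ∨ ν.count o = 1 ∨ ν.count o = 2) with h0 | h0 | h0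
      · rw [h0] at s1; omega
      · exact h0
      · rw [h0] at s1; omega
    rw [hc] at s1
    omega
  by_cases hm4 : m % 4 = 3
  · obtain ⟨a', ⟨b', hb'⟩, h2⟩ := key (d - 1) 1 ⟨k, by omega⟩ (by decide) (by norm_num) (by omega)
    omega
  · obtain ⟨a', ⟨b', hb'⟩, h2⟩ := key (d - 3) 3 ⟨k - 1, by omega⟩ (by decide) (by norm_num) (by omega)
    omega

end H99.OrthUni3
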