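import Mathlib
import Cfsg.Agent.Lib.H99.OrthUni5

set_option autoImplicit false
set_option linter.unusedSimpArgs false
set_option linter.unusedSectionVars false
set_option linter.unusedVariables false

/-! Unipotent elements of Jordan type `(2^{d-2}, 3, 1)`: the invariant nondegenerate subspaces of odd dimension are all isometric. -/

namespace H99.OrthUni3

open Module QuadraticMap H48.QuadSplit H48.QuadStd H96.OeType H99.OrthSS H99.OrthUni H99.OrthUni2
open scoped Matrix

universe u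

section abs

variable {F : Type u} [Field F] [Fintype F] {V : Type u} [AddCommGroup V] [Module F V] [FiniteDimensional F V]

theorem form_of {Q : QuadraticForm F V} (h2 : (2 : F) ≠ 0) {W : Submodule F V} (hW : ND (Q.restrict W)) {u : ℕ}
    (hd : finrank F W = 2 * u + 1) {y : V} (hy : y ∈ W) (hQy : Q y ≠ 0) {Z : Submodule F V} (hZ : Z ≤ W) (hZd : finrank F Z = u)
    (hZt : ∀ z ∈ Z, Q z = 0) (hyZ : ∀ z ∈ Z, polar Q y z = 0) :
    (Q.restrict W).Equivalent ((qUn (Q y)).prod (qPlus u F)) := by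
  let y1 : W := ⟨y, hy⟩
  have hy0 : y1 ≠ 0 := by
    intro h
    apply hQy
    have : y = 0 := congrArg Subtype.val h
    rw [this, QuadraticMap.map_zero]
  have hL : ND ((Q.restrict W).restrict (Submodule.span F {y1})) := by
    intro a ha
    obtain ⟨c, hc⟩ := Submodule.mem_span_singleton.1 a.2
    have h3 : polar ((Q.restrict W).restrict (Submodule.span F {y1})) a ⟨y1, Submodule.mem_span_singleton_self y1⟩ = 0 := ha _
    have h4 : polar Q ((a : W) : V) y = 0 := h3
    have h5 : ((a : W) : V) = c • y := by rw [← hc]; rfl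
    rw [h5, polar_smul_left, polar_self, ← Nat.cast_smul_eq_nsmul F, smul_eq_mul, smul_eq_mul] at h4
    have hc0 : c = 0 := (mul_eq_zero.1 h4).resolve_right (mul_ne_zero (by exact_mod_cast h2) hQy)
    apply Subtype.ext
    rw [← hc, hc0, zero_smul]; rfl
  have hLd : finrank F (Submodule.span F {y1}) = 1 := finrank_span_singleton hy0
  obtain ⟨E, -, hE⟩ := ortho_split hL
  have e1 : (((Q.restrict W).restrict (Submodule.span F {y1})).prod ((Q.restrict W).restrict (orth (Q.restrict W) (Submodule.span F {y1})))).Equivalent (Q.restrict W) := ⟨⟨E, hE⟩⟩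
  have hO := nd_orth hW hL
  have hOd := finrank_orth hW (Submodule.span F {y1})
  rw [hLd, hd] at hOd
  have hpt : PT ((Q.restrict W).restrict (orth (Q.restrict W) (Submodule.span F {y1}))) := by
    have hle : Z.comap W.subtype ≤ orth (Q.restrict W) (Submodule.span F {y1}) := by
      intro z hz a ha
      obtain ⟨c, hc⟩ := Submodule.mem_span_singleton.1 ha
      show polar Q (a : V) (z : V) = 0
      rw [← hc]
      show polar Q (c • y) (z : V) = 0
      rw [polar_smul_left, show polar Q y (z : V) = 0 from hyZ _ hz, smul_zero]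
    have hf1 : finrank F (Z.comap W.subtype) = u := by rw [(Submodule.comapSubtypeEquivOfLe hZ).finrank_eq, hZd]
    have hf2 : finrank F ((Z.comap W.subtype).comap (orth (Q.restrict W) (Submodule.span F {y1})).subtype) = u := by
      rw [(Submodule.comapSubtypeEquivOfLe hle).finrank_eq, hf1]
    exact ⟨_, fun z hz => hZt _ hz, by rw [hf2]; omega⟩
  have e2 := equiv_of_pt (m := u) hO (by omega) hpt
  have e3 : (qUn (Q y)).Equivalent ((Q.restrict W).restrict (Submodule.span F {y1})) := by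
    refine ⟨⟨LinearEquiv.toSpanNonzeroSingleton F W y1 hy0, fun c => ?_⟩⟩
    show Q (c • y) = _
    rw [QuadraticMap.map_smul, qUn_apply, smul_eq_mul]; ring
  exact e1.symm.trans (e3.symm.prod e2)

theorem class_eq {Q : QuadraticForm F V} (h2 : (2 : F) ≠ 0) {W W' : Submodule F V} (hW : ND (Q.restrict W)) (hW' : ND (Q.restrict W')) {u : ℕ}
    (hd : finrank F W = 2 * u + 1) (hd' : finrank F W' = 2 * u + 1)
    (h : ∃ y ∈ W, ∃ y' ∈ W', Q y ≠ 0 ∧ Q y' ≠ 0 ∧ (∃ s : F, Q y = s ^ 2 * Q y') ∧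
      (∃ Z ≤ W, finrank F Z = u ∧ (∀ z ∈ Z, Q z = 0) ∧ (∀ z ∈ Z, polar Q y z = 0)) ∧
      (∃ Z ≤ W', finrank F Z = u ∧ (∀ z ∈ Z, Q z = 0) ∧ (∀ z ∈ Z, polar Q y' z = 0))) :
    (Q.restrict W).Equivalent (Q.restrict W') := by
  obtain ⟨y, hy, y', hy', hQy, hQy', ⟨s, hs⟩, ⟨Z, z1, z2, z3, z4⟩, ⟨Z', z1', z2', z3', z4'⟩⟩ := h
  have hs0 : s ≠ 0 := by rintro rfl; apply hQy; rw [hs]; ring
  have e1 := form_of h2 hW hd hy hQy z1 z2 z3 z4
  have e2 := form_of h2 hW' hd' hy' hQy' z1' z2' z3' z4'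
  have e3 : (qUn (Q y)).Equivalent (qUn (Q y')) := by
    refine ⟨⟨LinearEquiv.smulOfNeZero F F s hs0, fun c => ?_⟩⟩
    show qUn (Q y') (s • c) = _
    rw [qUn_apply, qUn_apply, hs, smul_eq_mul]; ring
  exact e1.trans ((e3.prod (Equivalent.refl _)).trans e2.symm)

/-- an odd-dimensional form is not similar to itself with a nonsquare factor -/
theorem sq_of_smul {V' : Type u} [AddCommGroup V'] [Module F V'] [FiniteDimensional F V'] {R : QuadraticForm F V'} (hR : ND R) (hd : Odd (finrank F V')) {c : F} (hc : c ≠ 0)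
    (h : (c • R).Equivalent R) : IsSquare c := by
  obtain ⟨u, hu⟩ := hd
  obtain ⟨h2, c0, hc0, hE⟩ := classify_odd u V' R hR hu
  have h3 := H48.QuadSim.equivalent_smul hE c
  have h4 := smul_qOdd u (c := c0) hc
  have h5 := ((h4.symm.trans h3.symm).trans h).trans hE
  -- h5 : (qOdd (c * c0)) ≅ qOdd c0
  have h7 := ((prod_comm_equiv _ _).trans (qOdd_equiv u (c * c0)).symm).trans (h5.trans ((qOdd_equiv u c0).trans (prod_comm_equiv _ _)))
  have h8 := cancel (nd_qPlus u) (nd_qUn h2 hc0) h7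
  obtain ⟨e⟩ := h8
  have h9 := e.map_app 1
  rw [qUn_apply, qUn_apply] at h9
  refine ⟨e 1, ?_⟩
  have h10 : c0 * (e 1 ^ 2 - c) = 0 := by linear_combination h9
  have h11 := (mul_eq_zero.1 h10).resolve_left hc0
  linear_combination -h11

/-- two vectors in a subspace with singular radical of codimension one -/
theorem codim_one {Q : QuadraticForm F V} {R S : Submodule F V} (hRS : R ≤ S) (hd : finrank F S = finrank F R + 1) (hR : ∀ r ∈ R, Q r = 0)
    (hRp : ∀ r ∈ R, ∀ s ∈ S, polar Q s r = 0) {y y' : V} (hy : y ∈ S) (hy' : y' ∈ S) (hQy' : Q y' ≠ 0) :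
    ∃ s : F, Q y = s ^ 2 * Q y' := by
  have hnR : y' ∉ R := fun h => hQy' (hR _ h)
  have hsup : R ⊔ Submodule.span F {y'} = S := by
    apply Submodule.eq_of_le_of_finrank_eq
    · exact sup_le hRS ((Submodule.span_singleton_le_iff_mem _ _).2 hy')
    · have h1 : R < R ⊔ Submodule.span F {y'} := by
        refine lt_of_le_of_ne le_sup_left ?_
        intro h
        apply hnR
        rw [h]
        exact Submodule.mem_sup_right (Submodule.mem_span_singleton_self y')
      have h3 := Submodule.finrank_lt_finrank_of_lt h1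
      have h4 : R ⊔ Submodule.span F {y'} ≤ S := sup_le hRS ((Submodule.span_singleton_le_iff_mem _ _).2 hy')
      have h5 := Submodule.finrank_mono h4
      omega
  rw [← hsup] at hy
  obtain ⟨r, hr, z, hz, rfl⟩ := Submodule.mem_sup.1 hy
  obtain ⟨s, rfl⟩ := Submodule.mem_span_singleton.1 hz
  refine ⟨s, ?_⟩
  rw [QuadraticMap.map_add Q, hR r hr, QuadraticMap.map_smul, polar_smul_right, polar_comm, hRp r hr y' hy', smul_zero, zero_add, add_zero, smul_eq_mul]
  ring

/-- isotropic subspaces are small -/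
theorem iso_le {Q : QuadraticForm F V} {W : Submodule F V} (hW : ND (Q.restrict W)) {L : Submodule F V} (hL : L ≤ W) (hLt : ∀ z ∈ L, Q z = 0) :
    2 * finrank F L ≤ finrank F W := by
  have h3 := H95.SpOrthEven.isotropic_finrank_le (polarBilin (Q.restrict W)) (fun v hv => hW v (fun w => by
    rw [← polarBilin_apply_apply]; exact hv w)) (L.comap W.subtype) (fun x hx y hy => by
    have hx' : (x : V) ∈ L := hx
    have hy' : (y : V) ∈ L := hy
    rw [polarBilin_apply_apply]
    show Q ((x : V) + y) - Q x - Q y = 0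
    rw [hLt _ (L.add_mem hx' hy'), hLt _ hx', hLt _ hy']; ring)
  have h4 : finrank F (L.comap W.subtype) = finrank F L := (Submodule.comapSubtypeEquivOfLe hL).finrank_eq
  omega

end abs

section mat

variable {ι : Type} [Fintype ι] [DecidableEq ι] {F : Type u} [Field F]

/-- the Jordan type of an invariant nondegenerate subspace -/
theorem sub_type3 [Fintype F] (p : ℕ) [hpf : Fact p.Prime] (h2 : (2 : F) ≠ 0) (Q : QuadraticForm F (ι → F))
    (μ : Multiset ℕ) (hμ : ∀ e ∈ μ, 0 < e ∧ e ≤ p) (x : GL ι F) (hxp : x ^ p = 1)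
    (hiso : ∀ u, Q ((x : Matrix ι ι F) *ᵥ u) = Q u) (hN : (Matrix.toLin' (x : Matrix ι ι F) - 1) ^ p = 0)
    (hr : ∀ k, finrank F (LinearMap.range ((Matrix.toLin' (x : Matrix ι ι F) - 1) ^ k)) = (μ.map (fun e => e - k)).sum)
    (W : Submodule F (ι → F)) (hW : ND (Q.restrict W)) (hWi : ∀ v ∈ W, Matrix.toLin' (x : Matrix ι ι F) v ∈ W) :
    ∃ ν : Multiset ℕ, ν ≤ μ ∧ ν.sum = finrank F W ∧ (∀ e, Even e → Even (ν.count e)) ∧
      Multiset.card ν = gk (Matrix.toLin' (x : Matrix ι ι F) - 1) W 0 ∧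
      (ν.count 1 : ℤ) = (gk (Matrix.toLin' (x : Matrix ι ι F) - 1) W 0 : ℤ) - gk (Matrix.toLin' (x : Matrix ι ι F) - 1) W 1 := by
  set T := Matrix.toLin' (x : Matrix ι ι F) with hT
  have hB : ∀ u v, polarBilin Q (T u) (T v) = polarBilin Q u v := by
    intro u v
    rw [polarBilin_apply_apply, polarBilin_apply_apply]
    exact H48.QuadWitt.polar_isom (Q := Q) (Q' := Q) (g := T) (fun _ _ => _root_.map_add _ _ _) hiso u v
  have hsymm : ∀ u v, polarBilin Q u v = polarBilin Q v u := by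
    intro u v
    rw [polarBilin_apply_apply, polarBilin_apply_apply, polar_comm]
  have hrefl : (polarBilin Q).IsRefl := fun u v h => by rw [hsymm]; exact h
  have hWnd : Iso.ND (polarBilin Q) W := nd_on.1 hW
  have hTp : T ^ p = 1 := toLin_pow_one hxp
  have hoi : ∀ v ∈ LinearMap.BilinForm.orthogonal (polarBilin Q) W, T v ∈ LinearMap.BilinForm.orthogonal (polarBilin Q) W :=
    Iso.inv_orth hTp hpf.out.pos hB hWi
  have hsub : ∀ U : Submodule F (ι → F), (∀ v ∈ U, T v ∈ U) → U.map (T - 1) ≤ U := by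
    rintro U hU _ ⟨v, hv, rfl⟩
    exact U.sub_mem (hU v hv) hv
  obtain ⟨ν, h1, h2', h3, h4⟩ := OrthUni.core (T - 1) p hN μ hμ hr W _ (hWnd.isCompl hrefl) (hsub W hWi) (hsub _ hoi)
  refine ⟨ν, h1, h2', ?_, h3, ?_⟩
  · intro e he
    by_cases hep : 1 ≤ e ∧ e ≤ p
    · obtain ⟨m, hm⟩ := OrthUni.parity h2 hsymm hB hWi hWnd (e - 1) (by
        obtain ⟨k, hk⟩ := he
        exact ⟨k - 1, by omega⟩)
      rw [Nat.sub_add_cancel hep.1] at hm
      have h5 := h4 e hep.1 hep.2
      rw [hm] at h5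
      push_cast at h5
      refine ⟨m, ?_⟩
      have : ((ν.count e : ℕ) : ℤ) = ((m + m : ℕ) : ℤ) := by push_cast; linarith
      exact_mod_cast this
    · have : e ∉ ν := by
        intro h
        have := hμ e (Multiset.mem_of_le h1 h)
        omega
      rw [Multiset.count_eq_zero_of_notMem this]
      exact Even.zero
  · exact h4 1 le_rfl hpf.out.one_lt.le

/-- **the subspaces of odd dimension**: position of a nonsingular vector -/
theorem odd_pos [Fintype F] (p : ℕ) [hpf : Fact p.Prime] (h2 : (2 : F) ≠ 0) (hp3 : 3 ≤ p) (Q : QuadraticForm F (ι → F))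
    (a : ℕ) (x : GL ι F) (hxp : x ^ p = 1)
    (hiso : ∀ u, Q ((x : Matrix ι ι F) *ᵥ u) = Q u) (hN : (Matrix.toLin' (x : Matrix ι ι F) - 1) ^ p = 0)
    (hr : ∀ k, finrank F (LinearMap.range ((Matrix.toLin' (x : Matrix ι ι F) - 1) ^ k)) = ((Multiset.replicate a 2 + {3, 1}).map (fun e => e - k)).sum)
    (W : Submodule F (ι → F)) (hW : ND (Q.restrict W)) (hWi : ∀ v ∈ W, Matrix.toLin' (x : Matrix ι ι F) v ∈ W) {m : ℕ} (hm : finrank F W = m) (hmo : Odd m) :
    ∃ y ∈ W, Q y ≠ 0 ∧ (∃ Z ≤ W, 2 * finrank F Z + 1 = m ∧ (∀ z ∈ Z, Q z = 0) ∧ (∀ z ∈ Z, polar Q y z = 0)) ∧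
      ((m % 4 = 1 → Matrix.toLin' (x : Matrix ι ι F) y = y) ∧ (m % 4 = 3 → y ∈ LinearMap.range (Matrix.toLin' (x : Matrix ι ι F) - 1))) := by
  have hmem : ∀ e ∈ (Multiset.replicate a 2 + {3, 1} : Multiset ℕ), e = 1 ∨ e = 2 ∨ e = 3 := by
    intro e he
    rw [Multiset.mem_add] at he
    rcases he with he | he
    · exact Or.inr (Or.inl (Multiset.eq_of_mem_replicate he))
    · have : e = 3 ∨ e = 1 := by simpa using he
      tauto
  have hμ : ∀ e ∈ (Multiset.replicate a 2 + {3, 1} : Multiset ℕ), 0 < e ∧ e ≤ p := by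
    intro e he
    rcases hmem e he with rfl | rfl | rfl <;> omega
  obtain ⟨ν, n1, n2, n3, n4, n5⟩ := sub_type3 p h2 Q _ hμ x hxp hiso hN hr W hW hWi
  set T := Matrix.toLin' (x : Matrix ι ι F) with hT
  obtain ⟨s1, s2⟩ := count_le_sub ν _ {1, 2, 3} n1 (by
    intro e he
    rcases hmem e he with rfl | rfl | rfl <;> simp)
  have e3 : ∀ f : ℕ → ℕ, ∑ e ∈ ({1, 2, 3} : Finset ℕ), f e = f 1 + f 2 + f 3 := by
    intro f
    rw [Finset.sum_insert (by simp), Finset.sum_insert (by simp), Finset.sum_singleton, add_assoc]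
  rw [e3] at s1 s2
  have c1 := Multiset.count_le_of_le 1 n1
  have c3 := Multiset.count_le_of_le 3 n1
  have d1 : (Multiset.replicate a 2 + {3, 1} : Multiset ℕ).count 1 = 1 := by
    rw [Multiset.count_add, Multiset.count_replicate, if_neg (by norm_num)]; simp
  have d3 : (Multiset.replicate a 2 + {3, 1} : Multiset ℕ).count 3 = 1 := by
    rw [Multiset.count_add, Multiset.count_replicate, if_neg (by norm_num)]; simp
  rw [d1] at c1
  rw [d3] at c3
  obtain ⟨b, hb⟩ := n3 2 (by decide)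
  rw [n2, hm] at s1
  obtain ⟨l, hl⟩ := hmo
  -- kernel and image
  have hTv : ∀ v, (T - 1) v = T v - v := fun v => rfl
  have hisoT : ∀ v, Q (T v) = Q v := fun v => by rw [hT, Matrix.toLin'_apply]; exact hiso v
  have hB := polar_inv hisoT
  have hort : ∀ u v, T u = u → polar Q u ((T - 1) v) = 0 := by
    intro u v hu
    rw [hTv, sub_eq_add_neg, polar_add_right, polar_neg_right]
    have := hB u v
    rw [hu] at this
    rw [this]; ring
  have r0 := OrthUni.rank_step (T - 1) W 0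
  have w0 : W.map ((T - 1) ^ 0) = W := by rw [pow_zero]; exact Submodule.map_id W
  have w1 : W.map ((T - 1) ^ (0 + 1)) = W.map (T - 1) := by rw [zero_add, pow_one]
  rw [w0, w1, hm, ← n4] at r0
  have g0 : gk (T - 1) W 0 = finrank F (LinearMap.ker (T - 1) ⊓ W : Submodule F (ι → F)) := by rw [gk, w0]
  have g1 : gk (T - 1) W 1 = finrank F (LinearMap.ker (T - 1) ⊓ W.map (T - 1) : Submodule F (ι → F)) := by rw [gk, pow_one]
  have hIW : W.map (T - 1) ≤ W := by
    rintro _ ⟨v, hv, rfl⟩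
    exact W.sub_mem (hWi v hv) hv
  have hkr : ∀ v, v ∈ LinearMap.ker (T - 1) ↔ T v = v := by
    intro v
    rw [LinearMap.mem_ker, hTv, sub_eq_zero]
  have hself : ∀ v, v ∈ LinearMap.ker (T - 1) → v ∈ W.map (T - 1) → Q v = 0 := by
    rintro v hv ⟨w, hw, hwv⟩
    have h3 := hort v w ((hkr v).1 hv)
    rw [hwv, polar_self, ← Nat.cast_smul_eq_nsmul F, smul_eq_mul] at h3
    exact (mul_eq_zero.1 h3).resolve_left (by exact_mod_cast h2)
  rw [g0] at n4 n5
  rw [g1] at n5
  rcases (by omega : (ν.count 1 = 1 ∧ ν.count 3 = 0) ∨ (ν.count 1 = 0 ∧ ν.count 3 = 1)) with ⟨k1, k3⟩ | ⟨k1, k3⟩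
  · rw [k1] at n5
    -- image inside the kernel
    have hle : W.map (T - 1) ≤ LinearMap.ker (T - 1) := by
      have h5 : LinearMap.ker (T - 1) ⊓ W.map (T - 1) = W.map (T - 1) := by
        apply Submodule.eq_of_le_of_finrank_eq inf_le_right
        push_cast at n5
        omega
      rw [← h5]; exact inf_le_left
    have hex : ∃ y ∈ LinearMap.ker (T - 1) ⊓ W, Q y ≠ 0 := by
      by_contra hcon
      push Not at hcon
      have := iso_le hW (L := LinearMap.ker (T - 1) ⊓ W) inf_le_right hcon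
      omega
    obtain ⟨y, ⟨y1, y2⟩, y3⟩ := hex
    refine ⟨y, y2, y3, ⟨W.map (T - 1), hIW, by omega, fun z hz => hself z (hle hz) hz, ?_⟩, fun _ => (hkr y).1 y1, fun h => by omega⟩
    rintro _ ⟨w, hw, rfl⟩
    exact hort y w ((hkr y).1 y1)
  · rw [k1] at n5
    have hle : LinearMap.ker (T - 1) ⊓ W ≤ W.map (T - 1) := by
      have h5 : LinearMap.ker (T - 1) ⊓ W.map (T - 1) = LinearMap.ker (T - 1) ⊓ W := by
        apply Submodule.eq_of_le_of_finrank_eq (inf_le_inf_left _ hIW)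
        push_cast at n5
        omega
      rw [← h5]; exact inf_le_right
    have hex : ∃ y ∈ W.map (T - 1), Q y ≠ 0 := by
      by_contra hcon
      push Not at hcon
      have := iso_le hW (L := W.map (T - 1)) hIW hcon
      omega
    obtain ⟨y, y1, y3⟩ := hex
    refine ⟨y, hIW y1, y3, ⟨LinearMap.ker (T - 1) ⊓ W, inf_le_right, by omega, fun z hz => hself z hz.1 (hle hz), ?_⟩, fun h => by omega, fun _ => ?_⟩
    · intro z hz
      obtain ⟨w, hw, rfl⟩ := y1
      rw [polar_comm]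
      exact hort z w ((hkr z).1 hz.1)
    · obtain ⟨w, hw, rfl⟩ := y1
      exact ⟨w, rfl⟩

/-- **all odd-dimensional invariant nondegenerate subspaces of the same dimension are isometric** -/
theorem odd_same [Fintype F] (p : ℕ) [hpf : Fact p.Prime] (h2 : (2 : F) ≠ 0) (hp3 : 3 ≤ p) (Q : QuadraticForm F (ι → F)) (hQ : ND Q)
    (a : ℕ) (hcι : Fintype.card ι = 2 * a + 4) (x : GL ι F) (hxp : x ^ p = 1)
    (hiso : ∀ u, Q ((x : Matrix ι ι F) *ᵥ u) = Q u) (hN : (Matrix.toLin' (x : Matrix ι ι F) - 1) ^ p = 0)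
    (hr : ∀ k, finrank F (LinearMap.range ((Matrix.toLin' (x : Matrix ι ι F) - 1) ^ k)) = ((Multiset.replicate a 2 + {3, 1}).map (fun e => e - k)).sum)
    (W W' : Submodule F (ι → F)) (hW : ND (Q.restrict W)) (hW' : ND (Q.restrict W')) (hWi : ∀ v ∈ W, Matrix.toLin' (x : Matrix ι ι F) v ∈ W)
    (hWi' : ∀ v ∈ W', Matrix.toLin' (x : Matrix ι ι F) v ∈ W') {m : ℕ} (hm : finrank F W = m) (hm' : finrank F W' = m) (hmo : Odd m) :
    (Q.restrict W).Equivalent (Q.restrict W') := by
  obtain ⟨y, y1, y2, ⟨Z, z1, z2, z3, z4⟩, y3, y4⟩ := odd_pos p h2 hp3 Q a x hxp hiso hN hr W hW hWi hm hmo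
  obtain ⟨y', y1', y2', ⟨Z', z1', z2', z3', z4'⟩, y3', y4'⟩ := odd_pos p h2 hp3 Q a x hxp hiso hN hr W' hW' hWi' hm' hmo
  set T := Matrix.toLin' (x : Matrix ι ι F) with hT
  have hisoT : ∀ v, Q (T v) = Q v := fun v => by rw [hT, Matrix.toLin'_apply]; exact hiso v
  have hTv : ∀ v, (T - 1) v = T v - v := fun v => rfl
  have hB := polar_inv hisoT
  have hort : ∀ u v, T u = u → polar Q u ((T - 1) v) = 0 := by
    intro u v hu
    rw [hTv, sub_eq_add_neg, polar_add_right, polar_neg_right]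
    have := hB u v
    rw [hu] at this
    rw [this]; ring
  have hkr : ∀ v, v ∈ LinearMap.ker (T - 1) ↔ T v = v := by
    intro v
    rw [LinearMap.mem_ker, hTv, sub_eq_zero]
  have hr1 := hr 1
  have hr2 := hr 2
  have hs1 : ((Multiset.replicate a 2 + {3, 1}).map (fun e => e - 1)).sum = a + 2 := by
    rw [Multiset.map_add, Multiset.sum_add, Multiset.map_replicate, Multiset.sum_replicate]; simp
  have hs2 : ((Multiset.replicate a 2 + {3, 1}).map (fun e => e - 2)).sum = 1 := by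
    rw [Multiset.map_add, Multiset.sum_add, Multiset.map_replicate, Multiset.sum_replicate]; simp
  rw [pow_one, hs1] at hr1
  rw [hs2] at hr2
  have hker := LinearMap.finrank_range_add_finrank_ker (T - 1)
  rw [hr1, finrank_fintype_fun_eq_card, hcι] at hker
  have hmm := OrthUni.rank_map (T - 1) (LinearMap.range (T - 1))
  have hm2 : (LinearMap.range (T - 1)).map (T - 1) = LinearMap.range ((T - 1) ^ 2) := by
    rw [pow_two, Module.End.mul_eq_comp, LinearMap.range_comp]
  rw [hm2, hr2, hr1] at hmm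
  have hRt : ∀ r ∈ LinearMap.ker (T - 1) ⊓ LinearMap.range (T - 1), Q r = 0 := by
    rintro r ⟨h3, w, hw⟩
    have h5 := hort r w ((hkr r).1 h3)
    rw [hw, polar_self, ← Nat.cast_smul_eq_nsmul F, smul_eq_mul] at h5
    exact (mul_eq_zero.1 h5).resolve_left (by exact_mod_cast h2)
  have hscal : ∃ s : F, Q y = s ^ 2 * Q y' := by
    rcases (by obtain ⟨l, hl⟩ := hmo; omega : m % 4 = 1 ∨ m % 4 = 3) with h | h
    · refine codim_one (R := LinearMap.ker (T - 1) ⊓ LinearMap.range (T - 1)) (S := LinearMap.ker (T - 1)) inf_le_left (by omega) hRt ?_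
        ((hkr y).2 (y3 h)) ((hkr y').2 (y3' h)) y2'
      rintro r ⟨-, w, rfl⟩ s hs
      exact hort s w ((hkr s).1 hs)
    · refine codim_one (R := LinearMap.ker (T - 1) ⊓ LinearMap.range (T - 1)) (S := LinearMap.range (T - 1)) inf_le_right (by omega) hRt ?_
        (y4 h) (y4' h) y2'
      rintro r ⟨h3, -⟩ _ ⟨w, rfl⟩
      rw [polar_comm]
      exact hort r w ((hkr r).1 h3)
  obtain ⟨l, hl⟩ := hmo
  exact class_eq h2 hW hW' (u := l) (by omega) (by omega) ⟨y, y1, y', y1', y2, y2', hscal, ⟨Z, z1, by omega, z3, z4⟩, ⟨Z', z1', by omega, z3', z4'⟩⟩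

/-- **derangements in even dimension `2d`, `d` even** -/
theorem no_class [Fintype F] (p : ℕ) [hpf : Fact p.Prime] [CharP F p] (hp2 : p ≠ 2) (Q : QuadraticForm F (ι → F)) (hQ : ND Q) (d m : ℕ)
    (hcι : Fintype.card ι = 2 * d) (hd : 3 ≤ d) (hde : Even d) (hm : Odd m)
    (hnil : HasNil Q (Multiset.replicate (d - 2) 2 + {3, 1})) (R : Fm F) (hR : finrank F R.V = m)
    (h : ∀ x : GL ι F, x ∈ Cfsg.Geo.omegaGL (⇑Q) → x ^ p = 1 → (∀ z : F, (x : Matrix ι ι F) ≠ z • (1 : Matrix ι ι F)) →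
      ∃ W ∈ Cl Q R, W.map (Matrix.toLin' (x : Matrix ι ι F)) ≤ W) : False := by
  have h2 := two_ne' (F := F) p hp2
  have hp3 : 3 ≤ p := by
    have := hpf.out.two_le
    omega
  have hcard : Fintype.card F ≠ 2 ∨ Fintype.card ι ≠ 4 := Or.inr (by obtain ⟨k, hk⟩ := hde; omega)
  have hmem : ∀ e ∈ (Multiset.replicate (d - 2) 2 + {3, 1} : Multiset ℕ), e = 1 ∨ e = 2 ∨ e = 3 := by
    intro e he
    rw [Multiset.mem_add] at he
    rcases he with he | he
    · exact Or.inr (Or.inl (Multiset.eq_of_mem_replicate he))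
    · have : e = 3 ∨ e = 1 := by simpa using he
      tauto
  obtain ⟨x, x1, x2, x3, x4, x5, x6⟩ := exists_elt p hp2 Q hQ (Multiset.replicate (d - 2) 2 + {3, 1}) (by
    intro e he
    rcases hmem e he with rfl | rfl | rfl <;> omega) ⟨3, by simp, by norm_num⟩ hnil
  obtain ⟨W1, W1c, W1i⟩ := h x x1 x2 x3
  obtain ⟨ν, hν⟩ := H48.FinFieldSq.exists_not_isSquare h2
  have hν0 : ν ≠ 0 := by rintro rfl; exact hν IsSquare.zero
  obtain ⟨g⟩ := H48.QuadSim.smul_equivalent hQ (m := d) (by rw [finrank_fintype_fun_eq_card, hcι]) hν0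
  have hg : ∀ v, Q (g v) = ν * Q v := fun v => g.map_app v
  -- the conjugate
  set T := Matrix.toLin' (x : Matrix ι ι F) with hT
  have hisoT : ∀ v, Q (T v) = Q v := fun v => by rw [hT, Matrix.toLin'_apply]; exact x4 v
  let gl : (ι → F) ≃ₗ[F] (ι → F) := g.toLinearEquiv
  have hgl : ∀ v, Q (gl v) = ν * Q v := hg
  let f : (ι → F) →ₗ[F] (ι → F) := gl.toLinearMap ∘ₗ T ∘ₗ gl.symm.toLinearMap
  have hf : ∀ v, f v = gl (T (gl.symm v)) := fun v => rfl
  have hfp : ∀ k : ℕ, ∀ v, (f ^ k) v = gl ((T ^ k) (gl.symm v)) := by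
    intro k
    induction k with
    | zero => intro v; rw [pow_zero, pow_zero]; exact (gl.apply_symm_apply v).symm
    | succ k ih =>
      intro v
      rw [pow_succ', pow_succ']
      show f ((f ^ k) v) = gl (T ((T ^ k) (gl.symm v)))
      rw [ih, hf, gl.symm_apply_apply]
  obtain ⟨y, y1, y2⟩ := exists_gl' f hpf.out.pos (by
    apply LinearMap.ext
    intro v
    rw [hfp, toLin_pow_one x2]
    exact gl.apply_symm_apply v)
  have hfiso : ∀ v, Q (f v) = Q v := by
    intro v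
    rw [hf, hgl, hisoT]
    have := hgl (gl.symm v)
    rw [gl.apply_symm_apply] at this
    exact this.symm
  obtain ⟨W2, W2c, W2i⟩ := h y (mem_omega_of_odd Q (nd_iff.1 hQ) hcard ((H17.OrthDet.mem_isometryGroup_iff _ _).mpr (fun v => by
      rw [← Matrix.toLin'_apply, y1, hfiso])) (hpf.out.odd_of_ne_two hp2) y2) y2 (by
    intro z hz
    apply x3 z
    apply Matrix.toLin'.injective
    apply LinearMap.ext
    intro v
    have h3 : f (gl v) = z • gl v := by
      rw [← y1, hz, Matrix.toLin'_apply, Matrix.smul_mulVec, Matrix.one_mulVec]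
    rw [hf, gl.symm_apply_apply, ← _root_.map_smul] at h3
    rw [Matrix.toLin'_apply (z • (1 : Matrix ι ι F)), Matrix.smul_mulVec, Matrix.one_mulVec]
    exact gl.injective h3)
  rw [inv_map] at W1i W2i
  rw [y1] at W2i
  -- pull back
  let W3 : Submodule F (ι → F) := W2.comap gl.toLinearMap
  have hW3 : ∀ v, v ∈ W3 ↔ gl v ∈ W2 := fun v => Iff.rfl
  have hW3i : ∀ v ∈ W3, T v ∈ W3 := by
    intro v hv
    rw [hW3] at hv ⊢
    have := W2i _ hv
    rwa [hf, gl.symm_apply_apply] at this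
  have e3 : (ν • (Q.restrict W3)).Equivalent (Q.restrict W2) := by
    refine ⟨⟨(LinearEquiv.ofSubmodule' gl W2), fun v => ?_⟩⟩
    show Q (gl (v : ι → F)) = ν • Q (v : ι → F)
    rw [hgl]; rfl
  have hd3 : finrank F W3 = m := by
    rw [finrank_eq_of_equivalent e3, Cl.dim W2c, hR]
  have hnd3 : ND (Q.restrict W3) := by
    have h5 := nd_of_equivalent e3.symm (Cl.nd W2c)
    intro v hv
    apply h5 v
    intro w
    have h6 := hv w
    show (ν • Q.restrict W3) (v + w) - (ν • Q.restrict W3) v - (ν • Q.restrict W3) w = 0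
    show ν • (Q.restrict W3) (v + w) - ν • (Q.restrict W3) v - ν • (Q.restrict W3) w = 0
    rw [← smul_sub, ← smul_sub]
    have h7 : (Q.restrict W3) (v + w) - (Q.restrict W3) v - (Q.restrict W3) w = 0 := h6
    rw [h7, smul_zero]
  have e4 := odd_same p h2 hp3 Q hQ (d - 2) (by rw [hcι]; omega) x x2 x4 x5 x6 W3 W1 hnd3 (Cl.nd W1c) hW3i W1i hd3 (by rw [Cl.dim W1c, hR]) hm
  -- conclusion
  have e5 : (ν • R.Q).Equivalent R.Q := by
    have e6 := H48.QuadSim.equivalent_smul (e4.trans (Equivalent.symm W1c)) ν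
    exact (e6.symm.trans e3).trans (Equivalent.symm W2c)
  exact hν (sq_of_smul R.nd (by rw [hR]; exact hm) hν0 e5)

end mat

end H99.OrthUni3
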