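import Mathlib
import Cfsg.Agent.Lib.H99.OrthC2
import Cfsg.Agent.Lib.H99.OrthSiegel
import Cfsg.Agent.Lib.H99.OrthUni6

set_option autoImplicit false
set_option linter.unusedSimpArgs false
set_option linter.unusedSectionVars false
set_option linter.unusedVariables false

/-! An involution of `Ω⁻` in characteristic two whose invariant nondegenerate subspaces of dimension divisible by four are hyperbolic. -/

namespace H99.OrthC2

open Module QuadraticMap H48.QuadSplit H48.QuadStd H96.OeType H99.OrthSS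
open scoped Matrix

universe u

section emb

variable {F : Type u} [Field F] {α β : Type} [Fintype α] [DecidableEq α] [Fintype β] [DecidableEq β]

/-- extension by the identity -/
def emb (g : GL α F) : GL (α ⊕ β) F where
  val := Matrix.fromBlocks (g : Matrix α α F) 0 0 1
  inv := Matrix.fromBlocks ((g⁻¹ : GL α F) : Matrix α α F) 0 0 1
  val_inv := by
    rw [Matrix.fromBlocks_multiply]
    simp only [Matrix.mul_zero, Matrix.zero_mul, add_zero, zero_add, Matrix.mul_one]
    rw [← Units.val_mul, mul_inv_cancel, Units.val_one, Matrix.fromBlocks_one]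
  inv_val := by
    rw [Matrix.fromBlocks_multiply]
    simp only [Matrix.mul_zero, Matrix.zero_mul, add_zero, zero_add, Matrix.mul_one]
    rw [← Units.val_mul, inv_mul_cancel, Units.val_one, Matrix.fromBlocks_one]

def embHom : GL α F →* GL (α ⊕ β) F where
  toFun := emb
  map_one' := by
    apply Units.ext
    show Matrix.fromBlocks ((1 : GL α F) : Matrix α α F) 0 0 1 = _
    rw [Units.val_one, Matrix.fromBlocks_one]; rfl
  map_mul' g h := by
    apply Units.ext
    show Matrix.fromBlocks ((g * h : GL α F) : Matrix α α F) 0 0 1 = Matrix.fromBlocks (g : Matrix α α F) 0 0 1 * Matrix.fromBlocks (h : Matrix α α F) 0 0 1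
    rw [Matrix.fromBlocks_multiply]
    simp only [Matrix.mul_zero, Matrix.zero_mul, add_zero, zero_add, Matrix.mul_one, Units.val_mul]

theorem emb_mulVec (g : GL α F) (v : α ⊕ β → F) :
    ((embHom (β := β) g : GL (α ⊕ β) F) : Matrix (α ⊕ β) (α ⊕ β) F) *ᵥ v = Sum.elim ((g : Matrix α α F) *ᵥ (v ∘ Sum.inl)) (v ∘ Sum.inr) := by
  show Matrix.fromBlocks _ 0 0 1 *ᵥ v = _
  rw [Matrix.fromBlocks_mulVec, Matrix.zero_mulVec, Matrix.zero_mulVec, add_zero, zero_add, Matrix.one_mulVec]

theorem qMinus_split (k : ℕ) (a b : F) (v : (Fin k ⊕ Fin k) ⊕ Fin 2 → F) :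
    qMinus k F a b v = qPlus k F (v ∘ Sum.inl) + (v (.inr 0) ^ 2 + a * v (.inr 0) * v (.inr 1) + b * v (.inr 1) ^ 2) := by
  rw [qMinus_apply, qPlus_apply]; rfl

theorem emb_iso {k : ℕ} {a b : F} {g : GL (Fin k ⊕ Fin k) F} (hg : g ∈ Cfsg.isometryGroup F (⇑(qPlus k F))) :
    embHom (β := Fin 2) g ∈ Cfsg.isometryGroup F (⇑(qMinus k F a b)) := by
  rw [H17.OrthDet.mem_isometryGroup_iff] at hg ⊢
  intro v
  rw [emb_mulVec, qMinus_split, qMinus_split, Sum.elim_comp_inl, hg]
  rfl

theorem emb_omega {k : ℕ} {a b : F} {g : GL (Fin k ⊕ Fin k) F} (hg : g ∈ Cfsg.Geo.omegaGL (⇑(qPlus k F))) :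
    embHom (β := Fin 2) g ∈ Cfsg.Geo.omegaGL (⇑(qMinus k F a b)) := by
  obtain ⟨y, hy, rfl⟩ := hg
  let φ : ↥(Cfsg.isometryGroup F (⇑(qPlus k F))) →* ↥(Cfsg.isometryGroup F (⇑(qMinus k F a b))) :=
    ((embHom (β := Fin 2)).comp (Cfsg.isometryGroup F (⇑(qPlus k F))).subtype).codRestrict _ (fun g => emb_iso g.2)
  refine ⟨φ y, ?_, rfl⟩
  have h1 : φ y ∈ Subgroup.map φ ⁅(⊤ : Subgroup ↥(Cfsg.isometryGroup F (⇑(qPlus k F)))), ⊤⁆ := Subgroup.mem_map_of_mem φ hy
  rw [Subgroup.map_commutator] at h1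
  exact Subgroup.commutator_mono le_top le_top h1

end emb

section rank

variable {F : Type u} [Field F] [Fintype F] [CharP F 2] {V : Type u} [AddCommGroup V] [Module F V] [FiniteDimensional F V]

/-- the rank of `f + 1` is even if no vector is paired with its image -/
theorem rank_even {Q : QuadraticForm F V} (hQ : ND Q) {f : V →ₗ[F] V} (hf : ∀ v, Q (f v) = Q v) (hff : ∀ v, f (f v) = v) (hb : ∀ v, polar Q v (f v) = 0)
    {k : ℕ} (hk : finrank F V = finrank F (fx f) + k) : Even k := by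
  classical
  set N : V →ₗ[F] V := f + LinearMap.id with hN
  have hNv : ∀ v, N v = f v + v := fun v => rfl
  have hker : ∀ v, N v = 0 ↔ f v = v := by
    intro v
    rw [hNv]
    constructor
    · intro h
      have h1 : f v + v + v = v := by rw [h, zero_add]
      rwa [add_assoc, OrthTwo.add_self0 (F := F), add_zero] at h1
    · intro h; rw [h]; exact OrthTwo.add_self0 (F := F) v
  have hNB : ∀ u v, polar Q (N u) v = polar Q u (N v) := by
    intro u v
    rw [hNv, hNv, polar_add_left, polar_add_right, polar_fv hf hff]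
  have hq : ∀ v, polar Q v (N v) = 0 := by
    intro v
    rw [hNv, polar_add_right, hb, polar_self0, add_zero]
  let K := LinearMap.ker N
  have hKfx : K = fx f := by
    ext v
    rw [mem_fx]
    exact hker v
  let β : LinearMap.BilinForm F V := (polarBilin Q).compl₂ N
  have hβ : ∀ u v, β u v = polar Q u (N v) := fun u v => rfl
  have hβa : ∀ v, β v v = 0 := fun v => hq v
  have hβr : β.IsRefl := LinearMap.IsAlt.isRefl (B := β) hβa
  obtain ⟨C, hC⟩ := Submodule.exists_isCompl K
  have hCd : finrank F C = k := by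
    have := Submodule.finrank_add_eq_of_isCompl hC
    rw [← hKfx] at hk
    omega
  refine Iso.even_of_alt hβr k C hCd ?_ (fun x _ => hβa x)
  intro x hx hxy
  have h3 : ∀ y, β x y = 0 := by
    intro y
    obtain ⟨a, b, ha, hb, rfl⟩ := (Submodule.codisjoint_iff_exists_add_eq.1 hC.codisjoint) y
    rw [hβ, _root_.map_add, show N a = 0 from ha, zero_add, ← hβ]
    exact hxy b hb
  have h4 : N x = 0 := by
    apply hQ
    intro y
    rw [hNB, ← hβ, h3]
  exact (Submodule.disjoint_def.1 hC.disjoint) x h4 hx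

end rank

section elt

variable {F : Type u} [Field F] [Fintype F] [CharP F 2]

open H99.OrthSiegel

theorem exists_bad (k : ℕ) (hk : Even k) (hk3 : 3 ≤ k) (a b : F) :
    ∃ x : GL ((Fin k ⊕ Fin k) ⊕ Fin 2) F, x ∈ Cfsg.Geo.omegaGL (⇑(qMinus k F a b)) ∧ x ^ 2 = 1 ∧
      (∀ z : F, (x : Matrix ((Fin k ⊕ Fin k) ⊕ Fin 2) ((Fin k ⊕ Fin k) ⊕ Fin 2) F) ≠ z • (1 : Matrix ((Fin k ⊕ Fin k) ⊕ Fin 2) ((Fin k ⊕ Fin k) ⊕ Fin 2) F)) ∧
      ∀ W : Submodule F ((Fin k ⊕ Fin k) ⊕ Fin 2 → F), ND ((qMinus k F a b).restrict W) → finrank F W % 4 = 0 →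
        (∀ v ∈ W, Matrix.toLin' (x : Matrix ((Fin k ⊕ Fin k) ⊕ Fin 2) ((Fin k ⊕ Fin k) ⊕ Fin 2) F) v ∈ W) → PT ((qMinus k F a b).restrict W) := by
  obtain ⟨y, y1, y2, y3, y4⟩ := exists_sie (F := F) (d := k) 2 hk3
  set Q := qMinus k F a b with hQdef
  have hTv : ∀ v : (Fin k ⊕ Fin k) ⊕ Fin 2 → F, Matrix.toLin' ((embHom (β := Fin 2) y : GL ((Fin k ⊕ Fin k) ⊕ Fin 2) F) : Matrix ((Fin k ⊕ Fin k) ⊕ Fin 2) ((Fin k ⊕ Fin k) ⊕ Fin 2) F) v =
      Sum.elim (sie k F (v ∘ Sum.inl)) (v ∘ Sum.inr) := by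
    intro v
    rw [Matrix.toLin'_apply, emb_mulVec, ← Matrix.toLin'_apply, y4]
  refine ⟨embHom (β := Fin 2) y, emb_omega y1, by rw [← _root_.map_pow, y2, _root_.map_one], ?_, ?_⟩
  · intro z hz
    apply y3 z
    apply Matrix.toLin'.injective
    apply LinearMap.ext
    intro v
    have h1 := hTv (Sum.elim v (fun _ => 0))
    rw [hz, Matrix.toLin'_apply, Matrix.smul_mulVec, Matrix.one_mulVec, Sum.elim_comp_inl] at h1
    rw [y4, Matrix.toLin'_apply, Matrix.smul_mulVec, Matrix.one_mulVec]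
    funext i
    exact (congrFun h1 (Sum.inl i)).symm
  · intro W hW hm hWi
    set T := Matrix.toLin' ((embHom (β := Fin 2) y : GL ((Fin k ⊕ Fin k) ⊕ Fin 2) F) : Matrix ((Fin k ⊕ Fin k) ⊕ Fin 2) ((Fin k ⊕ Fin k) ⊕ Fin 2) F) with hT
    have hTT : ∀ v, T (T v) = v := by
      intro v
      rw [hTv, hTv, Sum.elim_comp_inl, Sum.elim_comp_inr]
      have := sie_pow (F := F) 2 (v ∘ Sum.inl)
      rw [CharP.cast_eq_zero, zero_smul, add_zero, pow_two] at this
      have h2 : sie k F (sie k F (v ∘ Sum.inl)) = v ∘ Sum.inl := this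
      rw [h2]
      exact Sum.elim_comp_inl_inr v
    have hTQ : ∀ v, Q (T v) = Q v := by
      intro v
      rw [hTv, hQdef, qMinus_split, qMinus_split, Sum.elim_comp_inl, sie_iso]; rfl
    -- the singular subspace
    let U : Submodule F ((Fin k ⊕ Fin k) ⊕ Fin 2 → F) :=
      { carrier := {v | (v ∘ Sum.inl) ∈ Us k F ∧ ∀ j, v (Sum.inr j) = 0}
        add_mem' := fun {v w} hv hw => ⟨(Us k F).add_mem hv.1 hw.1, fun j => by show v (Sum.inr j) + w (Sum.inr j) = 0; rw [hv.2, hw.2, add_zero]⟩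
        zero_mem' := ⟨(Us k F).zero_mem, fun j => rfl⟩
        smul_mem' := fun c v hv => ⟨(Us k F).smul_mem c hv.1, fun j => by show c * v (Sum.inr j) = 0; rw [hv.2, mul_zero]⟩ }
    have hU : ∀ v ∈ U, Q v = 0 := by
      intro v hv
      rw [hQdef, qMinus_split, Us_ts hv.1, hv.2, hv.2]; ring
    have hN : ∀ v, T v + v ∈ U := by
      intro v
      have h1 : T v + v = Sum.elim (nil k F (v ∘ Sum.inl)) (fun _ => 0) := by
        rw [hTv, sie_apply]
        funext i
        rcases i with i | i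
        · show (v (Sum.inl i) + nil k F (v ∘ Sum.inl) i) + v (Sum.inl i) = nil k F (v ∘ Sum.inl) i
          have := CharTwo.add_self_eq_zero (v (Sum.inl i))
          linear_combination this
        · show v (Sum.inr i) + v (Sum.inr i) = 0
          exact CharTwo.add_self_eq_zero _
      rw [h1]
      exact ⟨by rw [Sum.elim_comp_inl]; exact nil_mem _, fun j => rfl⟩
    have hker : ∀ v, T v = v → (∀ j, v (Sum.inr j) = 0) → v ∈ U := by
      intro v hv h0
      refine ⟨?_, h0⟩
      rw [hTv] at hv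
      have h1 : sie k F (v ∘ Sum.inl) = v ∘ Sum.inl := by
        funext i
        exact congrFun hv (Sum.inl i)
      rw [sie_apply] at h1
      have h3 : nil k F (v ∘ Sum.inl) = 0 := by
        have := congrArg (fun u => u - (v ∘ Sum.inl)) h1
        simpa using this
      intro i
      have h4 := congrFun h3 (Sum.inl (Fin.rev i))
      rw [nil_inl, Fin.rev_rev] at h4
      refine (mul_eq_zero.1 h4).resolve_left ?_
      unfold sg
      rw [Fin.rev_rev]
      have hi : i ≠ Fin.rev i := by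
        intro h
        have h5 := congrArg Fin.val h
        rw [Fin.val_rev] at h5
        obtain ⟨l, hl⟩ := hk
        have := i.2
        omega
      rcases lt_or_gt_of_ne hi with h | h
      · rw [if_neg (not_lt.2 h.le), if_pos h]; exact neg_ne_zero.2 one_ne_zero
      · rw [if_pos h]; exact one_ne_zero
    by_contra hnpt
    have hle := OrthUni3.iso_le hW (L := W ⊓ U) inf_le_left (fun z hz => hU z hz.2)
    have hne : 2 * finrank F (W ⊓ U : Submodule F ((Fin k ⊕ Fin k) ⊕ Fin 2 → F)) ≠ finrank F W := by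
      intro h
      apply hnpt
      refine ⟨(W ⊓ U).comap W.subtype, fun u hu => hU _ hu.2, ?_⟩
      rw [(Submodule.comapSubtypeEquivOfLe (inf_le_left : W ⊓ U ≤ W)).finrank_eq, h]
    -- the restricted map
    let f : W →ₗ[F] W := T.restrict hWi
    let g : W →ₗ[F] ((Fin k ⊕ Fin k) ⊕ Fin 2 → F) := (T + LinearMap.id).domRestrict W
    have hg : ∀ w : W, g w = T w + w := fun w => rfl
    have h1 := LinearMap.finrank_range_add_finrank_ker g
    have hr : finrank F (LinearMap.range g) ≤ finrank F (W ⊓ U : Submodule F ((Fin k ⊕ Fin k) ⊕ Fin 2 → F)) := by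
      apply Submodule.finrank_mono
      rintro _ ⟨w, rfl⟩
      rw [hg]
      exact ⟨W.add_mem (hWi _ w.2) w.2, hN _⟩
    have hkf : LinearMap.ker g = fx f := by
      ext w
      rw [mem_fx, LinearMap.mem_ker, hg]
      constructor
      · intro h
        apply Subtype.ext
        show T (w : (Fin k ⊕ Fin k) ⊕ Fin 2 → F) = w
        have h3 : T (w : (Fin k ⊕ Fin k) ⊕ Fin 2 → F) + w + w = w := by rw [h, zero_add]
        rwa [add_assoc, OrthTwo.add_self0 (F := F), add_zero] at h3
      · intro h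
        have h3 : T (w : (Fin k ⊕ Fin k) ⊕ Fin 2 → F) = w := congrArg Subtype.val h
        rw [h3]; exact OrthTwo.add_self0 (F := F) _
    have hev : Even (finrank F (LinearMap.range g)) := by
      refine rank_even (Q := Q.restrict W) hW (f := f) (fun v => hTQ v) (fun v => Subtype.ext (hTT v)) ?_ (k := finrank F (LinearMap.range g)) (by rw [← hkf, ← h1]; ring)
      intro v
      show polar Q (v : (Fin k ⊕ Fin k) ⊕ Fin 2 → F) (T v) = 0
      have h5 := hU _ (hN (v : (Fin k ⊕ Fin k) ⊕ Fin 2 → F))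
      rw [QuadraticMap.map_add Q, hTQ, CharTwo.add_self_eq_zero, zero_add, polar_comm] at h5
      exact h5
    -- bound on the kernel
    have hkb : finrank F (LinearMap.ker g) ≤ finrank F (W ⊓ U : Submodule F ((Fin k ⊕ Fin k) ⊕ Fin 2 → F)) + 2 := by
      set K : Submodule F ((Fin k ⊕ Fin k) ⊕ Fin 2 → F) := (LinearMap.ker g).map W.subtype with hK
      have hKd : finrank F K = finrank F (LinearMap.ker g) := Submodule.finrank_map_subtype_eq _ _
      let π : K →ₗ[F] (Fin 2 → F) := (LinearMap.funLeft F F (Sum.inr : Fin 2 → (Fin k ⊕ Fin k) ⊕ Fin 2)).domRestrict K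
      have hπ : ∀ (w : K) (j : Fin 2), π w j = (w : (Fin k ⊕ Fin k) ⊕ Fin 2 → F) (Sum.inr j) := fun w j => rfl
      have h6 := LinearMap.finrank_range_add_finrank_ker π
      have h7 : finrank F (LinearMap.range π) ≤ 2 := by
        have := Submodule.finrank_le (LinearMap.range π)
        rwa [finrank_fintype_fun_eq_card, Fintype.card_fin] at this
      have h8 : finrank F (LinearMap.ker π) ≤ finrank F (W ⊓ U : Submodule F ((Fin k ⊕ Fin k) ⊕ Fin 2 → F)) := by
        have h9 : finrank F ((LinearMap.ker π).map K.subtype : Submodule F ((Fin k ⊕ Fin k) ⊕ Fin 2 → F)) = finrank F (LinearMap.ker π) :=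
          Submodule.finrank_map_subtype_eq _ _
        rw [← h9]
        apply Submodule.finrank_mono
        rintro _ ⟨w, hw, rfl⟩
        obtain ⟨w', hw', hww⟩ := w.2
        have hww' : ((w' : W) : (Fin k ⊕ Fin k) ⊕ Fin 2 → F) = (w : (Fin k ⊕ Fin k) ⊕ Fin 2 → F) := hww
        refine ⟨by show (w : (Fin k ⊕ Fin k) ⊕ Fin 2 → F) ∈ W; rw [← hww']; exact w'.2, hker _ ?_ ?_⟩
        · show T (w : (Fin k ⊕ Fin k) ⊕ Fin 2 → F) = w
          rw [← hww']
          have h10 : w' ∈ fx f := by rw [← hkf]; exact hw'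
          exact congrArg Subtype.val (mem_fx.1 h10)
        · intro j
          have h11 : π w = 0 := hw
          have := congrFun h11 j
          rw [hπ] at this
          exact this
      omega
    obtain ⟨l, hl⟩ := hev
    omega

end elt

end H99.OrthC2
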