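import Mathlib

set_option autoImplicit false
set_option linter.unusedSimpArgs false
set_option linter.unusedSectionVars false
set_option linter.unusedVariables false

/-! Arithmetic of the criterion for totally singular subspaces. -/

namespace H99.TiArith

/-- an invariant totally singular subspace of dimension `m` exists -/
def okT (i n m : ℕ) (τ : ℕ → Prop) (s o : ℕ) : Prop :=
  ∃ κ ≤ s, i * κ ≤ m ∧ 2 * m + i * (2 * s + o) ≤ n + 2 * (i * κ) ∧ (2 * m + i * (2 * s + o) = n + 2 * (i * κ) → τ o)

/-- the isometries that occur -/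
def allT (r i n : ℕ) (τ : ℕ → Prop) (s o : ℕ) : Prop :=
  1 ≤ s + o ∧ i * o ≤ r - 1 ∧ (Odd i → o = 0) ∧ i * (2 * s + o) ≤ n ∧ (i * (2 * s + o) = n → τ o)

theorem dI {i k l : ℤ} (hi : 0 < i) (hl0 : 0 ≤ l) (hl : l < i) (hk0 : 0 ≤ k) (hk : k < i) (D : ℤ) :
    (2 * l < k + i * D ↔ (2 ≤ D ∨ (D = 1 ∧ 2 * l < k + i) ∨ (D = 0 ∧ 2 * l < k))) ∧
    (2 * l = k + i * D ↔ ((D = 1 ∧ 2 * l = k + i) ∨ (D = 0 ∧ 2 * l = k))) := by
  rcases (by omega : D ≤ -1 ∨ D = 0 ∨ D = 1 ∨ 2 ≤ D) with h | h | h | h
  · have h1 : i * D ≤ -i := by nlinarith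
    constructor
    · constructor
      · intro h2; linarith
      · intro h2; omega
    · constructor
      · intro h2; linarith
      · intro h2; omega
  · subst h
    simp
  · subst h
    simp
  · have h1 : 2 * i ≤ i * D := by nlinarith
    constructor
    · constructor
      · intro _; exact Or.inl h
      · intro _; linarith
    · constructor
      · intro h2; linarith
      · intro h2; omega

theorem okT_iff {i n m n' m' k l : ℕ} (hi : 0 < i) (hn : n = i * n' + k) (hm : m = i * m' + l) (hl : l < i) (τ : ℕ → Prop) (s o : ℕ) :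
    okT i n m τ s o ↔ (2 * (l : ℤ) < k + i * ((n' : ℤ) - o - 2 * (max s m' : ℕ))) ∨
      (2 * (l : ℤ) = k + i * ((n' : ℤ) - o - 2 * (max s m' : ℕ)) ∧ τ o) := by
  have hmm : ((max s m' : ℕ) : ℤ) + ((min s m' : ℕ) : ℤ) = s + m' := by
    have : max s m' + min s m' = s + m' := max_add_min s m'
    exact_mod_cast this
  have hi' : (0 : ℤ) < i := by exact_mod_cast hi
  have hD : (i : ℤ) * ((n' : ℤ) - o - 2 * (max s m' : ℕ)) = i * n' - i * o - 2 * (i * s) - 2 * (i * m') + 2 * (i * (min s m' : ℕ)) := by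
    have h1 : ((max s m' : ℕ) : ℤ) = s + m' - ((min s m' : ℕ) : ℤ) := by linarith
    rw [h1]; ring
  rw [hD]
  constructor
  · rintro ⟨κ, h1, h2, h3, h4⟩
    have hκm : κ ≤ m' := by
      by_contra h
      push Not at h
      have : i * (m' + 1) ≤ i * κ := Nat.mul_le_mul_left _ h
      rw [mul_add] at this
      omega
    have hκ : κ ≤ min s m' := le_min h1 hκm
    have h3' : (2 : ℤ) * m + i * (2 * s + o) ≤ n + 2 * (i * κ) := by exact_mod_cast h3
    have hn' : (n : ℤ) = i * n' + k := by exact_mod_cast hn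
    have hm' : (m : ℤ) = i * m' + l := by exact_mod_cast hm
    rw [hn', hm'] at h3'
    rcases hκ.eq_or_lt with h | h
    · rcases h3.eq_or_lt with h5 | h5
      · right
        refine ⟨?_, h4 h5⟩
        have h5' : (2 : ℤ) * m + i * (2 * s + o) = n + 2 * (i * κ) := by exact_mod_cast h5
        rw [hn', hm'] at h5'
        rw [← h]
        linarith
      · left
        have h5' : (2 : ℤ) * m + i * (2 * s + o) < n + 2 * (i * κ) := by exact_mod_cast h5
        rw [hn', hm'] at h5'
        rw [← h]
        linarith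
    · left
      have h6 : (i : ℤ) * κ + i ≤ i * (min s m' : ℕ) := by
        have : i * (κ + 1) ≤ i * min s m' := Nat.mul_le_mul_left _ h
        rw [mul_add, mul_one] at this
        exact_mod_cast this
      linarith
  · intro h
    have hn' : (n : ℤ) = i * n' + k := by exact_mod_cast hn
    have hm' : (m : ℤ) = i * m' + l := by exact_mod_cast hm
    refine ⟨min s m', min_le_left _ _, ?_, ?_, ?_⟩
    · have : i * min s m' ≤ i * m' := Nat.mul_le_mul_left _ (min_le_right _ _)
      omega
    · have : (2 : ℤ) * m + i * (2 * s + o) ≤ n + 2 * (i * (min s m' : ℕ)) := by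
        rw [hn', hm']
        rcases h with h | ⟨h, -⟩ <;> linarith
      exact_mod_cast this
    · intro h5
      have h5' : (2 : ℤ) * m + i * (2 * s + o) = n + 2 * (i * (min s m' : ℕ)) := by exact_mod_cast h5
      rw [hn', hm'] at h5'
      rcases h with h | ⟨-, h⟩
      · exfalso; linarith
      · exact h

theorem par2 {τ : ℕ → Prop} (h2 : ∀ o, τ (o + 2) ↔ τ o) (a j : ℕ) : τ (a + 2 * j) ↔ τ a := by
  induction j with
  | zero => simp
  | succ j ih => rw [← ih, show a + 2 * (j + 1) = (a + 2 * j) + 2 by ring, h2]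

/-- **the even case** -/
theorem even_case {r i t n m n' m' k l : ℕ} (hi : 0 < i) (he : Even i) (ht : i * t = r - 1) (ht1 : 1 ≤ t) (him : i ≤ m) (hmn : 2 * m ≤ n)
    (hn : n = i * n' + k) (hk : k < i) (hm : m = i * m' + l) (hl : l < i) {τ : ℕ → Prop} (h2 : ∀ o, τ (o + 2) ↔ τ o)
    (h1 : ¬ τ n' → τ (n' + 1)) :
    (∀ s o, allT r i n τ s o → okT i n m τ s o) ↔
      (t + 2 * m' ≤ n' ∧ ((2 * l ≤ i ∧ k = 0 ∧ ¬ τ n' ∧ t + 2 * m' < n') ∨ (2 * l ≤ k ∧ τ n') ∨ (2 * l < k ∧ ¬ τ n'))) := by
  have hnodd : ¬ Odd i := Nat.not_odd_iff_even.2 he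
  have hm1 : 1 ≤ m' := by
    by_contra h
    have : m' = 0 := by omega
    rw [this, mul_zero] at hm
    omega
  have hnm : 2 * m' ≤ n' := by
    by_contra h
    push Not at h
    have h3 : i * (n' + 1) ≤ i * (2 * m') := Nat.mul_le_mul_left _ h
    have h4 : i * (2 * m') = 2 * (i * m') := by ring
    rw [mul_add, mul_one] at h3
    omega
  have hdI := fun D => dI (i := (i : ℤ)) (k := (k : ℤ)) (l := (l : ℤ)) (by exact_mod_cast hi) (by positivity) (by exact_mod_cast hl) (by positivity)
    (by exact_mod_cast hk) D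
  have hall : ∀ s o, allT r i n τ s o ↔ (1 ≤ s + o ∧ o ≤ t ∧ 2 * s + o ≤ n' ∧ (2 * s + o = n' → k = 0 → τ o)) := by
    intro s o
    constructor
    · rintro ⟨a1, a2, -, a4, a5⟩
      refine ⟨a1, ?_, ?_, ?_⟩
      · rw [← ht] at a2
        exact Nat.le_of_mul_le_mul_left a2 hi
      · by_contra h
        push Not at h
        have h3 : i * (n' + 1) ≤ i * (2 * s + o) := Nat.mul_le_mul_left _ h
        rw [mul_add, mul_one] at h3
        omega
      · intro h3 h4
        apply a5
        rw [h3, hn, h4, add_zero]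
    · rintro ⟨a1, a2, a3, a4⟩
      refine ⟨a1, ?_, fun h => absurd h hnodd, ?_, ?_⟩
      · rw [← ht]; exact Nat.mul_le_mul_left _ a2
      · have := Nat.mul_le_mul_left i a3
        omega
      · intro h3
        have h4 : 2 * s + o = n' := by
          by_contra hne
          have h5 : 2 * s + o + 1 ≤ n' := by omega
          have h6 := Nat.mul_le_mul_left i h5
          rw [mul_add, mul_one] at h6
          omega
        apply a4 h4
        rw [h4] at h3
        omega
  constructor
  · intro H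
    have H' : ∀ s o, 1 ≤ s + o → o ≤ t → 2 * s + o ≤ n' → (2 * s + o = n' → k = 0 → τ o) →
        (2 * (l : ℤ) < k + i * ((n' : ℤ) - o - 2 * (max s m' : ℕ))) ∨ (2 * (l : ℤ) = k + i * ((n' : ℤ) - o - 2 * (max s m' : ℕ)) ∧ τ o) := by
      intro s o b1 b2 b3 b4
      exact (okT_iff hi hn hm hl τ s o).1 (H s o ((hall s o).2 ⟨b1, b2, b3, b4⟩))
    have hD : ∀ s o, 1 ≤ s + o → o ≤ t → 2 * s + o ≤ n' → (2 * s + o = n' → k = 0 → τ o) → o + 2 * (max s m') ≤ n' := by
      intro s o b1 b2 b3 b4
      rcases H' s o b1 b2 b3 b4 with h | ⟨h, -⟩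
      · rcases (hdI _).1.1 h with h | ⟨h, -⟩ | ⟨h, -⟩ <;> omega
      · rcases (hdI _).2.1 h with ⟨h, -⟩ | ⟨h, -⟩ <;> omega
    have hstep1 : t + 2 * m' ≤ n' := by
      by_contra hcon
      push Not at hcon
      by_cases hsp : n' ≤ t ∧ k = 0 ∧ ¬ τ n'
      · obtain ⟨c1, c2, c3⟩ := hsp
        have := hD 0 (n' - 1) (by omega) (by omega) (by omega) (by intro h; omega)
        rw [Nat.zero_max] at this
        omega
      · have h3 : min t n' = t ∨ min t n' = n' := by omega
        have := hD 0 (min t n') (by omega) (by omega) (by omega) (by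
          intro h4 h5
          have h6 : min t n' = n' := by omega
          rw [h6]
          by_contra h7
          exact hsp ⟨by omega, h5, h7⟩)
        rw [Nat.zero_max] at this
        omega
    refine ⟨hstep1, ?_⟩
    by_cases hsp : k = 0 ∧ ¬ τ n'
    · left
      obtain ⟨c2, c3⟩ := hsp
      -- 2 l ≤ i
      obtain ⟨s, o, hso, ho⟩ : ∃ s o, 2 * s + o + 1 = n' ∧ o ≤ 1 := ⟨(n' - 1) / 2, (n' - 1) % 2, by omega, by omega⟩
      have hs : m' ≤ s := by omega
      have hmx : max s m' = s := max_eq_left hs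
      have h3 := H' s o (by omega) (by omega) (by omega) (by intro h; omega)
      rw [hmx] at h3
      have hD1 : (n' : ℤ) - o - 2 * (s : ℕ) = 1 := by omega
      rw [hD1] at h3
      refine ⟨by rcases h3 with h | ⟨h, -⟩ <;> (rw [mul_one] at h; omega), c2, c3, ?_⟩
      rcases hstep1.eq_or_lt with heq | hlt
      · exfalso
        have h4 := H' (m' - 1) t (by omega) le_rfl (by omega) (by intro h; omega)
        have hmx2 : max (m' - 1) m' = m' := max_eq_right (by omega)
        rw [hmx2] at h4
        have hD0 : (n' : ℤ) - t - 2 * (m' : ℕ) = 0 := by omega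
        rw [hD0, mul_zero] at h4
        rcases h4 with h | ⟨-, h⟩
        · omega
        · apply c3
          rw [← heq, par2 h2]
          exact h
      · exact hlt
    · right
      obtain ⟨s, o, hso, ho⟩ : ∃ s o, 2 * s + o = n' ∧ o ≤ 1 := ⟨n' / 2, n' % 2, by omega, by omega⟩
      have hs : m' ≤ s := by omega
      have hmx : max s m' = s := max_eq_left hs
      have hτ : τ n' ↔ τ o := by rw [← hso, add_comm, par2 h2]
      have h3 := H' s o (by omega) (by omega) (by omega) (by
        intro _ h5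
        rw [← hτ]
        by_contra h6
        exact hsp ⟨h5, h6⟩)
      rw [hmx] at h3
      have hD0 : (n' : ℤ) - o - 2 * (s : ℕ) = 0 := by omega
      rw [hD0, mul_zero] at h3
      by_cases hn'τ : τ n'
      · left
        exact ⟨by rcases h3 with h | ⟨h, -⟩ <;> omega, hn'τ⟩
      · right
        refine ⟨?_, hn'τ⟩
        rcases h3 with h | ⟨-, h⟩
        · omega
        · exact absurd (hτ.2 h) hn'τ
  · rintro ⟨g1, g2⟩ s o hso
    obtain ⟨a1, a2, a3, a4⟩ := (hall s o).1 hso
    rw [okT_iff hi hn hm hl τ s o, (hdI _).1, (hdI _).2]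
    have hmx : max s m' = s ∨ max s m' = m' := by omega
    have hmx1 : s ≤ max s m' := le_max_left _ _
    have hmx2 : m' ≤ max s m' := le_max_right _ _
    obtain ⟨M, hM⟩ : ∃ M, max s m' = M := ⟨_, rfl⟩
    rw [hM] at hmx hmx1 hmx2 ⊢
    have hD : o + 2 * M ≤ n' := by rcases hmx with h | h <;> omega
    rcases (by omega : n' = o + 2 * M ∨ n' = o + 2 * M + 1 ∨ o + 2 * M + 2 ≤ n') with h | h | h
    · have hτ : τ n' ↔ τ o := by rw [h, par2 h2]
      have hD0 : (n' : ℤ) - o - 2 * (M : ℕ) = 0 := by omega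
      rcases g2 with ⟨c1, c2, c3, c4⟩ | ⟨c1, c2⟩ | ⟨c1, c2⟩
      · exfalso
        rcases hmx with h5 | h5
        · exact c3 (hτ.2 (a4 (by omega) c2))
        · omega
      · rcases c1.eq_or_lt with h6 | h6
        · right
          exact ⟨Or.inr ⟨hD0, by omega⟩, hτ.1 c2⟩
        · left; right; right
          exact ⟨hD0, by omega⟩
      · left; right; right
        exact ⟨hD0, by omega⟩
    · have hτ : τ (n' + 1) ↔ τ o := by rw [h, show o + 2 * M + 1 + 1 = o + 2 * (M + 1) by ring, par2 h2]
      have hD1 : (n' : ℤ) - o - 2 * (M : ℕ) = 1 := by omega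
      rcases g2 with ⟨c1, c2, c3, c4⟩ | ⟨c1, c2⟩ | ⟨c1, c2⟩
      · rcases c1.eq_or_lt with h6 | h6
        · right
          exact ⟨Or.inl ⟨hD1, by omega⟩, hτ.1 (h1 c3)⟩
        · left; right; left
          exact ⟨hD1, by omega⟩
      · left; right; left
        exact ⟨hD1, by omega⟩
      · left; right; left
        exact ⟨hD1, by omega⟩
    · left; left
      omega

/-- **the odd case** -/
theorem odd_case {r i n m N m' k l : ℕ} (hi : 0 < i) (ho : Odd i) (him : i ≤ m) (hmn : 2 * m ≤ n)
    (hn : n = 2 * i * N + k) (hk : k < 2 * i) (hm : m = i * m' + l) (hl : l < i) {τ : ℕ → Prop} (hmn' : 2 * m = n → τ 0) :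
    (∀ s o, allT r i n τ s o → okT i n m τ s o) ↔ ((2 * l ≤ k ∧ τ 0) ∨ ((k = 0 ∨ 2 * l < k) ∧ ¬ τ 0)) := by
  have hm1 : 1 ≤ m' := by
    by_contra h
    have : m' = 0 := by omega
    rw [this, mul_zero] at hm
    omega
  have hnm : m' ≤ N := by
    by_contra h
    push Not at h
    have h3 : 2 * i * (N + 1) ≤ 2 * i * m' := Nat.mul_le_mul_left _ h
    have h4 : 2 * i * m' = 2 * (i * m') := by ring
    rw [mul_add, mul_one] at h3
    omega
  have hall : ∀ s o, allT r i n τ s o ↔ (o = 0 ∧ 1 ≤ s ∧ s ≤ N ∧ (s = N → k = 0 → τ 0)) := by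
    intro s o
    constructor
    · rintro ⟨a1, a2, a3, a4, a5⟩
      have ho0 := a3 ho
      subst ho0
      have e : i * (2 * s + 0) = 2 * i * s := by ring
      rw [e] at a4 a5
      refine ⟨rfl, by omega, ?_, ?_⟩
      · by_contra h
        push Not at h
        have h3 : 2 * i * (N + 1) ≤ 2 * i * s := Nat.mul_le_mul_left _ h
        rw [mul_add, mul_one] at h3
        omega
      · intro h3 h4
        apply a5
        rw [h3, hn, h4, add_zero]
    · rintro ⟨rfl, a2, a3, a4⟩
      have e : i * (2 * s + 0) = 2 * i * s := by ring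
      have h5 := Nat.mul_le_mul_left (2 * i) a3
      refine ⟨by omega, by rw [mul_zero]; exact Nat.zero_le _, fun _ => rfl, by rw [e]; omega, ?_⟩
      rw [e]
      intro h3
      have h4 : s = N := by
        by_contra hne
        have h5 : s + 1 ≤ N := by omega
        have h6 := Nat.mul_le_mul_left (2 * i) h5
        rw [mul_add, mul_one] at h6
        omega
      apply a4 h4
      rw [h4] at h3
      omega
  constructor
  · intro H
    by_cases hsp : k = 0 ∧ ¬ τ 0
    · exact Or.inr ⟨Or.inl hsp.1, hsp.2⟩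
    · obtain ⟨κ, c1, c2, c3, c4⟩ := H N 0 ((hall N 0).2 ⟨rfl, by omega, le_rfl, fun _ h5 => by
        by_contra h6
        exact hsp ⟨h5, h6⟩⟩)
      have hκm : κ ≤ m' := by
        by_contra h
        push Not at h
        have : i * (m' + 1) ≤ i * κ := Nat.mul_le_mul_left _ h
        rw [mul_add] at this
        omega
      have h5 : i * κ ≤ i * m' := Nat.mul_le_mul_left _ hκm
      have e : i * (2 * N + 0) = 2 * i * N := by ring
      rw [e] at c3 c4
      have h6 : 2 * l ≤ k := by omega
      by_cases hτ : τ 0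
      · exact Or.inl ⟨h6, hτ⟩
      · right
        refine ⟨Or.inr ?_, hτ⟩
        rcases h6.eq_or_lt with h7 | h7
        · exfalso
          apply hτ
          apply c4
          omega
        · exact h7
  · intro hR s o hso
    obtain ⟨rfl, a2, a3, a4⟩ := (hall s o).1 hso
    have e : i * (2 * s + 0) = 2 * (i * s) := by ring
    refine ⟨min s m', min_le_left _ _, ?_, ?_⟩
    · have : i * min s m' ≤ i * m' := Nat.mul_le_mul_left _ (min_le_right _ _)
      omega
    · rw [e]
      have e2 : 2 * i * N = 2 * (i * N) := by ring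
      rw [e2] at hn
      rcases Nat.le_total s m' with h | h
      · -- s ≤ m'
        rw [min_eq_left h]
        rcases (by omega : m' + 1 ≤ N ∨ m' = N) with h3 | h3
        · have h4 := Nat.mul_le_mul_left i h3
          rw [mul_add, mul_one] at h4
          exact ⟨by omega, fun h5 => by exfalso; omega⟩
        · rw [h3] at hm
          exact ⟨by omega, fun h5 => hmn' (by omega)⟩
      · rw [min_eq_right h]
        rcases (by omega : s + 1 ≤ N ∨ s = N) with h3 | h3
        · have h4 := Nat.mul_le_mul_left i h3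
          rw [mul_add, mul_one] at h4
          exact ⟨by omega, fun h5 => by exfalso; omega⟩
        · rw [h3]
          rcases hR with ⟨g1, g2⟩ | ⟨g1, g2⟩
          · exact ⟨by omega, fun _ => g2⟩
          · rcases g1 with g1 | g1
            · exact absurd (a4 h3 g1) g2
            · exact ⟨by omega, fun h5 => by exfalso; omega⟩

end H99.TiArith
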