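import Mathlib
import Cfsg.Agent.Lib.H99.OrthTi
import Cfsg.Agent.Lib.H99.TiArith

set_option autoImplicit false
set_option linter.unusedSimpArgs false
set_option linter.unusedSectionVars false
set_option linter.unusedVariables false

/-! Totally singular invariant subspaces: the criterion and the divisibility argument. -/

namespace H99.OrthTi

open Module QuadraticMap H48.QuadSplit H48.QuadStd H96.OeType H99.OrthSS H99.TiArith

universe u

variable {F : Type u} [Field F] [Fintype F] {r : ℕ}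

/-- the type condition -/
def tau {V : Type u} [AddCommGroup V] [Module F V] (Q : QuadraticForm F V) (i : ℕ) (o : ℕ) : Prop := PT Q ↔ (Odd i ∨ Even o)

theorem type_fx {V : Type u} [AddCommGroup V] [Module F V] [FiniteDimensional F V] {Q : QuadraticForm F V} (hQ : ND Q)
    (hr : r.Prime) (hr2 : r ≠ 2) (hrq : ¬ r ∣ Fintype.card F) (f : V →ₗ[F] V) (hf : ∀ v, Q (f v) = Q v) (hfr : f ^ r = 1)
    {s o : ℕ} (hd : finrank F (fx f) + oi F r * (2 * s + o) = finrank F V) (hodd : Odd (oi F r) → o = 0) :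
    (PT (Q.restrict (orth Q (fx f))) ↔ (Odd (oi F r) ∨ Even o)) ∧
    ∀ j, finrank F (fx f) = 2 * j → (PT Q ↔ (PT (Q.restrict (fx f)) ↔ (Odd (oi F r) ∨ Even o))) := by
  have hC := fx_nd hQ (rF hr hrq) f hf hfr
  obtain ⟨s', s1, s2, -⟩ := blocks hQ hr hr2 hrq f hf hfr
  have hty : PT (Q.restrict (orth Q (fx f))) ↔ (Odd (oi F r) ∨ Even o) := by
    rw [s2]
    have hj : oi F r * (2 * s + o) = cc (oi F r) * s' := by omega
    rcases Nat.even_or_odd (oi F r) with he | ho'
    · rw [cc_even he] at hj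
      have hj : 2 * s + o = s' := Nat.eq_of_mul_eq_mul_left (oi_pos (F := F) hr hrq) hj
      rw [← hj, Nat.even_add]
      have h2 : Even (2 * s) := even_two_mul s
      simp only [h2, true_iff]
    · exact ⟨fun _ => Or.inl ho', fun _ => Or.inl ho'⟩
  refine ⟨hty, fun j hj => ?_⟩
  obtain ⟨ec, hec⟩ := even_cc (oi F r)
  have h1 : cc (oi F r) * s' = 2 * (ec * s') := by rw [hec]; ring
  rw [← hty]
  exact pt_split_iff hQ hC (m := j) (m' := j + ec * s') hj (by omega)

theorem tcomm {A B C : Prop} (h : A ↔ (B ↔ C)) : B ↔ (A ↔ C) := by tauto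

section mat

variable {ι : Type} [Fintype ι] [DecidableEq ι]

/-- **core criterion** -/
theorem core_ti (hr : r.Prime) (hr2 : r ≠ 2) (hrq : ¬ r ∣ Fintype.card F) {Q : QuadraticForm F (ι → F)} (hQ : ND Q)
    (hcard : Fintype.card F ≠ 2 ∨ Fintype.card ι ≠ 4) (m : ℕ) :
    (∀ x : GL ι F, x ∈ Cfsg.Geo.omegaGL (⇑Q) → x ^ r = 1 → x ≠ 1 →
      ∃ W : Submodule F (ι → F), (finrank F W = m ∧ ∀ w ∈ W, Q w = 0) ∧ W.map (Matrix.toLin' (x : Matrix ι ι F)) ≤ W) ↔
      ∀ s o, allT r (oi F r) (Fintype.card ι) (tau Q (oi F r)) s o → okT (oi F r) (Fintype.card ι) m (tau Q (oi F r)) s o := by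
  have hi0 := oi_pos (F := F) hr hrq
  have hdim : finrank F (ι → F) = Fintype.card ι := finrank_fintype_fun_eq_card F
  constructor
  · rintro H s o ⟨a1, a2, a3, a4, a5⟩
    obtain ⟨f, f1, f2, f3, f4⟩ := realize_ti hr hr2 hrq hQ s o a2 a3 (by rw [hdim]; exact a4) (by rw [hdim]; exact a5)
    obtain ⟨x, x1, x2⟩ := exists_gl' f hr.pos f2
    have hx : x ∈ Cfsg.isometryGroup F (⇑Q) := (H17.OrthDet.mem_isometryGroup_iff _ _).mpr (fun v => by
      rw [← Matrix.toLin'_apply, x1, f1])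
    obtain ⟨W, W1, W2⟩ := H x (OrthUni3.mem_omega_of_odd Q (nd_iff.1 hQ) hcard hx (hr.odd_of_ne_two hr2) x2) x2 (by
      rintro rfl
      rw [Units.val_one, Matrix.toLin'_one] at x1
      have h1 : fx f = ⊤ := by
        ext v
        rw [mem_fx, ← x1]
        exact ⟨fun _ => trivial, fun _ => rfl⟩
      rw [h1, finrank_top] at f3
      have h2 : 0 < oi F r * (2 * s + o) := Nat.mul_pos hi0 (by omega)
      omega)
    have W3 : ∀ v ∈ W, f v ∈ W := by rw [← x1]; exact inv_map.1 W2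
    obtain ⟨k, j, ⟨L, l1, l2, l3, l4⟩, k1, k2, k3, -⟩ := ts_nec hQ hr hrq f f1 f2 W3 W1.2
    have hLw := f4 L l2 (fun u hu v hv => by
      rw [polar, W1.2 _ (W.add_mem (l1 hu) (l1 hv)), W1.2 _ (l1 hu), W1.2 _ (l1 hv)]; ring) l3
    rw [l4] at hLw
    have hks : k ≤ s := Nat.le_of_mul_le_mul_left hLw hi0
    rw [W1.1] at k1
    rw [hdim] at f3
    refine ⟨k, hks, by omega, by omega, ?_⟩
    intro heq
    have h2j : 2 * j = finrank F (fx f) := by omega
    have h3 := (type_fx hQ hr hr2 hrq f f1 f2 (by rw [hdim]; exact f3) a3).2 j h2j.symm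
    exact (tcomm h3).1 (k3 h2j)
  · intro H x hx hxr hx1
    have hiso : ∀ v, Q (Matrix.toLin' (x : Matrix ι ι F) v) = Q v := by
      intro v
      rw [Matrix.toLin'_apply]
      obtain ⟨y, _, rfl⟩ := hx
      exact (H17.OrthDet.mem_isometryGroup_iff _ _).mp y.2 v
    have hTr := toLin_pow_one hxr
    obtain ⟨s, o, s1, s2, s3, s4, s5⟩ := struct_ti hQ hr hr2 hrq _ hiso hTr
    have s1' := s1
    rw [hdim] at s1
    have hs : 1 ≤ s + o := by
      by_contra hs
      have e1 : s = 0 := by omega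
      have e2 : o = 0 := by omega
      rw [e1, e2] at s1'
      have := Submodule.eq_top_of_finrank_eq (K := F) (S := fx (Matrix.toLin' (x : Matrix ι ι F))) (by simpa using s1')
      apply hx1
      apply Units.ext
      apply Matrix.toLin'.injective
      rw [Units.val_one, Matrix.toLin'_one]
      apply LinearMap.ext
      intro v
      exact mem_fx.1 (by rw [this]; trivial)
    have hall : allT r (oi F r) (Fintype.card ι) (tau Q (oi F r)) s o := by
      refine ⟨hs, s2, s3, by omega, fun h => ?_⟩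
      have h0 : finrank F (fx (Matrix.toLin' (x : Matrix ι ι F))) = 0 := by omega
      have h3 := (type_fx hQ hr hr2 hrq _ hiso hTr s1' s3).2 0 (by omega)
      exact (tcomm h3).1 ⟨⊥, by
        intro u hu
        rw [(Submodule.mem_bot F).1 hu]; exact QuadraticMap.map_zero _, by rw [finrank_bot, h0]⟩
    obtain ⟨κ, c1, c2, c3, c4⟩ := H s o hall
    obtain ⟨L, l1, l2, l3, l4⟩ := s5 κ c1
    obtain ⟨W, w1, w2, w3⟩ := ts_suf hQ hr hrq _ hiso hTr l1 l2 l3 (j := m - oi F r * κ) (by omega) (by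
      intro h
      have h3 := (type_fx hQ hr hr2 hrq _ hiso hTr s1' s3).2 (m - oi F r * κ) h.symm
      exact (tcomm h3).2 (c4 (by omega)))
    exact ⟨W, ⟨by omega, w2⟩, inv_map.2 w3⟩

/-- an isometry of order `r` with small fixed space -/
theorem exists_small (hr : r.Prime) (hr2 : r ≠ 2) (hrq : ¬ r ∣ Fintype.card F) {V : Type u} [AddCommGroup V] [Module F V] [FiniteDimensional F V]
    {Q : QuadraticForm F V} (hQ : ND Q) (hι : 0 < finrank F V) :
    ∃ f : V →ₗ[F] V, (∀ v, Q (f v) = Q v) ∧ f ^ r = 1 ∧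
      (finrank F (fx f) < cc (oi F r) ∨ (finrank F (fx f) = cc (oi F r) ∧ ¬ (PT (Q.restrict (fx f)) ↔ Odd (oi F r)))) := by
  have hcc := cc_pos (F := F) hr hrq
  obtain ⟨c, hc⟩ : ∃ c, cc (oi F r) = c := ⟨_, rfl⟩
  obtain ⟨n, hn⟩ : ∃ n, finrank F V = n := ⟨_, rfl⟩
  rw [hc] at hcc
  rw [hn] at hι
  rw [hc]
  have hnk := Nat.div_add_mod n c
  have hkc := Nat.mod_lt n hcc
  by_cases hal : c * (n / c) = n → (PT Q ↔ (Odd (oi F r) ∨ Even (n / c)))
  · obtain ⟨f, f1, f2, f3⟩ := realize hr hr2 hrq hQ (n / c) (by rw [hn, hc]; omega) (by rw [hn, hc]; exact hal)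
    exact ⟨f, f1, f2, Or.inl (by rw [hn, hc] at f3; omega)⟩
  · rw [Classical.not_imp] at hal
    obtain ⟨h1, h2⟩ := hal
    have hpos : 1 ≤ n / c := by
      by_contra h
      have h0 : n / c = 0 := Nat.lt_one_iff.1 (not_le.1 h)
      rw [h0, mul_zero] at h1
      omega
    have hsub : c * (n / c - 1) + c = n := by
      obtain ⟨k, hk⟩ : ∃ k, n / c = k + 1 := ⟨n / c - 1, (Nat.sub_add_cancel hpos).symm⟩
      rw [hk, Nat.add_sub_cancel]
      rw [hk] at h1
      rw [← h1]; ring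
    obtain ⟨f, f1, f2, f3⟩ := realize hr hr2 hrq hQ (n / c - 1) (by rw [hn, hc]; omega) (by rw [hn, hc]; intro h; omega)
    rw [hn, hc] at f3
    have hfd : finrank F (fx f) = c := by omega
    refine ⟨f, f1, f2, Or.inr ⟨hfd, ?_⟩⟩
    have hCnd := fx_nd hQ (rF hr hrq) f f1 f2
    obtain ⟨ec, hec⟩ := even_cc (oi F r)
    rw [hc] at hec
    obtain ⟨s', s1, s2, -⟩ := blocks hQ hr hr2 hrq f f1 f2
    have : s' = n / c - 1 := by
      have : c * s' = c * (n / c - 1) := by rw [hn, hc] at s1; omega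
      exact Nat.eq_of_mul_eq_mul_left hcc this
    subst this
    have h3 := pt_split_iff hQ hCnd (m := ec) (m' := ec * (n / c)) (by rw [hfd, hec]; ring) (by
      have h5 : c * (n / c) = 2 * (ec * (n / c)) := by
        generalize n / c = y
        rw [hec]; ring
      rw [hn]; omega)
    rw [s2] at h3
    obtain ⟨k, hk⟩ : ∃ k, n / c = k + 1 := ⟨n / c - 1, (Nat.sub_add_cancel hpos).symm⟩
    rw [hk, Nat.add_sub_cancel] at h3
    rw [hk, Nat.even_add_one] at h2
    exact l6 h2 h3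

/-- totally singular subspaces of dimension `m` -/
def TS {V : Type u} [AddCommGroup V] [Module F V] (Q : QuadraticForm F V) (m : ℕ) : Set (Submodule F V) :=
  {W | finrank F W = m ∧ ∀ w ∈ W, Q w = 0}

theorem TS.map {V : Type u} [AddCommGroup V] [Module F V] {Q : QuadraticForm F V} {m : ℕ} {W : Submodule F V} (hW : W ∈ TS Q m)
    (g : V →ₗ[F] V) (hg : ∀ v, Q (g v) = Q v) (hinj : Function.Injective g) : W.map g ∈ TS Q m := by
  refine ⟨?_, ?_⟩
  · rw [← hW.1]
    exact (Submodule.equivMapOfInjective g hinj W).finrank_eq.symm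
  · rintro _ ⟨w, hw, rfl⟩
    rw [hg]; exact hW.2 w hw

theorem TS.dvd {V : Type u} [AddCommGroup V] [Module F V] [FiniteDimensional F V] {Q : QuadraticForm F V} (hQ : ND Q) (m : ℕ)
    (hne : (TS Q m).Nonempty) : Nat.card (TS Q m) ∣ Nat.card (H7.Hyp.O (F := F) Q) := by
  classical
  have : Finite V := Module.finite_of_finite F
  let G := H7.Hyp.O (F := F) (⇑Q)
  let act : MulAction G (TS Q m) :=
    { smul := fun g W => ⟨W.1.map (g.1 : V →ₗ[F] V), TS.map W.2 _ g.2 (LinearEquiv.injective g.1)⟩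
      one_smul := fun W => Subtype.ext (by
        show W.1.map ((1 : G).1 : V →ₗ[F] V) = W.1
        exact Submodule.map_id W.1)
      mul_smul := fun g h W => Subtype.ext (by
        show W.1.map ((g * h).1 : V →ₗ[F] V) = (W.1.map (h.1 : V →ₗ[F] V)).map (g.1 : V →ₗ[F] V)
        rw [← Submodule.map_comp]; rfl) }
  obtain ⟨W0, hW0⟩ := hne
  have htrans : MulAction.orbit G (⟨W0, hW0⟩ : TS Q m) = Set.univ := by
    rw [Set.eq_univ_iff_forall]
    rintro ⟨W, hW⟩
    let e : W0 ≃ₗ[F] W := LinearEquiv.ofFinrankEq _ _ (by rw [hW0.1, hW.1])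
    obtain ⟨g, hg, hgx⟩ := H48.QuadWitt.witt_extension (Q := Q) (nd_iff.1 hQ) W0 (W.subtype ∘ₗ e.toLinearMap)
      (W.injective_subtype.comp e.injective) (fun x => by
        show Q ((e x : W) : V) = Q (x : V)
        rw [hW.2 _ (e x).2, hW0.2 _ x.2])
    refine ⟨⟨g, hg⟩, Subtype.ext ?_⟩
    show W0.map (g : V →ₗ[F] V) = W
    apply Submodule.eq_of_le_of_finrank_eq
    · rintro _ ⟨x, hx, rfl⟩
      have := hgx ⟨x, hx⟩
      show g x ∈ W
      rw [this]
      exact (e ⟨x, hx⟩).2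
    · rw [LinearEquiv.finrank_map_eq g W0, hW0.1, hW.1]
  have h1 := Nat.card_congr (MulAction.orbitEquivQuotientStabilizer G (⟨W0, hW0⟩ : TS Q m))
  rw [htrans, Nat.card_univ] at h1
  rw [h1]
  exact Subgroup.card_quotient_dvd_card _

theorem ts_not_dvd (hr : r.Prime) (hr2 : r ≠ 2) (hrq : ¬ r ∣ Fintype.card F) {V : Type u} [AddCommGroup V] [Module F V] [FiniteDimensional F V]
    {Q : QuadraticForm F V} (hQ : ND Q) {m : ℕ} (hm : m < oi F r) (f : V →ₗ[F] V) (hf : ∀ v, Q (f v) = Q v) (hfr : f ^ r = 1)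
    (hC : finrank F (fx f) < cc (oi F r) ∨ (finrank F (fx f) = cc (oi F r) ∧ ¬ (PT (Q.restrict (fx f)) ↔ Odd (oi F r))))
    (hdvd : r ∣ Nat.card (TS Q m)) : ¬ ∃ W ∈ TS Q m, ∀ v ∈ W, f v ∈ W := by
  classical
  rintro ⟨W0, hW0, hfW0⟩
  have : Finite V := Module.finite_of_finite F
  have : Fact r.Prime := ⟨hr⟩
  have hle : ∀ W ∈ TS Q m, (∀ v ∈ W, f v ∈ W) → W ≤ fx f := by
    intro W hW hfW
    obtain ⟨k, j, -, k1, k2, k3, k4⟩ := ts_nec hQ hr hrq f hf hfr hfW hW.2
    apply k4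
    by_contra hk
    have : oi F r ≤ oi F r * k := Nat.le_mul_of_pos_right _ (by omega)
    rw [hW.1] at k1
    omega
  have hinj : Function.Injective f := by
    intro a b hab
    have h1 : (f ^ (r - 1)) (f a) = (f ^ (r - 1)) (f b) := by rw [hab]
    have h2 : ∀ v, (f ^ (r - 1)) (f v) = v := by
      intro v
      have : f ^ (r - 1) * f = 1 := by rw [← pow_succ, Nat.sub_add_cancel hr.pos, hfr]
      exact congrArg (fun φ : V →ₗ[F] V => φ v) this
    rwa [h2, h2] at h1
  have hfin : Finite (Submodule F V) := Finite.of_injective (fun W : Submodule F V => (W : Set V)) SetLike.coe_injective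
  have : Fintype (TS Q m) := Fintype.ofFinite _
  let φ : Function.End (TS Q m) := fun W => ⟨W.1.map f, TS.map W.2 f hf hinj⟩
  have hφ : ∀ (k : ℕ) (W : TS Q m), (((φ ^ k) W : TS Q m) : Submodule F V) = W.1.map (f ^ k) := by
    intro k
    induction k with
    | zero => intro W; exact (Submodule.map_id W.1).symm
    | succ k ih =>
      intro W
      rw [pow_succ', pow_succ']
      show (((φ ^ k) W : TS Q m) : Submodule F V).map f = W.1.map (f * f ^ k)
      rw [ih, ← Submodule.map_comp]; rfl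
  have h1 := Equiv.Perm.card_fixedPoints_modEq (f := φ) (p := r) (n := 1) (by
    rw [pow_one]
    funext W
    apply Subtype.ext
    rw [hφ, hfr]
    exact Submodule.map_id W.1)
  have h2 : r ∣ Fintype.card (Function.fixedPoints φ) := by
    rw [← Nat.modEq_zero_iff_dvd]
    refine h1.symm.trans ?_
    rw [Nat.modEq_zero_iff_dvd, ← Nat.card_eq_fintype_card]; exact hdvd
  -- fixed points are the subspaces of the fixed space
  have hfixeq : ∀ W : TS Q m, φ W = W ↔ W.1 ≤ fx f := by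
    intro W
    constructor
    · intro h
      apply hle W.1 W.2
      intro v hv
      have h3 : W.1.map f = W.1 := congrArg Subtype.val h
      rw [← h3]; exact ⟨v, hv, rfl⟩
    · intro h
      apply Subtype.ext
      show W.1.map f = W.1
      ext v
      constructor
      · rintro ⟨w, hw, rfl⟩
        rw [mem_fx.1 (h hw)]; exact hw
      · intro hv
        exact ⟨v, hv, mem_fx.1 (h hv)⟩
  let e : Function.fixedPoints φ ≃ TS (Q.restrict (fx f)) m :=
    { toFun := fun W => ⟨W.1.1.comap (fx f).subtype, by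
        have hWle := (hfixeq W.1).1 W.2
        exact ⟨by rw [(Submodule.comapSubtypeEquivOfLe hWle).finrank_eq]; exact W.1.2.1, fun w hw => W.1.2.2 _ hw⟩⟩
      invFun := fun W => ⟨⟨W.1.map (fx f).subtype, by
        refine ⟨by rw [Submodule.finrank_map_subtype_eq]; exact W.2.1, ?_⟩
        rintro _ ⟨w, hw, rfl⟩
        exact W.2.2 w hw⟩, (hfixeq _).2 (by
          rintro _ ⟨v, _, rfl⟩
          exact v.2)⟩
      left_inv := fun W => by
        apply Subtype.ext
        apply Subtype.ext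
        have hWle := (hfixeq W.1).1 W.2
        show (W.1.1.comap (fx f).subtype).map (fx f).subtype = W.1.1
        rw [Submodule.map_comap_subtype]
        exact inf_eq_right.2 hWle
      right_inv := fun W => by
        apply Subtype.ext
        show (W.1.map (fx f).subtype).comap (fx f).subtype = W.1
        exact Submodule.comap_map_eq_of_injective (fx f).injective_subtype W.1 }
  rw [← Nat.card_eq_fintype_card, Nat.card_congr e] at h2
  have hne : (TS (Q.restrict (fx f)) m).Nonempty := ⟨_, (e ⟨⟨W0, hW0⟩, (hfixeq _).2 (hle W0 hW0 hfW0)⟩).2⟩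
  have hCnd := fx_nd hQ (rF hr hrq) f hf hfr
  exact no_r hr hr2 hrq hCnd hC (h2.trans (TS.dvd hCnd m hne))

/-- **divisibility consequence** -/
theorem core_dvd_ti (hr : r.Prime) (hr2 : r ≠ 2) (hrq : ¬ r ∣ Fintype.card F) {Q : QuadraticForm F (ι → F)} (hQ : ND Q)
    (hcard : Fintype.card F ≠ 2 ∨ Fintype.card ι ≠ 4) (hι : 0 < Fintype.card ι) {m : ℕ} (hne : (TS Q m).Nonempty)
    (hdvd : r ∣ Nat.card (TS Q m))
    (H : ∀ x : GL ι F, x ∈ Cfsg.Geo.omegaGL (⇑Q) → x ^ r = 1 → x ≠ 1 →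
      ∃ W : Submodule F (ι → F), (finrank F W = m ∧ ∀ w ∈ W, Q w = 0) ∧ W.map (Matrix.toLin' (x : Matrix ι ι F)) ≤ W) : oi F r ≤ m := by
  by_contra hlt
  push Not at hlt
  have hdim : finrank F (ι → F) = Fintype.card ι := finrank_fintype_fun_eq_card F
  obtain ⟨f, f1, f2, f3⟩ := exists_small hr hr2 hrq hQ (by rw [hdim]; exact hι)
  have hno := ts_not_dvd hr hr2 hrq hQ hlt f f1 f2 f3 hdvd
  by_cases hf1 : f = 1
  · obtain ⟨W, hW⟩ := hne
    exact hno ⟨W, hW, fun v hv => by rw [hf1]; exact hv⟩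
  · obtain ⟨x, x1, x2⟩ := exists_gl' f hr.pos f2
    have hx : x ∈ Cfsg.isometryGroup F (⇑Q) := (H17.OrthDet.mem_isometryGroup_iff _ _).mpr (fun v => by
      rw [← Matrix.toLin'_apply, x1, f1])
    obtain ⟨W, W1, W2⟩ := H x (OrthUni3.mem_omega_of_odd Q (nd_iff.1 hQ) hcard hx (hr.odd_of_ne_two hr2) x2) x2 (by
      rintro rfl
      apply hf1
      rw [← x1, Units.val_one, Matrix.toLin'_one]; rfl)
    exact hno ⟨W, W1, fun v hv => by rw [← x1]; exact inv_map.1 W2 v hv⟩

/-- **the criterion for odd primes different from the characteristic** -/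
theorem crit (hr : r.Prime) (hr2 : r ≠ 2) (hrq : ¬ r ∣ Fintype.card F) {Q : QuadraticForm F (ι → F)} (hQ : ND Q)
    (hcard : Fintype.card F ≠ 2 ∨ Fintype.card ι ≠ 4) {n m : ℕ} (hn : Fintype.card ι = n) (hn0 : 0 < n) (hmn : 2 * m ≤ n) (hmn' : 2 * m = n → PT Q)
    (hdvd : r ∣ Nat.card (TS Q m)) {i c : ℕ} (hi : i = oi F r) (hc : c = if Even i then i else 2 * i) :
    (∀ x : GL ι F, x ∈ Cfsg.Geo.omegaGL (⇑Q) → x ^ r = 1 → x ≠ 1 →
      ∃ W : Submodule F (ι → F), (finrank F W = m ∧ ∀ w ∈ W, Q w = 0) ∧ W.map (Matrix.toLin' (x : Matrix ι ι F)) ≤ W) ↔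
      (i ≤ m ∧ ((Odd i ∧ ((2 * (m % i) ≤ n % c ∧ PT Q) ∨ ((n % c = 0 ∨ 2 * (m % i) < n % c) ∧ ¬ PT Q))) ∨
        (Even i ∧ (r - 1) / i + 2 * (m / i) ≤ n / i ∧
          ((2 * (m % i) ≤ i ∧ n % c = 0 ∧ ¬ (PT Q ↔ Even (n / i)) ∧ (r - 1) / i + 2 * (m / i) < n / i) ∨
            (2 * (m % i) ≤ n % c ∧ (PT Q ↔ Even (n / i))) ∨ (2 * (m % i) < n % c ∧ ¬ (PT Q ↔ Even (n / i))))))) := by
  have hdim : finrank F (ι → F) = n := by rw [← hn]; exact finrank_fintype_fun_eq_card F
  have hne : (TS Q m).Nonempty := by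
    obtain ⟨U, u1, u2⟩ := ts_exists hQ (j := m) (by rw [hdim]; exact hmn) (by rw [hdim]; exact hmn')
    exact ⟨U, u2, u1⟩
  have hi0 : 0 < i := by rw [hi]; exact oi_pos (F := F) hr hrq
  have hr' : Fact r.Prime := ⟨hr⟩
  have hidvd : i ∣ r - 1 := by
    have h1 : ((Fintype.card F : ℕ) : ZMod r) ≠ 0 := by
      intro h; exact hrq ((ZMod.natCast_eq_zero_iff _ _).1 h)
    have h2 := orderOf_dvd_of_pow_eq_one (ZMod.pow_card_sub_one_eq_one h1)
    rw [hi]; exact h2
  have key : ∀ (him : i ≤ m), (∀ s o, allT r i n (tau Q i) s o → okT i n m (tau Q i) s o) ↔ ((Odd i ∧ ((2 * (m % i) ≤ n % c ∧ PT Q) ∨ ((n % c = 0 ∨ 2 * (m % i) < n % c) ∧ ¬ PT Q))) ∨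
        (Even i ∧ (r - 1) / i + 2 * (m / i) ≤ n / i ∧
          ((2 * (m % i) ≤ i ∧ n % c = 0 ∧ ¬ (PT Q ↔ Even (n / i)) ∧ (r - 1) / i + 2 * (m / i) < n / i) ∨
            (2 * (m % i) ≤ n % c ∧ (PT Q ↔ Even (n / i))) ∨ (2 * (m % i) < n % c ∧ ¬ (PT Q ↔ Even (n / i)))))) := by
    intro him
    rcases Nat.even_or_odd i with he | ho
    · have hno : ¬ Odd i := Nat.not_odd_iff_even.2 he
      rw [if_pos he] at hc
      have ht1 : 1 ≤ (r - 1) / i := by
        apply Nat.div_pos (Nat.le_of_dvd (by have := hr.two_le; omega) hidvd) hi0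
      have hτ : ∀ o, tau Q i o ↔ (PT Q ↔ Even o) := by
        intro o
        unfold tau
        simp only [hno, false_or]
      rw [even_case (r := r) (t := (r - 1) / i) hi0 he (Nat.mul_div_cancel' hidvd) ht1 him hmn (Nat.div_add_mod n i).symm (Nat.mod_lt n hi0)
        (Nat.div_add_mod m i).symm (Nat.mod_lt m hi0) (τ := tau Q i) (by
          intro o
          rw [hτ, hτ]
          have : Even (o + 2) ↔ Even o := by
            rw [Nat.even_add]; simp
          rw [this]) (by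
          rw [hτ, hτ, Nat.even_add_one]
          tauto), hτ, hc]
      simp only [hno, he, false_and, true_and, false_or]
    · have hne' : ¬ Even i := Nat.not_even_iff_odd.2 ho
      rw [if_neg hne'] at hc
      have hτ : tau Q i 0 ↔ PT Q := by
        unfold tau
        simp only [ho, true_or, iff_true]
      rw [odd_case (r := r) hi0 ho him hmn (by rw [← hc]; exact (Nat.div_add_mod n c).symm) (by rw [← hc]; exact Nat.mod_lt n (by omega))
        (Nat.div_add_mod m i).symm (Nat.mod_lt m hi0) (τ := tau Q i) (fun h => hτ.2 (hmn' h)), hτ]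
      simp only [hne', ho, false_and, true_and, or_false]
  have hcore := core_ti hr hr2 hrq hQ hcard m
  rw [hn, ← hi] at hcore
  constructor
  · intro H
    have him : i ≤ m := by rw [hi]; exact core_dvd_ti hr hr2 hrq hQ hcard (by rw [hn]; exact hn0) hne hdvd H
    exact ⟨him, (key him).1 (hcore.1 H)⟩
  · rintro ⟨him, h⟩
    exact hcore.2 ((key him).2 h)

end mat

end H99.OrthTi
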