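import Mathlib
import Cfsg.Agent.Lib.H99.OrthTi2
import Cfsg.Agent.Lib.H99.OrthEvenDim2

set_option autoImplicit false
set_option linter.unusedSimpArgs false
set_option linter.unusedSectionVars false
set_option linter.unusedVariables false

/-! Involutions (modulo scalars) and totally singular subspaces in odd characteristic. -/

namespace H99.OrthTi

open Module QuadraticMap H48.QuadSplit H48.QuadStd H96.OeType H99.OrthSS H17.OrthAbs H17.OrthTheta H17.OrthOmega

universe u

section planes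

variable {F : Type u} [Field F] [Fintype F] {V : Type u} [AddCommGroup V] [Module F V] [FiniteDimensional F V]

theorem p2n (Q : QuadraticForm F V) (x : V) : polar Q x x = 2 * Q x := by
  rw [polar_self, ← Nat.cast_smul_eq_nsmul F, smul_eq_mul]; norm_num

/-- orthogonal bases of planes -/
theorem plane_basis (h2 : (2 : F) ≠ 0) {Q : QuadraticForm F V} {P : Submodule F V} (hP : ND (Q.restrict P)) (hPd : finrank F P = 2) :
    ∃ v ∈ P, ∃ u ∈ P, Q v ≠ 0 ∧ Q u ≠ 0 ∧ polar Q v u = 0 ∧ (∀ x ∈ P, ∃ a b : F, x = a • v + b • u) ∧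
      (PT (Q.restrict P) ↔ IsSquare (-(Q v * Q u))) := by
  have : Finite V := Module.finite_of_finite F
  obtain ⟨v, hv, hQv⟩ := exists_ns hP (by omega)
  have hv0 : v ≠ 0 := by rintro rfl; exact hQv (QuadraticMap.map_zero Q)
  have hSd : finrank F (Submodule.span F {v}) = 1 := finrank_span_singleton hv0
  have hSP : Submodule.span F {v} ≤ P := by
    rw [Submodule.span_le]
    rintro x rfl
    exact hv
  have hSn : Iso.ND (polarBilin Q) (Submodule.span F {v}) := by
    intro x hx hxy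
    obtain ⟨a, rfl⟩ := Submodule.mem_span_singleton.1 hx
    have h5 := hxy v (Submodule.mem_span_singleton_self v)
    rw [polarBilin_apply_apply, polar_smul_left, p2n, smul_eq_mul] at h5
    rw [(mul_eq_zero.1 h5).resolve_right (mul_ne_zero h2 hQv), zero_smul]
  obtain ⟨s1, s2, s3, s4⟩ := Iso.split (refl_polar Q) (nd_on.1 hP) hSn hSP
  rw [hSd, hPd] at s2
  have hd1 : finrank F (P ⊓ LinearMap.BilinForm.orthogonal (polarBilin Q) (Submodule.span F {v}) : Submodule F V) = 1 := by omega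
  obtain ⟨u, hu, hu0⟩ := Submodule.exists_mem_ne_zero_of_ne_bot (p := P ⊓ LinearMap.BilinForm.orthogonal (polarBilin Q) (Submodule.span F {v})) (by
    intro h
    rw [h, finrank_bot] at hd1
    omega)
  have hvu : polar Q v u = 0 := hu.2 v (Submodule.mem_span_singleton_self v)
  have hspan : ∀ y ∈ (P ⊓ LinearMap.BilinForm.orthogonal (polarBilin Q) (Submodule.span F {v}) : Submodule F V), ∃ b : F, b • u = y := by
    intro y hy
    obtain ⟨b, hb⟩ := (finrank_eq_one_iff_of_nonzero' (⟨u, hu⟩ : (P ⊓ LinearMap.BilinForm.orthogonal (polarBilin Q) (Submodule.span F {v}) : Submodule F V))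
      (fun h => hu0 (congrArg Subtype.val h))).1 hd1 ⟨y, hy⟩
    exact ⟨b, congrArg Subtype.val hb⟩
  have hQu : Q u ≠ 0 := by
    intro h0
    apply hu0
    apply s1 u hu
    intro y hy
    obtain ⟨b, rfl⟩ := hspan y hy
    rw [polarBilin_apply_apply, polar_smul_right, p2n, h0, mul_zero, smul_zero]
  have hgen : ∀ x ∈ P, ∃ a b : F, x = a • v + b • u := by
    intro x hx
    rw [← s3] at hx
    obtain ⟨y, hy, z, hz, rfl⟩ := Submodule.mem_sup.1 hx
    obtain ⟨a, rfl⟩ := Submodule.mem_span_singleton.1 hy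
    obtain ⟨b, rfl⟩ := hspan z hz
    exact ⟨a, b, rfl⟩
  have hval : ∀ a b : F, Q (a • v + b • u) = a * a * Q v + b * b * Q u := by
    intro a b
    rw [QuadraticMap.map_add Q, QuadraticMap.map_smul, QuadraticMap.map_smul, polar_smul_left, polar_smul_right, hvu]
    simp only [smul_eq_mul]; ring
  refine ⟨v, hv, u, hu.1, hQv, hQu, hvu, hgen, ?_⟩
  rw [OrthTwo.pt_two hPd]
  constructor
  · rintro ⟨w, hw, hw0, hQw⟩
    obtain ⟨a, b, rfl⟩ := hgen w hw
    rw [hval] at hQw
    have hb : b ≠ 0 := by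
      rintro rfl
      have h1 : a * a * Q v = 0 := by linear_combination hQw
      have h3 := mul_self_eq_zero.1 ((mul_eq_zero.1 h1).resolve_right hQv)
      apply hw0
      rw [h3]; simp
    refine ⟨a * Q v / b, ?_⟩
    rw [div_mul_div_comm, eq_div_iff (mul_ne_zero hb hb)]
    linear_combination (-(Q v)) * hQw
  · rintro ⟨s, hs⟩
    refine ⟨s • v + Q v • u, P.add_mem (P.smul_mem _ hv) (P.smul_mem _ hu.1), ?_, ?_⟩
    · intro h
      have h1 := congrArg (fun x => polar Q x u) h
      simp only [polar_add_left, polar_smul_left, hvu, p2n, polar_zero_left, smul_eq_mul, mul_zero, zero_add] at h1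
      rcases mul_eq_zero.1 h1 with h3 | h3
      · exact hQv h3
      · exact (mul_ne_zero h2 hQu) h3
    · rw [hval]
      linear_combination (-(Q v)) * hs

theorem theta_rf (h2 : (2 : F) ≠ 0) (Q : QuadraticForm F V) [Finite V] (c : F) (hc : c ≠ 0) (v : V) (hv : Q v ≠ 0) :
    theta Q c (rf Q v hv) = -1 ↔ IsSquare (Q v / c) := by
  classical
  have key : (∃ t : F, t ≠ 0 ∧ Q v = c * t ^ 2) ↔ IsSquare (Q v / c) := by
    constructor
    · rintro ⟨t, -, ht⟩
      exact ⟨t, by rw [ht]; field_simp⟩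
    · rintro ⟨t, ht⟩
      rw [div_eq_iff hc] at ht
      refine ⟨t, ?_, by rw [ht]; ring⟩
      rintro rfl
      apply hv
      rw [ht]; ring
  rw [theta_refl h2 Q c hc v hv]
  by_cases h : IsSquare (Q v / c)
  · rw [if_pos (key.2 h)]; simp [h]
  · rw [if_neg (fun h' => h (key.1 h'))]; simp only [h, iff_false]; decide

theorem unit_iff (x y : ℤˣ) : x * y = 1 ↔ (x = -1 ↔ y = -1) := by
  rcases Int.units_eq_one_or x with rfl | rfl <;> rcases Int.units_eq_one_or y with rfl | rfl <;> decide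

theorem theta_two (h2 : (2 : F) ≠ 0) (Q : QuadraticForm F V) [Finite V] (c : F) (hc : c ≠ 0) (v u : V) (hv : Q v ≠ 0) (hu : Q u ≠ 0) :
    theta Q c (rf Q v hv) * theta Q c (rf Q u hu) = 1 ↔ IsSquare (Q v * Q u) := by
  rw [unit_iff, theta_rf h2 Q c hc v hv, theta_rf h2 Q c hc u hu]
  have e1 : Q v * Q u = (Q v / c) * (Q u / c) * (c * c) := by field_simp
  have hvc : Q v / c ≠ 0 := div_ne_zero hv hc
  have huc : Q u / c ≠ 0 := div_ne_zero hu hc
  constructor
  · intro h
    rw [e1]
    apply IsSquare.mul _ (IsSquare.mul_self c)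
    by_cases h1 : IsSquare (Q v / c)
    · exact h1.mul (h.1 h1)
    · exact H48.FinFieldSq.isSquare_mul_of_not h1 (fun h3 => h1 (h.2 h3))
  · intro h
    have h3 : IsSquare ((Q v / c) * (Q u / c)) := by
      have : (Q v / c) * (Q u / c) = (Q v * Q u) / (c * c) := by field_simp
      rw [this]
      exact h.div (IsSquare.mul_self c)
    constructor
    · intro h4
      have : Q u / c = ((Q v / c) * (Q u / c)) / (Q v / c) := by field_simp
      rw [this]; exact h3.div h4
    · intro h4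
      have : Q v / c = ((Q v / c) * (Q u / c)) / (Q u / c) := by field_simp
      rw [this]; exact h3.div h4

/-- **discriminants**: spinor norms of involutions when `-1` is a square -/
theorem theta_disc {Q : QuadraticForm F V} (hQ : ND Q) [Finite V] (h2 : (2 : F) ≠ 0) (hsq : IsSquare (-1 : F)) {c : F} (hc : c ≠ 0) :
    ∀ (k : ℕ) (A : Submodule F V), finrank F A = 2 * k → ND (Q.restrict A) → ∀ g : ↥(O Q), (∀ v ∈ A, (g : V ≃ₗ[F] V) v = -v) →
      (∀ v ∈ orth Q A, (g : V ≃ₗ[F] V) v = v) → (theta Q c g = 1 ↔ PT (Q.restrict A)) := by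
  intro k
  induction k with
  | zero =>
    intro A hA hAn g h1 h4
    have hA0 : A = ⊥ := Submodule.finrank_eq_zero.1 (by omega)
    have : g = 1 := by
      apply Subtype.ext
      apply LinearEquiv.ext
      intro v
      apply h4
      rw [hA0]
      intro u hu
      rw [(Submodule.mem_bot F).1 hu]; exact polar_zero_left Q v
    rw [this, _root_.map_one]
    exact iff_of_true rfl (pt_bot Q (by omega))
  | succ k ih =>
    intro A hA hAn g h1 h4
    obtain ⟨P', p1, p2⟩ := sub_any hAn (x := 2) even_two (by omega)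
    obtain ⟨pe, ple, pd⟩ := map_sub (Q := Q) P'
    have hPn := nd_of_equivalent pe p1
    rw [p2] at pd
    set P := P'.map A.subtype with hPdef
    obtain ⟨v, hv, u, hu, hQv, hQu, hvu, hgen, hpt⟩ := plane_basis h2 hPn pd
    have hsplit := Iso.split (refl_polar Q) (nd_on.1 hAn) (nd_on.1 hPn) ple
    set A' : Submodule F V := A ⊓ orth Q P with hA'
    have hA'n : ND (Q.restrict A') := nd_on.2 hsplit.1
    have hA'd : finrank F A' = 2 * k := by
      have : finrank F P + finrank F A' = finrank F A := hsplit.2.1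
      omega
    have hrv : ∀ x ∈ orth Q P, refl Q v hQv x = x := fun x hx => refl_fix Q v hQv x (hx v hv)
    have hru : ∀ x ∈ orth Q P, refl Q u hQu x = x := fun x hx => refl_fix Q u hQu x (hx u hu)
    have hrvv : refl Q v hQv v = -v := refl_self Q v hQv
    have hruu : refl Q u hQu u = -u := refl_self Q u hQu
    have hrvu : refl Q v hQv u = u := refl_fix Q v hQv u hvu
    have hruv : refl Q u hQu v = v := refl_fix Q u hQu v (by rw [polar_comm]; exact hvu)
    let g' : ↥(O Q) := rf Q v hQv * (rf Q u hQu * g)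
    have hg' : ∀ x, (g' : V ≃ₗ[F] V) x = refl Q v hQv (refl Q u hQu ((g : V ≃ₗ[F] V) x)) := fun x => rfl
    have hih := ih A' hA'd hA'n g' (by
      rintro x ⟨hx1, hx2⟩
      rw [hg', h1 x hx1, _root_.map_neg, _root_.map_neg, hru x hx2, hrv x hx2]) (by
      intro x hx
      obtain ⟨e, he, -⟩ := ortho_split hPn
      obtain ⟨⟨p, y⟩, rfl⟩ := e.surjective x
      rw [he] at hx ⊢
      have hy : (y : V) ∈ orth Q A := by
        intro a ha
        obtain ⟨⟨p', y'⟩, hpy⟩ := e.surjective a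
        rw [he] at hpy
        have hy'A : (y' : V) ∈ A := by
          have : (y' : V) = a - p' := by rw [← hpy]; simp
          rw [this]
          exact A.sub_mem ha (ple p'.2)
        have h7 := hx (y' : V) ⟨hy'A, y'.2⟩
        rw [polar_add_right] at h7
        have h8 : polar Q (y' : V) (p : V) = 0 := by rw [polar_comm]; exact y'.2 _ p.2
        rw [h8, zero_add] at h7
        rw [← hpy, polar_add_left]
        have h9 : polar Q (p' : V) (y : V) = 0 := y.2 _ p'.2
        show polar Q (p' : V) (y : V) + polar Q (y' : V) (y : V) = 0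
        rw [h9, h7, add_zero]
      obtain ⟨a, b, hab⟩ := hgen p p.2
      have hp : (g' : V ≃ₗ[F] V) (p : V) = p := by
        rw [hg', h1 _ (ple p.2), _root_.map_neg, _root_.map_neg, hab, _root_.map_add, _root_.map_smul, _root_.map_smul, hruu, hruv,
          _root_.map_add, _root_.map_smul, _root_.map_smul, _root_.map_neg, hrvv, hrvu, smul_neg, smul_neg, neg_add, neg_neg, neg_neg]
      rw [_root_.map_add, hp, hg' (y : V), h4 _ hy, hru _ y.2, hrv _ y.2])
    have h5 : theta Q c g' = (theta Q c (rf Q v hQv) * theta Q c (rf Q u hQu)) * theta Q c g := by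
      rw [_root_.map_mul, _root_.map_mul, mul_assoc]
    have h6 := theta_two h2 Q c hc v u hQv hQu
    have h7 : IsSquare (Q v * Q u) ↔ PT (Q.restrict P) := by
      rw [hpt]
      constructor
      · intro h
        have : -(Q v * Q u) = (-1) * (Q v * Q u) := by ring
        rw [this]; exact hsq.mul h
      · intro h
        have : Q v * Q u = (-1) * (-(Q v * Q u)) := by ring
        rw [this]; exact hsq.mul h
    have h8 : PT (Q.restrict A) ↔ (PT (Q.restrict P) ↔ PT (Q.restrict A')) := by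
      have hsup : P ⊔ A' = A := hsplit.2.2.1
      have h9 := sup_equiv (Q := Q) hPn hA'n (fun a ha b hb => hb.2 a ha)
      rw [hsup] at h9
      rw [← pt_iff_of_equiv h9]
      exact pt_prod_iff hPn hA'n (m := 1) (m' := k) (by omega) hA'd
    rw [h8, ← h7, ← h6, ← hih, h5]
    generalize theta Q c (rf Q v hQv) * theta Q c (rf Q u hQu) = X
    generalize theta Q c g = Y
    rcases Int.units_eq_one_or X with rfl | rfl <;> rcases Int.units_eq_one_or Y with rfl | rfl <;> decide

end planes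

section mat

variable {F : Type u} [Field F] [Fintype F] {ι : Type} [Fintype ι] [DecidableEq ι]

/-- **(a)** the moved part of an involution of `Ω` has plus type when `-1` is a square -/
theorem inv_pt (h2 : (2 : F) ≠ 0) (hsq : IsSquare (-1 : F)) {Q : QuadraticForm F (ι → F)} (hQ : ND Q) (hd : 2 ≤ Fintype.card ι) {x : GL ι F}
    (hx : x ∈ Cfsg.Geo.omegaGL (⇑Q)) (hxx : (Matrix.toLin' (x : Matrix ι ι F)) ^ 2 = 1) :
    PT (Q.restrict (orth Q (fx (Matrix.toLin' (x : Matrix ι ι F))))) := by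
  classical
  have hiso := iso_of_omega hx
  have hxm : x ∈ Cfsg.isometryGroup F (⇑Q) := (H17.OrthDet.mem_isometryGroup_iff _ _).mpr (fun v => by rw [← Matrix.toLin'_apply]; exact hiso v)
  obtain ⟨R, -⟩ := exists_reps (F := F) h2 1 one_ne_zero
  have : Finite (ι → F) := inferInstance
  have h3 := (mem_omega_iff h2 hQ hd R hxm).1 hx
  have hap : ∀ v, ((H17.OrthTrans.equiv Q ⟨x, hxm⟩ : ↥(O Q)) : (ι → F) ≃ₗ[F] (ι → F)) v = Matrix.toLin' (x : Matrix ι ι F) v := by
    intro v
    rw [H17.OrthTrans.equiv_apply, Matrix.toLin'_apply]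
  obtain ⟨k, hk⟩ := inv_even h2 hQ hd hx hiso hxx
  set f := Matrix.toLin' (x : Matrix ι ι F) with hf
  have hC := fx_nd hQ (r := 2) (by exact_mod_cast h2) f hiso hxx
  have hneg := neg_on hQ h2 f hiso hxx
  refine (theta_disc hQ h2 hsq R.h₁ k (orth Q (fx f)) (by omega) (nd_orth hQ hC) (H17.OrthTrans.equiv Q ⟨x, hxm⟩) (fun v hv => by rw [hap]; exact hneg v hv) (by
    intro v hv
    rw [hap]
    apply mem_fx.1
    have h5 : orth Q (orth Q (fx f)) = fx f := orth_orth hQ _
    rw [← h5]; exact hv)).1 h3.1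

/-- **(b)** an involution of `Ω` negating an elliptic plane when `-1` is not a square -/
theorem exists_minus (h2 : (2 : F) ≠ 0) (hsq : ¬ IsSquare (-1 : F)) {Q : QuadraticForm F (ι → F)} (hQ : ND Q) (hd : 3 ≤ Fintype.card ι) :
    ∃ (x : GL ι F) (P : Submodule F (ι → F)), x ∈ Cfsg.Geo.omegaGL (⇑Q) ∧ x ^ 2 = 1 ∧ ND (Q.restrict P) ∧ finrank F P = 2 ∧ ¬ PT (Q.restrict P) ∧
      (∀ v ∈ P, Matrix.toLin' (x : Matrix ι ι F) v = -v) ∧ ∀ v ∈ orth Q P, Matrix.toLin' (x : Matrix ι ι F) v = v := by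
  classical
  have : Finite (ι → F) := inferInstance
  obtain ⟨P, p1, p2, p3⟩ := sub_exists hQ (b := 1) le_rfl (by rw [finrank_fintype_fun_eq_card]; omega) False
  have hPT : ¬ PT (Q.restrict P) := fun h => p3.1 h
  obtain ⟨v, hv, u, hu, hQv, hQu, hvu, hgen, hpt⟩ := plane_basis h2 p1 p2
  have hprod : IsSquare (Q v * Q u) := by
    have h1 : ¬ IsSquare (-(Q v * Q u)) := fun h => hPT (hpt.2 h)
    have h3 := H48.FinFieldSq.isSquare_mul_of_not hsq h1
    have : (-1) * (-(Q v * Q u)) = Q v * Q u := by ring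
    rwa [this] at h3
  let g : ↥(O Q) := rf Q v hQv * rf Q u hQu
  have hg : ∀ x, (g : (ι → F) ≃ₗ[F] (ι → F)) x = refl Q v hQv (refl Q u hQu x) := fun x => rfl
  have hrvv : refl Q v hQv v = -v := refl_self Q v hQv
  have hruu : refl Q u hQu u = -u := refl_self Q u hQu
  have hrvu : refl Q v hQv u = u := refl_fix Q v hQv u hvu
  have hruv : refl Q u hQu v = v := refl_fix Q u hQu v (by rw [polar_comm]; exact hvu)
  have hgP : ∀ x ∈ P, (g : (ι → F) ≃ₗ[F] (ι → F)) x = -x := by
    intro x hx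
    obtain ⟨a, b, rfl⟩ := hgen x hx
    rw [hg, _root_.map_add, _root_.map_smul, _root_.map_smul, hruu, hruv,
          _root_.map_add, _root_.map_smul, _root_.map_smul, _root_.map_neg, hrvv, hrvu, smul_neg, smul_neg, neg_add]
  have hgo : ∀ x ∈ orth Q P, (g : (ι → F) ≃ₗ[F] (ι → F)) x = x := by
    intro x hx
    rw [hg, refl_fix Q u hQu x (hx u hu), refl_fix Q v hQv x (hx v hv)]
  have hgg : ∀ x, (g : (ι → F) ≃ₗ[F] (ι → F)) ((g : (ι → F) ≃ₗ[F] (ι → F)) x) = x := by
    intro x
    obtain ⟨e, he, -⟩ := ortho_split p1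
    obtain ⟨⟨p, y⟩, rfl⟩ := e.surjective x
    rw [he, _root_.map_add, hgP _ p.2, hgo _ y.2, _root_.map_add, _root_.map_neg, hgP _ p.2, hgo _ y.2, neg_neg]
  obtain ⟨x, x1, x2⟩ := exists_gl' (((g : (ι → F) ≃ₗ[F] (ι → F)) : (ι → F) →ₗ[F] (ι → F))) (r := 2) (by norm_num) (by
    apply LinearMap.ext
    intro x
    exact hgg x)
  have hgiso : ∀ w, Q ((g : (ι → F) ≃ₗ[F] (ι → F)) w) = Q w := g.2
  have hxm : x ∈ Cfsg.isometryGroup F (⇑Q) := (H17.OrthDet.mem_isometryGroup_iff _ _).mpr (fun w => by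
    rw [← Matrix.toLin'_apply, x1]; exact hgiso w)
  have hxg : H17.OrthTrans.equiv Q ⟨x, hxm⟩ = g := by
    apply Subtype.ext
    apply LinearEquiv.ext
    intro w
    rw [H17.OrthTrans.equiv_apply, ← Matrix.toLin'_apply, x1]; rfl
  obtain ⟨R, -⟩ := exists_reps (F := F) h2 1 one_ne_zero
  refine ⟨x, P, ?_, x2, p1, p2, hPT, fun w hw => by rw [x1]; exact hgP w hw, fun w hw => by rw [x1]; exact hgo w hw⟩
  rw [mem_omega_iff h2 hQ (by omega) R hxm, hxg]
  have h5 : ∀ c : F, c ≠ 0 → theta Q c g = 1 := by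
    intro c hc
    rw [_root_.map_mul]
    exact (theta_two h2 Q c hc v u hQv hQu).2 hprod
  exact ⟨h5 _ R.h₁, h5 _ R.h₂⟩

end mat

section inv

variable {F : Type u} [Field F] [Fintype F] {V : Type u} [AddCommGroup V] [Module F V] [FiniteDimensional F V]

/-- necessary condition for involutions -/
theorem inv_nec (h2 : (2 : F) ≠ 0) {Q : QuadraticForm F V} (hQ : ND Q) {A : Submodule F V} (hA : ND (Q.restrict A)) {f : V →ₗ[F] V}
    (hf1 : ∀ v ∈ A, f v = -v) (hf2 : ∀ v ∈ orth Q A, f v = v) {W : Submodule F V} (hW : ∀ v ∈ W, f v ∈ W) (hWs : ∀ v ∈ W, Q v = 0) :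
    ∃ j l, finrank F W = j + l ∧ 2 * j ≤ finrank F A ∧ (2 * j = finrank F A → PT (Q.restrict A)) ∧
      2 * l ≤ finrank F (orth Q A) ∧ (2 * l = finrank F (orth Q A) → PT (Q.restrict (orth Q A))) := by
  have hc := isCompl_orth hA
  have hsup : (W ⊓ A) ⊔ (W ⊓ orth Q A) = W := by
    apply le_antisymm (sup_le inf_le_left inf_le_left)
    intro w hw
    obtain ⟨a, b, ha, hb, rfl⟩ := (Submodule.codisjoint_iff_exists_add_eq.1 hc.codisjoint) w
    have h1 := hW _ hw
    rw [_root_.map_add, hf1 a ha, hf2 b hb] at h1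
    have h3 := W.add_mem hw h1
    have h4 : a + b + (-a + b) = (2 : F) • b := by rw [two_smul]; abel
    rw [h4] at h3
    have h5 := W.smul_mem (2 : F)⁻¹ h3
    rw [smul_smul, inv_mul_cancel₀ h2, one_smul] at h5
    have h6 : a ∈ W := by
      have := W.sub_mem hw h5
      rwa [add_sub_cancel_right] at this
    exact Submodule.add_mem_sup ⟨h6, ha⟩ ⟨h5, hb⟩
  have hinf : (W ⊓ A) ⊓ (W ⊓ orth Q A) = ⊥ := by
    rw [eq_bot_iff, ← hc.disjoint.eq_bot]
    exact fun v hv => ⟨hv.1.2, hv.2.2⟩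
  have hd := Submodule.finrank_sup_add_finrank_inf_eq (W ⊓ A) (W ⊓ orth Q A)
  rw [hsup, hinf, finrank_bot, add_zero] at hd
  have k1 := ts_le hA (U := (W ⊓ A).comap A.subtype) (fun u hu => hWs _ hu.1)
  have k2 := ts_le (nd_orth hQ hA) (U := (W ⊓ orth Q A).comap (orth Q A).subtype) (fun u hu => hWs _ hu.1)
  rw [(Submodule.comapSubtypeEquivOfLe (inf_le_right : W ⊓ A ≤ A)).finrank_eq] at k1
  rw [(Submodule.comapSubtypeEquivOfLe (inf_le_right : W ⊓ orth Q A ≤ orth Q A)).finrank_eq] at k2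
  exact ⟨_, _, hd, k1.1, k1.2, k2.1, k2.2⟩

/-- sufficient condition for involutions -/
theorem inv_suf {Q : QuadraticForm F V} (hQ : ND Q) {A : Submodule F V} (hA : ND (Q.restrict A)) {f : V →ₗ[F] V}
    (hf1 : ∀ v ∈ A, f v = -v) (hf2 : ∀ v ∈ orth Q A, f v = v) {j l : ℕ} (h1 : 2 * j ≤ finrank F A) (h3 : 2 * j = finrank F A → PT (Q.restrict A))
    (h4 : 2 * l ≤ finrank F (orth Q A)) (h5 : 2 * l = finrank F (orth Q A) → PT (Q.restrict (orth Q A))) :
    ∃ W : Submodule F V, finrank F W = j + l ∧ (∀ v ∈ W, Q v = 0) ∧ ∀ v ∈ W, f v ∈ W := by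
  obtain ⟨U, u1, u2⟩ := ts_exists hA h1 h3
  obtain ⟨U', u1', u2'⟩ := ts_exists (nd_orth hQ hA) h4 h5
  have hle1 : U.map A.subtype ≤ A := by rintro _ ⟨u, _, rfl⟩; exact u.2
  have hle2 : U'.map (orth Q A).subtype ≤ orth Q A := by rintro _ ⟨u, _, rfl⟩; exact u.2
  have hdis : U.map A.subtype ⊓ U'.map (orth Q A).subtype = ⊥ := by
    rw [eq_bot_iff, ← (isCompl_orth hA).disjoint.eq_bot]
    exact fun v hv => ⟨hle1 hv.1, hle2 hv.2⟩
  refine ⟨U.map A.subtype ⊔ U'.map (orth Q A).subtype, ?_, ?_, ?_⟩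
  · have := Submodule.finrank_sup_add_finrank_inf_eq (U.map A.subtype) (U'.map (orth Q A).subtype)
    rw [hdis, finrank_bot, add_zero, Submodule.finrank_map_subtype_eq, Submodule.finrank_map_subtype_eq, u2, u2'] at this
    exact this
  · intro w hw
    obtain ⟨a, ha, b, hb, rfl⟩ := Submodule.mem_sup.1 hw
    have h6 : polar Q a b = 0 := hle2 hb a (hle1 ha)
    obtain ⟨a', ha', rfl⟩ := ha
    obtain ⟨b', hb', rfl⟩ := hb
    have e1 : Q (A.subtype a') = 0 := u1 a' ha'
    have e2 : Q ((orth Q A).subtype b') = 0 := u1' b' hb'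
    rw [QuadraticMap.map_add Q, e1, e2, h6]; ring
  · intro v hv
    obtain ⟨a, ha, b, hb, rfl⟩ := Submodule.mem_sup.1 hv
    rw [_root_.map_add, hf1 a (hle1 ha), hf2 b (hle2 hb)]
    exact Submodule.add_mem_sup (Submodule.neg_mem _ ha) hb

end inv

section J

variable {F : Type u} [Field F] [Fintype F] {V : Type u} [AddCommGroup V] [Module F V] [FiniteDimensional F V]

/-- invariant subspaces of maps with square `-1` have even dimension -/
theorem J_even (hsq : ¬ IsSquare (-1 : F)) {f : V →ₗ[F] V} (hf : ∀ v, f (f v) = -v) {W : Submodule F V} (hW : ∀ v ∈ W, f v ∈ W) : Even (finrank F W) := by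
  by_contra hne
  rw [Nat.not_even_iff_odd] at hne
  apply hsq
  refine ⟨LinearMap.det (f.restrict hW), ?_⟩
  rw [← LinearMap.det_comp]
  have : (f.restrict hW) ∘ₗ (f.restrict hW) = (-1 : F) • LinearMap.id := by
    apply LinearMap.ext
    intro v
    apply Subtype.ext
    show f (f (v : V)) = (-1 : F) • (v : V)
    rw [hf, neg_smul, one_smul]
  rw [this, LinearMap.det_smul, LinearMap.det_id, mul_one, hne.neg_one_pow]

theorem J_line (hsq : ¬ IsSquare (-1 : F)) {f : V →ₗ[F] V} (hf : ∀ v, f (f v) = -v) {v : V} (hv : v ≠ 0) :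
    finrank F (Submodule.span F {v, f v}) = 2 := by
  have hli : LinearIndependent F ![v, f v] := by
    rw [LinearIndependent.pair_iff]
    intro s t hst
    have h1 := congrArg f hst
    rw [_root_.map_add, _root_.map_smul, _root_.map_smul, hf, _root_.map_zero] at h1
    have h3 : (s * s + t * t) • v = 0 := by
      have h4 := congrArg (fun x => s • x) hst
      have h5 := congrArg (fun x => t • x) h1
      simp only [smul_add, smul_zero, smul_smul, smul_neg] at h4 h5
      have h6 : (s * s + t * t) • v = (s * s) • v + (s * t) • f v - ((t * s) • f v + -((t * t) • v)) := by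
        rw [add_smul, mul_comm s t]; abel
      rw [h6, h4, h5, sub_zero]
    have h4 := (smul_eq_zero.1 h3).resolve_right hv
    by_contra hcon
    rw [not_and_or] at hcon
    exact hsq (add_sq_zero h4 (by tauto))
  have h1 := finrank_span_eq_card hli
  have h3 : Set.range ![v, f v] = {v, f v} := by
    simp only [Matrix.range_cons, Matrix.range_empty, Set.union_empty, Set.singleton_union]
  rw [h3, Fintype.card_fin] at h1
  exact h1

theorem J_line_inv {f : V →ₗ[F] V} (hf : ∀ v, f (f v) = -v) (v : V) : ∀ x ∈ Submodule.span F {v, f v}, f x ∈ Submodule.span F {v, f v} := by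
  intro x hx
  obtain ⟨a, b, rfl⟩ := Submodule.mem_span_pair.1 hx
  rw [_root_.map_add, _root_.map_smul, _root_.map_smul, hf]
  exact Submodule.add_mem _ (Submodule.smul_mem _ _ (Submodule.subset_span (by simp)))
    (Submodule.smul_mem _ _ (Submodule.neg_mem _ (Submodule.subset_span (by simp))))

theorem J_ss (h2 : (2 : F) ≠ 0) {f : V →ₗ[F] V} (hf : ∀ v, f (f v) = -v) : Module.End.IsSemisimple f := by
  apply Module.End.isSemisimple_of_squarefree_aeval_eq_zero (p := (Polynomial.X ^ 2 - Polynomial.C (-1) : Polynomial F))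
  · exact (Polynomial.separable_X_pow_sub_C (-1 : F) (n := 2) (by exact_mod_cast h2) (neg_ne_zero.2 one_ne_zero)).squarefree
  · apply LinearMap.ext
    intro v
    rw [_root_.map_sub, _root_.map_pow, Polynomial.aeval_X, Polynomial.aeval_C]
    show f (f v) - (algebraMap F (Module.End F V) (-1)) v = 0
    rw [Module.algebraMap_end_apply, hf, neg_smul, one_smul, sub_self]

/-- invariant subspaces of all even dimensions -/
theorem J_sub (h2 : (2 : F) ≠ 0) (hsq : ¬ IsSquare (-1 : F)) {f : V →ₗ[F] V} (hf : ∀ v, f (f v) = -v) {W : Submodule F V} (hW : ∀ v ∈ W, f v ∈ W) :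
    ∀ j, 2 * j ≤ finrank F W → ∃ W' ≤ W, (∀ v ∈ W', f v ∈ W') ∧ finrank F W' = 2 * j := by
  intro j
  induction j with
  | zero => exact fun _ => ⟨⊥, bot_le, Ti.inv_bot f, by rw [finrank_bot]⟩
  | succ j ih =>
    intro hj
    obtain ⟨W', w1, w2, w3⟩ := ih (by omega)
    obtain ⟨Z, z1, z2, z3, z4, z5⟩ := Ti.compl_in (J_ss h2 hf) hW w2 w1
    obtain ⟨v, hv, hv0⟩ := Submodule.exists_mem_ne_zero_of_ne_bot (p := Z) (by
      intro h
      rw [h, finrank_bot] at z5
      omega)
    have hLZ : Submodule.span F {v, f v} ≤ Z := by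
      rw [Submodule.span_le]
      rintro x (rfl | rfl)
      · exact hv
      · exact z2 v hv
    refine ⟨W' ⊔ Submodule.span F {v, f v}, sup_le w1 (hLZ.trans z1), Ti.inv_sup w2 (J_line_inv hf v), ?_⟩
    have h1 : W' ⊓ Submodule.span F {v, f v} = ⊥ := (z3.mono_right hLZ).eq_bot
    have := Submodule.finrank_sup_add_finrank_inf_eq W' (Submodule.span F {v, f v})
    rw [h1, finrank_bot, add_zero, J_line hsq hf hv0] at this
    omega

/-- **(c)** totally singular invariant subspaces -/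
theorem J_ts (h2 : (2 : F) ≠ 0) (hsq : ¬ IsSquare (-1 : F)) {Q : QuadraticForm F V} (hQ : ND Q) {f : V →ₗ[F] V} (hiso : ∀ v, Q (f v) = Q v)
    (hf : ∀ v, f (f v) = -v) {j : ℕ} (hj : 4 * j ≤ finrank F V) :
    ∃ W : Submodule F V, finrank F W = 2 * j ∧ (∀ v ∈ W, Q v = 0) ∧ ∀ v ∈ W, f v ∈ W := by
  have hf4 : f ^ 4 = 1 := by
    apply LinearMap.ext
    intro v
    show f (f (f (f v))) = v
    rw [hf, hf, neg_neg]
  have hB : ∀ u v, polarBilin Q (f u) (f v) = polarBilin Q u v := fun u v => by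
    rw [polarBilin_apply_apply, polarBilin_apply_apply, polar_inv hiso]
  obtain ⟨L, H, A, h1, h3, h4, h5, h6, h7, h8, h9, h10, h11, h12, h13, h14, h15⟩ := Ti.exists_hyp (refl_polar Q) (by norm_num : 0 < 4) hf4 (J_ss h2 hf) hB
    (X := ⊤) (fun v _ => trivial) (nd_top.1 hQ)
  have hLs : ∀ v ∈ L, Q v = 0 := by
    intro v hv
    have h := h6 v hv v hv
    rw [polarBilin_apply_apply, p2n] at h
    exact (mul_eq_zero.1 h).resolve_left h2
  have hA2 : finrank F A ≤ 2 := by
    by_contra hcon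
    push Not at hcon
    obtain ⟨u, hu0, hu⟩ := exists_singular (Q.restrict A) hcon
    have hu' : Q (u : V) = 0 := hu
    have huu : (u : V) ≠ 0 := fun h => hu0 (Subtype.ext h)
    have hpf := polar_inv hiso
    have hvw : polar Q (u : V) (f u) = 0 := by
      have h5 := hpf (u : V) (f u)
      rw [hf, polar_neg_right, polar_comm] at h5
      have h6 : 2 * polar Q (u : V) (f u) = 0 := by linear_combination -h5
      exact (mul_eq_zero.1 h6).resolve_left h2
    have hbot := h14 (Submodule.span F {(u : V), f u}) (by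
      rw [Submodule.span_le]
      rintro x (rfl | rfl)
      · exact u.2
      · exact h10 u u.2) (J_line_inv hf u) (by
      intro x hx y hy
      obtain ⟨a, b, rfl⟩ := Submodule.mem_span_pair.1 hx
      obtain ⟨a', b', rfl⟩ := Submodule.mem_span_pair.1 hy
      rw [polarBilin_apply_apply]
      simp only [polar_add_left, polar_add_right, polar_smul_left, polar_smul_right, p2n, hvw, polar_comm Q (f (u : V)) (u : V), hiso, hu',
        smul_zero, mul_zero, add_zero])
    have h := J_line hsq hf huu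
    rw [hbot, finrank_bot] at h
    omega
  rw [finrank_top] at h12
  obtain ⟨e, he⟩ := J_even hsq hf h5
  obtain ⟨W, w1, w2, w3⟩ := J_sub h2 hsq hf h5 j (by omega)
  exact ⟨W, w3, fun v hv => hLs v (w1 hv), w2⟩

/-- eigenspaces when `-1` is a square -/
theorem J_sq (h2 : (2 : F) ≠ 0) (hsq : IsSquare (-1 : F)) {Q : QuadraticForm F V} (hQ : ND Q) {f : V →ₗ[F] V} (hiso : ∀ v, Q (f v) = Q v)
    (hf : ∀ v, f (f v) = -v) {j : ℕ} (hj : 2 * j ≤ finrank F V) :
    ∃ W : Submodule F V, finrank F W = j ∧ (∀ v ∈ W, Q v = 0) ∧ ∀ v ∈ W, f v ∈ W := by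
  obtain ⟨e, he⟩ := hsq
  have hev : ∀ ζ : F, ζ * ζ = -1 → ∀ v, f v = ζ • v → Q v = 0 := by
    intro ζ hζ v hv
    have h1 := hiso v
    rw [hv, QuadraticMap.map_smul, hζ, smul_eq_mul] at h1
    have h3 : 2 * Q v = 0 := by linear_combination -h1
    exact (mul_eq_zero.1 h3).resolve_left h2
  let E : F → Submodule F V := fun ζ => LinearMap.ker (f - ζ • LinearMap.id)
  have hE : ∀ ζ v, v ∈ E ζ ↔ f v = ζ • v := by
    intro ζ v
    show f v - ζ • v = 0 ↔ _
    exact sub_eq_zero
  have hsup : E e ⊔ E (-e) = ⊤ := by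
    rw [eq_top_iff]
    intro v _
    have h1 : v = (2 : F)⁻¹ • (v - e • f v) + (2 : F)⁻¹ • (v + e • f v) := by
      rw [← smul_add]
      have : v - e • f v + (v + e • f v) = (2 : F) • v := by rw [two_smul]; abel
      rw [this, smul_smul, inv_mul_cancel₀ h2, one_smul]
    rw [h1]
    apply Submodule.add_mem_sup
    · apply Submodule.smul_mem
      rw [hE, _root_.map_sub, _root_.map_smul, hf, smul_sub, smul_smul, ← he, smul_neg, neg_smul, one_smul]; abel
    · apply Submodule.smul_mem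
      rw [hE, _root_.map_add, _root_.map_smul, hf, smul_add, smul_smul, neg_mul, ← he, smul_neg, neg_smul, neg_neg, one_smul]; abel
  have h3 := Submodule.finrank_add_le_finrank_add_finrank (E e) (E (-e))
  rw [hsup, finrank_top] at h3
  have hts : ∀ ζ : F, ζ * ζ = -1 → j ≤ finrank F (E ζ) → ∃ W : Submodule F V, finrank F W = j ∧ (∀ v ∈ W, Q v = 0) ∧ ∀ v ∈ W, f v ∈ W := by
    intro ζ hζ hle
    obtain ⟨W, w1, w2⟩ := exists_sub (E ζ) hle
    refine ⟨W, w2, fun v hv => hev ζ hζ v ((hE ζ v).1 (w1 hv)), fun v hv => ?_⟩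
    rw [(hE ζ v).1 (w1 hv)]
    exact W.smul_mem _ hv
  rcases (by omega : j ≤ finrank F (E e) ∨ j ≤ finrank F (E (-e))) with h | h
  · exact hts e he.symm h
  · exact hts (-e) (by rw [neg_mul_neg]; exact he.symm) h

end J

end H99.OrthTi
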