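import Mathlib
import Cfsg.Agent.Lib.H99.Skew
import Cfsg.Agent.Lib.H99.SpIdx

set_option autoImplicit false
set_option linter.unusedSimpArgs false
set_option linter.unusedSectionVars false
set_option linter.unusedVariables false

/-! Subfields of the matrix algebra consisting of self-adjoint elements, symplectic case. -/

namespace H99.SelfAdj

open Matrix Module H99.FieldEmb H99.RElt

universe u

theorem dvd_finrank {F : Type u} [Field F] {α : Type} [Fintype α] [DecidableEq α] {E : Type u} [Field E] [Algebra F E]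
    [FiniteDimensional F E] (ρ : E →ₐ[F] Matrix α α F)
    (Y : Submodule F (α → F)) (hY : ∀ e : E, ∀ v ∈ Y, ρ e *ᵥ v ∈ Y) : finrank F E ∣ finrank F Y := by
  let Y' : Submodule E (VE ρ) :=
    { carrier := (Y : Set (α → F))
      add_mem' := fun {a b} ha hb => Y.add_mem ha hb
      zero_mem' := Y.zero_mem
      smul_mem' := fun c x hx => hY c x hx }
  refine ⟨finrank E Y', ?_⟩
  rw [Module.finrank_mul_finrank F E Y']
  rfl

theorem card_dvd {F : Type u} [Field F] [Fintype F] {d k : ℕ} {E : Type u} [Field E] [Algebra F E] [FiniteDimensional F E]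
    {ρ : E →ₐ[F] Matrix (Fin d ⊕ Fin d) (Fin d ⊕ Fin d) F}
    {K : Subalgebra F (Matrix (Fin d ⊕ Fin d) (Fin d ⊕ Fin d) F)} (hmem : ∀ M, M ∈ K ↔ ∃ e, ρ e = M)
    (hE : finrank F E = k)
    (hself : ∀ e u v, sympB d F (ρ e *ᵥ u) v = sympB d F u (ρ e *ᵥ v))
    (halt : ∀ e v, sympB d F (ρ e *ᵥ v) v = 0) :
    ∃ m, d = k * m ∧ Nat.card (symplecticGroup (Fin m) E) ∣
      Nat.card (Cfsg.Geo.subalgebraNormalizer K ⊓ Cfsg.spGL d F : Subgroup (GL (Fin d ⊕ Fin d) F)) := by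
  classical
  have hfin : Finite E := Module.finite_of_finite F
  have hA := sympB_alt (F := F) d
  have hN := sympB_nd (F := F) d
  obtain ⟨n, Φ, hn, hΦ⟩ := exists_emb ρ
  obtain ⟨f, hf⟩ := exists_form ρ Φ (sympB d F) hΦ
  have hadj : ∀ e u v, sympB d F (ρ e *ᵥ u) v = sympB d F u (ρ ((AlgEquiv.refl : E ≃ₐ[F] E) e) *ᵥ v) := hself
  have hσσ : ∀ e, (AlgEquiv.refl : E ≃ₐ[F] E) ((AlgEquiv.refl : E ≃ₐ[F] E) e) = e := fun e => rfl
  have hsw : ∀ u v, f v u = - f u v := fun u v => form_swap ρ Φ hf hΦ _ hσσ hadj hA u v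
  have hfs : Cfsg.Geo.IsSymplecticForm f := by
    refine ⟨⟨form_add_left Φ hf, form_smul_left Φ hf, form_add_right Φ hf, fun c v x => ?_⟩, fun v w => hsw w v, fun v => ?_, fun v hv => ⟨?_, ?_⟩⟩
    · exact form_smul_right ρ Φ hf hΦ _ hσσ hadj c v x
    · exact form_alt ρ Φ hf hΦ AlgEquiv.refl hσσ hadj halt v
    · by_contra h
      push Not at h
      apply hv
      apply form_nd Φ hf hN
      intro w
      rw [hsw, h, neg_zero]
    · by_contra h
      push Not at h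
      exact hv (form_nd Φ hf hN _ h)
  have hev : Even n := by
    have h := Form.Ses.even_card (Form.ses_of_symplectic hfs) hfs.alternating Finset.univ (fun a _ b hb => absurd (Finset.mem_univ b) hb)
    rwa [Finset.card_univ, Fintype.card_fin] at h
  obtain ⟨m, hm⟩ := hev
  refine ⟨m, ?_, ?_⟩
  · rw [hE, Fintype.card_sum, Fintype.card_fin, hm] at hn
    have : k * (m + m) = k * m + k * m := by ring
    omega
  subst hm
  obtain ⟨φ, hφ, hφf⟩ := SpIdx.exists_hom (finSumFinEquiv (m := m) (n := m)) f hfs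
  let ψ : symplecticGroup (Fin m) E →* GL (Fin d ⊕ Fin d) F := (emb Φ).comp φ
  have hψ : Function.Injective ψ := (emb_injective Φ).comp hφ
  have hle : ψ.range ≤ Cfsg.Geo.subalgebraNormalizer K ⊓ Cfsg.spGL d F := by
    rintro _ ⟨g, rfl⟩
    refine Subgroup.mem_inf.2 ⟨mem_of_comm ρ hmem _ (emb_comm ρ Φ hΦ _), ?_⟩
    intro u v
    exact form_preserve Φ hf _ (hφf g) u v
  have h7 := Subgroup.card_dvd_of_le hle
  have h8 : Nat.card ψ.range = Nat.card (symplecticGroup (Fin m) E) := Nat.card_congr (MonoidHom.ofInjective hψ).symm.toEquiv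
  rw [h8] at h7
  exact h7

/-- arithmetic of the index -/
theorem index {F : Type u} [Field F] [Fintype F] {d k : ℕ} (hk : k.Prime) {E : Type u} [Field E] [Algebra F E] [FiniteDimensional F E]
    {ρ : E →ₐ[F] Matrix (Fin d ⊕ Fin d) (Fin d ⊕ Fin d) F}
    {K : Subalgebra F (Matrix (Fin d ⊕ Fin d) (Fin d ⊕ Fin d) F)} (hmem : ∀ M, M ∈ K ↔ ∃ e, ρ e = M)
    (hE : finrank F E = k)
    (hself : ∀ e u v, sympB d F (ρ e *ᵥ u) v = sympB d F u (ρ e *ᵥ v))
    (halt : ∀ e v, sympB d F (ρ e *ᵥ v) v = 0) {r : ℕ} (hr : r.Prime) (hrq : ¬ r ∣ Fintype.card F)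
    (hΩ : r ∣ (Cfsg.Geo.subalgebraNormalizer K).relIndex (Cfsg.spGL d F)) :
    ∃ j, 1 ≤ j ∧ j ≤ d ∧ ¬ k ∣ j ∧ r ∣ Fintype.card F ^ (2 * j) - 1 := by
  classical
  obtain ⟨m, hdm, hdvd⟩ := card_dvd hmem hE hself halt
  have hfin : Finite E := Module.finite_of_finite F
  have : Fintype E := Fintype.ofFinite E
  have hcE : Nat.card E = Fintype.card F ^ k := by
    rw [Module.natCard_eq_pow_finrank (K := F), hE, Nat.card_eq_fintype_card]
  set q := Fintype.card F with hq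
  have hq1 : 1 < q := Fintype.one_lt_card
  rw [H6.SympCard.card_symplecticGroup, Fintype.card_fin, hcE] at hdvd
  obtain ⟨t, ht⟩ := hdvd
  have h1 : (Cfsg.Geo.subalgebraNormalizer K).relIndex (Cfsg.spGL d F) *
      Nat.card (Cfsg.Geo.subalgebraNormalizer K ⊓ Cfsg.spGL d F : Subgroup (GL (Fin d ⊕ Fin d) F)) = Nat.card (Cfsg.spGL d F) := by
    have h4 := Subgroup.card_mul_index ((Cfsg.Geo.subalgebraNormalizer K).subgroupOf (Cfsg.spGL d F))
    have h5 : Nat.card ((Cfsg.Geo.subalgebraNormalizer K).subgroupOf (Cfsg.spGL d F)) =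
        Nat.card (Cfsg.Geo.subalgebraNormalizer K ⊓ Cfsg.spGL d F : Subgroup (GL (Fin d ⊕ Fin d) F)) := by
      rw [← Subgroup.inf_subgroupOf_right]
      exact Nat.card_congr (Subgroup.subgroupOfEquivOfLe inf_le_right).toEquiv
    rw [h5] at h4
    rw [mul_comm]; exact h4
  rw [ht, Skew.card_sp, ← hq] at h1
  -- split the product
  have hbij : ∏ j ∈ (Finset.Icc 1 d).filter (fun j => k ∣ j), (q ^ (2 * j) - 1) = ∏ i ∈ Finset.range m, ((q ^ k) ^ (2 * (i + 1)) - 1) := by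
    symm
    refine Finset.prod_bij (fun i _ => k * (i + 1)) ?_ ?_ ?_ ?_
    · intro i hi
      have hi' := Finset.mem_range.1 hi
      refine Finset.mem_filter.2 ⟨Finset.mem_Icc.2 ⟨Nat.mul_pos hk.pos (by omega), ?_⟩, dvd_mul_right _ _⟩
      rw [hdm]
      exact Nat.mul_le_mul_left _ hi'
    · intro a _ b _ hab
      have := Nat.eq_of_mul_eq_mul_left hk.pos hab
      omega
    · intro j hj
      obtain ⟨hj1, b, hb⟩ := Finset.mem_filter.1 hj
      rw [Finset.mem_Icc] at hj1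
      have hb0 : b ≠ 0 := by rintro rfl; omega
      refine ⟨b - 1, Finset.mem_range.2 ?_, ?_⟩
      · have : k * b ≤ k * m := by rw [← hb, ← hdm]; exact hj1.2
        have := Nat.le_of_mul_le_mul_left this hk.pos
        omega
      · rw [hb, Nat.sub_add_cancel (by omega)]
    · intro i _
      rw [← pow_mul]
      congr 2
      ring
  have hrng : ∏ i ∈ Finset.range d, (q ^ (2 * (i + 1)) - 1) = ∏ j ∈ Finset.Icc 1 d, (q ^ (2 * j) - 1) := by
    refine Finset.prod_bij (fun i _ => i + 1) ?_ ?_ ?_ ?_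
    · intro i hi
      have hi' := Finset.mem_range.1 hi
      exact Finset.mem_Icc.2 ⟨by omega, by omega⟩
    · intro a _ b _ hab
      omega
    · intro j hj
      rw [Finset.mem_Icc] at hj
      exact ⟨j - 1, Finset.mem_range.2 (by omega), by omega⟩
    · intro i _
      rfl
  have hsplit := Finset.prod_filter_mul_prod_filter_not (Finset.Icc 1 d) (fun j => k ∣ j) (fun j => q ^ (2 * j) - 1)
  rw [hrng, ← hsplit, hbij] at h1
  have hpos : 0 < ∏ i ∈ Finset.range m, ((q ^ k) ^ (2 * (i + 1)) - 1) := by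
    apply Finset.prod_pos
    intro i _
    have : q ≤ (q ^ k) ^ (2 * (i + 1)) := by rw [← pow_mul]; exact Nat.le_self_pow (by have := hk.pos; positivity) q
    omega
  have h2' : (Cfsg.Geo.subalgebraNormalizer K).relIndex (Cfsg.spGL d F) * ((q ^ k) ^ (m ^ 2) * t) =
      q ^ (d ^ 2) * ∏ j ∈ (Finset.Icc 1 d).filter (fun j => ¬ k ∣ j), (q ^ (2 * j) - 1) := by
    apply Nat.eq_of_mul_eq_mul_left hpos
    linarith [h1]
  have h3 : r ∣ q ^ (d ^ 2) * ∏ j ∈ (Finset.Icc 1 d).filter (fun j => ¬ k ∣ j), (q ^ (2 * j) - 1) := by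
    rw [← h2']
    exact hΩ.mul_right _
  rcases hr.dvd_mul.1 h3 with h4 | h4
  · exact absurd (hr.dvd_of_dvd_pow h4) hrq
  · obtain ⟨j, hj, hj2⟩ := (hr.prime.dvd_finsetProd_iff _).1 h4
    obtain ⟨hj3, hj4⟩ := Finset.mem_filter.1 hj
    rw [Finset.mem_Icc] at hj3
    exact ⟨j, hj3.1, hj3.2, hj4, hj2⟩

theorem exists_pow_ne {F : Type u} [Field F] [Fintype F] {E : Type u} [Field E] [Algebra F E] [FiniteDimensional F E]
    (hE : finrank F E = 2) : ∃ e : E, e ^ Fintype.card F ≠ e := by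
  have hfin : Finite E := Module.finite_of_finite F
  have : Fintype E := Fintype.ofFinite E
  have hcE : Nat.card E = Fintype.card F ^ 2 := by
    rw [Module.natCard_eq_pow_finrank (K := F), hE, Nat.card_eq_fintype_card]
  have hq1 : 1 < Fintype.card F := Fintype.one_lt_card
  obtain ⟨g, hg⟩ := IsCyclic.exists_generator (α := Eˣ)
  refine ⟨g, fun h => ?_⟩
  have h1 : orderOf g = Nat.card Eˣ := orderOf_eq_card_of_forall_mem_zpowers hg
  rw [Nat.card_units, hcE] at h1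
  have h2 : g ^ (Fintype.card F - 1) = 1 := by
    have h3 : g ^ Fintype.card F = g := Units.ext (by rw [Units.val_pow_eq_pow_val]; exact h)
    have h4 : g ^ (Fintype.card F - 1) * g = 1 * g := by
      rw [← pow_succ, Nat.sub_add_cancel hq1.le, h3, one_mul]
    exact mul_right_cancel h4
  have h3 := Nat.le_of_dvd (by omega) (orderOf_dvd_of_pow_eq_one h2)
  rw [h1] at h3
  have : Fintype.card F < Fintype.card F ^ 2 := by nlinarith
  omega

theorem self_core {F : Type u} [Field F] [Fintype F] {d k : ℕ} (hk : k.Prime) {E : Type u} [Field E] [Algebra F E] [FiniteDimensional F E]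
    (ρ : E →ₐ[F] Matrix (Fin d ⊕ Fin d) (Fin d ⊕ Fin d) F) (hE : finrank F E = k)
    (hself : ∀ e u v, sympB d F (ρ e *ᵥ u) v = sympB d F u (ρ e *ᵥ v))
    (halt : ∀ e v, sympB d F (ρ e *ᵥ v) v = 0) {r : ℕ} (hr : r.Prime) (hr2 : r ≠ 2) (hrq : ¬ r ∣ Fintype.card F)
    (T : (Fin d ⊕ Fin d → F) →ₗ[F] (Fin d ⊕ Fin d → F)) (hB : ∀ u v, sympB d F (T u) (T v) = sympB d F u v)
    (hT : T ^ r = 1) (hT1 : T ≠ 1) (hcomm : ∀ e v, ρ e *ᵥ (T v) = T (ρ e *ᵥ v))
    {i : ℕ} (hi : i = orderOf ((Fintype.card F : ℕ) : ZMod r)) (hi0 : 0 < i)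
    (hcase : (Odd i ∧ ¬ k ∣ i ∧ finrank F (LinearMap.range (T - 1)) ≤ 2 * i) ∨
      (Even i ∧ ¬ k ∣ i / 2 ∧ finrank F (LinearMap.range (T - 1)) ≤ i)) : False := by
  have hA := sympB_alt (F := F) d
  have hN := sympB_nd (F := F) d
  have hRef : (sympB d F).IsRefl := hA.isRefl
  have hrF := Iso.natCast_ne_zero hr hrq
  set W := LinearMap.range (T - 1) with hW
  have hWT : ∀ v ∈ W, T v ∈ W := by
    rintro _ ⟨v, rfl⟩
    refine ⟨T v, ?_⟩
    show T (T v) - T v = T (T v - v)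
    rw [map_sub]
  have hWΔ : ∀ e, ∀ v ∈ W, ρ e *ᵥ v ∈ W := by
    rintro e _ ⟨v, rfl⟩
    refine ⟨ρ e *ᵥ v, ?_⟩
    show T (ρ e *ᵥ v) - ρ e *ᵥ v = ρ e *ᵥ (T v - v)
    rw [Matrix.mulVec_sub, hcomm]
  have hW0 : W ≠ ⊥ := by
    intro h
    apply hT1
    apply LinearMap.ext
    intro v
    have : (T - 1) v ∈ W := ⟨v, rfl⟩
    rw [h, Submodule.mem_bot] at this
    exact sub_eq_zero.1 this
  have hfpf : ∀ v ∈ W, T v = v → v = 0 := by
    intro v hv h
    exact Iso.mov_fpf hr hrq hT (X := ⊤) v ⟨trivial, hv⟩ h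
  have hWn : Iso.ND (sympB d F) W := by
    have := (Iso.nd_mov hr hrq hRef hT hB (X := ⊤) (fun v _ => trivial) Skew.top_nd).1
    rwa [top_inf_eq] at this
  have hWi : i ≤ finrank F W := by
    rw [hi]; exact Iso.ord_le hr hrq hT hWT hfpf hW0
  rcases hcase with ⟨hodd, hki, hdim⟩ | ⟨hie, hki, hdim⟩
  · obtain ⟨Y, hYW, hYT, hYi, hYpos, hmin⟩ := Adj.exists_irred_sub hr hrq hT hWT hfpf hW0
    rw [← hi] at hYi
    by_cases hYΔ : ∀ e : E, e ≠ 0 → Y.map (Matrix.toLin' (ρ e)) = Y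
    · have h5 := dvd_finrank ρ Y (fun e v hv => by
        by_cases he : e = 0
        · rw [he, map_zero, Matrix.zero_mulVec]; exact Y.zero_mem
        · rw [← hYΔ e he]; exact ⟨v, hv, rfl⟩)
      rw [hYi, hE] at h5
      exact hki h5
    · push Not at hYΔ
      obtain ⟨e, he, hYe⟩ := hYΔ
      have hΔinj : Function.Injective (Matrix.toLin' (ρ e)) := by
        rw [← LinearMap.ker_eq_bot, LinearMap.ker_eq_bot']
        intro v hv
        by_contra hv0
        exact he (mulVec_eq_zero ρ hv0 hv)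
      have h5 := Adj.pair_nd hr hrq hRef (fun v => hA v) hN hB hT hodd hdim (hcomm e) hΔinj hYW hYT hYi hmin hYe
      let s : LinearMap.BilinForm F (Fin d ⊕ Fin d → F) := (sympB d F).compl₁₂ LinearMap.id (Matrix.toLin' (ρ e))
      have hs : ∀ u v, s u v = sympB d F u (ρ e *ᵥ v) := fun u v => rfl
      have hsr : s.IsRefl := by
        intro u v huv
        rw [hs] at huv ⊢
        rw [← hself, Alt.swap hA, huv, neg_zero]
      have h6 := Iso.even_of_alt (B := s) hsr i Y hYi (fun x hx hxy => h5 x hx hxy) (fun x _ => by rw [hs, ← hself, halt])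
      exact (Nat.not_even_iff_odd.2 hodd) h6
  · have hWeq : finrank F W = i := le_antisymm hdim hWi
    have hkd := dvd_finrank ρ W hWΔ
    rw [hE, hWeq] at hkd
    have h2i : i = 2 * (i / 2) := by obtain ⟨b, hb⟩ := hie; omega
    rw [h2i] at hkd
    have hk2 : k = 2 := by
      rcases hk.dvd_mul.1 hkd with h | h
      · exact (Nat.prime_dvd_prime_iff_eq hk Nat.prime_two).1 h
      · exact absurd h hki
    subst hk2
    obtain ⟨e, he⟩ := exists_pow_ne hE
    have h5 := Adj.adj_pow (δ := Matrix.toLin' (ρ e)) hr hr2 hrq hB hT hT1 hi hi0 hie hdim (hcomm e)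
    have hfin : Finite E := Module.finite_of_finite F
    have hfE : Fintype E := Fintype.ofFinite E
    have hcE : Fintype.card E = Fintype.card F ^ 2 := by
      rw [← hE]; exact Module.card_eq_pow_finrank
    have hpow : ∀ m : ℕ, e ^ (Fintype.card F ^ (2 * m)) = e := by
      intro m
      rw [pow_mul, ← hcE]
      exact FiniteField.pow_card_pow m e
    obtain ⟨m, hm⟩ : Odd (i / 2) := by rw [← Nat.not_even_iff_odd, even_iff_two_dvd]; exact hki
    obtain ⟨w, hw, hw0⟩ := Submodule.exists_mem_ne_zero_of_ne_bot hW0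
    apply he
    have hpow2 : e ^ (Fintype.card F ^ (i / 2)) = e ^ Fintype.card F := by
      rw [hm, pow_succ, pow_mul, hpow]
    rw [← sub_eq_zero]
    apply mulVec_eq_zero ρ hw0
    apply hWn _ (hWΔ _ w hw)
    intro y hy
    have h6 := h5 y hy w hw
    have h7 : (Matrix.toLin' (ρ e) ^ (Fintype.card F ^ (i / 2))) w = ρ (e ^ Fintype.card F) *ᵥ w := by
      rw [← Matrix.toLin'_pow, ← map_pow, hpow2]; rfl
    rw [h7] at h6
    have h8 : sympB d F (ρ e *ᵥ y) w = sympB d F y (ρ (e ^ Fintype.card F) *ᵥ w) := h6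
    rw [hself] at h8
    rw [Alt.swap hA, map_sub, Matrix.sub_mulVec, map_sub, h8, sub_self, neg_zero]

/-- `y` has a big fixed space -/
theorem comm_of_rank {F : Type u} [Field F] {d : ℕ} {E : Type u} [Field E] [Algebra F E]
    (ρ : E →ₐ[F] Matrix (Fin d ⊕ Fin d) (Fin d ⊕ Fin d) F)
    {K : Subalgebra F (Matrix (Fin d ⊕ Fin d) (Fin d ⊕ Fin d) F)} (hmem : ∀ M, M ∈ K ↔ ∃ e, ρ e = M)
    (y : GL (Fin d ⊕ Fin d) F) (hy : y ∈ Cfsg.Geo.subalgebraNormalizer K)
    (hrk : finrank F (LinearMap.range (Matrix.toLin' (y : Matrix (Fin d ⊕ Fin d) (Fin d ⊕ Fin d) F) - 1)) < d) (e : E) :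
    (y : Matrix (Fin d ⊕ Fin d) (Fin d ⊕ Fin d) F) * ρ e = ρ e * (y : Matrix (Fin d ⊕ Fin d) (Fin d ⊕ Fin d) F) := by
  apply comm_of_fix ρ hmem y hy
  have h1 := LinearMap.finrank_range_add_finrank_ker (Matrix.toLin' (y : Matrix (Fin d ⊕ Fin d) (Fin d ⊕ Fin d) F) - 1)
  rw [Module.finrank_fintype_fun_eq_card, Fintype.card_sum, Fintype.card_fin] at h1
  rw [Fintype.card_sum, Fintype.card_fin]
  omega

theorem odd_case {F : Type u} [Field F] [Fintype F] {d k : ℕ} (hd : 0 < d) (hk : k.Prime) (hkd : k ≤ d) {E : Type u} [Field E] [Algebra F E] [FiniteDimensional F E]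
    {ρ : E →ₐ[F] Matrix (Fin d ⊕ Fin d) (Fin d ⊕ Fin d) F}
    {K : Subalgebra F (Matrix (Fin d ⊕ Fin d) (Fin d ⊕ Fin d) F)} (hmem : ∀ M, M ∈ K ↔ ∃ e, ρ e = M) (hE : finrank F E = k)
    (hself : ∀ e u v, sympB d F (ρ e *ᵥ u) v = sympB d F u (ρ e *ᵥ v))
    (halt : ∀ e v, sympB d F (ρ e *ᵥ v) v = 0) {r : ℕ} (hr : r.Prime) (hr2 : r ≠ 2) (hrq : ¬ r ∣ Fintype.card F)
    {i j : ℕ} (hi : i = orderOf ((Fintype.card F : ℕ) : ZMod r)) (hi0 : 0 < i) (hj0 : 1 ≤ j) (hjd : j ≤ d)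
    (hrd : r ∣ Fintype.card F ^ (2 * j) - 1) (hcase : (Odd i ∧ ¬ k ∣ i ∧ j = i) ∨ (Even i ∧ ¬ k ∣ i / 2 ∧ 2 * j = i)) :
    ∃ x ∈ Cfsg.spGL d F, x ^ r = 1 ∧ (∀ z : F, (x : Matrix (Fin d ⊕ Fin d) (Fin d ⊕ Fin d) F) ≠ z • (1 : Matrix (Fin d ⊕ Fin d) (Fin d ⊕ Fin d) F)) ∧
      ∀ g ∈ Cfsg.spGL d F, g⁻¹ * x * g ∉ Cfsg.Geo.subalgebraNormalizer K := by
  have : Fact r.Prime := ⟨hr⟩
  have hne : Nonempty (Fin d ⊕ Fin d) := ⟨.inl ⟨0, hd⟩⟩
  obtain ⟨A, hAr, hA1, hArk⟩ := exists_sp (F := F) hr hj0 hjd hrd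
  obtain ⟨x, hx, hxA⟩ := Skew.exists_spGL A
  have hxr : x ^ r = 1 := by
    apply Units.ext
    rw [Units.val_pow_eq_pow_val, hxA]
    exact congrArg Subtype.val hAr
  have hx1 : x ≠ 1 := by
    rintro rfl
    apply hA1
    apply Subtype.ext
    rw [← hxA]; rfl
  refine ⟨x, hx, hxr, Skew.not_scalar hd (hr.odd_of_ne_two hr2) x hx hxr hx1, ?_⟩
  intro g hg hN
  set y := g⁻¹ * x * g with hy
  have hyr : y ^ r = 1 := by
    have : y ^ r = g⁻¹ * x ^ r * g := by
      have := conj_pow (i := r) (a := g⁻¹) (b := x)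
      rw [inv_inv] at this
      exact this
    rw [this, hxr]; group
  have hy1 : y ≠ 1 := by
    intro h
    apply hx1
    have : x = g * y * g⁻¹ := by rw [hy]; group
    rw [this, h]; group
  have hyS : y ∈ Cfsg.spGL d F := Subgroup.mul_mem _ (Subgroup.mul_mem _ (Subgroup.inv_mem _ hg) hx) hg
  have hrk := Skew.rank_conj_le x g
  rw [hxA] at hrk
  have hrk' := hrk.trans hArk
  have hcomm : ∀ e, (y : Matrix (Fin d ⊕ Fin d) (Fin d ⊕ Fin d) F) * ρ e = ρ e * (y : Matrix (Fin d ⊕ Fin d) (Fin d ⊕ Fin d) F) := by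
    by_cases hrk2 : r = k
    · subst hrk2
      apply comm_of_rank ρ hmem y hN
      have hi1 : i ∣ r - 1 := by
        rw [hi, orderOf_dvd_iff_pow_eq_one]
        exact ZMod.pow_card_sub_one_eq_one (by rw [Ne, ZMod.natCast_eq_zero_iff]; exact hrq)
      have hr3 := hr.two_le
      have h2j : 2 * j ≤ r - 1 := by
        rcases hcase with ⟨hio, _, hji⟩ | ⟨_, _, hji⟩
        · have h2 : 2 ∣ r - 1 := by
            obtain ⟨b, hb⟩ := hr.odd_of_ne_two hr2
            exact ⟨b, by omega⟩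
          have hcop : Nat.Coprime 2 i := (Nat.coprime_two_left).2 hio
          have h3 := hcop.mul_dvd_of_dvd_of_dvd h2 hi1
          rw [hji]
          exact Nat.le_of_dvd (by omega) h3
        · rw [hji]
          exact Nat.le_of_dvd (by omega) hi1
      have h9 : finrank F (LinearMap.range (Matrix.toLin' (y : Matrix (Fin d ⊕ Fin d) (Fin d ⊕ Fin d) F) - 1)) ≤ 2 * j := hrk'
      omega
    · exact comm_of_pow ρ hmem hE y hN hyr ((Nat.coprime_primes hr hk).2 hrk2) hk.pos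
  apply self_core hk ρ hE hself halt hr hr2 hrq (Matrix.toLin' (y : Matrix (Fin d ⊕ Fin d) (Fin d ⊕ Fin d) F))
    (SpInv.gl_isom hyS) ?_ ?_ ?_ hi hi0 ?_
  · rw [← Matrix.toLin'_pow]
    have : (y : Matrix (Fin d ⊕ Fin d) (Fin d ⊕ Fin d) F) ^ r = 1 := congrArg Units.val hyr
    rw [this, Matrix.toLin'_one]; rfl
  · intro h
    apply hy1
    apply Units.ext
    apply Matrix.toLin'.injective
    rw [h, Units.val_one, Matrix.toLin'_one]; rfl
  · intro e v
    rw [Matrix.toLin'_apply, Matrix.toLin'_apply, Matrix.mulVec_mulVec, Matrix.mulVec_mulVec, hcomm]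
  · rcases hcase with ⟨h4, h6, h5⟩ | ⟨h4, h6, h5⟩
    · left
      exact ⟨h4, h6, by rw [← h5]; exact hrk'⟩
    · right
      exact ⟨h4, h6, by rw [← h5]; exact hrk'⟩

theorem trans_case {F : Type u} [Field F] [Fintype F] {p : ℕ} [Fact p.Prime] [CharP F p] {d k : ℕ} (hd : 2 ≤ d) (hk : k.Prime) {E : Type u} [Field E] [Algebra F E] [FiniteDimensional F E]
    {ρ : E →ₐ[F] Matrix (Fin d ⊕ Fin d) (Fin d ⊕ Fin d) F}
    {K : Subalgebra F (Matrix (Fin d ⊕ Fin d) (Fin d ⊕ Fin d) F)} (hmem : ∀ M, M ∈ K ↔ ∃ e, ρ e = M) (hE : finrank F E = k) :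
    ∃ x ∈ Cfsg.spGL d F, x ^ p = 1 ∧ (∀ z : F, (x : Matrix (Fin d ⊕ Fin d) (Fin d ⊕ Fin d) F) ≠ z • (1 : Matrix (Fin d ⊕ Fin d) (Fin d ⊕ Fin d) F)) ∧
      ∀ g ∈ Cfsg.spGL d F, g⁻¹ * x * g ∉ Cfsg.Geo.subalgebraNormalizer K := by
  obtain ⟨a, x0, T, ha, hx0, hT, hTB⟩ := SpInv.exists_transvection (F := F) (d := d) (by omega)
  obtain ⟨x, hx, hxv⟩ := SpInv.exists_gl T hTB
  have hTa : T a = a := by
    rw [hT]
    have : sympB d F a a = 0 := sympB_alt d a
    rw [this, zero_smul, add_zero]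
  have hrkx : finrank F (LinearMap.range (Matrix.toLin' (x : Matrix (Fin d ⊕ Fin d) (Fin d ⊕ Fin d) F) - 1)) ≤ 1 := by
    have : LinearMap.range (Matrix.toLin' (x : Matrix (Fin d ⊕ Fin d) (Fin d ⊕ Fin d) F) - 1) ≤ Submodule.span F {a} := by
      rintro _ ⟨v, rfl⟩
      have h1 : (Matrix.toLin' (x : Matrix (Fin d ⊕ Fin d) (Fin d ⊕ Fin d) F) - 1) v = sympB d F v a • a := by
        show (x : Matrix (Fin d ⊕ Fin d) (Fin d ⊕ Fin d) F) *ᵥ v - v = _
        rw [hxv, hT, add_sub_cancel_left]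
      rw [h1]
      exact Submodule.smul_mem _ _ (Submodule.mem_span_singleton_self a)
    exact (Submodule.finrank_mono this).trans (finrank_span_singleton ha).le
  have hx1 : x ≠ 1 := by
    rintro rfl
    have h3 := hxv x0
    rw [hx0, Units.val_one, Matrix.one_mulVec] at h3
    exact ha (left_eq_add.1 h3)
  refine ⟨x, hx, ?_, ?_, ?_⟩
  · apply Units.ext
    apply Skew.matrix_ext
    intro v
    rw [Units.val_pow_eq_pow_val, Units.val_one, Matrix.one_mulVec]
    have hk : ∀ k : ℕ, (x : Matrix (Fin d ⊕ Fin d) (Fin d ⊕ Fin d) F) ^ k *ᵥ v = v + (k : F) • (sympB d F v a • a) := by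
      intro k
      induction k with
      | zero => simp
      | succ k ih =>
        rw [pow_succ', ← Matrix.mulVec_mulVec, ih, hxv, map_add, map_smul, map_smul, hTa, hT]
        push_cast
        module
    rw [hk, CharP.cast_eq_zero, zero_smul, add_zero]
  · intro z hz
    have h1 : a = z • a := by
      have := hxv a
      rw [hTa, hz, Matrix.smul_mulVec, Matrix.one_mulVec] at this
      exact this.symm
    have hz1 : z = 1 := by
      have h3 : (1 - z) • a = 0 := by rw [sub_smul, one_smul, ← h1, sub_self]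
      rcases smul_eq_zero.1 h3 with h | h
      · exact (sub_eq_zero.1 h).symm
      · exact absurd h ha
    have h2 := hxv x0
    rw [hz, hz1, one_smul, Matrix.one_mulVec, hx0] at h2
    exact ha (left_eq_add.1 h2)
  · intro g hg hN
    set y := g⁻¹ * x * g with hy
    have hrk : finrank F (LinearMap.range (Matrix.toLin' (y : Matrix (Fin d ⊕ Fin d) (Fin d ⊕ Fin d) F) - 1)) ≤ 1 :=
      (Skew.rank_conj_le x g).trans hrkx
    have hcomm := comm_of_rank ρ hmem y hN (by omega)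
    have h1 := dvd_finrank ρ (LinearMap.range (Matrix.toLin' (y : Matrix (Fin d ⊕ Fin d) (Fin d ⊕ Fin d) F) - 1)) (by
      rintro e _ ⟨v, rfl⟩
      refine ⟨ρ e *ᵥ v, ?_⟩
      show (y : Matrix (Fin d ⊕ Fin d) (Fin d ⊕ Fin d) F) *ᵥ (ρ e *ᵥ v) - ρ e *ᵥ v = ρ e *ᵥ ((y : Matrix (Fin d ⊕ Fin d) (Fin d ⊕ Fin d) F) *ᵥ v - v)
      rw [Matrix.mulVec_sub, Matrix.mulVec_mulVec, Matrix.mulVec_mulVec, hcomm])
    rw [hE] at h1
    have hpos : 0 < finrank F (LinearMap.range (Matrix.toLin' (y : Matrix (Fin d ⊕ Fin d) (Fin d ⊕ Fin d) F) - 1)) := by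
      rw [Nat.pos_iff_ne_zero]
      intro h0
      rw [Submodule.finrank_eq_zero] at h0
      rw [LinearMap.range_eq_bot, sub_eq_zero] at h0
      have hy1 : y = 1 := by
        apply Units.ext
        apply Matrix.toLin'.injective
        rw [h0, Units.val_one, Matrix.toLin'_one]; rfl
      apply hx1
      have : x = g * y * g⁻¹ := by rw [hy]; group
      rw [this, hy1]; group
    have h2 := Nat.le_of_dvd hpos h1
    have := hk.two_le
    omega

end H99.SelfAdj
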