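import Mathlib
import Cfsg.Agent.Lib.H99.SelfAdj

set_option autoImplicit false
set_option linter.unusedSimpArgs false
set_option linter.unusedSectionVars false
set_option linter.unusedVariables false

/-! Self-adjoint subfields of the matrix algebra: the case of involutions. -/

namespace H99.SelfAdj

open Matrix Module H99.FieldEmb H99.RElt

universe u

/-- generator of a quadratic extension -/
theorem exists_quad {F : Type u} [Field F] [Fintype F] (h2 : (2 : F) ≠ 0) {E : Type u} [Field E] [Algebra F E] (hE : finrank F E = 2) :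
    ∃ (δ : E) (c : F), δ * δ = algebraMap F E c ∧ ¬ IsSquare c ∧ (∀ e : E, ∃ α β : F, e = algebraMap F E α + algebraMap F E β * δ) := by
  have hfd : FiniteDimensional F E := Module.finite_of_finrank_pos (by omega)
  have hfin : Finite E := Module.finite_of_finite F
  have hfE : Fintype E := Fintype.ofFinite E
  have hcE : Fintype.card E = Fintype.card F ^ 2 := by
    rw [← hE]; exact Module.card_eq_pow_finrank
  have hch : ringChar F ≠ 2 := by
    intro h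
    apply h2
    have := ringChar.spec F 2
    rw [h] at this
    exact_mod_cast this.2 dvd_rfl
  have hchE : ringChar E ≠ 2 := by
    rw [← Algebra.ringChar_eq F E]; exact hch
  obtain ⟨c, hc⟩ := FiniteField.exists_nonsquare hch
  have hc0 : c ≠ 0 := by rintro rfl; exact hc ⟨0, by simp⟩
  have h1 : c ^ (Fintype.card F / 2) = -1 := by
    rcases FiniteField.pow_dichotomy hch hc0 with h | h
    · exact absurd ((FiniteField.isSquare_iff hch hc0).2 h) hc
    · exact h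
  have hodd := FiniteField.odd_card_of_char_ne_two hch
  have hq : ∃ m, Fintype.card F = 2 * m + 1 := ⟨Fintype.card F / 2, by omega⟩
  obtain ⟨m, hm⟩ := hq
  have h3 : Fintype.card F / 2 = m := by omega
  have hE2 : Fintype.card E / 2 = m * (2 * m + 2) := by
    rw [hcE, hm]
    have : (2 * m + 1) ^ 2 = 2 * (m * (2 * m + 2)) + 1 := by ring
    omega
  have hcE0 : algebraMap F E c ≠ 0 := by rw [Ne, map_eq_zero]; exact hc0
  have hsq : IsSquare (algebraMap F E c) := by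
    rw [FiniteField.isSquare_iff hchE hcE0, hE2, ← map_pow, pow_mul, ← h3, h1, h3]
    rw [show 2 * m + 2 = 2 * (m + 1) by ring, pow_mul]
    simp
  obtain ⟨δ, hδ⟩ := hsq
  refine ⟨δ, c, hδ.symm, hc, ?_⟩
  have hnF : ∀ a : F, δ ≠ algebraMap F E a := by
    rintro a rfl
    apply hc
    rw [← map_mul] at hδ
    exact ⟨a, (algebraMap F E).injective hδ⟩
  have hli : LinearIndependent F ![(1 : E), δ] := by
    rw [LinearIndependent.pair_iff]
    intro s t h
    by_cases ht : t = 0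
    · rw [ht, zero_smul, add_zero] at h
      exact ⟨(smul_eq_zero.1 h).resolve_right one_ne_zero, ht⟩
    · exfalso
      apply hnF (-(t⁻¹ * s))
      have h3 : t⁻¹ • (s • (1 : E) + t • δ) = 0 := by rw [h, smul_zero]
      rw [smul_add, smul_smul, smul_smul, inv_mul_cancel₀ ht, one_smul] at h3
      rw [map_neg, Algebra.algebraMap_eq_smul_one, eq_neg_iff_add_eq_zero, add_comm]
      exact h3
  intro e
  have h3 := hli.span_eq_top_of_card_eq_finrank' (by rw [hE]; rfl)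
  have h4 : e ∈ Submodule.span F (Set.range ![(1 : E), δ]) := by rw [h3]; trivial
  rw [Matrix.range_cons, Matrix.range_cons, Matrix.range_empty, Set.union_empty, Set.singleton_union] at h4
  obtain ⟨α, β, h5⟩ := Submodule.mem_span_pair.1 h4
  refine ⟨α, β, ?_⟩
  rw [← h5, Algebra.smul_def, Algebra.smul_def, mul_one]

/-- a symplectic basis from Gram relations -/
theorem basis_of_gram {F : Type u} [Field F] {V : Type u} [AddCommGroup V] [Module F V] [FiniteDimensional F V] {B : LinearMap.BilinForm F V} (hA : B.IsAlt)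
    {ι : Type} [Fintype ι] [DecidableEq ι] [Nonempty ι] (b : Fin 2 × ι → V) (hdim : finrank F V = 2 * Fintype.card ι)
    (h1 : ∀ i j, B (b (0, i)) (b (0, j)) = 0) (h2 : ∀ i j, B (b (1, i)) (b (1, j)) = 0)
    (h3 : ∀ i j, B (b (0, i)) (b (1, j)) = if i = j then 1 else 0) :
    ∃ bs : Basis (Fin 2 × ι) F V, ∀ x, bs x = b x := by
  have h4 : ∀ i j, B (b (1, i)) (b (0, j)) = if i = j then -1 else 0 := by
    intro i j
    rw [Alt.swap hA, h3]
    by_cases h : i = j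
    · rw [if_pos h, if_pos h.symm]
    · rw [if_neg h, if_neg (Ne.symm h), neg_zero]
  have hli : LinearIndependent F b := by
    rw [Fintype.linearIndependent_iff]
    intro g hg
    have key : ∀ v, ∑ x, g x * B (b x) v = 0 := by
      intro v
      have := congrArg (fun w => B w v) hg
      simp only [map_sum, map_smul, LinearMap.sum_apply, LinearMap.smul_apply, smul_eq_mul, map_zero, LinearMap.zero_apply] at this
      exact this
    rintro ⟨a, i⟩
    have ha : a = 0 ∨ a = 1 := by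
      have : ∀ a : Fin 2, a = 0 ∨ a = 1 := by decide
      exact this a
    rcases ha with rfl | rfl
    · have := key (b (1, i))
      rw [Fintype.sum_prod_type, Fin.sum_univ_two] at this
      simp only [h3, h2, mul_zero, Finset.sum_const_zero, add_zero, mul_ite, mul_one] at this
      rw [Finset.sum_ite_eq' Finset.univ i, if_pos (Finset.mem_univ _)] at this
      exact this
    · have := key (b (0, i))
      rw [Fintype.sum_prod_type, Fin.sum_univ_two] at this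
      simp only [h1, h4, mul_zero, Finset.sum_const_zero, zero_add, mul_ite, mul_neg, mul_one] at this
      rw [Finset.sum_ite_eq' Finset.univ i, if_pos (Finset.mem_univ _)] at this
      exact neg_eq_zero.1 this
  have hcard : Fintype.card (Fin 2 × ι) = finrank F V := by rw [hdim, Fintype.card_prod, Fintype.card_fin]
  exact ⟨basisOfLinearIndependentOfCardEqFinrank hli hcard, fun x => by
    rw [coe_basisOfLinearIndependentOfCardEqFinrank]⟩

/-- adapted basis in dimension four -/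
theorem exists_adapted {F : Type u} [Field F] [Fintype F] {E : Type u} [Field E] [Algebra F E]
    {ρ : E →ₐ[F] Matrix (Fin 2 ⊕ Fin 2) (Fin 2 ⊕ Fin 2) F} {δ : E} {c : F}
    (hself : ∀ e u v, sympB 2 F (ρ e *ᵥ u) v = sympB 2 F u (ρ e *ᵥ v))
    (halt : ∀ e v, sympB 2 F (ρ e *ᵥ v) v = 0) (hns : ¬ IsSquare c) (hδ : δ * δ = algebraMap F E c) :
    ∃ bs : Basis (Fin 2 × Fin 2) F (Fin 2 ⊕ Fin 2 → F),
      (∀ i j, sympB 2 F (bs (0, i)) (bs (0, j)) = 0) ∧ (∀ i j, sympB 2 F (bs (1, i)) (bs (1, j)) = 0) ∧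
      (∀ i j, sympB 2 F (bs (0, i)) (bs (1, j)) = if i = j then 1 else 0) ∧
      ρ δ *ᵥ bs (0, 0) = bs (0, 1) ∧ ρ δ *ᵥ bs (0, 1) = c • bs (0, 0) ∧
      ρ δ *ᵥ bs (1, 0) = c • bs (1, 1) ∧ ρ δ *ᵥ bs (1, 1) = bs (1, 0) := by
  have hA := sympB_alt (F := F) 2
  have hN := sympB_nd (F := F) 2
  have hc0 : c ≠ 0 := by rintro rfl; exact hns ⟨0, by simp⟩
  have hδδ : ∀ v, ρ δ *ᵥ (ρ δ *ᵥ v) = c • v := by
    intro v
    rw [Matrix.mulVec_mulVec, ← map_mul, hδ, AlgHom.commutes, Algebra.algebraMap_eq_smul_one, Matrix.smul_mulVec, Matrix.one_mulVec]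
  have hne : Nonempty (Fin 2 ⊕ Fin 2) := ⟨.inl 0⟩
  obtain ⟨u, hu⟩ := exists_ne (0 : Fin 2 ⊕ Fin 2 → F)
  obtain ⟨w, hw⟩ : ∃ w, sympB 2 F u w ≠ 0 := by
    by_contra h
    push Not at h
    exact hu (hN _ h)
  set s := sympB 2 F u w with hs
  set t := sympB 2 F u (ρ δ *ᵥ w) with ht
  have hD : c * s ^ 2 - t ^ 2 ≠ 0 := by
    intro h
    apply hns
    refine ⟨t / s, ?_⟩
    field_simp
    linear_combination h
  obtain ⟨v, huv, hδuv⟩ : ∃ v, sympB 2 F u v = 1 ∧ sympB 2 F u (ρ δ *ᵥ v) = 0 := by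
    refine ⟨(c * s / (c * s ^ 2 - t ^ 2)) • w + (-t / (c * s ^ 2 - t ^ 2)) • (ρ δ *ᵥ w), ?_, ?_⟩
    · rw [map_add, map_smul, map_smul, smul_eq_mul, smul_eq_mul, ← hs, ← ht]
      field_simp
      ring
    · rw [Matrix.mulVec_add, Matrix.mulVec_smul, Matrix.mulVec_smul, hδδ, map_add, map_smul, map_smul, map_smul, smul_eq_mul, smul_eq_mul, smul_eq_mul,
        ← hs, ← ht]
      field_simp
      ring
  have a1 : ∀ x, sympB 2 F x x = 0 := fun x => hA x
  have a2 : ∀ x, sympB 2 F x (ρ δ *ᵥ x) = 0 := fun x => by rw [← hself, halt]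
  let b : Fin 2 × Fin 2 → (Fin 2 ⊕ Fin 2 → F) := fun x => match x with
    | (0, 0) => u
    | (1, 0) => v
    | (0, 1) => ρ δ *ᵥ u
    | (1, 1) => c⁻¹ • (ρ δ *ᵥ v)
  obtain ⟨bs, hbs⟩ := basis_of_gram (B := sympB 2 F) hA b (by simp) (by
      intro i j
      fin_cases i <;> fin_cases j
      · exact a1 u
      · exact a2 u
      · exact halt _ _
      · exact a1 _) (by
      intro i j
      fin_cases i <;> fin_cases j
      · exact a1 v
      · show sympB 2 F v (c⁻¹ • (ρ δ *ᵥ v)) = 0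
        rw [map_smul, a2, smul_zero]
      · show sympB 2 F (c⁻¹ • (ρ δ *ᵥ v)) v = 0
        rw [map_smul, LinearMap.smul_apply, halt, smul_zero]
      · exact a1 _) (by
      intro i j
      fin_cases i <;> fin_cases j
      · exact huv
      · show sympB 2 F u (c⁻¹ • (ρ δ *ᵥ v)) = 0
        rw [map_smul, hδuv, smul_zero]
      · show sympB 2 F (ρ δ *ᵥ u) v = 0
        rw [hself, hδuv]
      · show sympB 2 F (ρ δ *ᵥ u) (c⁻¹ • (ρ δ *ᵥ v)) = 1
        rw [map_smul, hself, hδδ, map_smul, huv, smul_eq_mul, smul_eq_mul, mul_one, inv_mul_cancel₀ hc0])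
  have b00 : bs (0, 0) = u := hbs _
  have b01 : bs (0, 1) = ρ δ *ᵥ u := hbs _
  have b10 : bs (1, 0) = v := hbs _
  have b11 : bs (1, 1) = c⁻¹ • (ρ δ *ᵥ v) := hbs _
  refine ⟨bs, ?_, ?_, ?_, ?_, ?_, ?_, ?_⟩
  · intro i j
    rw [hbs, hbs]
    fin_cases i <;> fin_cases j
    · exact a1 u
    · exact a2 u
    · exact halt _ _
    · exact a1 _
  · intro i j
    rw [hbs, hbs]
    fin_cases i <;> fin_cases j
    · exact a1 v
    · show sympB 2 F v (c⁻¹ • (ρ δ *ᵥ v)) = 0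
      rw [map_smul, a2, smul_zero]
    · show sympB 2 F (c⁻¹ • (ρ δ *ᵥ v)) v = 0
      rw [map_smul, LinearMap.smul_apply, halt, smul_zero]
    · exact a1 _
  · intro i j
    rw [hbs, hbs]
    fin_cases i <;> fin_cases j
    · exact huv
    · show sympB 2 F u (c⁻¹ • (ρ δ *ᵥ v)) = 0
      rw [map_smul, hδuv, smul_zero]
    · show sympB 2 F (ρ δ *ᵥ u) v = 0
      rw [hself, hδuv]
    · show sympB 2 F (ρ δ *ᵥ u) (c⁻¹ • (ρ δ *ᵥ v)) = 1
      rw [map_smul, hself, hδδ, map_smul, huv, smul_eq_mul, smul_eq_mul, mul_one, inv_mul_cancel₀ hc0]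
  · rw [b00, b01]
  · rw [b00, b01, hδδ]
  · rw [b10, b11, smul_smul, mul_inv_cancel₀ hc0, one_smul]
  · rw [b10, b11, Matrix.mulVec_smul, hδδ, smul_smul, inv_mul_cancel₀ hc0, one_smul]

/-- elements of square `-1` -/
theorem two_neg {F : Type u} [Field F] [Fintype F] (h2 : (2 : F) ≠ 0) {E : Type u} [Field E] [Algebra F E]
    {ρ : E →ₐ[F] Matrix (Fin 2 ⊕ Fin 2) (Fin 2 ⊕ Fin 2) F} {δ : E} {c : F}
    {K : Subalgebra F (Matrix (Fin 2 ⊕ Fin 2) (Fin 2 ⊕ Fin 2) F)} (hmem : ∀ M, M ∈ K ↔ ∃ e, ρ e = M)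
    (hself : ∀ e u v, sympB 2 F (ρ e *ᵥ u) v = sympB 2 F u (ρ e *ᵥ v))
    (halt : ∀ e v, sympB 2 F (ρ e *ᵥ v) v = 0) (hns : ¬ IsSquare c) (hδ : δ * δ = algebraMap F E c)
    (hspan : ∀ e : E, ∃ α β : F, e = algebraMap F E α + algebraMap F E β * δ)
    (x : GL (Fin 2 ⊕ Fin 2) F) (hx : x ∈ Cfsg.spGL 2 F)
    (hx2 : ∀ v, (x : Matrix (Fin 2 ⊕ Fin 2) (Fin 2 ⊕ Fin 2) F) *ᵥ ((x : Matrix (Fin 2 ⊕ Fin 2) (Fin 2 ⊕ Fin 2) F) *ᵥ v) = -v) :
    ∃ g ∈ Cfsg.spGL 2 F, g⁻¹ * x * g ∈ Cfsg.Geo.subalgebraNormalizer K := by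
  have hA := sympB_alt (F := F) 2
  have hN := sympB_nd (F := F) 2
  have hc0 : c ≠ 0 := by rintro rfl; exact hns ⟨0, by simp⟩
  obtain ⟨bs, h1, h2', h3, d00, d01, d10, d11⟩ := exists_adapted (ρ := ρ) hself halt hns hδ
  let im : Fin 2 × Fin 2 → (Fin 2 ⊕ Fin 2 → F) := fun x => match x with
    | (0, 0) => bs (1, 0)
    | (1, 0) => - bs (0, 0)
    | (0, 1) => c • bs (1, 1)
    | (1, 1) => - (c⁻¹ • bs (0, 1))
  let Y : (Fin 2 ⊕ Fin 2 → F) →ₗ[F] (Fin 2 ⊕ Fin 2 → F) := bs.constr F im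
  have y00 : Y (bs (0, 0)) = bs (1, 0) := by show bs.constr F _ _ = _; rw [Basis.constr_basis]
  have y10 : Y (bs (1, 0)) = - bs (0, 0) := by show bs.constr F _ _ = _; rw [Basis.constr_basis]
  have y01 : Y (bs (0, 1)) = c • bs (1, 1) := by show bs.constr F _ _ = _; rw [Basis.constr_basis]
  have y11 : Y (bs (1, 1)) = - (c⁻¹ • bs (0, 1)) := by show bs.constr F _ _ = _; rw [Basis.constr_basis]
  have h4 : ∀ i j, sympB 2 F (bs (1, i)) (bs (0, j)) = if i = j then -1 else 0 := by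
    intro i j
    rw [Alt.swap hA, h3]
    by_cases h : i = j
    · rw [if_pos h, if_pos h.symm]
    · rw [if_neg h, if_neg (Ne.symm h), neg_zero]
  have hYY : ∀ v, Y (Y v) = - v := by
    intro v
    have key : Y ∘ₗ Y = - LinearMap.id := by
      apply bs.ext
      rintro ⟨a, i⟩
      fin_cases a <;> fin_cases i
      · show Y (Y (bs (0, 0))) = - bs (0, 0)
        rw [y00, y10]
      · show Y (Y (bs (0, 1))) = - bs (0, 1)
        rw [y01, map_smul, y11, smul_neg, smul_smul, mul_inv_cancel₀ hc0, one_smul]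
      · show Y (Y (bs (1, 0))) = - bs (1, 0)
        rw [y10, map_neg, y00]
      · show Y (Y (bs (1, 1))) = - bs (1, 1)
        rw [y11, map_neg, map_smul, y01, smul_smul, inv_mul_cancel₀ hc0, one_smul]
    exact LinearMap.congr_fun key v
  have hYB : ∀ u v, sympB 2 F (Y u) (Y v) = sympB 2 F u v := by
    have key : (sympB 2 F).compl₁₂ Y Y = sympB 2 F := by
      apply bs.ext
      rintro ⟨a, i⟩
      apply bs.ext
      rintro ⟨b, j⟩
      show sympB 2 F (Y (bs (a, i))) (Y (bs (b, j))) = sympB 2 F (bs (a, i)) (bs (b, j))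
      fin_cases a <;> fin_cases i <;> fin_cases b <;> fin_cases j <;>
        simp [y00, y01, y10, y11, h1, h2', h3, h4, hc0]
    intro u v
    exact LinearMap.congr_fun (LinearMap.congr_fun key u) v
  have hYΔ : ∀ v, Y (ρ δ *ᵥ v) = ρ δ *ᵥ (Y v) := by
    intro v
    have key : Y ∘ₗ Matrix.toLin' (ρ δ) = Matrix.toLin' (ρ δ) ∘ₗ Y := by
      apply bs.ext
      rintro ⟨a, i⟩
      fin_cases a <;> fin_cases i
      · show Y (ρ δ *ᵥ bs (0, 0)) = ρ δ *ᵥ (Y (bs (0, 0)))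
        rw [d00, y00, y01, d10]
      · show Y (ρ δ *ᵥ bs (0, 1)) = ρ δ *ᵥ (Y (bs (0, 1)))
        rw [d01, map_smul, y00, y01, Matrix.mulVec_smul, d11]
      · show Y (ρ δ *ᵥ bs (1, 0)) = ρ δ *ᵥ (Y (bs (1, 0)))
        rw [d10, map_smul, y11, y10, Matrix.mulVec_neg, d00, smul_neg, smul_smul, mul_inv_cancel₀ hc0, one_smul]
      · show Y (ρ δ *ᵥ bs (1, 1)) = ρ δ *ᵥ (Y (bs (1, 1)))
        rw [d11, y10, y11, Matrix.mulVec_neg, Matrix.mulVec_smul, d01, smul_smul, inv_mul_cancel₀ hc0, one_smul]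
    exact LinearMap.congr_fun key v
  obtain ⟨ι₂, f₂, d₂, by', l1, l2, l3, l4⟩ := Alt.exists_symp_basis_neg h2 _ (sympB 2 F) hA hN Y hYB hYY
  obtain ⟨ι₃, f₃, d₃, bx, k1, k2, k3, k4⟩ := Alt.exists_symp_basis_neg h2 _ (sympB 2 F) hA hN
    (Matrix.toLin' (x : Matrix (Fin 2 ⊕ Fin 2) (Fin 2 ⊕ Fin 2) F)) (SpInv.gl_isom hx) hx2
  let e : ι₂ ≃ ι₃ := Fintype.equivOfCardEq (by rw [SpInv.card_idx by', SpInv.card_idx bx])
  obtain ⟨G, hG, hGb⟩ := SpInv.match_isom hA by' bx l1 l2 l3 k1 k2 k3 e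
  obtain ⟨y, -, hyv⟩ := SpInv.exists_gl Y hYB
  have ha : ∀ a : Fin 2, a = 0 ∨ a = 1 := by decide
  obtain ⟨g, hg, hgy⟩ := SpInv.conj_of_isom x y G hG (by
    intro v
    rw [hyv]
    have key : (Matrix.toLin' (x : Matrix (Fin 2 ⊕ Fin 2) (Fin 2 ⊕ Fin 2) F)) ∘ₗ G.toLinearMap = G.toLinearMap ∘ₗ Y := by
      apply by'.ext
      rintro ⟨a, i⟩
      show Matrix.toLin' (x : Matrix (Fin 2 ⊕ Fin 2) (Fin 2 ⊕ Fin 2) F) (G (by' (a, i))) = G (Y (by' (a, i)))
      rcases ha a with rfl | rfl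
      · rw [hGb, (k4 _).1, (l4 _).1, hGb]
      · rw [hGb, (k4 _).2, (l4 _).2, map_neg, hGb]
    exact LinearMap.congr_fun key v)
  refine ⟨g, hg, ?_⟩
  rw [hgy]
  apply mem_of_comm ρ hmem
  apply Skew.comm_all hspan
  apply Skew.matrix_ext
  intro v
  rw [← Matrix.mulVec_mulVec, ← Matrix.mulVec_mulVec, hyv, hyv]
  exact hYΔ v

/-- involutions -/
theorem two_pos {F : Type u} [Field F] [Fintype F] (h2 : (2 : F) ≠ 0) {E : Type u} [Field E] [Algebra F E]
    {ρ : E →ₐ[F] Matrix (Fin 2 ⊕ Fin 2) (Fin 2 ⊕ Fin 2) F} {δ : E} {c : F}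
    {K : Subalgebra F (Matrix (Fin 2 ⊕ Fin 2) (Fin 2 ⊕ Fin 2) F)} (hmem : ∀ M, M ∈ K ↔ ∃ e, ρ e = M)
    (hself : ∀ e u v, sympB 2 F (ρ e *ᵥ u) v = sympB 2 F u (ρ e *ᵥ v))
    (halt : ∀ e v, sympB 2 F (ρ e *ᵥ v) v = 0) (hns : ¬ IsSquare c) (hδ : δ * δ = algebraMap F E c)
    (hspan : ∀ e : E, ∃ α β : F, e = algebraMap F E α + algebraMap F E β * δ)
    (x : GL (Fin 2 ⊕ Fin 2) F) (hx : x ∈ Cfsg.spGL 2 F)
    (hx2 : ∀ v, (x : Matrix (Fin 2 ⊕ Fin 2) (Fin 2 ⊕ Fin 2) F) *ᵥ ((x : Matrix (Fin 2 ⊕ Fin 2) (Fin 2 ⊕ Fin 2) F) *ᵥ v) = v)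
    (hxs : ∀ z : F, (x : Matrix (Fin 2 ⊕ Fin 2) (Fin 2 ⊕ Fin 2) F) ≠ z • (1 : Matrix (Fin 2 ⊕ Fin 2) (Fin 2 ⊕ Fin 2) F)) :
    ∃ g ∈ Cfsg.spGL 2 F, g⁻¹ * x * g ∈ Cfsg.Geo.subalgebraNormalizer K := by
  classical
  have hA := sympB_alt (F := F) 2
  have hN := sympB_nd (F := F) 2
  have hc0 : c ≠ 0 := by rintro rfl; exact hns ⟨0, by simp⟩
  obtain ⟨bs, h1, h2', h3, d00, d01, d10, d11⟩ := exists_adapted (ρ := ρ) hself halt hns hδ
  obtain ⟨ι₂, f₂, d₂, bx, k1, k2, k3, k4⟩ := Alt.exists_symp_basis_pos h2 _ (sympB 2 F) hA hN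
    (Matrix.toLin' (x : Matrix (Fin 2 ⊕ Fin 2) (Fin 2 ⊕ Fin 2) F)) (SpInv.gl_isom hx) hx2
  choose s hs hs0 hs1 using k4
  have ha : ∀ a : Fin 2, a = 0 ∨ a = 1 := by decide
  have hscal : ∀ z : F, ¬ ∀ i, s i = z := by
    intro z hz
    apply hxs z
    apply Skew.matrix_ext
    intro v
    have key : Matrix.toLin' (x : Matrix (Fin 2 ⊕ Fin 2) (Fin 2 ⊕ Fin 2) F) = z • LinearMap.id := by
      apply bx.ext
      rintro ⟨a, i⟩
      rcases ha a with rfl | rfl
      · rw [hs0, hz]; rfl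
      · rw [hs1, hz]; rfl
    rw [Matrix.smul_mulVec, Matrix.one_mulVec]
    exact LinearMap.congr_fun key v
  obtain ⟨i0, hi0⟩ : ∃ i, s i = 1 := by
    by_contra h
    push Not at h
    exact hscal (-1) (fun i => (hs i).resolve_left (h i))
  obtain ⟨i1, hi1⟩ : ∃ i, s i = -1 := by
    by_contra h
    push Not at h
    exact hscal 1 (fun i => (hs i).resolve_right (h i))
  have hi01 : i0 ≠ i1 := by
    rintro rfl
    rw [hi0] at hi1
    apply h2
    linear_combination hi1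
  have hinj : Function.Injective (![i0, i1] : Fin 2 → ι₂) := by
    intro a b hab
    fin_cases a <;> fin_cases b
    · rfl
    · exact absurd hab hi01
    · exact absurd hab.symm hi01
    · rfl
  have hbij : Function.Bijective (![i0, i1] : Fin 2 → ι₂) := by
    rw [Fintype.bijective_iff_injective_and_card]
    exact ⟨hinj, by rw [SpInv.card_idx bx, Fintype.card_fin]⟩
  let e : Fin 2 ≃ ι₂ := Equiv.ofBijective _ hbij
  have he0 : e 0 = i0 := rfl
  have he1 : e 1 = i1 := rfl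
  obtain ⟨G, hG, hGb⟩ := SpInv.match_isom hA bs bx h1 h2' h3 k1 k2 k3 e
  obtain ⟨g, hg, hgv⟩ := SpInv.exists_gl G.toLinearMap hG
  have hgv' : ∀ v, (g : Matrix (Fin 2 ⊕ Fin 2) (Fin 2 ⊕ Fin 2) F) *ᵥ v = G v := hgv
  refine ⟨g, hg, Skew.mem_of_anti hmem hspan _ ?_⟩
  set y := g⁻¹ * x * g with hy
  have hgy : g * y = x * g := by rw [hy]; group
  have hyv : ∀ v, G ((y : Matrix (Fin 2 ⊕ Fin 2) (Fin 2 ⊕ Fin 2) F) *ᵥ v) = (x : Matrix (Fin 2 ⊕ Fin 2) (Fin 2 ⊕ Fin 2) F) *ᵥ (G v) := by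
    intro v
    rw [← hgv', ← hgv', Matrix.mulVec_mulVec, Matrix.mulVec_mulVec, ← Units.val_mul, hgy, Units.val_mul]
  have hyb : ∀ i a, (y : Matrix (Fin 2 ⊕ Fin 2) (Fin 2 ⊕ Fin 2) F) *ᵥ (bs (a, i)) = s (e i) • bs (a, i) := by
    intro i a
    apply G.injective
    rw [hyv, hGb, map_smul, hGb]
    rcases ha a with rfl | rfl
    · exact hs0 _
    · exact hs1 _
  apply Matrix.toLin'.injective
  apply bs.ext
  rintro ⟨a, i⟩
  rw [Matrix.toLin'_apply, Matrix.toLin'_apply, Matrix.neg_mulVec, ← Matrix.mulVec_mulVec, ← Matrix.mulVec_mulVec, hyb, Matrix.mulVec_smul]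
  fin_cases a <;> fin_cases i
  · show (y : Matrix (Fin 2 ⊕ Fin 2) (Fin 2 ⊕ Fin 2) F) *ᵥ (ρ δ *ᵥ bs (0, 0)) = -(s (e 0) • (ρ δ *ᵥ bs (0, 0)))
    rw [d00, hyb, he0, he1, hi0, hi1]; simp
  · show (y : Matrix (Fin 2 ⊕ Fin 2) (Fin 2 ⊕ Fin 2) F) *ᵥ (ρ δ *ᵥ bs (0, 1)) = -(s (e 1) • (ρ δ *ᵥ bs (0, 1)))
    rw [d01, Matrix.mulVec_smul, hyb, he0, he1, hi0, hi1]; simp
  · show (y : Matrix (Fin 2 ⊕ Fin 2) (Fin 2 ⊕ Fin 2) F) *ᵥ (ρ δ *ᵥ bs (1, 0)) = -(s (e 0) • (ρ δ *ᵥ bs (1, 0)))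
    rw [d10, Matrix.mulVec_smul, hyb, he0, he1, hi0, hi1]; simp
  · show (y : Matrix (Fin 2 ⊕ Fin 2) (Fin 2 ⊕ Fin 2) F) *ᵥ (ρ δ *ᵥ bs (1, 1)) = -(s (e 1) • (ρ δ *ᵥ bs (1, 1)))
    rw [d11, hyb, he0, he1, hi0, hi1]; simp

/-- an involution with a nondegenerate plane as its commutator space -/
theorem plane_case {F : Type u} [Field F] [Fintype F] (h2 : (2 : F) ≠ 0) {d k : ℕ} (hd : 3 ≤ d) (hk : k.Prime) {E : Type u} [Field E] [Algebra F E] [FiniteDimensional F E]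
    {ρ : E →ₐ[F] Matrix (Fin d ⊕ Fin d) (Fin d ⊕ Fin d) F}
    {K : Subalgebra F (Matrix (Fin d ⊕ Fin d) (Fin d ⊕ Fin d) F)} (hmem : ∀ M, M ∈ K ↔ ∃ e, ρ e = M) (hE : finrank F E = k)
    (halt : ∀ e v, sympB d F (ρ e *ᵥ v) v = 0) :
    ∃ x ∈ Cfsg.spGL d F, x ^ 2 = 1 ∧ (∀ z : F, (x : Matrix (Fin d ⊕ Fin d) (Fin d ⊕ Fin d) F) ≠ z • (1 : Matrix (Fin d ⊕ Fin d) (Fin d ⊕ Fin d) F)) ∧
      ∀ g ∈ Cfsg.spGL d F, g⁻¹ * x * g ∉ Cfsg.Geo.subalgebraNormalizer K := by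
  classical
  have hA := sympB_alt (F := F) d
  have hN := sympB_nd (F := F) d
  have hne : Nonempty (Fin d ⊕ Fin d) := ⟨.inl ⟨0, by omega⟩⟩
  obtain ⟨a, ha0⟩ := exists_ne (0 : Fin d ⊕ Fin d → F)
  obtain ⟨w, hw⟩ : ∃ w, sympB d F a w ≠ 0 := by
    by_contra h
    push Not at h
    exact ha0 (hN _ h)
  obtain ⟨b, hab⟩ : ∃ b, sympB d F a b = 1 := ⟨(sympB d F a w)⁻¹ • w, by rw [map_smul, smul_eq_mul, inv_mul_cancel₀ hw]⟩
  have hba : sympB d F b a = -1 := by rw [Alt.swap hA, hab]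
  have haa : sympB d F a a = 0 := hA a
  have hbb : sympB d F b b = 0 := hA b
  let T : (Fin d ⊕ Fin d → F) →ₗ[F] (Fin d ⊕ Fin d → F) :=
    { toFun := fun v => v - (2 : F) • (sympB d F v b • a - sympB d F v a • b)
      map_add' := fun u v => by simp only [map_add, LinearMap.add_apply]; module
      map_smul' := fun c v => by simp only [map_smul, LinearMap.smul_apply, smul_eq_mul, RingHom.id_apply]; module }
  have hT : ∀ v, T v = v - (2 : F) • (sympB d F v b • a - sympB d F v a • b) := fun v => rfl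
  have hTB : ∀ u v, sympB d F (T u) (T v) = sympB d F u v := by
    intro u v
    rw [hT, hT]
    simp only [map_sub, map_smul, LinearMap.sub_apply, LinearMap.smul_apply, smul_eq_mul, hab, hba, haa, hbb]
    rw [Alt.swap hA a v, Alt.swap hA b v]
    ring
  have hTT : ∀ v, T (T v) = v := by
    intro v
    have e1 : sympB d F (T v) b = - sympB d F v b := by
      rw [hT]
      simp only [map_sub, map_smul, LinearMap.sub_apply, LinearMap.smul_apply, smul_eq_mul, hab, hba, haa, hbb]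
      ring
    have e2 : sympB d F (T v) a = - sympB d F v a := by
      rw [hT]
      simp only [map_sub, map_smul, LinearMap.sub_apply, LinearMap.smul_apply, smul_eq_mul, hab, hba, haa, hbb]
      ring
    rw [hT (T v), e1, e2, hT]
    module
  obtain ⟨x, hx, hxv⟩ := SpInv.exists_gl T hTB
  have hrkx : finrank F (LinearMap.range (Matrix.toLin' (x : Matrix (Fin d ⊕ Fin d) (Fin d ⊕ Fin d) F) - 1)) ≤ 2 := by
    have : LinearMap.range (Matrix.toLin' (x : Matrix (Fin d ⊕ Fin d) (Fin d ⊕ Fin d) F) - 1) ≤ Submodule.span F {a, b} := by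
      rintro _ ⟨v, rfl⟩
      have h1 : (Matrix.toLin' (x : Matrix (Fin d ⊕ Fin d) (Fin d ⊕ Fin d) F) - 1) v = (-(2 : F) * sympB d F v b) • a + ((2 : F) * sympB d F v a) • b := by
        show (x : Matrix (Fin d ⊕ Fin d) (Fin d ⊕ Fin d) F) *ᵥ v - v = _
        rw [hxv, hT]
        module
      rw [h1]
      exact Submodule.mem_span_pair.2 ⟨_, _, rfl⟩
    refine (Submodule.finrank_mono this).trans ?_
    have h3 := finrank_span_finset_le_card (R := F) ({a, b} : Finset (Fin d ⊕ Fin d → F))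
    rw [Finset.coe_insert, Finset.coe_singleton] at h3
    exact h3.trans Finset.card_le_two
  have hxa : (x : Matrix (Fin d ⊕ Fin d) (Fin d ⊕ Fin d) F) *ᵥ a = - a := by
    rw [hxv, hT, hab, haa]; module
  have hxx : x ^ 2 = 1 := by
    apply Units.ext
    apply Skew.matrix_ext
    intro v
    rw [Units.val_pow_eq_pow_val, Units.val_one, Matrix.one_mulVec, pow_two, ← Matrix.mulVec_mulVec, hxv, hxv, hTT]
  have hx1 : x ≠ 1 := by
    rintro rfl
    rw [Units.val_one, Matrix.one_mulVec] at hxa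
    have : (2 : F) • a = 0 := by rw [two_smul]; nth_rewrite 1 [hxa]; exact neg_add_cancel a
    rcases smul_eq_zero.1 this with h | h
    · exact h2 h
    · exact ha0 h
  refine ⟨x, hx, hxx, ?_, ?_⟩
  · intro z hz
    have hz1 : z = -1 := by
      rw [hz, Matrix.smul_mulVec, Matrix.one_mulVec] at hxa
      have h3 : (z + 1) • a = 0 := by rw [add_smul, one_smul, hxa, neg_add_cancel]
      rcases smul_eq_zero.1 h3 with h | h
      · linear_combination h
      · exact absurd h ha0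
    have htop : LinearMap.range (Matrix.toLin' (x : Matrix (Fin d ⊕ Fin d) (Fin d ⊕ Fin d) F) - 1) = ⊤ := by
      rw [eq_top_iff]
      intro v _
      refine ⟨(-(2 : F)⁻¹) • v, ?_⟩
      show (x : Matrix (Fin d ⊕ Fin d) (Fin d ⊕ Fin d) F) *ᵥ ((-(2 : F)⁻¹) • v) - (-(2 : F)⁻¹) • v = v
      rw [hz, hz1, Matrix.smul_mulVec, Matrix.one_mulVec, smul_smul, ← sub_smul]
      have : (-1 * -(2 : F)⁻¹ - -(2 : F)⁻¹) = 1 := by field_simp; ring
      rw [this, one_smul]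
    rw [htop, finrank_top, Module.finrank_fintype_fun_eq_card, Fintype.card_sum, Fintype.card_fin] at hrkx
    omega
  · intro g hg hN'
    set y := g⁻¹ * x * g with hy
    have hyS : y ∈ Cfsg.spGL d F := Subgroup.mul_mem _ (Subgroup.mul_mem _ (Subgroup.inv_mem _ hg) hx) hg
    have hyr : y ^ 2 = 1 := by
      have : y ^ 2 = g⁻¹ * x ^ 2 * g := by
        have := conj_pow (i := 2) (a := g⁻¹) (b := x)
        rw [inv_inv] at this
        exact this
      rw [this, hxx]; group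
    have hy1 : y ≠ 1 := by
      intro h
      apply hx1
      have : x = g * y * g⁻¹ := by rw [hy]; group
      rw [this, h]; group
    have hyy : ∀ v, (y : Matrix (Fin d ⊕ Fin d) (Fin d ⊕ Fin d) F) *ᵥ ((y : Matrix (Fin d ⊕ Fin d) (Fin d ⊕ Fin d) F) *ᵥ v) = v := by
      intro v
      rw [Matrix.mulVec_mulVec, ← Units.val_mul, ← pow_two, hyr, Units.val_one, Matrix.one_mulVec]
    have hrk : finrank F (LinearMap.range (Matrix.toLin' (y : Matrix (Fin d ⊕ Fin d) (Fin d ⊕ Fin d) F) - 1)) ≤ 2 :=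
      (Skew.rank_conj_le x g).trans hrkx
    have hcomm := comm_of_rank ρ hmem y hN' (by omega)
    set W := LinearMap.range (Matrix.toLin' (y : Matrix (Fin d ⊕ Fin d) (Fin d ⊕ Fin d) F) - 1) with hW
    have hWρ : ∀ e, ∀ v ∈ W, ρ e *ᵥ v ∈ W := by
      rintro e _ ⟨v, rfl⟩
      refine ⟨ρ e *ᵥ v, ?_⟩
      show (y : Matrix (Fin d ⊕ Fin d) (Fin d ⊕ Fin d) F) *ᵥ (ρ e *ᵥ v) - ρ e *ᵥ v = ρ e *ᵥ ((y : Matrix (Fin d ⊕ Fin d) (Fin d ⊕ Fin d) F) *ᵥ v - v)
      rw [Matrix.mulVec_sub, Matrix.mulVec_mulVec, Matrix.mulVec_mulVec, hcomm]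
    have hdv := dvd_finrank ρ W hWρ
    rw [hE] at hdv
    have hW0 : W ≠ ⊥ := by
      intro h0
      rw [hW, LinearMap.range_eq_bot, sub_eq_zero] at h0
      apply hy1
      apply Units.ext
      apply Matrix.toLin'.injective
      rw [h0, Units.val_one, Matrix.toLin'_one]; rfl
    have hWk : finrank F W ≤ k := by
      have := hk.two_le
      omega
    obtain ⟨w, hw, hw0⟩ := Submodule.exists_mem_ne_zero_of_ne_bot hW0
    -- W = K w
    let ψ : E →ₗ[F] (Fin d ⊕ Fin d → F) :=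
      { toFun := fun e => ρ e *ᵥ w
        map_add' := fun e e' => by rw [map_add, Matrix.add_mulVec]
        map_smul' := fun c e => by rw [map_smul, Matrix.smul_mulVec]; rfl }
    have hψ : Function.Injective ψ := by
      rw [← LinearMap.ker_eq_bot, LinearMap.ker_eq_bot']
      intro e he
      exact mulVec_eq_zero ρ hw0 he
    have hrg : LinearMap.range ψ = W := by
      apply Submodule.eq_of_le_of_finrank_le
      · rintro _ ⟨e, rfl⟩
        exact hWρ e w hw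
      · rw [LinearMap.finrank_range_of_inj hψ, hE]
        exact hWk
    have hww : ∀ v ∈ W, sympB d F w v = 0 := by
      intro v hv
      rw [← hrg] at hv
      obtain ⟨e, rfl⟩ := hv
      show sympB d F w (ρ e *ᵥ w) = 0
      rw [Alt.swap hA, halt, neg_zero]
    apply hw0
    apply hN
    intro v
    have hyw : (y : Matrix (Fin d ⊕ Fin d) (Fin d ⊕ Fin d) F) *ᵥ w = - w := by
      obtain ⟨u, rfl⟩ := hw
      show (y : Matrix (Fin d ⊕ Fin d) (Fin d ⊕ Fin d) F) *ᵥ ((y : Matrix (Fin d ⊕ Fin d) (Fin d ⊕ Fin d) F) *ᵥ u - u) = - ((y : Matrix (Fin d ⊕ Fin d) (Fin d ⊕ Fin d) F) *ᵥ u - u)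
      rw [Matrix.mulVec_sub, hyy, neg_sub]
    have e1 : sympB d F ((y : Matrix (Fin d ⊕ Fin d) (Fin d ⊕ Fin d) F) *ᵥ w) ((y : Matrix (Fin d ⊕ Fin d) (Fin d ⊕ Fin d) F) *ᵥ v) = sympB d F w v :=
      SpInv.gl_isom hyS w v
    rw [hyw, map_neg, LinearMap.neg_apply] at e1
    have e2 : sympB d F w ((y : Matrix (Fin d ⊕ Fin d) (Fin d ⊕ Fin d) F) *ᵥ v - v) = 0 := hww _ ⟨v, rfl⟩
    rw [map_sub] at e2
    have e3 : (2 : F) * sympB d F w v = 0 := by linear_combination -e1 - e2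
    exact (mul_eq_zero.1 e3).resolve_left h2

end H99.SelfAdj
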