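import Mathlib
import Cfsg.Agent.Lib.H99.OrthJ2
import Cfsg.Agent.Lib.H99.SelfAdj2

set_option autoImplicit false
set_option linter.unusedSimpArgs false
set_option linter.unusedSectionVars false
set_option linter.unusedVariables false
set_option maxHeartbeats 400000

/-! Quadratic forms over a quadratic extension and their traces. -/

namespace H99.OrthK

open Module QuadraticMap H48.QuadSplit H48.QuadStd H96.OeType H99.OrthSS

universe u

section basic

variable {F E : Type u} [Field F] [Field E] [Algebra F E] {V : Type u} [AddCommGroup V] [Module F V] [Module E V] [IsScalarTower F E V]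

/-- the trace form -/
noncomputable def tq (F : Type u) [Field F] [Algebra F E] [Module F V] [IsScalarTower F E V] (q : QuadraticForm E V) : QuadraticForm F V :=
  (Algebra.trace F E).compQuadraticMap' q

theorem tq_apply (q : QuadraticForm E V) (v : V) : tq F q v = Algebra.trace F E (q v) := rfl

theorem polar_tq (q : QuadraticForm E V) (u v : V) : polar (tq F q) u v = Algebra.trace F E (polar q u v) := by
  rw [polar, polar, tq_apply, tq_apply, tq_apply, _root_.map_sub, _root_.map_sub]

theorem nd_tq [FiniteDimensional F E] [Algebra.IsSeparable F E] {q : QuadraticForm E V} (hq : ND q) : ND (tq F q) := by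
  intro x hx
  apply hq
  intro y
  apply FieldEmb.tr_inj (F := F)
  intro a
  rw [zero_mul, _root_.map_zero, mul_comm, ← smul_eq_mul, ← polar_smul_right, ← polar_tq]
  exact hx _

theorem nd_of_tq [FiniteDimensional F E] {q : QuadraticForm E V} (hq : ND (tq F q)) : ND q := by
  intro x hx
  apply hq
  intro y
  rw [polar_tq, hx, _root_.map_zero]

theorem exists_q [FiniteDimensional F E] [Algebra.IsSeparable F E] (h2 : (2 : F) ≠ 0) (Q : QuadraticForm F V)
    (hadj : ∀ (e : E) (u v : V), polar Q (e • u) v = polar Q u (e • v)) : ∃ q : QuadraticForm E V, tq F q = Q := by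
  have h1 := traceForm_nondegenerate F E
  let D := LinearMap.BilinForm.toDual (Algebra.traceForm F E) h1
  have hD : ∀ (ψ : Dual F E) (a : E), Algebra.trace F E (D.symm ψ * a) = ψ a := by
    intro ψ a
    have : D (D.symm ψ) a = Algebra.traceForm F E (D.symm ψ) a := LinearMap.BilinForm.toDual_def h1
    rw [← Algebra.traceForm_apply, ← this, LinearEquiv.apply_symm_apply]
  let L : V → V → Dual F E := fun u v =>
    { toFun := fun a => polar Q (a • u) v
      map_add' := fun a b => by rw [add_smul, polar_add_left]
      map_smul' := fun c a => by rw [smul_assoc, polar_smul_left]; rfl }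
  let f : V → V → E := fun u v => D.symm (L u v)
  have hf : ∀ a u v, Algebra.trace F E (f u v * a) = polar Q (a • u) v := fun a u v => hD _ _
  let B : LinearMap.BilinForm E V := LinearMap.mk₂ E f
    (fun x y v => by
      apply FieldEmb.tr_inj (F := F)
      intro a
      rw [hf, smul_add, polar_add_left, add_mul, _root_.map_add, hf, hf])
    (fun c x v => by
      apply FieldEmb.tr_inj (F := F)
      intro a
      rw [hf, smul_smul, smul_eq_mul, mul_right_comm, mul_comm _ (f x v), mul_comm c a, hf])
    (fun v x y => by
      apply FieldEmb.tr_inj (F := F)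
      intro a
      rw [hf, polar_add_right, add_mul, _root_.map_add, hf, hf])
    (fun c v x => by
      apply FieldEmb.tr_inj (F := F)
      intro a
      rw [hf, ← hadj, smul_smul, smul_eq_mul, mul_right_comm, mul_comm _ (f v x), mul_comm c a, hf])
  have hB : ∀ u v, B u v = f u v := fun u v => rfl
  refine ⟨(algebraMap F E (2⁻¹)) • (LinearMap.BilinMap.toQuadraticMap B), ?_⟩
  ext v
  have h3 : ∀ x : V, polar Q x x = 2 * Q x := fun x => by rw [polar_self, ← Nat.cast_smul_eq_nsmul F, smul_eq_mul]; norm_num
  rw [tq_apply, smul_apply, LinearMap.BilinMap.toQuadraticMap_apply, hB, smul_eq_mul, mul_comm, hf, algebraMap_smul, polar_smul_left, h3,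
    smul_eq_mul, ← mul_assoc, inv_mul_cancel₀ h2, one_mul]

/-- the restriction to a subspace -/
theorem eqv_sub (q : QuadraticForm E V) (W : Submodule E V) :
    (tq F (q.restrict W)).Equivalent ((tq F q).restrict (W.restrictScalars F)) :=
  ⟨⟨(Submodule.restrictScalarsEquiv F E V W).symm.restrictScalars F, fun v => rfl⟩⟩

theorem orth_tq [FiniteDimensional F E] [Algebra.IsSeparable F E] (q : QuadraticForm E V) (W : Submodule E V) :
    orth (tq F q) (W.restrictScalars F) = (orth q W).restrictScalars F := by
  ext v
  constructor
  · intro h u hu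
    apply FieldEmb.tr_inj (F := F)
    intro a
    rw [zero_mul, _root_.map_zero, mul_comm, ← smul_eq_mul, ← polar_smul_left, ← polar_tq]
    exact h _ (W.smul_mem a hu)
  · intro h u hu
    rw [polar_tq, h u hu, _root_.map_zero]

theorem nd_sub [FiniteDimensional F E] [Algebra.IsSeparable F E] {q : QuadraticForm E V} {W : Submodule E V} (hW : ND (q.restrict W)) :
    ND ((tq F q).restrict (W.restrictScalars F)) :=
  nd_of_equivalent (eqv_sub q W) (nd_tq hW)

theorem fr_sub [FiniteDimensional F E] (h2 : finrank F E = 2) (W : Submodule E V) : finrank F (W.restrictScalars F) = 2 * finrank E W := by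
  have h1 : finrank F W = finrank F E * finrank E W := (Module.finrank_mul_finrank F E W).symm
  rw [h2] at h1
  rw [← h1]
  exact ((Submodule.restrictScalarsEquiv F E V W).restrictScalars F).finrank_eq

/-- universality -/
theorem universal [Fintype E] (h2 : (2 : E) ≠ 0) [FiniteDimensional E V] {q : QuadraticForm E V} (hq : ND q) (hd : 2 ≤ finrank E V) {a : E} (ha : a ≠ 0) :
    ∃ v, q v = a := by
  have : Finite V := Module.finite_of_finite E
  obtain ⟨v, -, hv⟩ := exists_ns (Q := q) (A := ⊤) (nd_on.2 (nd_top.1 hq)) (by rw [finrank_top]; omega)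
  have hv0 : v ≠ 0 := by rintro rfl; exact hv (QuadraticMap.map_zero q)
  have hP : ND (q.restrict (Submodule.span E {v})) := by
    rw [nd_on]
    intro x hx hxy
    obtain ⟨c, rfl⟩ := Submodule.mem_span_singleton.1 hx
    have h3 := hxy v (Submodule.mem_span_singleton_self v)
    rw [polarBilin_apply_apply, polar_smul_left, polar_self, ← Nat.cast_smul_eq_nsmul E, smul_eq_mul, smul_eq_mul] at h3
    rw [(mul_eq_zero.1 h3).resolve_right (mul_ne_zero (by exact_mod_cast h2) hv), zero_smul]
  have hfo := finrank_orth hq (Submodule.span E {v})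
  rw [finrank_span_singleton hv0] at hfo
  obtain ⟨w, hw, hqw⟩ := exists_ns (Q := q) (A := orth q (Submodule.span E {v})) (nd_orth hq hP) (by omega)
  have hvw : polar q v w = 0 := hw v (Submodule.mem_span_singleton_self v)
  have hval : ∀ s t : E, q (s • v + t • w) = s * s * q v + t * t * q w := by
    intro s t
    rw [QuadraticMap.map_add q, QuadraticMap.map_smul, QuadraticMap.map_smul, polar_smul_left, polar_smul_right, hvw]
    simp only [smul_eq_mul]; ring
  obtain ⟨s, t, hst⟩ : ∃ s t : E, s * s * q v + t * t * q w = a := by
    have hch : ringChar E ≠ 2 := by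
      intro h
      apply h2
      have := ringChar.spec E 2
      rw [h] at this
      exact_mod_cast this.2 dvd_rfl
    have hodd := FiniteField.odd_card_of_char_ne_two hch
    obtain ⟨s, t, hst⟩ := FiniteField.exists_root_sum_quadratic (R := E) (f := Polynomial.C (q v) * Polynomial.X ^ 2)
      (g := Polynomial.C (q w) * Polynomial.X ^ 2 - Polynomial.C a) (Polynomial.degree_C_mul_X_pow 2 hv)
      (by
        rw [Polynomial.degree_sub_C (by rw [Polynomial.degree_C_mul_X_pow 2 hqw]; norm_num)]
        exact Polynomial.degree_C_mul_X_pow 2 hqw) hodd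
    refine ⟨s, t, ?_⟩
    simp only [Polynomial.eval_mul, Polynomial.eval_C, Polynomial.eval_pow, Polynomial.eval_X, Polynomial.eval_sub] at hst
    linear_combination hst
  exact ⟨s • v + t • w, (hval s t).trans hst⟩


end basic

end H99.OrthK
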