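import Mathlib
import Cfsg.Agent.Lib.H99.OxA
import Cfsg.Agent.Lib.H99.Skew

set_option autoImplicit false
set_option linter.unusedSimpArgs false
set_option linter.unusedSectionVars false
set_option linter.unusedVariables false
set_option maxHeartbeats 400000

/-! Lines over the quadratic extension and their types. -/

namespace H99.OrthK

open Module QuadraticMap H48.QuadSplit H48.QuadStd H96.OeType H99.OrthSS

universe u

/-- data of a quadratic extension -/
structure QX (F E : Type u) [Field F] [Field E] [Algebra F E] (ε : E) (c : F) : Prop where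
  two : (2 : F) ≠ 0
  fr : finrank F E = 2
  sq : ε * ε = algebraMap F E c
  ns : ¬ IsSquare c
  span : ∀ e : E, ∃ α β : F, e = algebraMap F E α + algebraMap F E β * ε

variable {F E : Type u} [Field F] [Fintype F] [Field E] [Fintype E] [Algebra F E] {ε : E} {c : F} (h : QX F E ε c)

include h

theorem c0 : c ≠ 0 := by
  intro hc
  apply h.ns
  rw [hc]; exact ⟨0, by simp⟩

theorem ε0 : ε ≠ 0 := by
  intro hε
  have h1 := h.sq
  rw [hε, zero_mul] at h1
  exact c0 h ((map_eq_zero (algebraMap F E)).1 h1.symm)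

theorem twoE : (2 : E) ≠ 0 := by
  have := (map_ne_zero (algebraMap F E)).2 h.two
  rwa [map_ofNat] at this

theorem tr_ε : Algebra.trace F E ε = 0 := by
  have hfd : FiniteDimensional F E := Module.finite_of_finrank_pos (by rw [h.fr]; omega)
  let σ : E ≃ₐ[F] E := FiniteField.frobeniusAlgEquivOfAlgebraic F E
  have hσ : σ ε = -ε := Skew.pow_q h.two h.sq h.ns
  have h1 := Algebra.trace_eq_of_algEquiv σ ε
  rw [hσ, _root_.map_neg] at h1
  have h2 : 2 * Algebra.trace F E ε = 0 := by linear_combination -h1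
  exact (mul_eq_zero.1 h2).resolve_left h.two

theorem tr_eq (α β : F) : Algebra.trace F E (algebraMap F E α + algebraMap F E β * ε) = 2 * α := by
  rw [_root_.map_add, Algebra.trace_algebraMap, h.fr, ← Algebra.smul_def, _root_.map_smul, tr_ε h, smul_zero, add_zero, nsmul_eq_mul]
  norm_num

theorem sq_of_F (β : F) : IsSquare (algebraMap F E β) := by
  by_cases hβ : IsSquare β
  · obtain ⟨γ, rfl⟩ := hβ
    exact ⟨algebraMap F E γ, _root_.map_mul _ _ _⟩
  · obtain ⟨γ, hγ⟩ := H48.FinFieldSq.isSquare_mul_of_not hβ h.ns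
    refine ⟨algebraMap F E γ / ε, ?_⟩
    have h1 := h.sq
    have hε := ε0 h
    rw [div_mul_div_comm, ← _root_.map_mul, ← hγ, _root_.map_mul, ← h1, mul_div_assoc, div_self (mul_ne_zero hε hε), mul_one]

section V

variable {V : Type u} [AddCommGroup V] [Module F V] [Module E V] [IsScalarTower F E V]

theorem nd_line {q : QuadraticForm E V} {v : V} (hv : q v ≠ 0) : ND (q.restrict (Submodule.span E {v})) := by
  rw [nd_on]
  intro x hx hxy
  obtain ⟨c, rfl⟩ := Submodule.mem_span_singleton.1 hx
  have h3 := hxy v (Submodule.mem_span_singleton_self v)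
  rw [polarBilin_apply_apply, polar_smul_left, polar_self, ← Nat.cast_smul_eq_nsmul E, smul_eq_mul, smul_eq_mul] at h3
  rw [(mul_eq_zero.1 h3).resolve_right (mul_ne_zero (by exact_mod_cast twoE h) hv), zero_smul]

theorem line_type [FiniteDimensional E V] {q : QuadraticForm E V} {v : V} (hv : q v ≠ 0) :
    PT (tq F (q.restrict (Submodule.span E {v}))) ↔ IsSquare (q v / ε) := by
  have hv0 : v ≠ 0 := by rintro rfl; exact hv (QuadraticMap.map_zero q)
  have hfd : FiniteDimensional F E := Module.finite_of_finrank_pos (by rw [h.fr]; omega)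
  have : FiniteDimensional F V := FiniteDimensional.trans F E V
  rw [pt_iff_of_equiv (eqv_sub q _)]
  have hε := ε0 h
  rw [OrthTwo.pt_two (by rw [fr_sub h.fr, finrank_span_singleton hv0])]
  constructor
  · rintro ⟨w, hw, hw0, hQw⟩
    obtain ⟨z, rfl⟩ := Submodule.mem_span_singleton.1 hw
    have hz : z ≠ 0 := by rintro rfl; exact hw0 (zero_smul E v)
    rw [tq_apply, QuadraticMap.map_smul, smul_eq_mul] at hQw
    obtain ⟨α, β, hab⟩ := h.span (z * z * q v)
    rw [hab, tr_eq h] at hQw
    have hα := (mul_eq_zero.1 hQw).resolve_left h.two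
    rw [hα, _root_.map_zero, zero_add] at hab
    obtain ⟨γ, hγ⟩ := sq_of_F h β
    refine ⟨γ / z, ?_⟩
    rw [div_mul_div_comm, ← hγ, div_eq_div_iff hε (mul_ne_zero hz hz)]
    linear_combination hab
  · rintro ⟨s, hs⟩
    have hs0 : s ≠ 0 := by
      rintro rfl
      rw [mul_zero, div_eq_zero_iff] at hs
      exact hs.elim hv hε
    refine ⟨s⁻¹ • v, Submodule.smul_mem _ _ (Submodule.mem_span_singleton_self v), smul_ne_zero (inv_ne_zero hs0) hv0, ?_⟩
    rw [tq_apply, QuadraticMap.map_smul, smul_eq_mul]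
    have h1 : s⁻¹ * s⁻¹ * q v = ε := by
      rw [div_eq_iff hε] at hs
      rw [hs]; field_simp
    rw [h1, tr_ε h]

theorem exists_a (t : Prop) : ∃ a : E, a ≠ 0 ∧ (IsSquare (a / ε) ↔ t) := by
  have hε := ε0 h
  by_cases ht : t
  · exact ⟨ε, hε, iff_of_true ⟨1, by rw [div_self hε, mul_one]⟩ ht⟩
  · obtain ⟨n, hn⟩ := H48.FinFieldSq.exists_not_isSquare (twoE h)
    refine ⟨n * ε, mul_ne_zero (by rintro rfl; exact hn ⟨0, by simp⟩) hε, iff_of_false ?_ ht⟩
    rwa [mul_div_assoc, div_self hε, mul_one]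

theorem exists_line [FiniteDimensional E V] {q : QuadraticForm E V} (hq : ND q) (hd : 2 ≤ finrank E V) (t : Prop) :
    ∃ P : Submodule E V, ND (q.restrict P) ∧ finrank E P = 1 ∧ (PT (tq F (q.restrict P)) ↔ t) := by
  obtain ⟨a, ha, hat⟩ := exists_a h t
  obtain ⟨v, hv⟩ := universal (twoE h) hq hd ha
  have hqv : q v ≠ 0 := by rw [hv]; exact ha
  have hv0 : v ≠ 0 := by rintro rfl; exact hqv (QuadraticMap.map_zero q)
  exact ⟨Submodule.span E {v}, nd_line h hqv, finrank_span_singleton hv0, by rw [line_type h hqv, hv, hat]⟩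

end V

end H99.OrthK
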