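import Mathlib
import Cfsg.Agent.Lib.H99.OxB

set_option autoImplicit false
set_option linter.unusedSimpArgs false
set_option linter.unusedSectionVars false
set_option linter.unusedVariables false
set_option maxHeartbeats 400000

/-! Subspaces over the quadratic extension of prescribed type, semilinear isometries with square `-1`. -/

namespace H99.OrthK

open Module QuadraticMap H48.QuadSplit H48.QuadStd H96.OeType H99.OrthSS

universe u

theorem tq_equiv {F E : Type u} [Field F] [Field E] [Algebra F E] {V W : Type u} [AddCommGroup V] [Module F V] [Module E V] [IsScalarTower F E V]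
    [AddCommGroup W] [Module F W] [Module E W] [IsScalarTower F E W] {q : QuadraticForm E V} {q' : QuadraticForm E W} (hq : q.Equivalent q') :
    (tq F q).Equivalent (tq F q') := by
  obtain ⟨e⟩ := hq
  exact ⟨⟨e.toLinearEquiv.restrictScalars F, fun v => by
    show Algebra.trace F E (q' (e v)) = Algebra.trace F E (q v)
    rw [e.map_app]⟩⟩

variable {F E : Type u} [Field F] [Fintype F] [Field E] [Fintype E] [Algebra F E] {ε : E} {c : F} (h : QX F E ε c)

include h

theorem fr_tot (V : Type u) [AddCommGroup V] [Module F V] [Module E V] [IsScalarTower F E V] : finrank F V = 2 * finrank E V := by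
  have h1 := Module.finrank_mul_finrank F E V
  rw [h.fr] at h1
  exact h1.symm

theorem pt_tq_prod {V W : Type u} [AddCommGroup V] [Module F V] [Module E V] [IsScalarTower F E V] [FiniteDimensional E V]
    [AddCommGroup W] [Module F W] [Module E W] [IsScalarTower F E W] [FiniteDimensional E W] {q : QuadraticForm E V} {q' : QuadraticForm E W}
    (hq : ND q) (hq' : ND q') : PT (tq F (q.prod q')) ↔ (PT (tq F q) ↔ PT (tq F q')) := by
  have hfd : FiniteDimensional F E := Module.finite_of_finrank_pos (by rw [h.fr]; omega)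
  have : FiniteDimensional F V := FiniteDimensional.trans F E V
  have : FiniteDimensional F W := FiniteDimensional.trans F E W
  rw [← pt_prod_iff (nd_tq hq) (nd_tq hq') (m := finrank E V) (m' := finrank E W) (fr_tot h V) (fr_tot h W)]
  refine pt_iff_of_equiv ⟨⟨LinearEquiv.refl F _, fun v => ?_⟩⟩
  show Algebra.trace F E (q v.1) + Algebra.trace F E (q' v.2) = Algebra.trace F E (q v.1 + q' v.2)
  rw [_root_.map_add]

/-- subspaces over the extension of every dimension and type -/
theorem exists_sub : ∀ (m : ℕ), 1 ≤ m → ∀ (V : Type u) [AddCommGroup V] [Module F V] [Module E V] [IsScalarTower F E V] [FiniteDimensional E V]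
    (q : QuadraticForm E V), m < finrank E V → ND q → ∀ t : Prop,
    ∃ W : Submodule E V, ND (q.restrict W) ∧ finrank E W = m ∧ (PT (tq F (q.restrict W)) ↔ t) := by
  intro m
  induction m with
  | zero => intro h0; omega
  | succ m ih =>
    intro _ V _ _ _ _ _ q hm hq t
    rcases Nat.eq_zero_or_pos m with h0 | hpos
    · subst h0
      exact exists_line h hq (by omega) t
    · obtain ⟨P, p1, p2, p3⟩ := exists_line h hq (by omega) True
      have hfo := finrank_orth hq P
      obtain ⟨W', w1, w2, w3⟩ := ih hpos (orth q P) (q.restrict (orth q P)) (by omega) (nd_orth hq p1) t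
      obtain ⟨we, wle, wd⟩ := map_sub (Q := q) W'
      have hWn := nd_of_equivalent we w1
      have hort : ∀ a ∈ P, ∀ b ∈ W'.map (orth q P).subtype, polar q a b = 0 := fun a ha b hb => wle hb a ha
      have hsup := sup_nd p1 hWn hort
      refine ⟨P ⊔ W'.map (orth q P).subtype, hsup.1, by rw [hsup.2, p2, wd, w2]; omega, ?_⟩
      rw [← pt_iff_of_equiv (tq_equiv (sup_equiv p1 hWn hort)), pt_tq_prod h p1 hWn, p3, ← pt_iff_of_equiv (tq_equiv we), w3]
      tauto

/-- isometries with square `-1` of a line are semilinear -/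
theorem anti1 {V : Type u} [AddCommGroup V] [Module F V] [Module E V] [IsScalarTower F E V] [FiniteDimensional E V] {q : QuadraticForm E V}
    (hV : finrank E V = 1) (hq : ND q) {f : V →ₗ[F] V} (hf : ∀ v, tq F q (f v) = tq F q v) (hff : ∀ v, f (f v) = -v) (v : V) :
    f (ε • v) = -(ε • f v) := by
  have hfd : FiniteDimensional F E := Module.finite_of_finrank_pos (by rw [h.fr]; omega)
  have : FiniteDimensional F V := FiniteDimensional.trans F E V
  have hfin : Finite V := Module.finite_of_finite F
  have hV2 : finrank F V = 2 := by rw [fr_tot h V, hV]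
  have hQ := nd_tq (F := F) hq
  set Q := tq F q with hQd
  obtain ⟨v0, -, hQv⟩ := exists_ns (Q := Q) (A := ⊤) (nd_on.2 (nd_top.1 hQ)) (by rw [finrank_top]; omega)
  have hpf := polar_inv hf
  have hvw : polar Q v0 (f v0) = 0 := by
    have h5 := hpf v0 (f v0)
    rw [hff, polar_neg_right, polar_comm] at h5
    have h6 : 2 * polar Q v0 (f v0) = 0 := by linear_combination -h5
    exact (mul_eq_zero.1 h6).resolve_left h.two
  have hwv : polar Q (f v0) v0 = 0 := by rw [polar_comm]; exact hvw
  have h2n : ∀ x : V, polar Q x x = 2 * Q x := fun x => by rw [polar_self, ← Nat.cast_smul_eq_nsmul F, smul_eq_mul]; norm_num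
  obtain ⟨hPn, hPd⟩ := plane_nd h.two hQv (hf v0) hvw
  have htop : Submodule.span F {v0, f v0} = ⊤ := Submodule.eq_top_of_finrank_eq (by rw [hPd, hV2])
  have hmem : ∀ x : V, ∃ a b : F, a • v0 + b • f v0 = x := by
    intro x
    have : x ∈ Submodule.span F {v0, f v0} := by rw [htop]; trivial
    exact Submodule.mem_span_pair.1 this
  obtain ⟨a, b, hab⟩ := hmem (ε • v0)
  obtain ⟨a', b', hab'⟩ := hmem (ε • f v0)
  have hne : (2 : F) * Q v0 ≠ 0 := mul_ne_zero h.two hQv
  have hself : ∀ x y : V, polar Q (ε • x) y = polar Q x (ε • y) := by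
    intro x y
    rw [polar_tq, polar_tq, polar_smul_left, polar_smul_right]
  have e1 : a' = b := by
    have h1 := hself v0 (f v0)
    rw [← hab, ← hab', polar_add_left, polar_add_right, polar_smul_left, polar_smul_left, polar_smul_right, polar_smul_right, h2n, h2n, hvw, hf] at h1
    simp only [smul_eq_mul, mul_zero, zero_add, add_zero] at h1
    exact (mul_right_cancel₀ hne (by linear_combination h1)).symm
  have hindep : ∀ s t : F, s • v0 + t • f v0 = 0 → s = 0 ∧ t = 0 := by
    intro s t hst
    have h1 : polar Q v0 (s • v0 + t • f v0) = 0 := by rw [hst]; exact polar_zero_right Q v0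
    have h3 : polar Q (f v0) (s • v0 + t • f v0) = 0 := by rw [hst]; exact polar_zero_right Q _
    rw [polar_add_right, polar_smul_right, polar_smul_right, h2n, hvw, smul_zero, add_zero, smul_eq_mul] at h1
    rw [polar_add_right, polar_smul_right, polar_smul_right, h2n, hwv, smul_zero, zero_add, smul_eq_mul, hf] at h3
    exact ⟨(mul_eq_zero.1 h1).resolve_right hne, (mul_eq_zero.1 h3).resolve_right hne⟩
  have e2 : a * a + b * b - c = 0 ∧ b * (a + b') = 0 := by
    apply hindep
    have h1 : ε • (ε • v0) = c • v0 := by rw [smul_smul, h.sq, algebraMap_smul]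
    rw [← hab, smul_add, smul_comm ε a, smul_comm ε b, ← hab, ← hab', e1] at h1
    have h3 : (a * a + b * b - c) • v0 + (b * (a + b')) • f v0 = (a • (a • v0 + b • f v0) + b • (b • v0 + b' • f v0)) - c • v0 := by
      module
    rw [h3, h1, sub_self]
  have hb : b ≠ 0 := by
    rintro rfl
    apply h.ns
    exact ⟨a, by linear_combination -e2.1⟩
  have e3 : b' = -a := by
    have := (mul_eq_zero.1 e2.2).resolve_left hb
    linear_combination this
  have key : f (ε • v0) = -(ε • f v0) := by
    rw [← hab, ← hab', e1, e3, _root_.map_add, _root_.map_smul, _root_.map_smul, hff]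
    module
  have key2 : f (ε • f v0) = -(ε • f (f v0)) := by
    have h1 : ε • f v0 = -f (ε • v0) := by rw [key, neg_neg]
    rw [h1, _root_.map_neg, hff, hff, smul_neg]
  obtain ⟨s, t, rfl⟩ := hmem v
  have h1 : ε • (s • v0 + t • f v0) = s • (ε • v0) + t • (ε • f v0) := by rw [smul_add, smul_comm ε s, smul_comm ε t]
  have h3 : f (s • v0 + t • f v0) = s • f v0 + t • f (f v0) := by rw [_root_.map_add, LinearMap.map_smul, LinearMap.map_smul]
  have h4 : ε • (s • f v0 + t • f (f v0)) = s • (ε • f v0) + t • (ε • f (f v0)) := by rw [smul_add, smul_comm ε s, smul_comm ε t]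
  rw [h1, _root_.map_add, LinearMap.map_smul f s, LinearMap.map_smul f t, key, key2, h3, h4, smul_neg, smul_neg, neg_add]

/-- **semilinear isometries with square `-1`** -/
theorem exists_anti : ∀ (n : ℕ) (V : Type u) [AddCommGroup V] [Module F V] [Module E V] [IsScalarTower F E V] [FiniteDimensional E V]
    (q : QuadraticForm E V), finrank E V = n → ND q → (PT (tq F q) ↔ (IsSquare (-1 : F) ∨ Even n)) →
    ∃ f : V →ₗ[F] V, (∀ v, tq F q (f v) = tq F q v) ∧ (∀ v, f (f v) = -v) ∧ (∀ v, f (ε • v) = -(ε • f v)) ∧
      (0 < n → ∃ P : Submodule E V, finrank E P = 1 ∧ ND (q.restrict P) ∧ ∀ v ∈ P, f v ∈ P) := by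
  have hfd : FiniteDimensional F E := Module.finite_of_finrank_pos (by rw [h.fr]; omega)
  have hone : ∀ (V : Type u) [AddCommGroup V] [Module F V] [Module E V] [IsScalarTower F E V] [FiniteDimensional E V]
      (q : QuadraticForm E V), finrank E V = 1 → ND q → (PT (tq F q) ↔ IsSquare (-1 : F)) →
      ∃ f : V →ₗ[F] V, (∀ v, tq F q (f v) = tq F q v) ∧ (∀ v, f (f v) = -v) ∧ (∀ v, f (ε • v) = -(ε • f v)) := by
    intro V _ _ _ _ _ q hV hq ht
    have : FiniteDimensional F V := FiniteDimensional.trans F E V
    obtain ⟨f, f1, f2⟩ := hasJ_of (Q := tq F q) h.two (nd_tq hq) (k := 1) (by rw [fr_tot h V, hV]) (by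
      rw [ht]
      have : ¬ Even 1 := by decide
      tauto)
    exact ⟨f, f1, f2, anti1 h hV hq f1 f2⟩
  intro n
  induction n with
  | zero =>
    intro V _ _ _ _ _ q hn hq ht
    have hsub : ∀ v : V, v = 0 := by
      intro v
      have := (finrank_eq_zero_iff_of_free (R := E) (M := V)).1 hn
      exact Subsingleton.elim _ _
    exact ⟨1, fun v => rfl, fun v => by rw [hsub v]; simp, fun v => by rw [hsub v]; simp, fun h0 => absurd h0 (lt_irrefl 0)⟩
  | succ n ih =>
    intro V _ _ _ _ _ q hn hq ht
    rcases Nat.eq_zero_or_pos n with h0 | hpos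
    · subst h0
      obtain ⟨f, f1, f2, f3⟩ := hone V q hn hq (by
        rw [ht]
        have : ¬ Even (0 + 1) := by decide
        tauto)
      exact ⟨f, f1, f2, f3, fun _ => ⟨⊤, by rw [finrank_top]; exact hn, nd_on.2 (nd_top.1 hq), fun v _ => trivial⟩⟩
    · obtain ⟨P, p1, p2, p3⟩ := exists_line h hq (by omega) (IsSquare (-1 : F))
      have hfo := finrank_orth hq P
      obtain ⟨e, he, heq⟩ := ortho_split p1
      have hCn := nd_orth hq p1
      have hE : ((q.restrict P).prod (q.restrict (orth q P))).Equivalent q := ⟨⟨e, heq⟩⟩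
      have ht2 : PT (tq F (q.restrict (orth q P))) ↔ (IsSquare (-1 : F) ∨ Even n) := by
        have h1 := pt_tq_prod h p1 hCn
        rw [pt_iff_of_equiv (tq_equiv hE), ht, p3, Nat.even_add_one] at h1
        tauto
      obtain ⟨f, f1, f2, f3⟩ := hone P (q.restrict P) p2 p1 p3
      obtain ⟨g, g1, g2, g3, -⟩ := ih (orth q P) (q.restrict (orth q P)) (by omega) hCn ht2
      let eF : (P × orth q P) ≃ₗ[F] V := e.restrictScalars F
      let φ : V →ₗ[F] V := eF.toLinearMap ∘ₗ (f.prodMap g) ∘ₗ eF.symm.toLinearMap
      have hφ : ∀ x, φ (e x) = e (f x.1, g x.2) := by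
        intro x
        show e ((f.prodMap g) (e.symm (e x))) = _
        rw [LinearEquiv.symm_apply_apply]; rfl
      refine ⟨φ, ?_, ?_, ?_, fun _ => ⟨P, p2, p1, ?_⟩⟩
      · intro v
        obtain ⟨x, rfl⟩ := e.surjective v
        rw [hφ, tq_apply, tq_apply, heq, heq]
        show Algebra.trace F E (q.restrict P (f x.1) + q.restrict (orth q P) (g x.2)) = Algebra.trace F E (q.restrict P x.1 + q.restrict (orth q P) x.2)
        rw [_root_.map_add, _root_.map_add]
        have h1 := f1 x.1
        have h3 := g1 x.2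
        rw [tq_apply, tq_apply] at h1 h3
        rw [h1, h3]
      · intro v
        obtain ⟨x, rfl⟩ := e.surjective v
        rw [hφ, hφ, f2, g2, ← _root_.map_neg]; rfl
      · intro v
        obtain ⟨x, rfl⟩ := e.surjective v
        have h1 : ε • e x = e (ε • x) := (e.map_smul ε x).symm
        rw [h1, hφ, hφ]
        show e (f (ε • x.1), g (ε • x.2)) = _
        rw [f3, g3, ← e.map_smul, ← _root_.map_neg]; rfl
      · intro v hv
        have h1 : v = e (⟨v, hv⟩, 0) := by rw [he]; simp
        rw [h1, hφ, he]
        show ((f ⟨v, hv⟩ : P) : V) + ((g 0 : orth q P) : V) ∈ P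
        rw [_root_.map_zero, ZeroMemClass.coe_zero, add_zero]
        exact (f ⟨v, hv⟩).2

end H99.OrthK
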