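import Mathlib
import Cfsg.Agent.Lib.H99.OxC

set_option autoImplicit false
set_option linter.unusedSimpArgs false
set_option linter.unusedSectionVars false
set_option linter.unusedVariables false
set_option maxHeartbeats 400000

/-! Conjugacy of isometries with square `±1` in `O` and `Ω`. -/

namespace H99.OrthK

open Module QuadraticMap H48.QuadSplit H48.QuadStd H96.OeType H99.OrthSS H17.OrthAbs H17.OrthTheta H17.OrthOmega

universe u

section A

variable {F : Type u} [Field F] [Finite F]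

/-- splitting off a plane invariant under an isometry with square `-1` -/
theorem J_split (h2 : (2 : F) ≠ 0) {V : Type u} [AddCommGroup V] [Module F V] [FiniteDimensional F V] {Q : QuadraticForm F V} (hQ : ND Q)
    {f : V →ₗ[F] V} (hf : ∀ v, Q (f v) = Q v) (hff : ∀ v, f (f v) = -v) {v : V} (hv : Q v ≠ 0) :
    ∃ C : Submodule F V, ND (Q.restrict C) ∧ (∀ x ∈ C, f x ∈ C) ∧ finrank F C + 2 = finrank F V ∧
      ∃ Ψ : ((F × F) × C) ≃ₗ[F] V, (∀ x, Ψ x = x.1.1 • v + x.1.2 • f v + (x.2 : V)) ∧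
        ∀ x, Q (Ψ x) = (x.1.1 * x.1.1 + x.1.2 * x.1.2) * Q v + Q (x.2 : V) := by
  have hpf := polar_inv hf
  have hvw : polar Q v (f v) = 0 := by
    have h5 := hpf v (f v)
    rw [hff, polar_neg_right, polar_comm] at h5
    have h6 : 2 * polar Q v (f v) = 0 := by linear_combination -h5
    exact (mul_eq_zero.1 h6).resolve_left h2
  have : Finite V := Module.finite_of_finite F
  obtain ⟨hPn, hPd⟩ := plane_nd h2 hv (hf v) hvw
  set P := Submodule.span F {v, f v} with hP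
  have hvP : v ∈ P := Submodule.subset_span (by simp)
  have hwP : f v ∈ P := Submodule.subset_span (by simp)
  have hPi : ∀ x ∈ P, f x ∈ P := by
    intro x hx
    obtain ⟨a, b, rfl⟩ := Submodule.mem_span_pair.1 hx
    rw [_root_.map_add, _root_.map_smul, _root_.map_smul, hff]
    exact P.add_mem (P.smul_mem _ hwP) (P.smul_mem _ (P.neg_mem hvP))
  have hfo := finrank_orth hQ P
  have hCi : ∀ x ∈ orth Q P, f x ∈ orth Q P := by
    intro x hx y hy
    have h6 : y = f (-f y) := by rw [_root_.map_neg, hff, neg_neg]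
    rw [h6, hpf]
    exact hx _ (P.neg_mem (hPi y hy))
  have h2n : ∀ x : V, polar Q x x = 2 * Q x := fun x => by rw [polar_self, ← Nat.cast_smul_eq_nsmul F, smul_eq_mul]; norm_num
  let φ : ((F × F) × orth Q P) →ₗ[F] V :=
    LinearMap.coprod (LinearMap.coprod (LinearMap.toSpanSingleton F V v) (LinearMap.toSpanSingleton F V (f v))) (orth Q P).subtype
  have hφ : ∀ x, φ x = x.1.1 • v + x.1.2 • f v + (x.2 : V) := fun x => rfl
  have hQφ : ∀ x, Q (φ x) = (x.1.1 * x.1.1 + x.1.2 * x.1.2) * Q v + Q (x.2 : V) := by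
    intro x
    have h1 : polar Q (x.1.1 • v + x.1.2 • f v) (x.2 : V) = 0 := x.2.2 _ (P.add_mem (P.smul_mem _ hvP) (P.smul_mem _ hwP))
    have h3 : polar Q (x.1.1 • v) (x.1.2 • f v) = 0 := by rw [polar_smul_left, polar_smul_right, hvw, smul_zero, smul_zero]
    rw [hφ, map_add_of_orth h1, map_add_of_orth h3, QuadraticMap.map_smul, QuadraticMap.map_smul, hf, smul_eq_mul, smul_eq_mul]
    ring
  have hinj : Function.Injective φ := by
    rw [← LinearMap.ker_eq_bot, LinearMap.ker_eq_bot']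
    rintro ⟨⟨a, b⟩, y⟩ hx
    have h1 : a • v + b • f v + (y : V) = 0 := hx
    have hwv : polar Q (f v) v = 0 := by rw [polar_comm]; exact hvw
    have h3 : polar Q v (a • v + b • f v + (y : V)) = 0 := by rw [h1]; exact polar_zero_right Q v
    have h4 : polar Q (f v) (a • v + b • f v + (y : V)) = 0 := by rw [h1]; exact polar_zero_right Q _
    rw [polar_add_right, y.2 v hvP, add_zero, polar_add_right, polar_smul_right, polar_smul_right, h2n, hvw, smul_zero, add_zero, smul_eq_mul] at h3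
    rw [polar_add_right, y.2 _ hwP, add_zero, polar_add_right, polar_smul_right, polar_smul_right, h2n, hwv, smul_zero, zero_add, smul_eq_mul, hf] at h4
    have ha := (mul_eq_zero.1 h3).resolve_right (mul_ne_zero h2 hv)
    have hb := (mul_eq_zero.1 h4).resolve_right (mul_ne_zero h2 hv)
    rw [ha, hb, zero_smul, zero_smul, zero_add, zero_add] at h1
    exact Prod.ext (Prod.ext ha hb) (Subtype.ext h1)
  have hdim : finrank F ((F × F) × orth Q P) = finrank F V := by
    rw [finrank_prod, finrank_prod, finrank_self]; omega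
  exact ⟨orth Q P, nd_orth hQ hPn, hCi, by omega, LinearEquiv.ofInjectiveOfFinrankEq φ hinj hdim, hφ, hQφ⟩

/-- isometries with square `-1` are conjugate -/
theorem J_conj_O (h2 : (2 : F) ≠ 0) : ∀ (n : ℕ) (V V' : Type u) [AddCommGroup V] [Module F V] [FiniteDimensional F V]
    [AddCommGroup V'] [Module F V'] [FiniteDimensional F V'] (Q : QuadraticForm F V) (Q' : QuadraticForm F V') (f : V →ₗ[F] V) (f' : V' →ₗ[F] V'),
    finrank F V = n → finrank F V' = n → ND Q → ND Q' → (∀ v, Q (f v) = Q v) → (∀ v, f (f v) = -v) → (∀ v, Q' (f' v) = Q' v) → (∀ v, f' (f' v) = -v) →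
    ∃ e : V ≃ₗ[F] V', (∀ v, Q' (e v) = Q v) ∧ ∀ v, e (f v) = f' (e v) := by
  intro n
  induction n using Nat.strong_induction_on with
  | _ n ih =>
    intro V V' _ _ _ _ _ _ Q Q' f f' hn hn' hQ hQ' hf hff hf' hff'
    have : Finite V := Module.finite_of_finite F
    rcases Nat.eq_zero_or_pos n with h0 | hpos
    · have hs : ∀ v : V, v = 0 := by
        intro v
        have := (finrank_eq_zero_iff_of_free (R := F) (M := V)).1 (hn.trans h0)
        exact Subsingleton.elim _ _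
      refine ⟨LinearEquiv.ofFinrankEq V V' (hn.trans hn'.symm), fun v => ?_, fun v => ?_⟩
      · rw [hs v, _root_.map_zero, QuadraticMap.map_zero, QuadraticMap.map_zero]
      · rw [hs v, _root_.map_zero, _root_.map_zero, _root_.map_zero]
    · obtain ⟨v, -, hv⟩ := exists_ns (Q := Q) (A := ⊤) (nd_on.2 (nd_top.1 hQ)) (by rw [finrank_top]; omega)
      obtain ⟨C, c1, c2, c3, Ψ, p1, p2⟩ := J_split h2 hQ hf hff hv
      obtain ⟨v', hv'⟩ := H48.QuadStd.exists_eq hQ' (by omega) hv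
      obtain ⟨C', c1', c2', c3', Ψ', p1', p2'⟩ := J_split h2 hQ' hf' hff' (v := v') (by rw [hv']; exact hv)
      obtain ⟨e, e1, e2⟩ := ih (finrank F C) (by omega) C C' (Q.restrict C) (Q'.restrict C') (f.restrict c2) (f'.restrict c2') rfl (by omega) c1 c1'
        (fun v => hf v) (fun v => Subtype.ext (hff v)) (fun v => hf' v) (fun v => Subtype.ext (hff' v))
      have hfΨ : ∀ x, f (Ψ x) = Ψ ((-x.1.2, x.1.1), f.restrict c2 x.2) := by
        intro x
        rw [p1, p1, _root_.map_add, _root_.map_add, LinearMap.map_smul, LinearMap.map_smul, hff]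
        show x.1.1 • f v + x.1.2 • -v + f x.2 = -x.1.2 • v + x.1.1 • f v + f x.2
        rw [smul_neg, neg_smul]; abel
      have hfΨ' : ∀ x, f' (Ψ' x) = Ψ' ((-x.1.2, x.1.1), f'.restrict c2' x.2) := by
        intro x
        rw [p1', p1', _root_.map_add, _root_.map_add, LinearMap.map_smul, LinearMap.map_smul, hff']
        show x.1.1 • f' v' + x.1.2 • -v' + f' x.2 = -x.1.2 • v' + x.1.1 • f' v' + f' x.2
        rw [smul_neg, neg_smul]; abel
      let g : V ≃ₗ[F] V' := (Ψ.symm.trans (LinearEquiv.prodCongr (LinearEquiv.refl F (F × F)) e)).trans Ψ'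
      have hg : ∀ x, g (Ψ x) = Ψ' (x.1, e x.2) := by
        intro x
        show Ψ' ((LinearEquiv.prodCongr (LinearEquiv.refl F (F × F)) e) (Ψ.symm (Ψ x))) = _
        rw [LinearEquiv.symm_apply_apply]; rfl
      refine ⟨g, fun y => ?_, fun y => ?_⟩
      · obtain ⟨x, rfl⟩ := Ψ.surjective y
        rw [hg, p2, p2', hv']
        have := e1 x.2
        show (x.1.1 * x.1.1 + x.1.2 * x.1.2) * Q v + Q' ((e x.2 : C') : V') = _
        have h3 : Q' ((e x.2 : C') : V') = Q (x.2 : V) := this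
        rw [h3]
      · obtain ⟨x, rfl⟩ := Ψ.surjective y
        rw [hfΨ, hg, hg, hfΨ', e2]

/-- correcting an isometry inside a subspace -/
theorem adj (h2 : (2 : F) ≠ 0) {V : Type u} [AddCommGroup V] [Module F V] [FiniteDimensional F V] [Finite V] (Q : QuadraticForm F V) (R : Reps F)
    {A : Submodule F V} (hA : ND (Q.restrict A)) (hd : 2 ≤ finrank F A) (s₁ s₂ : ℤˣ) :
    ∃ w : ↥(O Q), theta Q R.c₁ w = s₁ ∧ theta Q R.c₂ w = s₂ ∧ (∀ v ∈ A, (w : V ≃ₗ[F] V) v ∈ A) ∧ (∀ v ∈ orth Q A, (w : V ≃ₗ[F] V) v = v) := by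
  obtain ⟨u, hu⟩ := H48.QuadStd.exists_eq hA hd R.h₁
  obtain ⟨t, ht⟩ := H48.QuadStd.exists_eq hA hd R.h₂
  have hu' : Q (u : V) = R.c₁ := hu
  have ht' : Q (t : V) = R.c₂ := ht
  have hu0 : Q (u : V) ≠ 0 := by rw [hu']; exact R.h₁
  have ht0 : Q (t : V) ≠ 0 := by rw [ht']; exact R.h₂
  have hu1 : ∃ s : F, s ≠ 0 ∧ Q (u : V) = R.c₁ * s ^ 2 := ⟨1, one_ne_zero, by rw [hu']; ring⟩
  have ht2 : ∃ s : F, s ≠ 0 ∧ Q (t : V) = R.c₂ * s ^ 2 := ⟨1, one_ne_zero, by rw [ht']; ring⟩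
  have a1 := theta_of_class h2 Q (u : V) hu0 R.c₁ R.h₁ hu1
  have a2 := theta_of_not_class h2 Q (u : V) hu0 R.c₂ R.h₂ (fun h => R.excl _ hu0 hu1 h)
  have a3 := theta_of_not_class h2 Q (t : V) ht0 R.c₁ R.h₁ (fun h => R.excl _ ht0 h ht2)
  have a4 := theta_of_class h2 Q (t : V) ht0 R.c₂ R.h₂ ht2
  have hrA : ∀ (y : V) (hy0 : Q y ≠ 0), y ∈ A → ∀ v ∈ A, ((rf Q y hy0 : ↥(O Q)) : V ≃ₗ[F] V) v ∈ A := by
    intro y hy0 hy v hv
    show refl Q y hy0 v ∈ A
    rw [refl_apply]
    exact A.sub_mem hv (A.smul_mem _ hy)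
  have hrO : ∀ (y : V) (hy0 : Q y ≠ 0), y ∈ A → ∀ v ∈ orth Q A, ((rf Q y hy0 : ↥(O Q)) : V ≃ₗ[F] V) v = v := by
    intro y hy0 hy v hv
    exact refl_fix Q y hy0 v (hv y hy)
  rcases Int.units_eq_one_or s₁ with rfl | rfl <;> rcases Int.units_eq_one_or s₂ with rfl | rfl
  · exact ⟨1, _root_.map_one _, _root_.map_one _, fun v hv => hv, fun v _ => rfl⟩
  · exact ⟨rf Q t ht0, a3, a4, hrA t ht0 t.2, hrO t ht0 t.2⟩
  · exact ⟨rf Q u hu0, a1, a2, hrA u hu0 u.2, hrO u hu0 u.2⟩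
  · refine ⟨rf Q u hu0 * rf Q t ht0, by rw [_root_.map_mul, a1, a3, mul_one], by rw [_root_.map_mul, a2, a4, one_mul], ?_, ?_⟩
    · intro v hv
      exact hrA u hu0 u.2 _ (hrA t ht0 t.2 v hv)
    · intro v hv
      show ((rf Q u hu0 : ↥(O Q)) : V ≃ₗ[F] V) (((rf Q t ht0 : ↥(O Q)) : V ≃ₗ[F] V) v) = v
      rw [hrO t ht0 t.2 v hv, hrO u hu0 u.2 v hv]

end A

end H99.OrthK
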