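import Mathlib
import Cfsg.Agent.Lib.H99.OxD

set_option autoImplicit false
set_option linter.unusedSimpArgs false
set_option linter.unusedSectionVars false
set_option linter.unusedVariables false
set_option maxHeartbeats 400000

/-! Isometries with square `±1` have `Ω`-conjugates which are linear or semilinear over the extension. -/

namespace H99.OrthK

open Module QuadraticMap H48.QuadSplit H48.QuadStd H96.OeType H99.OrthSS H17.OrthAbs H17.OrthTheta H17.OrthOmega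

universe u

variable {F E : Type u} [Field F] [Fintype F] [Field E] [Fintype E] [Algebra F E] {ε : E} {c : F} (h : QX F E ε c)
  {V : Type u} [AddCommGroup V] [Module F V] [Module E V] [IsScalarTower F E V] [FiniteDimensional E V] [Finite V]

include h

theorem fixO {Q : QuadraticForm F V} {A : Submodule F V} (w : ↥(O Q)) (hw1 : ∀ v ∈ A, (w : V ≃ₗ[F] V) v ∈ A)
    (hw2 : ∀ v ∈ orth Q A, (w : V ≃ₗ[F] V) v = v) [FiniteDimensional F V] :
    (∀ v ∈ A, (w : V ≃ₗ[F] V).symm v ∈ A) ∧ (∀ v ∈ orth Q A, (w : V ≃ₗ[F] V).symm v = v) := by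
  constructor
  · intro v hv
    have h1 : A.map (w : V ≃ₗ[F] V).toLinearMap = A := by
      apply Submodule.eq_of_le_of_finrank_eq
      · rintro _ ⟨x, hx, rfl⟩
        exact hw1 x hx
      · exact LinearEquiv.finrank_map_eq (w : V ≃ₗ[F] V) A
    rw [← h1] at hv
    obtain ⟨x, hx, rfl⟩ := hv
    show (w : V ≃ₗ[F] V).symm ((w : V ≃ₗ[F] V) x) ∈ A
    rw [LinearEquiv.symm_apply_apply]; exact hx
  · intro v hv
    rw [LinearEquiv.symm_apply_eq, hw2 v hv]

/-- isometries with square `-1` -/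
theorem J_conj {q : QuadraticForm E V} (hq : ND q) {Q : QuadraticForm F V} (hQd : Q = tq F q) (hn : 0 < finrank E V) (R : Reps F) (x : ↥(O Q))
    (hx : ∀ v, (x : V ≃ₗ[F] V) ((x : V ≃ₗ[F] V) v) = -v) :
    ∃ g : ↥(O Q), theta Q R.c₁ g = 1 ∧ theta Q R.c₂ g = 1 ∧
      ∀ v, ((g⁻¹ * x * g : ↥(O Q)) : V ≃ₗ[F] V) (ε • v) = -(ε • ((g⁻¹ * x * g : ↥(O Q)) : V ≃ₗ[F] V) v) := by
  have hfd : FiniteDimensional F E := Module.finite_of_finrank_pos (by rw [h.fr]; omega)
  have : FiniteDimensional F V := FiniteDimensional.trans F E V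
  have hQ : ND Q := by rw [hQd]; exact nd_tq (F := F) hq
  have hVd := fr_tot h V
  obtain ⟨k, k1, k2, -⟩ := J_struct h.two (finrank F V) V Q ((x : V ≃ₗ[F] V) : V →ₗ[F] V) rfl hQ (fun v => x.2 v) hx
  have hk : k = finrank E V := by omega
  rw [hk] at k2
  obtain ⟨f, f1, f2, f3, f4⟩ := exists_anti h (finrank E V) V q rfl hq (by rw [← hQd]; exact k2)
  rw [← hQd] at f1
  obtain ⟨P, P1, P2, P3⟩ := f4 hn
  obtain ⟨e, e1, e2⟩ := J_conj_O h.two (finrank F V) V V Q Q f ((x : V ≃ₗ[F] V) : V →ₗ[F] V) rfl rfl hQ hQ f1 f2 (fun v => x.2 v) hx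
  let hO : ↥(O Q) := ⟨e, e1⟩
  have hPn : ND (Q.restrict (P.restrictScalars F)) := by rw [hQd]; exact nd_sub P2
  have hPd : finrank F (P.restrictScalars F) = 2 := by rw [fr_sub h.fr, P1]
  obtain ⟨w, w1, w2, w3, w4⟩ := adj h.two Q R hPn (by omega) (theta Q R.c₁ hO) (theta Q R.c₂ hO)
  obtain ⟨w3', w4'⟩ := fixO h w w3 w4
  refine ⟨hO * w⁻¹, ?_, ?_, ?_⟩
  · rw [_root_.map_mul, _root_.map_inv, w1, mul_inv_cancel]
  · rw [_root_.map_mul, _root_.map_inv, w2, mul_inv_cancel]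
  · have hy : ∀ v, (((hO * w⁻¹)⁻¹ * x * (hO * w⁻¹) : ↥(O Q)) : V ≃ₗ[F] V) v = (w : V ≃ₗ[F] V) (f ((w : V ≃ₗ[F] V).symm v)) := by
      intro v
      have h1 : ((hO * w⁻¹)⁻¹ * x * (hO * w⁻¹) : ↥(O Q)) = w * (hO⁻¹ * x * hO) * w⁻¹ := by group
      rw [h1]
      show (w : V ≃ₗ[F] V) (e.symm ((x : V ≃ₗ[F] V) (e ((w : V ≃ₗ[F] V).symm v)))) = _
      have h3 : (x : V ≃ₗ[F] V) (e ((w : V ≃ₗ[F] V).symm v)) = e (f ((w : V ≃ₗ[F] V).symm v)) := (e2 _).symm
      rw [h3, LinearEquiv.symm_apply_apply]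
    have hfo : ∀ v ∈ orth Q (P.restrictScalars F), f v ∈ orth Q (P.restrictScalars F) := by
      intro v hv u hu
      have h6 : u = f (-f u) := by rw [_root_.map_neg, f2, neg_neg]
      rw [h6, polar_inv f1]
      exact hv _ ((P.restrictScalars F).neg_mem (P3 u hu))
    have ho : ∀ v ∈ orth Q (P.restrictScalars F), (((hO * w⁻¹)⁻¹ * x * (hO * w⁻¹) : ↥(O Q)) : V ≃ₗ[F] V) v = f v := by
      intro v hv
      rw [hy, w4' v hv, w4 _ (hfo v hv)]
    set Y := (((hO * w⁻¹)⁻¹ * x * (hO * w⁻¹) : ↥(O Q)) : V ≃ₗ[F] V) with hY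
    have hYP : ∀ v ∈ P, Y v ∈ P := by
      intro v hv
      rw [hy]
      exact w3 _ (P3 _ (w3' v hv))
    have hYQ : ∀ v, Q (Y v) = Q v := ((hO * w⁻¹)⁻¹ * x * (hO * w⁻¹) : ↥(O Q)).2
    have hYY : ∀ v, Y (Y v) = -v := by
      intro v
      rw [hy, hy, LinearEquiv.symm_apply_apply, f2, _root_.map_neg, LinearEquiv.apply_symm_apply]
    let yP : ↥P →ₗ[F] ↥P :=
      { toFun := fun v => ⟨Y v, hYP v v.2⟩
        map_add' := fun a b => Subtype.ext (by
          show Y ((a : V) + (b : V)) = Y a + Y b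
          rw [_root_.map_add])
        map_smul' := fun a b => Subtype.ext (by
          show Y (a • (b : V)) = a • Y b
          rw [_root_.map_smul]) }
    have hPanti := anti1 h P1 P2 (f := yP) (fun v => by have := hYQ v; rw [hQd] at this; exact this) (fun v => Subtype.ext (hYY v))
    intro v
    obtain ⟨e', he', -⟩ := ortho_split P2
    obtain ⟨⟨p, c⟩, rfl⟩ := e'.surjective v
    rw [he']
    have hp : Y (ε • (p : V)) = -(ε • Y p) := congrArg Subtype.val (hPanti p)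
    have hcm : (c : V) ∈ orth Q (P.restrictScalars F) := by rw [hQd, orth_tq]; exact c.2
    have hcm' : ε • (c : V) ∈ orth Q (P.restrictScalars F) := by rw [hQd, orth_tq]; exact (orth q P).smul_mem ε c.2
    have hc : Y (ε • (c : V)) = -(ε • Y c) := by rw [ho _ hcm, ho _ hcm', f3]
    rw [smul_add, _root_.map_add, hp, hc, _root_.map_add, smul_add, neg_add]

/-- isometries with square `1` -/
theorem inv_conj {q : QuadraticForm E V} (hq : ND q) {Q : QuadraticForm F V} (hQd : Q = tq F q) (R : Reps F) (x : ↥(O Q))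
    (hx : ∀ v, (x : V ≃ₗ[F] V) ((x : V ≃ₗ[F] V) v) = v) {m : ℕ} (hm1 : 1 ≤ m) (hm2 : m < finrank E V)
    (hm : finrank F (orth Q (fx ((x : V ≃ₗ[F] V) : V →ₗ[F] V))) = 2 * m) :
    ∃ g : ↥(O Q), theta Q R.c₁ g = 1 ∧ theta Q R.c₂ g = 1 ∧
      ∀ v, ((g⁻¹ * x * g : ↥(O Q)) : V ≃ₗ[F] V) (ε • v) = ε • ((g⁻¹ * x * g : ↥(O Q)) : V ≃ₗ[F] V) v := by
  have hfd : FiniteDimensional F E := Module.finite_of_finrank_pos (by rw [h.fr]; omega)
  have : FiniteDimensional F V := FiniteDimensional.trans F E V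
  have hQ : ND Q := by rw [hQd]; exact nd_tq (F := F) hq
  set X : V →ₗ[F] V := ((x : V ≃ₗ[F] V) : V →ₗ[F] V) with hX
  have hX2 : X ^ 2 = 1 := by
    apply LinearMap.ext
    intro v
    rw [pow_two]; exact hx v
  have hXQ : ∀ v, Q (X v) = Q v := x.2
  have hfn := fx_nd hQ (r := 2) (by exact_mod_cast h.two) X hXQ hX2
  have hneg := neg_on hQ h.two X hXQ hX2
  have hAn := nd_orth hQ hfn
  set A := orth Q (fx X) with hA
  have hoA : orth Q A = fx X := orth_orth hQ _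
  obtain ⟨W, W1, W2, W3⟩ := exists_sub h m hm1 V q hm2 hq (PT (Q.restrict A))
  have hWn : ND (Q.restrict (W.restrictScalars F)) := by rw [hQd]; exact nd_sub W1
  have hWd : finrank F (W.restrictScalars F) = 2 * m := by rw [fr_sub h.fr, W2]
  have hE : (Q.restrict (W.restrictScalars F)).Equivalent (Q.restrict A) :=
    equiv_of_same hWn hAn hWd hm (by
      have h1 := pt_iff_of_equiv (eqv_sub (F := F) q W)
      rw [← hQd] at h1
      rw [← h1, W3])
  obtain ⟨e0⟩ := hE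
  have he0 : ∀ v : W.restrictScalars F, Q ((e0 v : A) : V) = Q (v : V) := fun v => e0.map_app v
  obtain ⟨e, e1, e2⟩ := H48.QuadWitt.witt_extension (Q := Q) (nd_iff.1 hQ) (W.restrictScalars F) (A.subtype ∘ₗ e0.toLinearEquiv.toLinearMap)
    (A.injective_subtype.comp e0.toLinearEquiv.injective) he0
  have heW : ∀ v ∈ W.restrictScalars F, e v ∈ A := by
    intro v hv
    rw [e2 ⟨v, hv⟩]
    exact (e0 ⟨v, hv⟩).2
  have hmap : (W.restrictScalars F).map e.toLinearMap = A := by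
    apply Submodule.eq_of_le_of_finrank_eq
    · rintro _ ⟨y, hy, rfl⟩
      exact heW y hy
    · have := LinearEquiv.finrank_map_eq e (W.restrictScalars F)
      rw [hm, ← hWd]; exact this
  have heO : ∀ v ∈ orth Q (W.restrictScalars F), e v ∈ orth Q A := by
    intro v hv u hu
    rw [← hmap] at hu
    obtain ⟨y, hy, rfl⟩ := hu
    have h1 : polar Q (e y) (e v) = polar Q y v := by rw [polar, polar, ← _root_.map_add, e1, e1, e1]
    show polar Q (e y) (e v) = 0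
    rw [h1]; exact hv y hy
  let hO : ↥(O Q) := ⟨e, e1⟩
  obtain ⟨w, w1, w2, w3, w4⟩ := adj h.two Q R hWn (by omega) (theta Q R.c₁ hO) (theta Q R.c₂ hO)
  obtain ⟨w3', w4'⟩ := fixO h w w3 w4
  refine ⟨hO * w⁻¹, ?_, ?_, ?_⟩
  · rw [_root_.map_mul, _root_.map_inv, w1, mul_inv_cancel]
  · rw [_root_.map_mul, _root_.map_inv, w2, mul_inv_cancel]
  · have hy : ∀ v, (((hO * w⁻¹)⁻¹ * x * (hO * w⁻¹) : ↥(O Q)) : V ≃ₗ[F] V) v = (w : V ≃ₗ[F] V) (e.symm (X (e ((w : V ≃ₗ[F] V).symm v)))) := by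
      intro v
      have h1 : ((hO * w⁻¹)⁻¹ * x * (hO * w⁻¹) : ↥(O Q)) = w * (hO⁻¹ * x * hO) * w⁻¹ := by group
      rw [h1]; rfl
    set Y := (((hO * w⁻¹)⁻¹ * x * (hO * w⁻¹) : ↥(O Q)) : V ≃ₗ[F] V) with hY
    have hYW : ∀ v ∈ W.restrictScalars F, Y v = -v := by
      intro v hv
      rw [hy, hneg _ (heW _ (w3' v hv)), _root_.map_neg, LinearEquiv.symm_apply_apply, _root_.map_neg, LinearEquiv.apply_symm_apply]
    have hYO : ∀ v ∈ orth Q (W.restrictScalars F), Y v = v := by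
      intro v hv
      have h1 : X (e v) = e v := by
        apply mem_fx.1
        rw [← hoA]; exact heO v hv
      rw [hy, w4' v hv, h1, LinearEquiv.symm_apply_apply, w4 v hv]
    intro v
    obtain ⟨e', he', -⟩ := ortho_split W1
    obtain ⟨⟨p, c⟩, rfl⟩ := e'.surjective v
    rw [he']
    have hcm : (c : V) ∈ orth Q (W.restrictScalars F) := by rw [hQd, orth_tq]; exact c.2
    have hcm' : ε • (c : V) ∈ orth Q (W.restrictScalars F) := by rw [hQd, orth_tq]; exact (orth q W).smul_mem ε c.2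
    rw [smul_add, _root_.map_add, _root_.map_add, hYW _ p.2, hYO _ hcm, hYO _ hcm', hYW (ε • (p : V)) (W.smul_mem ε p.2), smul_add, smul_neg]

end H99.OrthK
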