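import Mathlib
import Cfsg.Agent.Lib.H99.OxE
import Cfsg.Agent.Lib.H99.OrthEvenDim2

set_option autoImplicit false
set_option linter.unusedSimpArgs false
set_option linter.unusedSectionVars false
set_option linter.unusedVariables false
set_option maxHeartbeats 400000

/-! The case of involutions, for matrices. -/

namespace H99.OrthK

open Module QuadraticMap H48.QuadSplit H48.QuadStd H96.OeType H99.OrthSS H17.OrthAbs H17.OrthTheta H17.OrthOmega H99.FieldEmb

universe u

variable {F : Type u} [Field F] [Fintype F] {ι : Type} [Fintype ι] [DecidableEq ι]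

section comm

variable {E : Type u} [Field E] [Algebra F E] {ε : E} {c : F} {ρ : E →ₐ[F] Matrix ι ι F}

theorem comm_all (hspan : ∀ e : E, ∃ α β : F, e = algebraMap F E α + algebraMap F E β * ε)
    {g : Matrix ι ι F} (h : g * ρ ε = ρ ε * g) (e : E) : g * ρ e = ρ e * g := by
  obtain ⟨α, β, rfl⟩ := hspan e
  rw [_root_.map_add, _root_.map_mul, AlgHom.commutes, AlgHom.commutes, Algebra.algebraMap_eq_smul_one, Algebra.algebraMap_eq_smul_one,
    Matrix.mul_add, Matrix.add_mul, Matrix.mul_smul, Matrix.smul_mul, Matrix.mul_one, Matrix.one_mul, Matrix.smul_mul, Matrix.one_mul,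
    Matrix.mul_smul, Matrix.smul_mul, h]

/-- anticommuting elements normalize the field -/
theorem mem_of_anti {K : Subalgebra F (Matrix ι ι F)} (hmem : ∀ M, M ∈ K ↔ ∃ e, ρ e = M)
    (hspan : ∀ e : E, ∃ α β : F, e = algebraMap F E α + algebraMap F E β * ε)
    (g : GL ι F) (h : (g : Matrix ι ι F) * ρ ε = - (ρ ε * (g : Matrix ι ι F))) :
    g ∈ Cfsg.Geo.subalgebraNormalizer K := by
  set G := (g : Matrix ι ι F) with hG
  have hgg : G * ((g⁻¹ : GL ι F) : Matrix ι ι F) = 1 := by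
    rw [hG, ← Units.val_mul, mul_inv_cancel, Units.val_one]
  have hgg' : ((g⁻¹ : GL ι F) : Matrix ι ι F) * G = 1 := by
    rw [hG, ← Units.val_mul, inv_mul_cancel, Units.val_one]
  have key : ∀ α β : F, G * ρ (algebraMap F E α + algebraMap F E β * ε) = ρ (algebraMap F E α + algebraMap F E (-β) * ε) * G := by
    intro α β
    rw [_root_.map_add, _root_.map_mul, _root_.map_add, _root_.map_mul, AlgHom.commutes, AlgHom.commutes, AlgHom.commutes, Algebra.algebraMap_eq_smul_one,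
      Algebra.algebraMap_eq_smul_one, Algebra.algebraMap_eq_smul_one,
      Matrix.mul_add, Matrix.add_mul, Matrix.mul_smul, Matrix.smul_mul, Matrix.mul_one, Matrix.one_mul, Matrix.smul_mul, Matrix.one_mul,
      Matrix.mul_smul, Matrix.smul_mul, h, Matrix.one_mul, Matrix.smul_mul, smul_neg, neg_smul]
  have key2 : ∀ α β : F, G * ρ (algebraMap F E α + algebraMap F E β * ε) * ((g⁻¹ : GL ι F) : Matrix ι ι F) =
      ρ (algebraMap F E α + algebraMap F E (-β) * ε) := by
    intro α β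
    rw [key, Matrix.mul_assoc, hgg, Matrix.mul_one]
  intro k
  constructor
  · intro hk
    obtain ⟨e, rfl⟩ := (hmem _).1 hk
    obtain ⟨α, β, rfl⟩ := hspan e
    rw [key2]
    exact (hmem _).2 ⟨_, rfl⟩
  · intro hk
    obtain ⟨e, he⟩ := (hmem _).1 hk
    obtain ⟨α, β, rfl⟩ := hspan e
    have h2 : k = ρ (algebraMap F E α + algebraMap F E (-β) * ε) := by
      have h3 : G * k = G * ρ (algebraMap F E α + algebraMap F E (-β) * ε) := by
        calc G * k = (G * k * ((g⁻¹ : GL ι F) : Matrix ι ι F)) * G := by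
              rw [Matrix.mul_assoc (G * k), hgg', Matrix.mul_one]
          _ = ρ (algebraMap F E α + algebraMap F E β * ε) * G := by rw [← he]
          _ = _ := by rw [key, neg_neg]
      exact g.isUnit.mul_left_cancel h3
    rw [h2]; exact (hmem _).2 ⟨_, rfl⟩

end comm

/-- the data of a self-adjoint quadratic field -/
theorem setup (h2 : (2 : F) ≠ 0) [Nonempty ι] {K : Subalgebra F (Matrix ι ι F)} (hK : Cfsg.Geo.IsFieldSubalgebra 2 K) :
    ∃ (E : Type u) (_ : Field E) (_ : Fintype E) (_ : Algebra F E) (ρ : E →ₐ[F] Matrix ι ι F) (ε : E) (c : F),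
      (∀ M, M ∈ K ↔ ∃ e, ρ e = M) ∧ QX F E ε c := by
  obtain ⟨E, _, _, ρ, hmem, hE⟩ := exists_field K hK
  have hfd : FiniteDimensional F E := Module.finite_of_finrank_pos (by omega)
  have : Finite E := Module.finite_of_finite F
  obtain ⟨ε, c, h1, h3, h4⟩ := SelfAdj.exists_quad h2 hE
  exact ⟨E, inferInstance, Fintype.ofFinite E, inferInstance, ρ, ε, c, hmem, ⟨h2, hE, h1, h3, h4⟩⟩

section struct

variable {E : Type u} [Field E] [Fintype E] [Algebra F E] {ε : E} {c : F} {ρ : E →ₐ[F] Matrix ι ι F} (h : QX F E ε c)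

instance fdVE [FiniteDimensional F E] : FiniteDimensional E (VE ρ) := by
  have : FiniteDimensional F (VE ρ) := inferInstanceAs (FiniteDimensional F (ι → F))
  exact FiniteDimensional.right F E (VE ρ)

instance finVE : Finite (VE ρ) := inferInstanceAs (Finite (ι → F))

/-- the form on the space over the extension -/
def QV (ρ : E →ₐ[F] Matrix ι ι F) (Q : QuadraticForm F (ι → F)) : QuadraticForm F (VE ρ) := Q

include h

theorem exists_qE {K : Subalgebra F (Matrix ι ι F)} (hmem : ∀ M, M ∈ K ↔ ∃ e, ρ e = M) {Q : QuadraticForm F (ι → F)}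
    (hKf : Cfsg.Geo.IsSelfAdjointFor (polar Q) K) : ∃ q : QuadraticForm E (VE ρ), QV ρ Q = tq F q := by
  have hfd : FiniteDimensional F E := Module.finite_of_finrank_pos (by rw [h.fr]; omega)
  obtain ⟨q, hq⟩ := exists_q (V := VE ρ) h.two (QV ρ Q) (fun e u v => hKf (ρ e) ((hmem _).2 ⟨e, rfl⟩) u v)
  exact ⟨q, hq.symm⟩

theorem fr_VE : Fintype.card ι = 2 * finrank E (VE ρ) := by
  have h1 := fr_tot h (VE ρ)
  rw [← h1]
  exact (finrank_fintype_fun_eq_card F).symm

/-- **involutions** -/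
theorem two_case {K : Subalgebra F (Matrix ι ι F)} (hmem : ∀ M, M ∈ K ↔ ∃ e, ρ e = M) {Q : QuadraticForm F (ι → F)} (hQ : ND Q)
    (hKf : Cfsg.Geo.IsSelfAdjointFor (polar Q) K) (hd : 1 ≤ finrank E (VE ρ)) {x : GL ι F} (hx : x ∈ Cfsg.Geo.omegaGL (⇑Q))
    (hz : ∃ z : F, ((x ^ 2 : GL ι F) : Matrix ι ι F) = z • (1 : Matrix ι ι F))
    (hns : ∀ z : F, (x : Matrix ι ι F) ≠ z • (1 : Matrix ι ι F)) :
    ∃ g ∈ Cfsg.Geo.omegaGL (⇑Q), g⁻¹ * x * g ∈ Cfsg.Geo.subalgebraNormalizer K := by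
  have hfd : FiniteDimensional F E := Module.finite_of_finrank_pos (by rw [h.fr]; omega)
  have hcι := fr_VE (ρ := ρ) h
  have : Nonempty ι := Fintype.card_pos_iff.1 (by omega)
  obtain ⟨q, hqQ⟩ := exists_qE h hmem hKf
  have hq : ND q := nd_of_tq (F := F) (by rw [← hqQ]; exact hQ)
  obtain ⟨R, -⟩ := exists_reps (F := F) h.two 1 one_ne_zero
  have hiso := iso_of_omega hx
  have hxm : x ∈ Cfsg.isometryGroup F (⇑Q) := (H17.OrthDet.mem_isometryGroup_iff _ _).mpr (fun v => by rw [← Matrix.toLin'_apply]; exact hiso v)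
  let X : ↥(O (QV ρ Q)) := H17.OrthTrans.equiv Q ⟨x, hxm⟩
  have hXap : ∀ v : VE ρ, (X : VE ρ ≃ₗ[F] VE ρ) v = (Matrix.toLin' (x : Matrix ι ι F) v : ι → F) := fun v => rfl
  have fin : ∀ g : ↥(O (QV ρ Q)), theta (QV ρ Q) R.c₁ g = 1 → theta (QV ρ Q) R.c₂ g = 1 →
      ((∀ v : VE ρ, ((g⁻¹ * X * g : ↥(O (QV ρ Q))) : VE ρ ≃ₗ[F] VE ρ) (ε • v) = -(ε • ((g⁻¹ * X * g : ↥(O (QV ρ Q))) : VE ρ ≃ₗ[F] VE ρ) v)) ∨
       (∀ v : VE ρ, ((g⁻¹ * X * g : ↥(O (QV ρ Q))) : VE ρ ≃ₗ[F] VE ρ) (ε • v) = ε • ((g⁻¹ * X * g : ↥(O (QV ρ Q))) : VE ρ ≃ₗ[F] VE ρ) v)) →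
      ∃ g ∈ Cfsg.Geo.omegaGL (⇑Q), g⁻¹ * x * g ∈ Cfsg.Geo.subalgebraNormalizer K := by
    intro g g1 g2 g3
    let G : ↥(Cfsg.isometryGroup F (⇑Q)) := (H17.OrthTrans.equiv Q).symm g
    have hG : H17.OrthTrans.equiv Q G = g := MulEquiv.apply_symm_apply _ _
    have hval : ∀ v : ι → F, (((G : GL ι F)⁻¹ * x * (G : GL ι F) : GL ι F) : Matrix ι ι F).mulVec v = ((g⁻¹ * X * g : ↥(O (QV ρ Q))) : VE ρ ≃ₗ[F] VE ρ) v := by
      intro v
      have h1 : H17.OrthTrans.equiv Q (G⁻¹ * ⟨x, hxm⟩ * G) = g⁻¹ * X * g := by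
        rw [_root_.map_mul, _root_.map_mul, _root_.map_inv, hG]; rfl
      have h3 := H17.OrthTrans.equiv_apply Q (G⁻¹ * ⟨x, hxm⟩ * G) v
      rw [h1] at h3
      exact h3.symm
    refine ⟨(G : GL ι F), ?_, ?_⟩
    · rw [mem_omega_iff h.two hQ (by omega) R G.2]
      exact ⟨by rw [show (⟨(G : GL ι F), G.2⟩ : ↥(Cfsg.isometryGroup F (⇑Q))) = G from rfl, hG]; exact g1,
        by rw [show (⟨(G : GL ι F), G.2⟩ : ↥(Cfsg.isometryGroup F (⇑Q))) = G from rfl, hG]; exact g2⟩
    · rcases g3 with g3 | g3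
      · apply mem_of_anti hmem h.span
        apply Skew.matrix_ext
        intro v
        rw [← Matrix.mulVec_mulVec, hval, Matrix.neg_mulVec, ← Matrix.mulVec_mulVec, hval]
        exact g3 v
      · apply mem_of_comm ρ hmem
        apply comm_all h.span
        apply Skew.matrix_ext
        intro v
        rw [← Matrix.mulVec_mulVec, hval, ← Matrix.mulVec_mulVec, hval]
        exact g3 v
  rcases sq_cases hQ hx hz with hx2 | hx2
  · obtain ⟨A, A1, A2, A3, a, a1, a2, a3⟩ := inv_split h.two hQ (finrank E (VE ρ)) hcι hd hx hx2 hns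
    have hfx : fx (Matrix.toLin' (x : Matrix ι ι F)) = A := by
      apply le_antisymm
      · intro v hv
        obtain ⟨e, he, -⟩ := ortho_split A1
        obtain ⟨⟨p, b⟩, rfl⟩ := e.surjective v
        rw [he] at hv ⊢
        have h1 := mem_fx.1 hv
        rw [_root_.map_add, A2 _ p.2, A3 _ b.2] at h1
        have h3 : (2 : F) • (b : ι → F) = 0 := by
          have h4 : ((p : ι → F) + (b : ι → F)) - ((p : ι → F) + -(b : ι → F)) = 0 := by rw [h1, sub_self]
          rw [two_smul, ← h4]; abel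
        have h5 : (b : ι → F) = 0 := (smul_eq_zero.1 h3).resolve_left h.two
        show (p : ι → F) + (b : ι → F) ∈ A
        rw [h5, add_zero]; exact p.2
      · intro v hv
        exact mem_fx.2 (A2 v hv)
    have hfo := finrank_orth hQ A
    rw [finrank_fintype_fun_eq_card, hcι] at hfo
    obtain ⟨g, g1, g2, g3⟩ := inv_conj (V := VE ρ) h hq hqQ R X (fun v => by
      have := congrArg (fun φ : (ι → F) →ₗ[F] (ι → F) => φ v) hx2
      rw [pow_two] at this
      exact this) (m := finrank E (VE ρ) - a) (by omega) (by omega) (by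
      have h1 : finrank F (orth Q (fx (Matrix.toLin' (x : Matrix ι ι F)))) = 2 * (finrank E (VE ρ) - a) := by
        rw [hfx]; omega
      exact h1)
    exact fin g g1 g2 (Or.inr g3)
  · obtain ⟨g, g1, g2, g3⟩ := J_conj (V := VE ρ) h hq hqQ (by omega) R X (fun v => hx2 v)
    exact fin g g1 g2 (Or.inl g3)

end struct

end H99.OrthK
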