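import Mathlib
import Cfsg.Agent.Lib.H99.OxF
import Cfsg.Agent.Lib.H99.OrthUni4
import Cfsg.Agent.Lib.H99.OrthSS5
import Cfsg.Agent.Lib.H99.OrthEvenDim3

set_option autoImplicit false
set_option linter.unusedSimpArgs false
set_option linter.unusedSectionVars false
set_option linter.unusedVariables false
set_option maxHeartbeats 400000

/-! Elements of odd prime order without conjugates normalizing the field. -/

namespace H99.OrthK

open Module QuadraticMap H48.QuadSplit H48.QuadStd H96.OeType H99.OrthSS H17.OrthAbs H17.OrthTheta H17.OrthOmega H99.FieldEmb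

universe u

variable {F : Type u} [Field F] [Fintype F] {ι : Type} [Fintype ι] [DecidableEq ι]
variable {E : Type u} [Field E] [Fintype E] [Algebra F E] {ε : E} {c : F} {ρ : E →ₐ[F] Matrix ι ι F} (h : QX F E ε c)

theorem mkE {y : GL ι F} (hy : ∀ e, (y : Matrix ι ι F) * ρ e = ρ e * (y : Matrix ι ι F)) :
    ∃ Y : VE ρ →ₗ[E] VE ρ, ∀ v, Y v = (Matrix.toLin' (y : Matrix ι ι F) v : ι → F) := by
  have key : ∀ (e : E) (v : ι → F), Matrix.toLin' (y : Matrix ι ι F) ((ρ e).mulVec v) = (ρ e).mulVec (Matrix.toLin' (y : Matrix ι ι F) v) := by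
    intro e v
    rw [Matrix.toLin'_apply, Matrix.toLin'_apply, Matrix.mulVec_mulVec, hy, ← Matrix.mulVec_mulVec]
  exact ⟨{ toFun := fun v => (Matrix.toLin' (y : Matrix ι ι F) v : ι → F), map_add' := fun a b => _root_.map_add (Matrix.toLin' (y : Matrix ι ι F)) _ _, map_smul' := fun e v => key e v }, fun v => rfl⟩

include h

/-- elements of odd prime order normalizing the field are linear over it -/
theorem comm_of_odd {K : Subalgebra F (Matrix ι ι F)} (hmem : ∀ M, M ∈ K ↔ ∃ e, ρ e = M) [Nonempty ι] {r : ℕ} (hr : r.Prime) (hr2 : r ≠ 2)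
    {y : GL ι F} (hy : y ∈ Cfsg.Geo.subalgebraNormalizer K) (hyr : y ^ r = 1) : ∀ e, (y : Matrix ι ι F) * ρ e = ρ e * (y : Matrix ι ι F) :=
  comm_of_pow ρ hmem h.fr y hy hyr ((Nat.coprime_primes hr Nat.prime_two).2 hr2) (by norm_num)

theorem fr_range (Y : VE ρ →ₗ[E] VE ρ) {B : (ι → F) →ₗ[F] (ι → F)} (hYB : ∀ v, Y v = B v) (k : ℕ) :
    finrank F (LinearMap.range ((B - 1) ^ k)) = 2 * finrank E (LinearMap.range ((Y - 1) ^ k)) := by
  have hfd : FiniteDimensional F E := Module.finite_of_finrank_pos (by rw [h.fr]; omega)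
  have hk : ∀ (k : ℕ) (v : VE ρ), ((Y - 1) ^ k) v = ((B - 1) ^ k) v := by
    intro k
    induction k with
    | zero => intro v; rfl
    | succ k ih =>
      intro v
      rw [pow_succ', pow_succ']
      have h1 : ((Y - 1) * (Y - 1) ^ k) v = Y (((Y - 1) ^ k) v) - ((Y - 1) ^ k) v := rfl
      have h3 : Y (((Y - 1) ^ k) v) - ((Y - 1) ^ k) v = B (((B - 1) ^ k) v) - ((B - 1) ^ k) v :=
        (congrArg (fun w : VE ρ => Y w - w) (ih v)).trans (congrArg (fun w : ι → F => w - ((B - 1) ^ k) v) (hYB _))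
      exact h1.trans h3
  rw [← fr_sub h.fr]
  have : LinearMap.range ((B - 1) ^ k) = ((LinearMap.range ((Y - 1) ^ k)).restrictScalars F : Submodule F (VE ρ)) := by
    ext v
    constructor
    · rintro ⟨w, rfl⟩
      exact ⟨w, hk k w⟩
    · rintro ⟨w, rfl⟩
      exact ⟨w, (hk k w).symm⟩
  exact congrArg (fun S : Submodule F (ι → F) => finrank F S) this

theorem conj_toLin {x g : GL ι F} : Matrix.toLin' ((g⁻¹ * x * g : GL ι F) : Matrix ι ι F) =
    (H17.OrthTrans.phi ι F g).symm.toLinearMap ∘ₗ Matrix.toLin' (x : Matrix ι ι F) ∘ₗ (H17.OrthTrans.phi ι F g).toLinearMap := by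
  apply LinearMap.ext
  intro v
  rw [Matrix.toLin'_apply, Units.val_mul, Units.val_mul, ← Matrix.mulVec_mulVec, ← Matrix.mulVec_mulVec]
  have h1 : (H17.OrthTrans.phi ι F g⁻¹) = (H17.OrthTrans.phi ι F g)⁻¹ := _root_.map_inv _ _
  have h3 := H17.OrthTrans.phi_apply (F := F) g⁻¹ ((x : Matrix ι ι F).mulVec ((g : Matrix ι ι F).mulVec v))
  rw [h1] at h3
  rw [← h3]; rfl

omit h in
theorem bad_p (p : ℕ) [hpf : Fact p.Prime] [CharP F p] (hp2 : p ≠ 2) (h : QX F E ε c) {K : Subalgebra F (Matrix ι ι F)} (hmem : ∀ M, M ∈ K ↔ ∃ e, ρ e = M)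
    {Q : QuadraticForm F (ι → F)} (hQ : ND Q) (hd : 2 ≤ finrank E (VE ρ)) :
    ∃ x ∈ Cfsg.Geo.omegaGL (⇑Q), x ^ p = 1 ∧ (∀ z : F, (x : Matrix ι ι F) ≠ z • (1 : Matrix ι ι F)) ∧
      ∀ g : GL ι F, g⁻¹ * x * g ∉ Cfsg.Geo.subalgebraNormalizer K := by
  have hcι := fr_VE (ρ := ρ) h
  have : Nonempty ι := Fintype.card_pos_iff.1 (by omega)
  have hp3 : 3 ≤ p := by
    have := hpf.out.two_le
    omega
  set μ : Multiset ℕ := 3 ::ₘ Multiset.replicate (Fintype.card ι - 3) 1 with hμ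
  have hμ1 : ∀ e ∈ μ, Odd e := by
    intro e he
    rcases Multiset.mem_cons.1 he with rfl | he
    · decide
    · rw [Multiset.eq_of_mem_replicate he]; decide
  have hμ2 : ∀ e ∈ μ, 0 < e ∧ e ≤ p := by
    intro e he
    rcases Multiset.mem_cons.1 he with rfl | he
    · omega
    · rw [Multiset.eq_of_mem_replicate he]; omega
  have hsum : finrank F (ι → F) = μ.sum := by
    rw [finrank_fintype_fun_eq_card, hμ, Multiset.sum_cons, Multiset.sum_replicate, smul_eq_mul, mul_one]; omega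
  have hnil := OrthUni2.odds_nil h.two μ hμ1 (ι → F) Q hQ hsum
  obtain ⟨x, x1, x2, x3, x4, x5, x6⟩ := OrthUni3.exists_elt p hp2 Q hQ μ hμ2 ⟨3, Multiset.mem_cons_self _ _, by decide⟩ hnil
  refine ⟨x, x1, x2, x3, fun g hg => ?_⟩
  have hy := comm_of_odd h hmem hpf.out hp2 hg (by
    have : (g⁻¹ * x * g) ^ p = g⁻¹ * x ^ p * g := by
      have := conj_pow (i := p) (a := g⁻¹) (b := x)
      rwa [inv_inv] at this
    rw [this, x2]; group)
  obtain ⟨Y, hY⟩ := mkE hy
  have h1 := fr_range h Y hY 2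
  have h3 := x6 2
  rw [hμ, Multiset.map_cons, Multiset.sum_cons, Multiset.map_replicate, Multiset.sum_replicate] at h3
  have h4 : finrank F (LinearMap.range ((Matrix.toLin' ((g⁻¹ * x * g : GL ι F) : Matrix ι ι F) - 1) ^ 2)) =
      finrank F (LinearMap.range ((Matrix.toLin' (x : Matrix ι ι F) - 1) ^ 2)) := by
    rw [← OrthUni2.rank_conj (H17.OrthTrans.phi ι F g).symm (Matrix.toLin' (x : Matrix ι ι F) - 1) 2]
    have e0 : Matrix.toLin' ((g⁻¹ * x * g : GL ι F) : Matrix ι ι F) - 1 = (H17.OrthTrans.phi ι F g).symm.toLinearMap ∘ₗ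
        (Matrix.toLin' (x : Matrix ι ι F) - 1) ∘ₗ (H17.OrthTrans.phi ι F g).symm.symm.toLinearMap := by
      rw [conj_toLin h]
      apply LinearMap.ext
      intro v
      show (H17.OrthTrans.phi ι F g).symm (Matrix.toLin' (x : Matrix ι ι F) (H17.OrthTrans.phi ι F g v)) - v =
        (H17.OrthTrans.phi ι F g).symm (Matrix.toLin' (x : Matrix ι ι F) (H17.OrthTrans.phi ι F g v) - H17.OrthTrans.phi ι F g v)
      rw [_root_.map_sub, LinearEquiv.symm_apply_apply]
    rw [e0]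
  rw [h4, h3] at h1
  norm_num at h1
  omega

end H99.OrthK
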