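import Mathlib
import Cfsg.Agent.Lib.H99.OxG

set_option autoImplicit false
set_option linter.unusedSimpArgs false
set_option linter.unusedSectionVars false
set_option linter.unusedVariables false
set_option maxHeartbeats 400000

/-! Semisimple elements of odd prime order without conjugates normalizing the field. -/

namespace H99.OrthK

open Module QuadraticMap H48.QuadSplit H48.QuadStd H96.OeType H99.OrthSS H17.OrthAbs H17.OrthTheta H17.OrthOmega H99.FieldEmb

universe u

variable {F : Type u} [Field F] [Fintype F] {ι : Type} [Fintype ι] [DecidableEq ι]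
variable {E : Type u} [Field E] [Fintype E] [Algebra F E] {ε : E} {c : F} {ρ : E →ₐ[F] Matrix ι ι F} (h : QX F E ε c)

include h

theorem card_E : Fintype.card E = Fintype.card F ^ 2 := by
  rw [← h.fr]; exact Module.card_eq_pow_finrank

theorem oi_E (r : ℕ) : oi E r = oi F r / Nat.gcd (oi F r) 2 := by
  have h1 : ((Fintype.card E : ℕ) : ZMod r) = ((Fintype.card F : ℕ) : ZMod r) ^ 2 := by
    rw [card_E h]; push_cast; rfl
  show orderOf ((Fintype.card E : ℕ) : ZMod r) = _
  rw [h1, orderOf_pow' _ (by norm_num)]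

/-- linear isometries of the trace form preserve the form -/
theorem pres_q {V : Type u} [AddCommGroup V] [Module F V] [Module E V] [IsScalarTower F E V] {q : QuadraticForm E V} {Y : V →ₗ[E] V}
    (hY : ∀ v, tq F q (Y v) = tq F q v) (v : V) : q (Y v) = q v := by
  have hfd : FiniteDimensional F E := Module.finite_of_finrank_pos (by rw [h.fr]; omega)
  have h1 : ∀ u v, polar (tq F q) (Y u) (Y v) = polar (tq F q) u v := by
    intro u v
    rw [polar, polar, ← _root_.map_add, hY, hY, hY]
  have h3 : polar q (Y v) (Y v) = polar q v v := by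
    apply FieldEmb.tr_inj (F := F)
    intro a
    rw [mul_comm, mul_comm _ a, ← smul_eq_mul, ← smul_eq_mul, ← polar_smul_left, ← polar_smul_left, ← polar_tq, ← polar_tq, ← _root_.map_smul, h1]
  rw [polar_self, polar_self, ← Nat.cast_smul_eq_nsmul E, ← Nat.cast_smul_eq_nsmul E, smul_eq_mul, smul_eq_mul] at h3
  exact mul_left_cancel₀ (by exact_mod_cast twoE h) h3

theorem bad_r {K : Subalgebra F (Matrix ι ι F)} (hmem : ∀ M, M ∈ K ↔ ∃ e, ρ e = M)
    {Q : QuadraticForm F (ι → F)} (hQ : ND Q) (hKf : Cfsg.Geo.IsSelfAdjointFor (polar Q) K) (hd : 1 ≤ finrank E (VE ρ))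
    {r : ℕ} (hr : r.Prime) (hr2 : r ≠ 2) (hrq : ¬ r ∣ Fintype.card F) (h4 : ¬ 4 ∣ oi F r) (hdvd : r ∣ Nat.card (H7.Hyp.O (F := F) (⇑Q))) :
    ∃ x ∈ Cfsg.Geo.omegaGL (⇑Q), x ^ r = 1 ∧ (∀ z : F, (x : Matrix ι ι F) ≠ z • (1 : Matrix ι ι F)) ∧
      ∀ g ∈ Cfsg.Geo.omegaGL (⇑Q), g⁻¹ * x * g ∉ Cfsg.Geo.subalgebraNormalizer K := by
  have hfd : FiniteDimensional F E := Module.finite_of_finrank_pos (by rw [h.fr]; omega)
  have hcι := fr_VE (ρ := ρ) h
  have : Nonempty ι := Fintype.card_pos_iff.1 (by omega)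
  have hdim : finrank F (ι → F) = Fintype.card ι := finrank_fintype_fun_eq_card F
  have hcc := cc_pos (F := F) hr hrq
  have hcard : Fintype.card F ≠ 2 := by
    intro hF
    have h' : ((Fintype.card F : ℕ) : F) = 0 := Nat.cast_card_eq_zero F
    rw [hF] at h'
    exact h.two (by exact_mod_cast h')
  have hno := fun hC => no_r hr hr2 hrq hQ hC hdvd
  have c1 : cc (oi F r) ≤ finrank F (ι → F) := by
    by_contra hcon
    exact hno (Or.inl (by omega))
  have c2 : cc (oi F r) = finrank F (ι → F) → (PT Q ↔ Odd (oi F r)) := by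
    intro heq
    by_contra hcon
    exact hno (Or.inr ⟨heq.symm, hcon⟩)
  obtain ⟨f, f1, f2, f3⟩ := realize hr hr2 hrq hQ 1 (by omega) (fun heq => by
    rw [c2 (by omega)]
    have : ¬ Even 1 := by decide
    tauto)
  obtain ⟨x, x1, x2⟩ := exists_gl' f hr.pos f2
  have hxm : x ∈ Cfsg.isometryGroup F (⇑Q) := (H17.OrthDet.mem_isometryGroup_iff _ _).mpr (fun v => by
      rw [← Matrix.toLin'_apply, x1, f1])
  have hxΩ := OrthUni3.mem_omega_of_odd Q (nd_iff.1 hQ) (Or.inl hcard) hxm (hr.odd_of_ne_two hr2) x2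
  refine ⟨x, hxΩ, x2, ?_, ?_⟩
  · intro z hz
    obtain ⟨v0, -, hv0⟩ := exists_ns (Q := Q) (A := ⊤) (nd_on.2 (nd_top.1 hQ)) (by rw [finrank_top]; omega)
    have hf : ∀ v, f v = z • v := by
      intro v
      rw [← x1, hz, Matrix.toLin'_apply, Matrix.smul_mulVec, Matrix.one_mulVec]
    have h1 : z * z = 1 := by
      have h3 := f1 v0
      rw [hf, QuadraticMap.map_smul, smul_eq_mul] at h3
      exact mul_right_cancel₀ hv0 (by rw [h3, one_mul])
    have h3 : z ^ r = 1 := by
      have h5 : f = z • 1 := LinearMap.ext hf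
      rw [h5, smul_pow, one_pow] at f2
      have h6 : z ^ r • v0 = v0 := congrArg (fun φ : (ι → F) →ₗ[F] (ι → F) => φ v0) f2
      have h7 : (z ^ r - 1) • v0 = 0 := by rw [sub_smul, h6, one_smul, sub_self]
      have h8 : v0 ≠ 0 := by rintro rfl; exact hv0 (QuadraticMap.map_zero Q)
      exact sub_eq_zero.1 ((smul_eq_zero.1 h7).resolve_right h8)
    obtain ⟨k, hk⟩ := hr.odd_of_ne_two hr2
    rw [hk, pow_succ, pow_mul, pow_two, h1, one_pow, one_mul] at h3
    have h5 : fx f = ⊤ := by
      ext v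
      rw [mem_fx, hf, h3, one_smul]
      exact ⟨fun _ => trivial, fun _ => rfl⟩
    rw [h5, finrank_top] at f3
    omega
  · intro g hg hgK
    have hy := comm_of_odd h hmem hr hr2 hgK (by
      have : (g⁻¹ * x * g) ^ r = g⁻¹ * x ^ r * g := by
        have := conj_pow (i := r) (a := g⁻¹) (b := x)
        rwa [inv_inv] at this
      rw [this, x2]; group)
    obtain ⟨Y, hY⟩ := mkE hy
    obtain ⟨q, hqQ⟩ := exists_qE (ρ := ρ) h hmem hKf
    have hq : ND q := nd_of_tq (F := F) (by rw [← hqQ]; exact hQ)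
    have hyΩ : g⁻¹ * x * g ∈ Cfsg.Geo.omegaGL (⇑Q) := Subgroup.mul_mem _ (Subgroup.mul_mem _ (Subgroup.inv_mem _ hg) hxΩ) hg
    have hyiso := iso_of_omega hyΩ
    have hyr : (g⁻¹ * x * g) ^ r = 1 := by
      have : (g⁻¹ * x * g) ^ r = g⁻¹ * x ^ r * g := by
        have := conj_pow (i := r) (a := g⁻¹) (b := x)
        rwa [inv_inv] at this
      rw [this, x2]; group
    have hYq : ∀ v, q (Y v) = q v := by
      apply pres_q (F := F) h
      intro v
      rw [← hqQ, hY]
      exact hyiso v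
    have hYk : ∀ (k : ℕ) (v : VE ρ), (Y ^ k) v = (((Matrix.toLin' ((g⁻¹ * x * g : GL ι F) : Matrix ι ι F)) ^ k) v : ι → F) := by
      intro k
      induction k with
      | zero => intro v; rfl
      | succ k ih =>
        intro v
        rw [pow_succ', pow_succ']
        have h1 : (Y * Y ^ k) v = Y ((Y ^ k) v) := rfl
        exact h1.trans ((congrArg Y (ih v)).trans (hY _))
    have hYr : Y ^ r = 1 := by
      apply LinearMap.ext
      intro v
      exact (hYk r v).trans (congrArg (fun φ : (ι → F) →ₗ[F] (ι → F) => φ v) (toLin_pow_one hyr))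
    have hrE : ¬ r ∣ Fintype.card E := by
      rw [card_E h]
      exact fun hh => hrq (hr.dvd_of_dvd_pow hh)
    obtain ⟨s, s1, -⟩ := blocks hq hr hr2 hrE Y hYq hYr
    have h1 := fr_range h Y hY 1
    have e4 : finrank F (LinearMap.range ((Matrix.toLin' ((g⁻¹ * x * g : GL ι F) : Matrix ι ι F) - 1) ^ 1)) =
        finrank F (LinearMap.range ((Matrix.toLin' (x : Matrix ι ι F) - 1) ^ 1)) := by
      rw [← OrthUni2.rank_conj (H17.OrthTrans.phi ι F g).symm (Matrix.toLin' (x : Matrix ι ι F) - 1) 1]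
      have e0 : Matrix.toLin' ((g⁻¹ * x * g : GL ι F) : Matrix ι ι F) - 1 = (H17.OrthTrans.phi ι F g).symm.toLinearMap ∘ₗ
          (Matrix.toLin' (x : Matrix ι ι F) - 1) ∘ₗ (H17.OrthTrans.phi ι F g).symm.symm.toLinearMap := by
        rw [conj_toLin h]
        apply LinearMap.ext
        intro v
        show (H17.OrthTrans.phi ι F g).symm (Matrix.toLin' (x : Matrix ι ι F) (H17.OrthTrans.phi ι F g v)) - v =
          (H17.OrthTrans.phi ι F g).symm (Matrix.toLin' (x : Matrix ι ι F) (H17.OrthTrans.phi ι F g v) - H17.OrthTrans.phi ι F g v)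
        rw [_root_.map_sub, LinearEquiv.symm_apply_apply]
      rw [e0]
    rw [pow_one, pow_one] at h1 e4
    rw [e4, x1] at h1
    have r1 := LinearMap.finrank_range_add_finrank_ker (f - 1)
    have r2 := LinearMap.finrank_range_add_finrank_ker (Y - 1)
    have r3 : finrank F (fx f) = finrank F (LinearMap.ker (f - 1)) := rfl
    have r4 : finrank E (fx Y) = finrank E (LinearMap.ker (Y - 1)) := rfl
    have hkey : cc (oi F r) = 2 * (cc (oi E r) * s) := by omega
    have hi0 := oi_pos (F := F) hr hrq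
    have hoE := oi_E (F := F) h r
    rcases Nat.even_or_odd (oi F r) with he | ho
    · obtain ⟨k, hk⟩ := he
      have hg2 : Nat.gcd (oi F r) 2 = 2 := Nat.gcd_eq_right ⟨k, by omega⟩
      rw [hg2] at hoE
      have hko : Odd k := by
        by_contra hke
        rw [Nat.not_odd_iff_even] at hke
        obtain ⟨l, hl⟩ := hke
        exact h4 ⟨l, by omega⟩
      have hoE' : oi E r = k := by omega
      rw [cc_even ⟨k, hk⟩, hoE', cc_odd hko, hk] at hkey
      have hk0 : 0 < k := by omega
      rcases Nat.eq_zero_or_pos s with hs | hs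
      · rw [hs] at hkey; omega
      · have : 2 * k * 1 ≤ 2 * k * s := Nat.mul_le_mul_left _ hs
        omega
    · have hg2 : Nat.gcd (oi F r) 2 = 1 := Nat.Coprime.gcd_eq_one (Nat.coprime_two_right.2 ho)
      rw [hg2, Nat.div_one] at hoE
      rw [hoE, cc_odd ho] at hkey
      rcases Nat.eq_zero_or_pos s with hs | hs
      · rw [hs] at hkey; omega
      · have : 2 * oi F r * 1 ≤ 2 * oi F r * s := Nat.mul_le_mul_left _ hs
        omega

end H99.OrthK
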