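import Mathlib
import Cfsg.Agent.Lib.H99.OxH
import Cfsg.Agent.Lib.H99.Quad

set_option autoImplicit false
set_option linter.unusedSimpArgs false
set_option linter.unusedSectionVars false
set_option linter.unusedVariables false
set_option maxHeartbeats 400000

/-! Orders of the isometry groups over the two fields. -/

namespace H99.OrthK

open Module QuadraticMap H48.QuadSplit H48.QuadStd H96.OeType H99.OrthSS H99.FieldEmb H7.HypStd H7.HypOrd

universe u

section cards

variable {F : Type u} [Field F] [Fintype F] {V : Type u} [AddCommGroup V] [Module F V] [FiniteDimensional F V]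

theorem card_plus {Q : QuadraticForm F V} (hQ : ND Q) {m : ℕ} (hd : finrank F V = 2 * (m + 1)) (hp : PT Q) :
    Nat.card (H7.Hyp.O (F := F) (⇑Q)) = 2 * Fintype.card F ^ ((m + 1) * m) * (Fintype.card F ^ (m + 1) - 1) *
      ∏ i ∈ Finset.range m, (Fintype.card F ^ (2 * (i + 1)) - 1) := by
  rw [card_O_congr (equiv_of_pt hQ hd hp), card_O_plus, Nat.card_eq_fintype_card]

theorem card_minus {Q : QuadraticForm F V} (hQ : ND Q) {m : ℕ} (hd : finrank F V = 2 * (m + 1)) (hp : ¬ PT Q) :
    Nat.card (H7.Hyp.O (F := F) (⇑Q)) = 2 * Fintype.card F ^ ((m + 1) * m) * (Fintype.card F ^ (m + 1) + 1) *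
      ∏ i ∈ Finset.range m, (Fintype.card F ^ (2 * (i + 1)) - 1) := by
  obtain ⟨_, z, hz, h⟩ := equiv_of_not_pt hQ hd hp
  rw [Nat.add_sub_cancel] at h
  have hani : H7.AnisoPlane.Aniso (1 : F) z := by
    intro z1 z2 h12
    by_cases h2 : z2 = 0
    · subst h2
      refine ⟨?_, rfl⟩
      have : z1 ^ 2 = 0 := by linear_combination h12
      exact pow_eq_zero_iff (two_ne_zero) |>.1 this
    · exfalso
      apply hz (z1 / z2)
      field_simp
      linear_combination h12
  rw [card_O_congr h, H7.MinusOrd.card_O_minus m hani, Nat.card_eq_fintype_card]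

theorem card_odd {Q : QuadraticForm F V} (hQ : ND Q) {m : ℕ} (hd : finrank F V = 2 * m + 1) :
    Nat.card (H7.Hyp.O (F := F) (⇑Q)) = 2 * Fintype.card F ^ (m ^ 2) * ∏ i ∈ Finset.range m, (Fintype.card F ^ (2 * (i + 1)) - 1) := by
  obtain ⟨h2, c, hc, h⟩ := classify_odd m V Q hQ hd
  rw [card_O_congr h, card_O_odd m h2 hc, Nat.card_eq_fintype_card]

end cards

variable {F E : Type u} [Field F] [Fintype F] [Field E] [Fintype E] [Algebra F E] {ε : E} {c : F} (h : QX F E ε c)
  {V : Type u} [AddCommGroup V] [Module F V] [Module E V] [IsScalarTower F E V] [FiniteDimensional E V]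

include h

theorem pt_F_of_E {q : QuadraticForm E V} (hp : PT q) : PT (tq F q) := by
  have hfd : FiniteDimensional F E := Module.finite_of_finrank_pos (by rw [h.fr]; omega)
  obtain ⟨U, u1, u2⟩ := hp
  refine ⟨U.restrictScalars F, fun u hu => ?_, ?_⟩
  · rw [tq_apply, u1 u hu, _root_.map_zero]
  · rw [fr_sub h.fr, fr_tot h V, u2]

/-- the types over the two fields agree in the presence of suitable elements of order `r` -/
theorem pt_iff_EF {r : ℕ} (hr : r.Prime) (hr2 : r ≠ 2) (hrq : ¬ r ∣ Fintype.card F) {e' : ℕ} (he : oi F r = 2 * e') (he' : Even e')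
    {q : QuadraticForm E V} (hq : ND q) (hn : Even (finrank E V)) (hen : e' ≤ finrank E V) : PT q ↔ PT (tq F q) := by
  refine ⟨pt_F_of_E h, fun hF => ?_⟩
  by_contra hE
  have hfd : FiniteDimensional F E := Module.finite_of_finrank_pos (by rw [h.fr]; omega)
  have : FiniteDimensional F V := FiniteDimensional.trans F E V
  have hQ := nd_tq (F := F) hq
  have hrE : ¬ r ∣ Fintype.card E := by
    rw [card_E h]
    exact fun hh => hrq (hr.dvd_of_dvd_pow hh)
  have hi0 := oi_pos (F := F) hr hrq
  have hoE : oi E r = e' := by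
    rw [oi_E h r, he, Nat.gcd_eq_right ⟨e', rfl⟩]; omega
  have hne : ¬ Odd e' := Nat.not_odd_iff_even.2 he'
  have h1 : ¬ Even 1 := by decide
  obtain ⟨f, f1, f2, f3⟩ := realize (F := E) hr hr2 hrE hq 1 (by rw [hoE, cc_even he']; omega) (fun _ => by rw [hoE]; tauto)
  rw [hoE, cc_even he'] at f3
  obtain ⟨s, s1, s2, -⟩ := blocks hq hr hr2 hrE f f1 f2
  rw [hoE, cc_even he'] at s1
  have hs : s = 1 := by
    have : e' * s = e' * 1 := by omega
    exact Nat.eq_of_mul_eq_mul_left (by omega) this
  rw [hs, hoE] at s2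
  have s2' : ¬ PT (q.restrict (orth q (fx f))) := by rw [s2]; tauto
  -- over F
  let g : V →ₗ[F] V := f.restrictScalars F
  have hg : ∀ v, g v = f v := fun v => rfl
  have hgk : ∀ (k : ℕ) (v : V), (g ^ k) v = (f ^ k) v := by
    intro k
    induction k with
    | zero => intro v; rfl
    | succ k ih => intro v; rw [pow_succ', pow_succ', Module.End.mul_apply, Module.End.mul_apply, ih, hg]
  have hgr : g ^ r = 1 := by
    apply LinearMap.ext
    intro v
    rw [hgk, f2]; rfl
  have hgQ : ∀ v, tq F q (g v) = tq F q v := by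
    intro v
    rw [tq_apply, tq_apply, hg, f1]
  have hfx : fx g = (fx f).restrictScalars F := by
    ext v
    rw [mem_fx, Submodule.restrictScalars_mem, mem_fx, hg]
  obtain ⟨s', t1, t2, -⟩ := blocks hQ hr hr2 hrq g hgQ hgr
  have hev : Even (oi F r) := ⟨e', by omega⟩
  rw [hfx, fr_sub h.fr, fr_tot h V, cc_even hev, he] at t1
  have hs' : s' = 1 := by
    have : 2 * e' * s' = 2 * e' * 1 := by omega
    exact Nat.eq_of_mul_eq_mul_left (by omega) this
  have t2' : ¬ PT ((tq F q).restrict (orth (tq F q) (fx g))) := by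
    rw [t2, hs', he]
    have : ¬ Odd (2 * e') := Nat.not_odd_iff_even.2 (even_two_mul e')
    tauto
  obtain ⟨a, ha⟩ := hn
  obtain ⟨b, hb⟩ := he'
  have hC := fx_nd hq (rF hr hrE) f f1 f2
  have hCF := fx_nd hQ (rF hr hrq) g hgQ hgr
  have p1 := pt_split_iff hq hC (m := a - b) (m' := a) (by omega) (by omega)
  have p2 := pt_split_iff hQ hCF (m := finrank E (fx f)) (m' := finrank E V) (by rw [hfx, fr_sub h.fr]) (fr_tot h V)
  have p3 : PT (q.restrict (fx f)) := by tauto
  have p4 : PT ((tq F q).restrict (fx g)) := by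
    rw [hfx, ← pt_iff_of_equiv (eqv_sub q (fx f))]
    exact pt_F_of_E h p3
  tauto

end H99.OrthK
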