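import Mathlib
import Cfsg.Agent.Lib.H99.OxI

set_option autoImplicit false
set_option linter.unusedSimpArgs false
set_option linter.unusedSectionVars false
set_option linter.unusedVariables false
set_option maxHeartbeats 400000

/-! The index of the normalizer of a self-adjoint quadratic field. -/

namespace H99.OrthK

open Module QuadraticMap H48.QuadSplit H48.QuadStd H96.OeType H99.OrthSS H99.FieldEmb H7.HypStd H7.HypOrd

universe u

section arith

variable {Q r : ℕ}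

theorem nd1 (hQ : 1 ≤ Q) (hr : r.Prime) (h4 : 4 ∣ orderOf ((Q : ℕ) : ZMod r)) (k : ℕ) (hk : Odd k) : ¬ r ∣ Q ^ (2 * k) - 1 := by
  intro hdvd
  have h1 := orderOf_dvd_of_pow_eq_one (Quad.pow_eq_one_of_dvd hQ hdvd)
  have h3 := h4.trans h1
  obtain ⟨j, rfl⟩ := hk
  omega

theorem nd2 (hQ : 1 ≤ Q) (hr : r.Prime) (h4 : 4 ∣ orderOf ((Q : ℕ) : ZMod r)) (k : ℕ) (hk : Odd k) : ¬ r ∣ Q ^ k - 1 ∧ ¬ r ∣ Q ^ k + 1 := by
  constructor
  · intro hdvd
    apply nd1 hQ hr h4 k hk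
    refine hdvd.trans ?_
    rw [mul_comm, pow_mul]
    have := Nat.sub_dvd_pow_sub_pow (Q ^ k) 1 2
    rwa [one_pow] at this
  · intro hdvd
    apply nd1 hQ hr h4 k hk
    have h1 : ((Q ^ k + 1 : ℕ) : ZMod r) = 0 := (ZMod.natCast_eq_zero_iff _ _).2 hdvd
    push_cast at h1
    have h3 : ((Q : ℕ) : ZMod r) ^ k = -1 := eq_neg_of_add_eq_zero_left h1
    rw [← ZMod.natCast_eq_zero_iff, Nat.cast_sub (Nat.one_le_pow _ _ hQ)]
    push_cast
    rw [mul_comm, pow_mul, h3]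
    ring

theorem ndD (hQ : 1 ≤ Q) (hr : r.Prime) (h4 : 4 ∣ orderOf ((Q : ℕ) : ZMod r)) (m : ℕ) :
    ¬ r ∣ ∏ i ∈ Finset.range m, (Q ^ (2 * (2 * i + 1)) - 1) := by
  intro h6
  obtain ⟨i, -, hi⟩ := (hr.prime.dvd_finsetProd_iff _).1 h6
  exact nd1 hQ hr h4 (2 * i + 1) ⟨i, rfl⟩ hi

end arith

variable {F E : Type u} [Field F] [Fintype F] [Field E] [Fintype E] [Algebra F E] {ε : E} {c : F} (h : QX F E ε c)
  {V : Type u} [AddCommGroup V] [Module F V] [Module E V] [IsScalarTower F E V] [FiniteDimensional E V]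

include h

theorem ratio {r : ℕ} (hr : r.Prime) (hr2 : r ≠ 2) (hrq : ¬ r ∣ Fintype.card F) (h4 : 4 ∣ oi F r)
    {q : QuadraticForm E V} (hq : ND q) (hn1 : 1 ≤ finrank E V) (hen : oi F r ≤ 2 * finrank E V) :
    ∃ a b M : ℕ, Nat.card (H7.Hyp.O (F := F) (⇑(tq F q))) * Fintype.card F ^ a = Nat.card (H7.Hyp.O (F := E) (⇑q)) * (Fintype.card F ^ b * M) ∧
      ¬ r ∣ M := by
  have hfd : FiniteDimensional F E := Module.finite_of_finrank_pos (by rw [h.fr]; omega)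
  have : FiniteDimensional F V := FiniteDimensional.trans F E V
  have hQn := nd_tq (F := F) hq
  have hVd := fr_tot h V
  have hq1 : 1 ≤ Fintype.card F := Fintype.card_pos
  have hcE := card_E h
  set Q := Fintype.card F with hQd
  have hS : ∀ m : ℕ, ∏ i ∈ Finset.range m, (Q ^ (2 * (2 * i + 1 + 1)) - 1) = ∏ i ∈ Finset.range m, ((Q ^ 2) ^ (2 * (i + 1)) - 1) := by
    intro m
    refine Finset.prod_congr rfl (fun i _ => ?_)
    rw [← pow_mul]; congr 2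
  rcases Nat.even_or_odd' (finrank E V) with ⟨m, hm | hm⟩
  · obtain ⟨m, rfl⟩ : ∃ m', m = m' + 1 := ⟨m - 1, by omega⟩
    obtain ⟨e2, he2⟩ := h4
    have hpt := pt_iff_EF h hr hr2 hrq (e' := 2 * e2) (by rw [he2]; ring) (even_two_mul _) hq (by rw [hm]; exact even_two_mul _) (by omega)
    have hVd' : finrank F V = 2 * ((2 * m + 1) + 1) := by omega
    have hprod : ∏ i ∈ Finset.range (2 * m + 1), (Q ^ (2 * (i + 1)) - 1) =
        (∏ i ∈ Finset.range m, ((Q ^ 2) ^ (2 * (i + 1)) - 1)) * ∏ i ∈ Finset.range (m + 1), (Q ^ (2 * (2 * i + 1)) - 1) := by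
      rw [Finset.prod_range_succ, SpIdx.prod_even_odd, hS, Finset.prod_range_succ]
      ring
    refine ⟨2 * ((m + 1) * m), (2 * m + 1 + 1) * (2 * m + 1), ∏ i ∈ Finset.range (m + 1), (Q ^ (2 * (2 * i + 1)) - 1), ?_, ndD hq1 hr ⟨e2, he2⟩ _⟩
    by_cases hp : PT q
    · rw [card_plus hQn hVd' (hpt.1 hp), card_plus hq hm hp, hcE, hprod, ← hQd]
      have e1 : (Q ^ 2) ^ (m + 1) = Q ^ (2 * m + 1 + 1) := by rw [← pow_mul]; congr 1
      rw [e1, ← pow_mul Q 2]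
      ring
    · rw [card_minus hQn hVd' (fun hh => hp (hpt.2 hh)), card_minus hq hm hp, hcE, hprod, ← hQd]
      have e1 : (Q ^ 2) ^ (m + 1) = Q ^ (2 * m + 1 + 1) := by rw [← pow_mul]; congr 1
      rw [e1, ← pow_mul Q 2]
      ring
  · have hVd' : finrank F V = 2 * (2 * m + 1) := by omega
    have hprod : ∏ i ∈ Finset.range (2 * m), (Q ^ (2 * (i + 1)) - 1) =
        (∏ i ∈ Finset.range m, ((Q ^ 2) ^ (2 * (i + 1)) - 1)) * ∏ i ∈ Finset.range m, (Q ^ (2 * (2 * i + 1)) - 1) := by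
      rw [SpIdx.prod_even_odd, hS]
    have hnd2 := nd2 hq1 hr h4 (2 * m + 1) ⟨m, rfl⟩
    by_cases hp : PT (tq F q)
    · refine ⟨2 * m ^ 2, (2 * m + 1) * (2 * m), (Q ^ (2 * m + 1) - 1) * ∏ i ∈ Finset.range m, (Q ^ (2 * (2 * i + 1)) - 1), ?_, ?_⟩
      · rw [card_plus hQn hVd' hp, card_odd hq hm, hcE, hprod, ← hQd, ← pow_mul Q 2]
        ring
      · intro hh
        rcases hr.dvd_mul.1 hh with hh | hh
        · exact hnd2.1 hh
        · exact ndD hq1 hr h4 _ hh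
    · refine ⟨2 * m ^ 2, (2 * m + 1) * (2 * m), (Q ^ (2 * m + 1) + 1) * ∏ i ∈ Finset.range m, (Q ^ (2 * (2 * i + 1)) - 1), ?_, ?_⟩
      · rw [card_minus hQn hVd' hp, card_odd hq hm, hcE, hprod, ← hQd, ← pow_mul Q 2]
        ring
      · intro hh
        rcases hr.dvd_mul.1 hh with hh | hh
        · exact hnd2.2 hh
        · exact ndD hq1 hr h4 _ hh

end H99.OrthK
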