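import Mathlib
import Cfsg.Agent.Lib.H99.OxJ

set_option autoImplicit false
set_option linter.unusedSimpArgs false
set_option linter.unusedSectionVars false
set_option linter.unusedVariables false
set_option maxHeartbeats 400000

/-! The final criterion for self-adjoint quadratic fields in orthogonal groups. -/

namespace H99.OrthK

open Module QuadraticMap H48.QuadSplit H48.QuadStd H96.OeType H99.OrthSS H99.FieldEmb H7.HypStd H7.HypOrd

universe u

variable {F : Type u} [Field F] [Fintype F] {ι : Type} [Fintype ι] [DecidableEq ι]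
variable {E : Type u} [Field E] [Fintype E] [Algebra F E] {ε : E} {c : F} {ρ : E →ₐ[F] Matrix ι ι F} (h : QX F E ε c)

/-- restriction of scalars for isometries -/
noncomputable def resO (ρ : E →ₐ[F] Matrix ι ι F) (q : QuadraticForm E (VE ρ)) : ↥(H7.Hyp.O (F := E) (⇑q)) →* ((ι → F) ≃ₗ[F] (ι → F)) where
  toFun g := ((g : VE ρ ≃ₗ[E] VE ρ).restrictScalars F : VE ρ ≃ₗ[F] VE ρ)
  map_one' := rfl
  map_mul' _ _ := rfl

theorem resO_apply (q : QuadraticForm E (VE ρ)) (g : ↥(H7.Hyp.O (F := E) (⇑q))) (v : VE ρ) :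
    resO ρ q g v = (g : VE ρ ≃ₗ[E] VE ρ) v := rfl

include h

theorem card_dvd_norm {K : Subalgebra F (Matrix ι ι F)} (hmem : ∀ M, M ∈ K ↔ ∃ e, ρ e = M)
    {Q : QuadraticForm F (ι → F)} {q : QuadraticForm E (VE ρ)} (hqQ : QV ρ Q = tq F q) :
    Nat.card (H7.Hyp.O (F := E) (⇑q)) ∣ Nat.card ((Cfsg.Geo.subalgebraNormalizer K).comap (Cfsg.isometryGroup F (⇑Q)).subtype) := by
  classical
  let f0 : ↥(H7.Hyp.O (F := E) (⇑q)) →* GL ι F := (H17.OrthTrans.phi ι F).symm.toMonoidHom.comp (resO ρ q)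
  have hf0 : ∀ g (v : ι → F), ((f0 g : GL ι F) : Matrix ι ι F).mulVec v = ((g : VE ρ ≃ₗ[E] VE ρ) v : VE ρ) := by
    intro g v
    rw [← H17.OrthTrans.phi_apply]
    show H17.OrthTrans.phi ι F ((H17.OrthTrans.phi ι F).symm (resO ρ q g)) v = _
    rw [MulEquiv.apply_symm_apply]; rfl
  have hI : ∀ g, f0 g ∈ Cfsg.isometryGroup F (⇑Q) := by
    intro g
    rw [H17.OrthDet.mem_isometryGroup_iff]
    intro v
    rw [hf0]
    have h1 : ∀ w : VE ρ, Q w = Algebra.trace F E (q w) := by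
      intro w
      rw [← tq_apply, ← hqQ]; rfl
    exact (h1 _).trans ((congrArg (Algebra.trace F E) (g.2 v)).trans (h1 v).symm)
  have hN : ∀ g, f0 g ∈ Cfsg.Geo.subalgebraNormalizer K := by
    intro g
    apply mem_of_comm ρ hmem
    intro e
    apply Skew.matrix_ext
    intro v
    rw [← Matrix.mulVec_mulVec, ← Matrix.mulVec_mulVec, hf0, hf0]
    exact (g : VE ρ ≃ₗ[E] VE ρ).map_smul e v
  let f1 : ↥(H7.Hyp.O (F := E) (⇑q)) →* ↥(Cfsg.isometryGroup F (⇑Q)) := f0.codRestrict _ hI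
  let f2 : ↥(H7.Hyp.O (F := E) (⇑q)) →* ↥((Cfsg.Geo.subalgebraNormalizer K).comap (Cfsg.isometryGroup F (⇑Q)).subtype) := f1.codRestrict _ hN
  refine Subgroup.card_dvd_of_injective f2 ?_
  intro a b hab
  have h1 : f0 a = f0 b := congrArg (fun x => (x.1 : GL ι F)) hab
  apply Subtype.ext
  apply LinearEquiv.ext
  intro v
  have h3 := hf0 a v
  rw [h1, hf0 b v] at h3
  exact h3.symm

theorem index {K : Subalgebra F (Matrix ι ι F)} (hmem : ∀ M, M ∈ K ↔ ∃ e, ρ e = M)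
    {Q : QuadraticForm F (ι → F)} (hQ : ND Q) (hKf : Cfsg.Geo.IsSelfAdjointFor (polar Q) K) (hd : 1 ≤ finrank E (VE ρ))
    {r : ℕ} (hr : r.Prime) (hr2 : r ≠ 2) (hrq : ¬ r ∣ Fintype.card F) (h4 : 4 ∣ oi F r) :
    ¬ r ∣ (Cfsg.Geo.subalgebraNormalizer K).relIndex (Cfsg.Geo.omegaGL (⇑Q)) := by
  classical
  intro hdvd
  have hcι := fr_VE (ρ := ρ) h
  obtain ⟨q, hqQ⟩ := exists_qE (ρ := ρ) h hmem hKf
  have hfd : FiniteDimensional F E := Module.finite_of_finrank_pos (by rw [h.fr]; omega)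
  have hq : ND q := nd_of_tq (F := F) (by rw [← hqQ]; exact hQ)
  set N0 := (Cfsg.Geo.subalgebraNormalizer K).comap (Cfsg.isometryGroup F (⇑Q)).subtype with hN0
  have h1 : (Cfsg.Geo.subalgebraNormalizer K).relIndex (Cfsg.Geo.omegaGL (⇑Q)) = N0.relIndex (Cfsg.Omega F (⇑Q)) := by
    rw [hN0, Subgroup.relIndex_comap]; rfl
  rw [h1] at hdvd
  have hidx := H17.OrthTrans2.index_Omega h.two (by omega) Q (nd_iff.1 hQ)
  have e1 := Subgroup.relIndex_mul_index (inf_le_right : N0 ⊓ Cfsg.Omega F (⇑Q) ≤ Cfsg.Omega F (⇑Q))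
  have e2 := Subgroup.relIndex_mul_index (inf_le_left : N0 ⊓ Cfsg.Omega F (⇑Q) ≤ N0)
  rw [Subgroup.inf_relIndex_right] at e1
  rw [Subgroup.inf_relIndex_left] at e2
  have e3 : (Cfsg.Omega F (⇑Q)).relIndex N0 ∣ 4 := by
    rw [← hidx]; exact Subgroup.relIndex_dvd_index_of_normal _ _
  have e4 : r ∣ (Cfsg.Omega F (⇑Q)).relIndex N0 * N0.index := by
    rw [e2, ← e1]; exact hdvd.mul_right _
  have e5 : r ∣ N0.index := by
    rcases hr.dvd_mul.1 e4 with h5 | h5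
    · exfalso
      have h6 := h5.trans e3
      rw [show (4 : ℕ) = 2 ^ 2 by norm_num] at h6
      exact hr2 ((Nat.prime_dvd_prime_iff_eq hr Nat.prime_two).1 (hr.dvd_of_dvd_pow h6))
    · exact h5
  have e6 : N0.index * Nat.card N0 = Nat.card (H7.Hyp.O (F := F) (⇑Q)) := by
    rw [Subgroup.index_mul_card, card_isometryGroup]
  obtain ⟨t, ht⟩ := card_dvd_norm h hmem hqQ
  rw [← hN0] at ht
  rcases Nat.lt_or_ge (2 * finrank E (VE ρ)) (oi F r) with hlt | hge
  · -- no elements of order `r`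
    refine no_r hr hr2 hrq hQ (Or.inl ?_) ((e5.mul_right (Nat.card N0)).trans (dvd_of_eq e6))
    rw [finrank_fintype_fun_eq_card, hcι, cc_even (even_iff_two_dvd.2 ((by norm_num : (2 : ℕ) ∣ 4).trans h4))]
    exact hlt
  · obtain ⟨a, b, M, hM, hMr⟩ := ratio h hr hr2 hrq h4 hq hd hge
    have e7 : Nat.card (H7.Hyp.O (F := F) (⇑(tq F q))) = Nat.card (H7.Hyp.O (F := F) (⇑Q)) := by
      rw [← hqQ]; rfl
    rw [e7, ← e6, ht] at hM
    have hpos : 0 < Nat.card (H7.Hyp.O (F := E) (⇑q)) := by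
      rcases Nat.eq_zero_or_pos (Nat.card (H7.Hyp.O (F := E) (⇑q))) with h0 | h0
      · rw [h0, zero_mul] at ht
        have : 0 < Nat.card N0 := Nat.card_pos
        omega
      · exact h0
    have h9 : Nat.card (H7.Hyp.O (F := E) (⇑q)) * (N0.index * t * Fintype.card F ^ a) = Nat.card (H7.Hyp.O (F := E) (⇑q)) * (Fintype.card F ^ b * M) := by
      rw [← hM]; ring
    have h10 := Nat.eq_of_mul_eq_mul_left hpos h9
    have h11 : r ∣ Fintype.card F ^ b * M := by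
      rw [← h10, mul_assoc]; exact e5.mul_right _
    rcases hr.dvd_mul.1 h11 with h12 | h12
    · exact hrq (hr.dvd_of_dvd_pow h12)
    · exact hMr h12

omit h
omit [Fintype E] in
/-- **the criterion** -/
theorem final {p : ℕ} [Fact p.Prime] [CharP F p] (hodd : Odd (Fintype.card F)) {Q : QuadraticForm F (ι → F)} (hQ : ND Q)
    {K : Subalgebra F (Matrix ι ι F)} (hK : Cfsg.Geo.IsFieldSubalgebra 2 K) (hKf : Cfsg.Geo.IsSelfAdjointFor (polar Q) K)
    (hι : 4 ≤ Fintype.card ι) (r : ℕ) [hr : Fact r.Prime] (hΩ : r ∣ (Cfsg.Geo.subalgebraNormalizer K).relIndex (Cfsg.Geo.omegaGL (⇑Q))) :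
    (∀ x ∈ Cfsg.Geo.omegaGL (⇑Q), (∃ z : F, ((x ^ r : GL ι F) : Matrix ι ι F) = z • (1 : Matrix ι ι F)) →
      (∀ z : F, (x : Matrix ι ι F) ≠ z • (1 : Matrix ι ι F)) →
      ∃ g ∈ Cfsg.Geo.omegaGL (⇑Q), g⁻¹ * x * g ∈ Cfsg.Geo.subalgebraNormalizer K) ↔ r = 2 := by
  have h2 : (2 : F) ≠ 0 := two_ne_of_odd hodd
  have : Nonempty ι := Fintype.card_pos_iff.1 (by omega)
  obtain ⟨E, _, _, _, ρ, ε, c, hmem, h⟩ := setup h2 hK
  have hcι := fr_VE (ρ := ρ) h
  constructor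
  · intro H
    by_contra hr2
    by_cases hrp : r = p
    · subst hrp
      obtain ⟨x, x1, x2, x3, x4⟩ := bad_p r hr2 h hmem hQ (by omega)
      obtain ⟨g, g1, g2⟩ := H x x1 ⟨1, by rw [x2, one_smul, Units.val_one]⟩ x3
      exact x4 g g2
    · have hrq : ¬ r ∣ Fintype.card F := not_dvd_card hr.out hrp
      by_cases h4 : 4 ∣ oi F r
      · exact index h hmem hQ hKf (by omega) hr.out hr2 hrq h4 hΩ
      · obtain ⟨x, x1, x2, x3, x4⟩ := bad_r h hmem hQ hKf (by omega) hr.out hr2 hrq h4 (by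
          have e1 : r ∣ Nat.card (Cfsg.Geo.omegaGL (⇑Q)) := hΩ.trans (Subgroup.relIndex_dvd_card _ _)
          have e2 : Cfsg.Geo.omegaGL (⇑Q) ≤ Cfsg.isometryGroup F (⇑Q) := by
            rintro _ ⟨y, _, rfl⟩
            exact y.2
          rw [← card_isometryGroup]
          exact e1.trans (Subgroup.card_dvd_of_le e2))
        obtain ⟨g, g1, g2⟩ := H x x1 ⟨1, by rw [x2, one_smul, Units.val_one]⟩ x3
        exact x4 g g1 g2
  · rintro rfl x hx hz hns
    exact two_case h hmem hQ hKf (by omega) hx hz hns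

end H99.OrthK
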