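import Mathlib

set_option autoImplicit false
set_option linter.unusedSimpArgs false

/-! 2-parts of exponents and powers equal to `-1` in finite fields. -/

namespace H99.PowNegOne

variable {F : Type*} [Field F] [Fintype F]

/-- decomposition of a positive number into its 2-part and odd part -/
theorem two_part {n : ℕ} (hn : n ≠ 0) : ∃ m : ℕ, Odd m ∧ n = 2 ^ padicValNat 2 n * m := by
  obtain ⟨m, hm⟩ := (pow_padicValNat_dvd : 2 ^ padicValNat 2 n ∣ n)
  refine ⟨m, ?_, hm⟩
  rw [← Nat.not_even_iff_odd]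
  intro he
  obtain ⟨k, rfl⟩ := even_iff_two_dvd.1 he
  have : 2 ^ (padicValNat 2 n + 1) ∣ n := ⟨k, by rw [pow_succ]; rw [mul_assoc]; exact hm⟩
  exact absurd this (pow_succ_padicValNat_not_dvd hn)

theorem val_le_of_dvd {a n : ℕ} (hn : n ≠ 0) (h : 2 ^ a ∣ n) : a ≤ padicValNat 2 n :=
  (padicValNat_dvd_iff_le hn).1 h

theorem dvd_of_val_le {a n : ℕ} (h : a ≤ padicValNat 2 n) : 2 ^ a ∣ n :=
  (pow_dvd_pow 2 h).trans pow_padicValNat_dvd

omit [Fintype F] in
theorem two_ne_zero_of_neg_one_ne_one (h : (-1 : F) ≠ 1) : (2 : F) ≠ 0 := by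
  intro h2; apply h; linear_combination -h2

theorem neg_one_ne_one (hodd : Odd (Fintype.card F)) : (-1 : F) ≠ 1 := by
  intro h
  have h2 : (2 : F) = 0 := by linear_combination -h
  apply Ring.two_ne_zero (R := F) ?_ h2
  intro h'
  have := FiniteField.even_card_iff_char_two.1 h'
  rcases hodd with ⟨k, hk⟩
  omega

theorem card_sub_one_ne (hodd : Odd (Fintype.card F)) : Fintype.card F - 1 ≠ 0 ∧ 2 ∣ Fintype.card F - 1 := by
  have h1 := Fintype.one_lt_card (α := F)
  rcases hodd with ⟨k, hk⟩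
  omega

/-- there is an element `w` of order exactly the 2-part of `|F| - 1` -/
theorem exists_two_elt (hodd : Odd (Fintype.card F)) :
    ∃ w : F, w ^ (2 ^ (padicValNat 2 (Fintype.card F - 1) - 1)) = -1 := by
  classical
  obtain ⟨g, hg⟩ := IsCyclic.exists_generator (α := Fˣ)
  have ho : orderOf g = Fintype.card F - 1 := by
    rw [orderOf_eq_card_of_forall_mem_zpowers hg, Nat.card_eq_fintype_card, Fintype.card_units]
  obtain ⟨hne, h2⟩ := card_sub_one_ne hodd
  obtain ⟨m, hm, hqm⟩ := two_part hne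
  set b := padicValNat 2 (Fintype.card F - 1) with hb
  have hb1 : 1 ≤ b := by
    rw [hb]; exact val_le_of_dvd hne (by simpa using h2)
  refine ⟨((g ^ m : Fˣ) : F), ?_⟩
  set u : Fˣ := (g ^ m) ^ (2 ^ (b - 1)) with hu
  have hu2 : u ^ 2 = 1 := by
    rw [hu, ← pow_mul, ← pow_mul, ← pow_succ, Nat.sub_add_cancel hb1, mul_comm, ← hqm, ← ho,
      pow_orderOf_eq_one]
  have hu1 : u ≠ 1 := by
    intro h
    rw [hu, ← pow_mul] at h
    have := orderOf_dvd_of_pow_eq_one h
    rw [ho, hqm] at this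
    have h3 : m * 2 ^ b ∣ m * 2 ^ (b - 1) := by rwa [mul_comm m (2 ^ b)]
    have hm0 : 0 < m := hm.pos
    have h4 := Nat.dvd_of_mul_dvd_mul_left hm0 h3
    have h5 := Nat.le_of_dvd (by positivity) h4
    have h6 : 2 ^ (b - 1) < 2 ^ b := Nat.pow_lt_pow_right (by norm_num) (by omega)
    omega
  have h7 : (u : F) ^ 2 = 1 := by
    have := congrArg Units.val hu2
    simpa using this
  have h8 : (u : F) ≠ 1 := by
    intro h; apply hu1; exact Units.ext h
  have h9 : ((u : F) - 1) * ((u : F) + 1) = 0 := by linear_combination h7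
  have h10 : (u : F) = -1 := by
    rcases mul_eq_zero.1 h9 with h | h
    · exact absurd (sub_eq_zero.1 h) h8
    · linear_combination h
  rw [hu] at h10
  simpa using h10

theorem exists_pow_eq_neg_one (hodd : Odd (Fintype.card F)) (n : ℕ) (hn : n ≠ 0)
    (h : padicValNat 2 n < padicValNat 2 (Fintype.card F - 1)) : ∃ μ : F, μ ^ n = -1 := by
  obtain ⟨w, hw⟩ := exists_two_elt hodd
  obtain ⟨m, hm, hnm⟩ := two_part hn
  set a := padicValNat 2 n with ha
  set b := padicValNat 2 (Fintype.card F - 1) with hb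
  refine ⟨w ^ (2 ^ (b - 1 - a)), ?_⟩
  rw [← pow_mul]
  have : 2 ^ (b - 1 - a) * n = 2 ^ (b - 1) * m := by
    rw [hnm, ← mul_assoc, ← pow_add, Nat.sub_add_cancel (by omega)]
  rw [this, pow_mul, hw, hm.neg_one_pow]

theorem pow_ne_neg_one (hodd : Odd (Fintype.card F)) (n : ℕ) (hn : n ≠ 0)
    (h : padicValNat 2 (Fintype.card F - 1) ≤ padicValNat 2 n) (μ : F) : μ ^ n ≠ -1 := by
  intro hμ
  have hμ0 : μ ≠ 0 := by
    rintro rfl
    rw [zero_pow hn] at hμ
    exact one_ne_zero (α := F) (by linear_combination hμ)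
  obtain ⟨hne, h2⟩ := card_sub_one_ne hodd
  obtain ⟨m, hm, hqm⟩ := two_part hne
  obtain ⟨k, hk⟩ := dvd_of_val_le h
  have h1 : μ ^ (n * m) = 1 := by
    have : n * m = (Fintype.card F - 1) * k := by
      calc n * m = (2 ^ padicValNat 2 (Fintype.card F - 1) * k) * m := by rw [← hk]
        _ = (2 ^ padicValNat 2 (Fintype.card F - 1) * m) * k := by ring
        _ = _ := by rw [← hqm]
    rw [this, pow_mul, FiniteField.pow_card_sub_one_eq_one μ hμ0, one_pow]
  rw [pow_mul, hμ, hm.neg_one_pow] at h1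
  exact neg_one_ne_one hodd h1

/-- a nonsquare has order divisible by the full 2-part -/
theorem val_le_of_nonsquare (hodd : Odd (Fintype.card F)) (w : F) (hw : ¬ IsSquare w) (k : ℕ) (hk : k ≠ 0)
    (h : w ^ k = 1) : padicValNat 2 (Fintype.card F - 1) ≤ padicValNat 2 k := by
  by_contra hlt
  push Not at hlt
  have hw0 : w ≠ 0 := by rintro rfl; exact hw ⟨0, by simp⟩
  have h2c : ringChar F ≠ 2 := by
    intro h'
    have := FiniteField.even_card_iff_char_two.1 h'
    rcases hodd with ⟨k, hk⟩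
    omega
  have h3 : w ^ (Fintype.card F / 2) = -1 := by
    rcases FiniteField.pow_dichotomy h2c hw0 with h | h
    · exact absurd ((FiniteField.isSquare_iff h2c hw0).2 h) hw
    · exact h
  obtain ⟨hne, h2⟩ := card_sub_one_ne hodd
  obtain ⟨m, hm, hqm⟩ := two_part hne
  obtain ⟨k', hk', hkk⟩ := two_part hk
  set a := padicValNat 2 k with ha
  set b := padicValNat 2 (Fintype.card F - 1) with hb
  have h4 : Fintype.card F / 2 = 2 ^ (b - 1) * m := by
    have h5 : 2 ^ b = 2 * 2 ^ (b - 1) := by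
      rw [← pow_succ', Nat.sub_add_cancel (by omega)]
    rw [h5] at hqm
    have h1 := Fintype.one_lt_card (α := F)
    rcases hodd with ⟨c, hc⟩
    rw [mul_assoc] at hqm
    omega
  have h5 : w ^ ((Fintype.card F / 2) * k') = 1 := by
    have : (Fintype.card F / 2) * k' = k * (2 ^ (b - 1 - a) * m) := by
      rw [h4, hkk]
      have : 2 ^ (b - 1) = 2 ^ a * 2 ^ (b - 1 - a) := by
        rw [← pow_add]; congr 1; omega
      rw [this]; ring
    rw [this, pow_mul, h, one_pow]
  rw [pow_mul, h3, hk'.neg_one_pow] at h5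
  exact neg_one_ne_one hodd h5

/-- a nonsquare killed by the 2-part of `|F| - 1` -/
theorem exists_nonsquare_pow (hodd : Odd (Fintype.card F)) :
    ∃ w : F, ¬ IsSquare w ∧ w ^ (2 ^ padicValNat 2 (Fintype.card F - 1)) = 1 := by
  obtain ⟨w, hw⟩ := exists_two_elt hodd
  obtain ⟨hne, h2⟩ := card_sub_one_ne hodd
  obtain ⟨m, hm, hqm⟩ := two_part hne
  set b := padicValNat 2 (Fintype.card F - 1) with hb
  have hb1 : 1 ≤ b := by
    rw [hb]; exact val_le_of_dvd hne (by simpa using h2)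
  have hw0 : w ≠ 0 := by
    rintro rfl
    rw [zero_pow (by positivity)] at hw
    exact one_ne_zero (α := F) (by linear_combination hw)
  refine ⟨w, ?_, ?_⟩
  · rintro ⟨u, rfl⟩
    have hu0 : u ≠ 0 := by rintro rfl; simp at hw0
    have h1 : (u * u) ^ (2 ^ (b - 1) * m) = 1 := by
      rw [← sq, ← pow_mul, ← mul_assoc, ← pow_succ', Nat.sub_add_cancel hb1, ← hqm,
        FiniteField.pow_card_sub_one_eq_one u hu0]
    rw [pow_mul, hw, hm.neg_one_pow] at h1
    exact neg_one_ne_one hodd h1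
  · have : 2 ^ b = 2 ^ (b - 1) * 2 := by rw [← pow_succ, Nat.sub_add_cancel hb1]
    rw [this, pow_mul, hw]; ring

end H99.PowNegOne
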