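import Mathlib
import Cfsg.Agent.Lib.H99.SelfAdj2

set_option autoImplicit false
set_option linter.unusedSimpArgs false
set_option linter.unusedSectionVars false
set_option linter.unusedVariables false

/-! Kronecker products: lower bounds for ranks. -/

namespace H99.Tens

open Matrix Module
open scoped Kronecker

section abs

variable {F : Type*} [Field F] {U W V : Type*} [AddCommGroup U] [Module F U] [AddCommGroup W] [Module F W] [AddCommGroup V] [Module F V]

def Sep (τ : U →ₗ[F] W →ₗ[F] V) : Prop :=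
  ∀ (s : ℕ) (u : Fin s → U), LinearIndependent F u → ∀ w : Fin s → W, ∑ j, τ (u j) (w j) = 0 → ∀ j, w j = 0

theorem le_of_inj [FiniteDimensional F V] {X : Type*} [AddCommGroup X] [Module F X] [FiniteDimensional F X] {T : V →ₗ[F] V} (φ : X →ₗ[F] V)
    (h : ∀ x, T (φ x) = 0 → x = 0) : finrank F X ≤ finrank F (LinearMap.range T) := by
  have hinj : Function.Injective (T ∘ₗ φ) := by
    rw [← LinearMap.ker_eq_bot, LinearMap.ker_eq_bot']
    exact h
  rw [← LinearMap.finrank_range_of_inj hinj]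
  exact Submodule.finrank_mono (LinearMap.range_comp_le_range φ T)

variable [FiniteDimensional F V] [FiniteDimensional F W] [FiniteDimensional F U] {τ : U →ₗ[F] W →ₗ[F] V}

theorem rank_one (hτ : Sep τ) {T : V →ₗ[F] V} {A : U →ₗ[F] U} {B : W →ₗ[F] W} (hT : ∀ u w, T (τ u w) = τ (A u) (B w))
    (u : U) (hu : LinearIndependent F ![u, A u]) : finrank F W ≤ finrank F (LinearMap.range (T - 1)) := by
  apply le_of_inj (τ u)
  intro w hw
  have h1 : ∑ j, τ (![u, A u] j) (![-w, B w] j) = 0 := by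
    rw [Fin.sum_univ_two]
    show τ u (-w) + τ (A u) (B w) = 0
    rw [← hT, map_neg, ← hw]
    show -τ u w + T (τ u w) = T (τ u w) - τ u w
    abel
  have h2 := hτ 2 _ hu _ h1 0
  exact neg_eq_zero.1 h2

theorem rank_two (hτ : Sep τ) {T : V →ₗ[F] V} {A : U →ₗ[F] U} {B : W →ₗ[F] W} (hT : ∀ u w, T (τ u w) = τ (A u) (B w))
    (u : U) (hu : LinearIndependent F ![u, A u, A (A u)]) : 2 * finrank F W ≤ finrank F (LinearMap.range (T - 1)) := by
  have h0 : 2 * finrank F W = finrank F (W × W) := by rw [Module.finrank_prod]; ring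
  rw [h0]
  apply le_of_inj ((τ u).coprod (τ (A u)))
  rintro ⟨w, w'⟩ hw
  have h1 : ∑ j, τ (![u, A u, A (A u)] j) (![-w, B w - w', B w'] j) = 0 := by
    rw [Fin.sum_univ_three]
    show τ u (-w) + τ (A u) (B w - w') + τ (A (A u)) (B w') = 0
    have h3 : (T - 1) ((τ u).coprod (τ (A u)) (w, w')) = T (τ u w) + T (τ (A u) w') - (τ u w + τ (A u) w') := by
      rw [LinearMap.coprod_apply, LinearMap.sub_apply, map_add]; rfl
    rw [hw, hT, hT] at h3
    rw [map_neg, map_sub, h3]
    abel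
  have h2 := hτ 3 _ hu _ h1
  have e0 : w = 0 := neg_eq_zero.1 (h2 0)
  have e1 : B w - w' = 0 := h2 1
  rw [e0, map_zero, zero_sub, neg_eq_zero] at e1
  rw [e0, e1]; rfl

theorem rank_scalar (hτ : Sep τ) {T : V →ₗ[F] V} {B : W →ₗ[F] W} (hT : ∀ u w, T (τ u w) = τ u (B w)) :
    finrank F U * finrank F (LinearMap.range (B - 1)) ≤ finrank F (LinearMap.range (T - 1)) := by
  obtain ⟨W', hW'⟩ := Submodule.exists_isCompl (LinearMap.ker (B - 1))
  have hdim : finrank F W' = finrank F (LinearMap.range (B - 1)) := by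
    have h1 := LinearMap.finrank_range_add_finrank_ker (B - 1)
    have h2 := Submodule.finrank_add_eq_of_isCompl hW'
    omega
  rw [← hdim]
  have h0 : finrank F U * finrank F W' = finrank F (Fin (finrank F U) → W') := by
    rw [Module.finrank_pi_fintype, Finset.sum_const, Finset.card_univ, Fintype.card_fin, smul_eq_mul]
  rw [h0]
  let bs := Module.finBasis F U
  let φ : (Fin (finrank F U) → W') →ₗ[F] V := ∑ j, (τ (bs j)) ∘ₗ W'.subtype ∘ₗ LinearMap.proj j
  have hφ : ∀ w, φ w = ∑ j, τ (bs j) (w j) := by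
    intro w
    show (∑ j, (τ (bs j)) ∘ₗ W'.subtype ∘ₗ LinearMap.proj j) w = _
    rw [LinearMap.sum_apply]; rfl
  apply le_of_inj φ
  intro w hw
  have h1 : ∑ j, τ (bs j) ((B - 1) (w j : W)) = 0 := by
    rw [hφ, LinearMap.sub_apply, map_sum, Module.End.one_apply, ← Finset.sum_sub_distrib] at hw
    rw [← hw]
    refine Finset.sum_congr rfl fun j _ => ?_
    rw [hT, LinearMap.sub_apply, map_sub]; rfl
  have h2 := hτ _ bs bs.linearIndependent _ h1
  funext j
  apply Subtype.ext
  have h3 : (w j : W) ∈ LinearMap.ker (B - 1) ⊓ W' := ⟨h2 j, (w j).2⟩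
  rw [hW'.inf_eq_bot, Submodule.mem_bot] at h3
  exact h3

theorem exists_li {A : U →ₗ[F] U} (h : ∀ c : F, ∃ u, A u ≠ c • u) : ∃ u, LinearIndependent F ![u, A u] := by
  by_contra hc
  push Not at hc
  have h1 : ∀ u, ∃ c : F, A u = c • u := by
    intro u
    by_cases hu : u = 0
    · exact ⟨0, by rw [hu, map_zero, smul_zero]⟩
    · have := hc u
      rw [LinearIndependent.pair_iff' hu] at this
      push Not at this
      obtain ⟨c, hc⟩ := this
      exact ⟨c, hc.symm⟩
  choose c hc' using h1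
  by_cases hU : ∀ u : U, u = 0
  · obtain ⟨u, hu⟩ := h 0
    exact hu (by rw [hU u, map_zero, smul_zero])
  · push Not at hU
    obtain ⟨u0, hu0⟩ := hU
    obtain ⟨u, hu⟩ := h (c u0)
    apply hu
    by_cases hlin : LinearIndependent F ![u0, u]
    · have h2 : A (u0 + u) = c (u0 + u) • (u0 + u) := hc' _
      rw [map_add, hc', hc', smul_add] at h2
      rw [LinearIndependent.pair_iff] at hlin
      have h3 := hlin (c u0 - c (u0 + u)) (c u - c (u0 + u)) (by
        rw [sub_smul, sub_smul]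
        have : c u0 • u0 - c (u0 + u) • u0 + (c u • u - c (u0 + u) • u) = c u0 • u0 + c u • u - (c (u0 + u) • u0 + c (u0 + u) • u) := by abel
        rw [this, h2, sub_self])
      rw [hc' u, sub_eq_zero.1 h3.1, sub_eq_zero.1 h3.2]
    · rw [LinearIndependent.pair_iff' hu0] at hlin
      push Not at hlin
      obtain ⟨a, rfl⟩ := hlin
      rw [map_smul, hc' u0, smul_comm]

theorem Sep.flip {τ : U →ₗ[F] W →ₗ[F] V} (h : Sep τ.flip) : ∀ (s : ℕ) (w : Fin s → W), LinearIndependent F w → ∀ u : Fin s → U,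
    ∑ j, τ (u j) (w j) = 0 → ∀ j, u j = 0 := fun s w hw u hu => h s w hw u hu

end abs

section std

variable {F : Type*} [Field F] {a b : ℕ} {α : Type} [Fintype α] [DecidableEq α]

/-- the coordinates of a tensor decomposition -/
def psi (e : α ≃ Fin a × Fin b) (P : GL α F) : (Fin a × Fin b → F) ≃ₗ[F] (α → F) where
  toFun x := (P : Matrix α α F) *ᵥ (x ∘ e)
  invFun v := (((P⁻¹ : GL α F) : Matrix α α F) *ᵥ v) ∘ e.symm
  map_add' x y := by
    have : (x + y) ∘ e = x ∘ e + y ∘ e := rfl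
    rw [this, Matrix.mulVec_add]
  map_smul' c x := by
    have : (c • x) ∘ e = c • (x ∘ e) := rfl
    rw [this, Matrix.mulVec_smul]; rfl
  left_inv x := by
    show (((P⁻¹ : GL α F) : Matrix α α F) *ᵥ ((P : Matrix α α F) *ᵥ (x ∘ e))) ∘ e.symm = x
    rw [Matrix.mulVec_mulVec, ← Units.val_mul, inv_mul_cancel, Units.val_one, Matrix.one_mulVec]
    funext i
    show x (e (e.symm i)) = x i
    rw [Equiv.apply_symm_apply]
  right_inv v := by
    have : ((((P⁻¹ : GL α F) : Matrix α α F) *ᵥ v) ∘ e.symm) ∘ e = ((P⁻¹ : GL α F) : Matrix α α F) *ᵥ v := by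
      funext i
      show (((P⁻¹ : GL α F) : Matrix α α F) *ᵥ v) (e.symm (e i)) = _
      rw [Equiv.symm_apply_apply]
    show (P : Matrix α α F) *ᵥ (((((P⁻¹ : GL α F) : Matrix α α F) *ᵥ v) ∘ e.symm) ∘ e) = v
    rw [this, Matrix.mulVec_mulVec, ← Units.val_mul, mul_inv_cancel, Units.val_one, Matrix.one_mulVec]

theorem psi_apply (e : α ≃ Fin a × Fin b) (P : GL α F) (x : Fin a × Fin b → F) : psi e P x = (P : Matrix α α F) *ᵥ (x ∘ e) := rfl

/-- pure tensors -/
def tau (e : α ≃ Fin a × Fin b) (P : GL α F) : (Fin a → F) →ₗ[F] (Fin b → F) →ₗ[F] (α → F) :=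
  LinearMap.mk₂ F (fun u w => psi e P (fun p => u p.1 * w p.2))
    (fun u u' w => by rw [← map_add]; congr 1; funext p; simp [add_mul])
    (fun c u w => by rw [← map_smul]; congr 1; funext p; simp [mul_assoc])
    (fun u w w' => by rw [← map_add]; congr 1; funext p; simp [mul_add])
    (fun c u w => by rw [← map_smul]; congr 1; funext p; simp [mul_left_comm])

theorem tau_apply (e : α ≃ Fin a × Fin b) (P : GL α F) (u : Fin a → F) (w : Fin b → F) :
    tau e P u w = psi e P (fun p => u p.1 * w p.2) := rfl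

theorem sep (e : α ≃ Fin a × Fin b) (P : GL α F) : Sep (tau e P) := by
  intro s u hu w h
  have h1 : psi e P (∑ j, fun p => u j p.1 * w j p.2) = 0 := by
    rw [map_sum]; exact h
  rw [LinearEquiv.map_eq_zero_iff] at h1
  intro j
  funext k
  rw [Fintype.linearIndependent_iff] at hu
  have h2 := hu (fun j => w j k) (by
    funext l
    have := congrFun h1 (l, k)
    rw [Finset.sum_apply] at this
    rw [Finset.sum_apply]
    simp only [Pi.smul_apply, smul_eq_mul]
    rw [Pi.zero_apply] at this ⊢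
    rw [← this]
    exact Finset.sum_congr rfl fun j _ => mul_comm _ _)
  exact h2 j

theorem sep_flip (e : α ≃ Fin a × Fin b) (P : GL α F) : Sep (tau e P).flip := by
  intro s u hu w h
  have h1 : psi e P (∑ j, fun p => w j p.1 * u j p.2) = 0 := by
    rw [map_sum]; exact h
  rw [LinearEquiv.map_eq_zero_iff] at h1
  intro j
  funext k
  rw [Fintype.linearIndependent_iff] at hu
  have h2 := hu (fun j => w j k) (by
    funext l
    have := congrFun h1 (k, l)
    rw [Finset.sum_apply] at this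
    rw [Finset.sum_apply]
    simp only [Pi.smul_apply, smul_eq_mul]
    rw [Pi.zero_apply] at this ⊢
    rw [← this])
  exact h2 j

theorem kron_mulVec (A : Matrix (Fin a) (Fin a) F) (B : Matrix (Fin b) (Fin b) F) (u : Fin a → F) (w : Fin b → F) :
    (A ⊗ₖ B) *ᵥ (fun p => u p.1 * w p.2) = fun p => (A *ᵥ u) p.1 * (B *ᵥ w) p.2 := by
  funext ⟨i, j⟩
  simp only [Matrix.mulVec, dotProduct, Matrix.kroneckerMap_apply, Fintype.sum_prod_type, Finset.sum_mul_sum]
  refine Finset.sum_congr rfl fun k _ => Finset.sum_congr rfl fun l _ => by ring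

/-- every linear map is determined by its values on pure tensors -/
theorem ext_tau (e : α ≃ Fin a × Fin b) (P : GL α F) {V : Type*} [AddCommGroup V] [Module F V] {S T : (α → F) →ₗ[F] V}
    (h : ∀ u w, S (tau e P u w) = T (tau e P u w)) : S = T := by
  have h1 : S ∘ₗ (psi e P).toLinearMap = T ∘ₗ (psi e P).toLinearMap := by
    apply LinearMap.pi_ext'
    rintro ⟨i, j⟩
    apply LinearMap.ext_ring
    have := h (Pi.single i 1) (Pi.single j 1)
    rw [tau_apply] at this
    have e2 : (fun p : Fin a × Fin b => (Pi.single i 1 : Fin a → F) p.1 * (Pi.single j 1 : Fin b → F) p.2) = Pi.single (i, j) 1 := by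
      funext ⟨k, l⟩
      by_cases hk : k = i <;> by_cases hl : l = j <;> simp [hk, hl, Pi.single_apply]
    rw [e2] at this
    exact this
  apply LinearMap.ext
  intro v
  have := LinearMap.congr_fun h1 ((psi e P).symm v)
  simpa using this

theorem of_mem (e : α ≃ Fin a × Fin b) (P : GL α F) {y : GL α F} (hy : y ∈ Cfsg.Geo.tensorProductSubgroup a b e P) :
    ∃ (A : GL (Fin a) F) (B : GL (Fin b) F), ∀ u w, (y : Matrix α α F) *ᵥ (tau e P u w) =
      tau e P ((A : Matrix (Fin a) (Fin a) F) *ᵥ u) ((B : Matrix (Fin b) (Fin b) F) *ᵥ w) := by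
  obtain ⟨_, ⟨K, ⟨A, B, hK⟩, rfl⟩, rfl⟩ := hy
  refine ⟨A, B, fun u w => ?_⟩
  show ((P * Cfsg.Geo.glReindex e.symm K * P⁻¹ : GL α F) : Matrix α α F) *ᵥ ((P : Matrix α α F) *ᵥ _) = (P : Matrix α α F) *ᵥ _
  rw [Matrix.mulVec_mulVec, ← Units.val_mul, inv_mul_cancel_right, Units.val_mul, ← Matrix.mulVec_mulVec]
  congr 1
  have h1 : ((Cfsg.Geo.glReindex e.symm K : GL α F) : Matrix α α F) = (K : Matrix (Fin a × Fin b) (Fin a × Fin b) F).submatrix e e := by
    ext i j
    rfl
  rw [h1, hK, Matrix.submatrix_mulVec_equiv]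
  have h2 : ((fun p : Fin a × Fin b => u p.1 * w p.2) ∘ e) ∘ e.symm = fun p => u p.1 * w p.2 := by
    funext p; simp
  rw [h2, kron_mulVec]

theorem mem_of (e : α ≃ Fin a × Fin b) (P : GL α F) {y : GL α F} (A : GL (Fin a) F) (B : GL (Fin b) F)
    (h : ∀ u w, (y : Matrix α α F) *ᵥ (tau e P u w) =
      tau e P ((A : Matrix (Fin a) (Fin a) F) *ᵥ u) ((B : Matrix (Fin b) (Fin b) F) *ᵥ w)) :
    y ∈ Cfsg.Geo.tensorProductSubgroup a b e P := by
  let K : GL (Fin a × Fin b) F :=
    ⟨(A : Matrix (Fin a) (Fin a) F) ⊗ₖ (B : Matrix (Fin b) (Fin b) F),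
      ((A⁻¹ : GL (Fin a) F) : Matrix (Fin a) (Fin a) F) ⊗ₖ ((B⁻¹ : GL (Fin b) F) : Matrix (Fin b) (Fin b) F),
      by rw [← Matrix.mul_kronecker_mul, ← Units.val_mul, ← Units.val_mul, mul_inv_cancel, mul_inv_cancel,
        Units.val_one, Units.val_one, Matrix.one_kronecker_one],
      by rw [← Matrix.mul_kronecker_mul, ← Units.val_mul, ← Units.val_mul, inv_mul_cancel, inv_mul_cancel,
        Units.val_one, Units.val_one, Matrix.one_kronecker_one]⟩
  have hK : K ∈ Cfsg.Geo.kroneckerSubgroup a b F := ⟨A, B, rfl⟩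
  have hK' : MulAut.conj P (Cfsg.Geo.glReindex e.symm K) ∈ Cfsg.Geo.tensorProductSubgroup a b e P :=
    ⟨_, ⟨K, hK, rfl⟩, rfl⟩
  have : y = MulAut.conj P (Cfsg.Geo.glReindex e.symm K) := by
    apply Units.ext
    apply Matrix.toLin'.injective
    apply ext_tau e P
    intro u w
    rw [Matrix.toLin'_apply, h, Matrix.toLin'_apply]
    show (P : Matrix α α F) *ᵥ _ = ((P * Cfsg.Geo.glReindex e.symm K * P⁻¹ : GL α F) : Matrix α α F) *ᵥ ((P : Matrix α α F) *ᵥ _)
    rw [Matrix.mulVec_mulVec, ← Units.val_mul, inv_mul_cancel_right, Units.val_mul, ← Matrix.mulVec_mulVec]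
    congr 1
    have h1 : ((Cfsg.Geo.glReindex e.symm K : GL α F) : Matrix α α F) = (K : Matrix (Fin a × Fin b) (Fin a × Fin b) F).submatrix e e := by
      ext i j
      rfl
    rw [h1, Matrix.submatrix_mulVec_equiv]
    have h2 : ((fun p : Fin a × Fin b => u p.1 * w p.2) ∘ e) ∘ e.symm = fun p => u p.1 * w p.2 := by
      funext p; simp
    rw [h2]
    show _ = (((A : Matrix (Fin a) (Fin a) F) ⊗ₖ (B : Matrix (Fin b) (Fin b) F)) *ᵥ _) ∘ e
    rw [kron_mulVec]
  rw [this]
  exact hK'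

end std

section forms

variable {F : Type*} [Field F]

theorem form_eq_gram {κ : Type} [Fintype κ] [DecidableEq κ] {f : (κ → F) → (κ → F) → F} (hf : Cfsg.Geo.IsBilinearForm f) (u v : κ → F) :
    f u v = ∑ i, ∑ j, u i * Cfsg.Geo.gramMatrix f i j * v j := by
  let B : LinearMap.BilinForm F (κ → F) := LinearMap.mk₂ F f hf.add_left hf.smul_left hf.add_right hf.smul_right
  have hB : ∀ u v, B u v = f u v := fun u v => rfl
  have h1 : ∀ u : κ → F, u = ∑ i, u i • (Pi.single i 1 : κ → F) := by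
    intro u
    funext j
    simp [Finset.sum_apply, Pi.single_apply]
  rw [← hB]
  conv_lhs => rw [h1 u, h1 v]
  simp only [map_sum, LinearMap.sum_apply, map_smul, LinearMap.smul_apply, smul_eq_mul, hB, Finset.mul_sum]
  rw [Finset.sum_comm]
  refine Finset.sum_congr rfl fun i _ => Finset.sum_congr rfl fun j _ => ?_
  show v j * (u i * Cfsg.Geo.gramMatrix f i j) = _
  ring

theorem formOfGram_pure {a b : ℕ} {f₁ : (Fin a → F) → (Fin a → F) → F} {f₂ : (Fin b → F) → (Fin b → F) → F}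
    (h₁ : Cfsg.Geo.IsBilinearForm f₁) (h₂ : Cfsg.Geo.IsBilinearForm f₂) (u u' : Fin a → F) (w w' : Fin b → F) :
    Cfsg.Geo.formOfGram id (Cfsg.Geo.gramMatrix f₁ ⊗ₖ Cfsg.Geo.gramMatrix f₂) (fun p => u p.1 * w p.2) (fun p => u' p.1 * w' p.2) =
      f₁ u u' * f₂ w w' := by
  rw [form_eq_gram h₁, form_eq_gram h₂]
  simp only [Cfsg.Geo.formOfGram, id, Matrix.kroneckerMap_apply, Fintype.sum_prod_type]
  rw [Finset.sum_mul_sum]
  refine Finset.sum_congr rfl fun i _ => Finset.sum_congr rfl fun k _ => ?_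
  rw [Finset.sum_mul_sum]
  refine Finset.sum_congr rfl fun j _ => Finset.sum_congr rfl fun l _ => ?_
  ring

end forms

section core

variable {F : Type*} [Field F] {a b : ℕ} {α : Type} [Fintype α] [DecidableEq α] (e : α ≃ Fin a × Fin b) (P : GL α F)

/-- the three possibilities for an element of the tensor product subgroup -/
theorem tri {y : GL α F} (hy : y ∈ Cfsg.Geo.tensorProductSubgroup a b e P) (hy1 : y ≠ 1) :
    (∃ B : (Fin b → F) →ₗ[F] (Fin b → F), (∀ u w, (y : Matrix α α F) *ᵥ (tau e P u w) = tau e P u (B w)) ∧ B ≠ 1 ∧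
      a * finrank F (LinearMap.range (B - 1)) ≤ finrank F (LinearMap.range (Matrix.toLin' (y : Matrix α α F) - 1))) ∨
    (∃ A : (Fin a → F) →ₗ[F] (Fin a → F), (∀ u w, (y : Matrix α α F) *ᵥ (tau e P u w) = tau e P (A u) w) ∧ A ≠ 1 ∧
      b * finrank F (LinearMap.range (A - 1)) ≤ finrank F (LinearMap.range (Matrix.toLin' (y : Matrix α α F) - 1))) ∨
    (∃ (A : (Fin a → F) →ₗ[F] (Fin a → F)) (B : (Fin b → F) →ₗ[F] (Fin b → F)),
      (∀ u w, (y : Matrix α α F) *ᵥ (tau e P u w) = tau e P (A u) (B w)) ∧ (∀ c : F, ∃ u, A u ≠ c • u) ∧ (∀ c : F, ∃ w, B w ≠ c • w) ∧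
      b ≤ finrank F (LinearMap.range (Matrix.toLin' (y : Matrix α α F) - 1))) := by
  obtain ⟨A, B, hAB⟩ := of_mem e P hy
  have hy1' : Matrix.toLin' (y : Matrix α α F) ≠ 1 := by
    intro h
    apply hy1
    apply Units.ext
    apply Matrix.toLin'.injective
    rw [h, Units.val_one, Matrix.toLin'_one]; rfl
  by_cases hA : ∀ c : F, ∃ u, Matrix.toLin' (A : Matrix (Fin a) (Fin a) F) u ≠ c • u
  · by_cases hB : ∀ c : F, ∃ w, Matrix.toLin' (B : Matrix (Fin b) (Fin b) F) w ≠ c • w
    · right; right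
      refine ⟨Matrix.toLin' (A : Matrix (Fin a) (Fin a) F), Matrix.toLin' (B : Matrix (Fin b) (Fin b) F), hAB, hA, hB, ?_⟩
      obtain ⟨u, hu⟩ := exists_li hA
      have := rank_one (sep e P) (T := Matrix.toLin' (y : Matrix α α F)) (A := Matrix.toLin' (A : Matrix (Fin a) (Fin a) F))
        (B := Matrix.toLin' (B : Matrix (Fin b) (Fin b) F)) hAB u hu
      rwa [Module.finrank_fin_fun] at this
    · right; left
      push Not at hB
      obtain ⟨c, hc⟩ := hB
      have h1 : ∀ u w, (y : Matrix α α F) *ᵥ (tau e P u w) = tau e P ((c • Matrix.toLin' (A : Matrix (Fin a) (Fin a) F)) u) w := by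
        intro u w
        rw [hAB]
        have : (B : Matrix (Fin b) (Fin b) F) *ᵥ w = c • w := hc w
        rw [this, map_smul, LinearMap.smul_apply, map_smul, LinearMap.smul_apply]; rfl
      refine ⟨c • Matrix.toLin' (A : Matrix (Fin a) (Fin a) F), h1, ?_, ?_⟩
      · intro h
        apply hy1'
        apply ext_tau e P
        intro u w
        rw [Matrix.toLin'_apply, h1, h]; rfl
      · have := rank_scalar (τ := (tau e P).flip) (sep_flip e P) (T := Matrix.toLin' (y : Matrix α α F)) (B := c • Matrix.toLin' (A : Matrix (Fin a) (Fin a) F))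
          (fun w u => h1 u w)
        rwa [Module.finrank_fin_fun] at this
  · left
    push Not at hA
    obtain ⟨c, hc⟩ := hA
    have h1 : ∀ u w, (y : Matrix α α F) *ᵥ (tau e P u w) = tau e P u ((c • Matrix.toLin' (B : Matrix (Fin b) (Fin b) F)) w) := by
      intro u w
      rw [hAB]
      have : (A : Matrix (Fin a) (Fin a) F) *ᵥ u = c • u := hc u
      rw [this, map_smul, LinearMap.smul_apply, LinearMap.smul_apply, map_smul]; rfl
    refine ⟨c • Matrix.toLin' (B : Matrix (Fin b) (Fin b) F), h1, ?_, ?_⟩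
    · intro h
      apply hy1'
      apply ext_tau e P
      intro u w
      rw [Matrix.toLin'_apply, h1, h]; rfl
    · have := rank_scalar (τ := tau e P) (sep e P) (T := Matrix.toLin' (y : Matrix α α F)) (B := c • Matrix.toLin' (B : Matrix (Fin b) (Fin b) F)) h1
      rwa [Module.finrank_fin_fun] at this

theorem rank_pos {V : Type*} [AddCommGroup V] [Module F V] [FiniteDimensional F V] {T : V →ₗ[F] V} (h : T ≠ 1) :
    1 ≤ finrank F (LinearMap.range (T - 1)) := by
  by_contra hc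
  have h0 : finrank F (LinearMap.range (T - 1)) = 0 := by omega
  rw [Submodule.finrank_eq_zero, LinearMap.range_eq_bot, sub_eq_zero] at h0
  exact h h0

/-- small commutator spaces -/
theorem small {y : GL α F} (hy : y ∈ Cfsg.Geo.tensorProductSubgroup a b e P) (hy1 : y ≠ 1) (ha : 2 ≤ a) (hb : 3 ≤ b)
    (hrk : finrank F (LinearMap.range (Matrix.toLin' (y : Matrix α α F) - 1)) ≤ 2) :
    a = 2 ∧ finrank F (LinearMap.range (Matrix.toLin' (y : Matrix α α F) - 1)) = 2 := by
  rcases tri e P hy hy1 with ⟨B, -, hB, h⟩ | ⟨A, -, hA, h⟩ | ⟨_, _, -, -, -, h⟩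
  · have h1 := rank_pos hB
    have h2 : a * 1 ≤ a * finrank F (LinearMap.range (B - 1)) := Nat.mul_le_mul_left _ h1
    omega
  · have h1 := rank_pos hA
    have h2 : b * 1 ≤ b * finrank F (LinearMap.range (A - 1)) := Nat.mul_le_mul_left _ h1
    omega
  · omega

end core

section odd

open Polynomial

variable {F : Type*} [Field F] [Fintype F] {U : Type*} [AddCommGroup U] [Module F U] [FiniteDimensional F U]

/-- powers applied to a moved vector are independent -/
theorem li_pow {r : ℕ} (hr : r.Prime) (hrq : ¬ r ∣ Fintype.card F) {T : U →ₗ[F] U} (hT : T ^ r = 1) {w : U}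
    (hw : w ∈ LinearMap.range (T - 1)) (hw0 : w ≠ 0) {i : ℕ} (hi : i = orderOf ((Fintype.card F : ℕ) : ZMod r)) :
    LinearIndependent F (fun j : Fin i => (T ^ (j : ℕ)) w) := by
  classical
  rw [Fintype.linearIndependent_iff]
  intro c hc
  by_contra hne
  push Not at hne
  obtain ⟨k, hk⟩ := hne
  let g : F[X] := ∑ j : Fin i, Polynomial.C (c j) * Polynomial.X ^ (j : ℕ)
  have hco : ∀ j : Fin i, g.coeff j = c j := by
    intro j
    show (∑ j : Fin i, Polynomial.C (c j) * Polynomial.X ^ (j : ℕ)).coeff j = c j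
    rw [Polynomial.finsetSum_coeff]
    simp only [Polynomial.coeff_C_mul, Polynomial.coeff_X_pow]
    rw [Finset.sum_eq_single j]
    · simp
    · intro b _ hb
      have : (j : ℕ) ≠ b := fun h => hb (Fin.ext h.symm)
      simp [this]
    · simp
  have hg0 : g ≠ 0 := by
    intro h
    apply hk
    rw [← hco, h, Polynomial.coeff_zero]
  have hdeg : g.natDegree < i := by
    have hi0 : 0 < i := by have := k.2; omega
    have : g.degree < i := by
      rw [Polynomial.degree_lt_iff_coeff_zero]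
      intro m hm
      show (∑ j : Fin i, Polynomial.C (c j) * Polynomial.X ^ (j : ℕ)).coeff m = 0
      rw [Polynomial.finsetSum_coeff]
      apply Finset.sum_eq_zero
      intro j _
      have : m ≠ (j : ℕ) := by have := j.2; omega
      simp [Polynomial.coeff_X_pow, this]
    exact (Polynomial.natDegree_lt_iff_degree_lt hg0).2 this
  have hgw : aeval T g w = 0 := by
    have : aeval T g = ∑ j : Fin i, c j • T ^ (j : ℕ) := by
      show aeval T (∑ j : Fin i, Polynomial.C (c j) * Polynomial.X ^ (j : ℕ)) = _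
      rw [map_sum]
      refine Finset.sum_congr rfl fun j _ => ?_
      rw [map_mul, map_pow, Polynomial.aeval_X, Polynomial.aeval_C, Algebra.algebraMap_eq_smul_one, smul_mul_assoc, one_mul]
    rw [this, LinearMap.sum_apply]
    exact hc
  have hpos : 0 < g.natDegree := by
    rw [Nat.pos_iff_ne_zero]
    intro h
    rw [Polynomial.eq_C_of_natDegree_eq_zero h, Polynomial.aeval_C, Algebra.algebraMap_eq_smul_one, LinearMap.smul_apply,
      Module.End.one_apply] at hgw
    rcases smul_eq_zero.1 hgw with h' | h'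
    · apply hg0
      rw [Polynomial.eq_C_of_natDegree_eq_zero h, h', Polynomial.C_0]
    · exact hw0 h'
  have hinv := Iso.cyc_inv T w g hg0 hgw
  have hWT : ∀ v ∈ LinearMap.range (T - 1), T v ∈ LinearMap.range (T - 1) := by
    rintro _ ⟨v, rfl⟩
    refine ⟨T v, ?_⟩
    show T (T v) - T v = T (T v - v)
    rw [map_sub]
  have hle := Iso.cyc_le T w g.natDegree _ hWT hw
  have hmem := Iso.mem_cyc T w g.natDegree hpos
  have h1 := Iso.ord_le hr hrq hT hinv (fun v hv h => Iso.mov_fpf hr hrq hT (X := ⊤) v ⟨trivial, hle hv⟩ h) (by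
    intro h
    rw [h, Submodule.mem_bot] at hmem
    exact hw0 hmem)
  have h2 := Iso.cyc_finrank T w g.natDegree
  omega

theorem ord_le_rank {r : ℕ} (hr : r.Prime) (hrq : ¬ r ∣ Fintype.card F) {T : U →ₗ[F] U} (hT : T ^ r = 1) (hT1 : T ≠ 1) :
    orderOf ((Fintype.card F : ℕ) : ZMod r) ≤ finrank F (LinearMap.range (T - 1)) := by
  apply Iso.ord_le hr hrq hT
  · rintro _ ⟨v, rfl⟩
    refine ⟨T v, ?_⟩
    show T (T v) - T v = T (T v - v)
    rw [map_sub]
  · intro v hv h
    exact Iso.mov_fpf hr hrq hT (X := ⊤) v ⟨trivial, hv⟩ h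
  · intro h
    rw [LinearMap.range_eq_bot, sub_eq_zero] at h
    exact hT1 h

/-- normalizing the order of a factor -/
theorem exists_normal {V W : Type*} [AddCommGroup V] [Module F V] [AddCommGroup W] [Module F W]
    [FiniteDimensional F V] [FiniteDimensional F W] {τ : U →ₗ[F] W →ₗ[F] V} (hτ : Sep τ)
    {r : ℕ} (hr : r.Prime) (hrq : ¬ r ∣ Fintype.card F - 1) (hW : ∃ w : W, w ≠ 0)
    {T : V →ₗ[F] V} {A : U →ₗ[F] U} {B : W →ₗ[F] W} (hT : ∀ u w, T (τ u w) = τ (A u) (B w)) (hTr : T ^ r = 1)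
    (hA : ∀ c : F, ∃ u, A u ≠ c • u) :
    ∃ (A' : U →ₗ[F] U) (B' : W →ₗ[F] W), (∀ u w, T (τ u w) = τ (A' u) (B' w)) ∧ A' ^ r = 1 ∧ A' ≠ 1 := by
  have hpow : ∀ k u w, (T ^ k) (τ u w) = τ ((A ^ k) u) ((B ^ k) w) := by
    intro k
    induction k with
    | zero => intro u w; rfl
    | succ k ih =>
      intro u w
      rw [pow_succ', pow_succ', pow_succ', Module.End.mul_apply, Module.End.mul_apply, Module.End.mul_apply, ih, hT]
  obtain ⟨w, hw⟩ := hW
  have hsc : ∃ c : F, ∀ u, (A ^ r) u = c • u := by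
    by_contra h
    push Not at h
    obtain ⟨u, hu⟩ := exists_li h
    apply hw
    have h1 : ∑ j, τ (![u, (A ^ r) u] j) (![-w, (B ^ r) w] j) = 0 := by
      rw [Fin.sum_univ_two]
      show τ u (-w) + τ ((A ^ r) u) ((B ^ r) w) = 0
      rw [← hpow, hTr, map_neg]
      exact neg_add_cancel _
    exact neg_eq_zero.1 (hτ 2 _ hu _ h1 0)
  obtain ⟨c, hc⟩ := hsc
  have hU : ∃ u : U, u ≠ 0 := by
    obtain ⟨u, hu⟩ := hA 0
    refine ⟨u, ?_⟩
    rintro rfl
    exact hu (by rw [map_zero, smul_zero])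
  obtain ⟨u, hu⟩ := hU
  have hc0 : c ≠ 0 := by
    rintro rfl
    apply hw
    have h1 := hpow r u w
    rw [hTr, hc, zero_smul, map_zero, LinearMap.zero_apply] at h1
    have hli : LinearIndependent F ![u] := by
      rw [linearIndependent_unique_iff]; exact hu
    exact hτ 1 ![u] hli ![w] (by rw [Fin.sum_univ_one]; exact h1) 0
  -- r-th root
  have hcop : (Nat.card Fˣ).Coprime r := by
    rw [Nat.card_units, Nat.card_eq_fintype_card]
    exact ((Nat.Prime.coprime_iff_not_dvd hr).2 hrq).symm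
  obtain ⟨μ, hμ⟩ := (powCoprime hcop).surjective (Units.mk0 c hc0)⁻¹
  have hμ' : (μ : F) ^ r * c = 1 := by
    have h1 : μ ^ r = (Units.mk0 c hc0)⁻¹ := hμ
    have h2 := congrArg Units.val h1
    rw [Units.val_pow_eq_pow_val, Units.val_inv_eq_inv_val, Units.val_mk0] at h2
    rw [h2, inv_mul_cancel₀ hc0]
  refine ⟨(μ : F) • A, (μ : F)⁻¹ • B, ?_, ?_, ?_⟩
  · intro u w
    rw [hT, LinearMap.smul_apply, LinearMap.smul_apply, map_smul, map_smul, LinearMap.smul_apply, smul_smul, inv_mul_cancel₀ μ.ne_zero, one_smul]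
  · apply LinearMap.ext
    intro u
    rw [_root_.smul_pow, LinearMap.smul_apply, hc, smul_smul, hμ', one_smul]; rfl
  · intro h
    obtain ⟨u, hu⟩ := hA (μ : F)⁻¹
    apply hu
    have := LinearMap.congr_fun h u
    rw [LinearMap.smul_apply, Module.End.one_apply] at this
    rw [← this, smul_smul, inv_mul_cancel₀ μ.ne_zero, one_smul, this]

theorem li_three {r : ℕ} (hr : r.Prime) (hrq : ¬ r ∣ Fintype.card F) {T : U →ₗ[F] U} (hT : T ^ r = 1) (hT1 : T ≠ 1)
    {i : ℕ} (hi : i = orderOf ((Fintype.card F : ℕ) : ZMod r)) (hi3 : 3 ≤ i) :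
    ∃ u, LinearIndependent F ![u, T u, T (T u)] := by
  have h0 : LinearMap.range (T - 1) ≠ ⊥ := by
    intro h
    rw [LinearMap.range_eq_bot, sub_eq_zero] at h
    exact hT1 h
  obtain ⟨u, hu, hu0⟩ := Submodule.exists_mem_ne_zero_of_ne_bot h0
  have h1 := li_pow hr hrq hT hu hu0 hi
  refine ⟨u, ?_⟩
  have h2 := h1.comp (Fin.castLE hi3) (Fin.castLE_injective hi3)
  convert h2 using 1
  funext j
  fin_cases j
  · rfl
  · rfl
  · rfl

theorem pow_eq_one_of {V W : Type*} [AddCommGroup V] [Module F V] [AddCommGroup W] [Module F W]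
    [FiniteDimensional F V] [FiniteDimensional F W] {τ : U →ₗ[F] W →ₗ[F] V} (hτ : Sep τ) {r : ℕ} (hU : ∃ u : U, u ≠ 0)
    {T : V →ₗ[F] V} {B : W →ₗ[F] W} (hT : ∀ u w, T (τ u w) = τ u (B w)) (hTr : T ^ r = 1) : B ^ r = 1 := by
  have hpow : ∀ k u w, (T ^ k) (τ u w) = τ u ((B ^ k) w) := by
    intro k
    induction k with
    | zero => intro u w; rfl
    | succ k ih =>
      intro u w
      rw [pow_succ', pow_succ', Module.End.mul_apply, Module.End.mul_apply, ih, hT]
  obtain ⟨u, hu⟩ := hU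
  apply LinearMap.ext
  intro w
  have h1 := hpow r u w
  rw [hTr] at h1
  have hli : LinearIndependent F ![u] := by
    rw [linearIndependent_unique_iff]; exact hu
  have h2 := hτ 1 ![u] hli ![(B ^ r) w - w] (by
    rw [Fin.sum_univ_one]
    show τ u ((B ^ r) w - w) = 0
    rw [map_sub, ← h1]; exact sub_self _) 0
  exact sub_eq_zero.1 h2

/-- isometries of odd prime order have even rank, symmetric case -/
theorem even_rank (h2 : (2 : F) ≠ 0) {r : ℕ} (hr : r.Prime) (hr2 : r ≠ 2) (hrq : ¬ r ∣ Fintype.card F) {B : LinearMap.BilinForm F U}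
    (hRef : B.IsRefl) (hN : ∀ u, (∀ v, B u v = 0) → u = 0) {T : U →ₗ[F] U} (hT : T ^ r = 1)
    (hB : ∀ u v, B (T u) (T v) = B u v) : Even (finrank F (LinearMap.range (T - 1))) := by
  by_contra hodd
  rw [Nat.not_even_iff_odd] at hodd
  set W := LinearMap.range (T - 1) with hW
  have hWT : ∀ v ∈ W, T v ∈ W := by
    rintro _ ⟨v, rfl⟩
    refine ⟨T v, ?_⟩
    show T (T v) - T v = T (T v - v)
    rw [map_sub]
  have hWn : Iso.ND B W := by
    have := (Iso.nd_mov hr hrq hRef hT hB (X := ⊤) (fun v _ => trivial) (fun x _ h => hN x (fun y => h y trivial))).1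
    rwa [top_inf_eq] at this
  let TY : W →ₗ[F] W := T.restrict hWT
  let s : LinearMap.BilinForm F W := B.compl₁₂ W.subtype W.subtype
  have hs : ∀ u v : W, s u v = B u v := fun u v => rfl
  have hTYr : TY ^ r = 1 := by
    have : ∀ (k : ℕ) (v : W), (((TY ^ k) v : W) : U) = (T ^ k) v := by
      intro k
      induction k with
      | zero => intro v; rfl
      | succ k ih => intro v; rw [pow_succ', pow_succ', Module.End.mul_apply, Module.End.mul_apply, ← ih]; rfl
    apply LinearMap.ext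
    intro v
    apply Subtype.ext
    rw [this, hT]; rfl
  obtain ⟨v, hv0, hv⟩ := Adj.exists_fix_of_odd h2 (hr.odd_of_ne_two hr2) hTYr (B := s) (by
    intro u v
    rw [hs, hs]
    exact hB u v) (by
    intro u hu
    apply Subtype.ext
    exact hWn u u.2 (fun v hv => hu ⟨v, hv⟩)) hodd
  apply hv0
  apply Subtype.ext
  exact Iso.mov_fpf hr hrq hT (X := ⊤) v ⟨trivial, v.2⟩ (congrArg Subtype.val hv)

end odd

section oddcore

open H99.RElt

theorem odd_core {F : Type*} [Field F] [Fintype F] (h2 : (2 : F) ≠ 0) {a b d : ℕ} (e : (Fin d ⊕ Fin d) ≃ Fin a × Fin b)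
    (P : GL (Fin d ⊕ Fin d) F) {y : GL (Fin d ⊕ Fin d) F}
    (hy : y ∈ Cfsg.Geo.tensorProductSubgroup a b e P) (hyS : y ∈ Cfsg.spGL d F) (hy1 : y ≠ 1) (ha : Even a) (ha2 : 2 ≤ a) (hb : 3 ≤ b)
    {r : ℕ} (hr : r.Prime) (hr2 : r ≠ 2) (hrq : ¬ r ∣ Fintype.card F) (hyr : y ^ r = 1)
    {i : ℕ} (hi : i = orderOf ((Fintype.card F : ℕ) : ZMod r)) (hi0 : 0 < i)
    (hrk : finrank F (LinearMap.range (Matrix.toLin' (y : Matrix (Fin d ⊕ Fin d) (Fin d ⊕ Fin d) F) - 1)) ≤ if Even i then i else 2 * i)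
    {f₁ : (Fin a → F) → (Fin a → F) → F} {B₂ : LinearMap.BilinForm F (Fin b → F)} {κ : F} (hκ : κ ≠ 0)
    (hform : ∀ u u' w w', sympB d F (tau e P u w) (tau e P u' w') = κ * f₁ u u' * B₂ w w')
    (hf₁ : ∃ u u', f₁ u u' ≠ 0) (hRef : B₂.IsRefl) (hN : ∀ u, (∀ v, B₂ u v = 0) → u = 0) : False := by
  have hTr : (Matrix.toLin' (y : Matrix (Fin d ⊕ Fin d) (Fin d ⊕ Fin d) F)) ^ r = 1 := by
    rw [← Matrix.toLin'_pow]
    have : (y : Matrix (Fin d ⊕ Fin d) (Fin d ⊕ Fin d) F) ^ r = 1 := congrArg Units.val hyr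
    rw [this, Matrix.toLin'_one]; rfl
  have hUa : ∃ u : Fin a → F, u ≠ 0 := by
    have : Nonempty (Fin a) := ⟨⟨0, by omega⟩⟩
    exact exists_ne 0
  have hUb : ∃ u : Fin b → F, u ≠ 0 := by
    have : Nonempty (Fin b) := ⟨⟨0, by omega⟩⟩
    exact exists_ne 0
  have hc2 : (if Even i then i else 2 * i) ≤ 2 * i := by split_ifs <;> omega
  rcases tri e P hy hy1 with ⟨B, hBv, hB1, h⟩ | ⟨A, hAv, hA1, h⟩ | ⟨A, B, hAB, hA, hB, h⟩
  · have hBr := pow_eq_one_of (sep e P) (T := Matrix.toLin' (y : Matrix (Fin d ⊕ Fin d) (Fin d ⊕ Fin d) F)) hUa hBv hTr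
    have h1 := ord_le_rank hr hrq hBr hB1
    rw [← hi] at h1
    have h3 : a * i ≤ a * finrank F (LinearMap.range (B - 1)) := Nat.mul_le_mul_left _ h1
    have h4 : 2 * i ≤ a * i := Nat.mul_le_mul_right _ ha2
    by_cases hie : Even i
    · rw [if_pos hie] at hrk
      omega
    · rw [if_neg hie] at hrk
      have h5 : a * finrank F (LinearMap.range (B - 1)) = 2 * i := by omega
      have h6 : 2 * finrank F (LinearMap.range (B - 1)) ≤ a * finrank F (LinearMap.range (B - 1)) := Nat.mul_le_mul_right _ ha2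
      have h7 : finrank F (LinearMap.range (B - 1)) = i := by omega
      apply hie
      rw [← h7]
      apply even_rank h2 hr hr2 hrq hRef hN hBr
      intro w w'
      obtain ⟨u, u', hu⟩ := hf₁
      have h8 := SpInv.gl_isom hyS (tau e P u w) (tau e P u' w')
      rw [Matrix.toLin'_apply, Matrix.toLin'_apply, hBv, hBv, hform, hform] at h8
      exact mul_left_cancel₀ (mul_ne_zero hκ hu) h8
  · have hAr := pow_eq_one_of (τ := (tau e P).flip) (sep_flip e P) (T := Matrix.toLin' (y : Matrix (Fin d ⊕ Fin d) (Fin d ⊕ Fin d) F)) hUb (fun w u => hAv u w) hTr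
    have h1 := ord_le_rank hr hrq hAr hA1
    rw [← hi] at h1
    have h3 : b * i ≤ b * finrank F (LinearMap.range (A - 1)) := Nat.mul_le_mul_left _ h1
    have h4 : 3 * i ≤ b * i := Nat.mul_le_mul_right _ hb
    omega
  · by_cases hi3 : 3 ≤ i
    · have hrq1 : ¬ r ∣ Fintype.card F - 1 := by
        intro hd
        have h1 : ((Fintype.card F : ℕ) : ZMod r) = 1 := by
          rw [← ZMod.natCast_eq_zero_iff, Nat.cast_sub Fintype.card_pos, Nat.cast_one, sub_eq_zero] at hd
          exact hd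
        rw [h1, orderOf_one] at hi
        omega
      obtain ⟨A', B', hT', hAr, hA1⟩ := exists_normal (sep e P) hr hrq1 hUb (T := Matrix.toLin' (y : Matrix (Fin d ⊕ Fin d) (Fin d ⊕ Fin d) F)) hAB hTr hA
      obtain ⟨B'', A'', hT'', hBr, hB1⟩ := exists_normal (τ := (tau e P).flip) (sep_flip e P) hr hrq1 hUa
        (T := Matrix.toLin' (y : Matrix (Fin d ⊕ Fin d) (Fin d ⊕ Fin d) F)) (fun w u => hAB u w) hTr hB
      obtain ⟨u, hu⟩ := li_three hr hrq hAr hA1 hi hi3
      obtain ⟨w, hw⟩ := li_three hr hrq hBr hB1 hi hi3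
      have g1 := rank_two (sep e P) hT' u hu
      have g2 := rank_two (τ := (tau e P).flip) (sep_flip e P) hT'' w hw
      rw [Module.finrank_fin_fun] at g1 g2
      have g3 := ord_le_rank hr hrq hAr hA1
      have g4 := ord_le_rank hr hrq hBr hB1
      have g5 := Submodule.finrank_le (LinearMap.range (A' - 1))
      have g6 := Submodule.finrank_le (LinearMap.range (B'' - 1))
      rw [Module.finrank_fin_fun] at g5 g6
      rw [← hi] at g3 g4
      by_cases hie : Even i
      · rw [if_pos hie] at hrk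
        omega
      · rw [if_neg hie] at hrk
        rw [Nat.not_even_iff_odd] at hie
        obtain ⟨m, hm⟩ := ha
        obtain ⟨n, hn⟩ := hie
        omega
    · by_cases hie : Even i
      · rw [if_pos hie] at hrk
        omega
      · rw [if_neg hie] at hrk
        rw [Nat.not_even_iff_odd] at hie
        obtain ⟨n, hn⟩ := hie
        omega

end oddcore

end H99.Tens
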