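import Mathlib
import Cfsg.Agent.Lib.H99.Tens

set_option autoImplicit false
set_option linter.unusedSimpArgs false
set_option linter.unusedSectionVars false
set_option linter.unusedVariables false

/-! Conjugacy of elements of prime order when they act irreducibly. -/

namespace H99.PrimeConj

open Matrix Module
open scoped Pointwise in
theorem sylow_conj {G : Type*} [Group G] [Finite G] {r : ℕ} [hr : Fact r.Prime]
    (hcyc : ∀ z x : G, orderOf z = r → x ^ r = 1 → z * x = x * z → x ∈ Subgroup.zpowers z) {x y : G} (hx : x ^ r = 1) (hy : orderOf y = r) :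
    ∃ g : G, g⁻¹ * x * g ∈ Subgroup.zpowers y := by
  have hpy : IsPGroup r (Subgroup.zpowers y) := by
    apply IsPGroup.of_card (n := 1)
    rw [Nat.card_zpowers, hy, pow_one]
  have hpx : IsPGroup r (Subgroup.zpowers x) := by
    intro w
    refine ⟨1, ?_⟩
    apply Subtype.ext
    obtain ⟨k, hk⟩ := Subgroup.mem_zpowers_iff.1 w.2
    rw [Subgroup.coe_pow, ← hk, pow_one, ← zpow_natCast, ← _root_.zpow_mul, mul_comm, _root_.zpow_mul, zpow_natCast, hx, _root_.one_zpow]; rfl
  obtain ⟨Q, hQ⟩ := hpy.exists_le_sylow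
  obtain ⟨P, hP⟩ := hpx.exists_le_sylow
  obtain ⟨g, hg⟩ := MulAction.exists_smul_eq G Q P
  have hyQ : y ∈ Q := hQ (Subgroup.mem_zpowers y)
  have hxP : x ∈ P := hP (Subgroup.mem_zpowers x)
  have hxQ : g⁻¹ * x * g ∈ Q := by
    rw [← hg] at hxP
    have h1 : x ∈ (MulAut.conj g • (Q : Subgroup G)) := hxP
    rw [Subgroup.mem_pointwise_smul_iff_inv_smul_mem] at h1
    have h2 : (MulAut.conj g)⁻¹ • x = g⁻¹ * x * g := by
      rw [← map_inv]
      show g⁻¹ * x * g⁻¹⁻¹ = _
      rw [inv_inv]
    rw [h2] at h1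
    exact h1
  -- an element of order r in the center
  have hy1 : y ≠ 1 := by
    rintro rfl
    rw [orderOf_one] at hy
    exact hr.out.one_lt.ne hy
  have hnt : Nontrivial Q := ⟨⟨y, hyQ⟩, 1, fun h => hy1 (congrArg Subtype.val h)⟩
  have hcn : Nontrivial (Subgroup.center Q) := Q.isPGroup'.center_nontrivial
  have hpc : IsPGroup r (Subgroup.center Q) := Q.isPGroup'.to_subgroup _
  have hdvd : r ∣ Nat.card (Subgroup.center Q) := by
    obtain ⟨n, hn⟩ := IsPGroup.iff_card.1 hpc
    have h1 : 1 < Nat.card (Subgroup.center Q) := Finite.one_lt_card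
    rw [hn] at h1 ⊢
    have : n ≠ 0 := by rintro rfl; simp at h1
    exact dvd_pow_self r this
  obtain ⟨z, hz⟩ := exists_prime_orderOf_dvd_card' r hdvd
  have hzG : orderOf ((z : Q) : G) = r := by rw [Subgroup.orderOf_coe, Subgroup.orderOf_coe, hz]
  have hzc : ∀ w ∈ Q, ((z : Q) : G) * w = w * ((z : Q) : G) := by
    intro w hw
    have := Subgroup.mem_center_iff.1 z.2 ⟨w, hw⟩
    exact (congrArg Subtype.val this).symm
  have h1 := hcyc _ y hzG (by rw [← hy]; exact pow_orderOf_eq_one y) (hzc y hyQ)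
  have h2 := hcyc _ (g⁻¹ * x * g) hzG (by
    have : (g⁻¹ * x * g) ^ r = g⁻¹ * x ^ r * g := by
      have := conj_pow (i := r) (a := g⁻¹) (b := x)
      rw [inv_inv] at this
      exact this
    rw [this, hx]; group) (hzc _ hxQ)
  refine ⟨g, ?_⟩
  have h3 : Subgroup.zpowers y ≤ Subgroup.zpowers ((z : Q) : G) := by
    rw [Subgroup.zpowers_le]; exact h1
  have h4 : Subgroup.zpowers y = Subgroup.zpowers ((z : Q) : G) := by
    apply Subgroup.eq_of_le_of_card_ge h3
    rw [Nat.card_zpowers, Nat.card_zpowers, hy, hzG]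
  rw [h4]; exact h2

universe u

/-- commuting elements of prime order, irreducible case -/
theorem comm_irred {F : Type u} [Field F] [Fintype F] {α : Type} [Fintype α] [DecidableEq α] [Nonempty α] {r : ℕ} (hr : r.Prime)
    (hrq : ¬ r ∣ Fintype.card F) (hord : orderOf ((Fintype.card F : ℕ) : ZMod r) = Fintype.card α) (z x : GL α F)
    (hz : z ^ r = 1) (hz1 : z ≠ 1) (hx : x ^ r = 1) (hzx : z * x = x * z) : x ∈ Subgroup.zpowers z := by
  classical
  have hfinM : Finite (Matrix α α F) := by unfold Matrix; infer_instance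
  have hfinG : Finite (GL α F) := inferInstance
  set Z := Matrix.toLin' (z : Matrix α α F) with hZ
  have hZr : Z ^ r = 1 := by
    rw [hZ, ← Matrix.toLin'_pow]
    have : (z : Matrix α α F) ^ r = 1 := congrArg Units.val hz
    rw [this, Matrix.toLin'_one]; rfl
  have hZ1 : Z ≠ 1 := by
    intro h
    apply hz1
    apply Units.ext
    apply Matrix.toLin'.injective
    rw [← hZ, h, Units.val_one, Matrix.toLin'_one]; rfl
  have hrange : LinearMap.range (Z - 1) = ⊤ := by
    apply Submodule.eq_top_of_finrank_eq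
    have h1 := Tens.ord_le_rank hr hrq hZr hZ1
    have h2 := Submodule.finrank_le (LinearMap.range (Z - 1))
    rw [Module.finrank_fintype_fun_eq_card] at h2 ⊢
    omega
  have hfpf : ∀ v, Z v = v → v = 0 := fun v h => Iso.mov_fpf hr hrq hZr (X := ⊤) v ⟨trivial, by rw [hrange]; trivial⟩ h
  -- kernels of commuting maps
  have hker : ∀ T : (α → F) →ₗ[F] (α → F), (∀ v, T (Z v) = Z (T v)) → (∃ v ≠ 0, T v = 0) → T = 0 := by
    intro T hT ⟨v, hv0, hv⟩
    have h1 := Iso.ord_le hr hrq hZr (Y := LinearMap.ker T) (fun w hw => by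
      rw [LinearMap.mem_ker] at hw ⊢
      rw [hT, hw, map_zero]) (fun w _ h => hfpf w h) (by
      intro h
      have : v ∈ LinearMap.ker T := hv
      rw [h, Submodule.mem_bot] at this
      exact hv0 this)
    have h2 : LinearMap.ker T = ⊤ := by
      apply Submodule.eq_top_of_finrank_eq
      have h2 := Submodule.finrank_le (LinearMap.ker T)
      rw [Module.finrank_fintype_fun_eq_card] at h2 ⊢
      omega
    exact LinearMap.ker_eq_top.1 h2
  let K : Subalgebra F (Matrix α α F) := Algebra.adjoin F {(z : Matrix α α F)}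
  have hzK : (z : Matrix α α F) ∈ K := Algebra.subset_adjoin (Set.mem_singleton _)
  have hKcomm : ∀ M ∈ K, ∀ N : Matrix α α F, N * z = z * N → N * M = M * N := by
    intro M hM N hN
    induction hM using Algebra.adjoin_induction with
    | mem w hw => rw [Set.mem_singleton_iff.1 hw]; exact hN
    | algebraMap c => exact (Algebra.commutes c N).symm
    | add a b _ _ ha hb => rw [mul_add, add_mul, ha, hb]
    | mul a b _ _ ha hb => rw [← mul_assoc, ha, mul_assoc, hb, mul_assoc]
  have hKz : ∀ M ∈ K, M * z = z * M := by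
    intro M hM
    exact (hKcomm M hM z rfl).symm
  have hKf : Cfsg.Geo.IsFieldSubalgebra (finrank F K) K := by
    refine ⟨fun M hM N hN => (hKcomm N hN M (hKz M hM)), ?_, rfl⟩
    intro M hM hM0
    have hinj : Function.Injective (Matrix.toLin' M) := by
      rw [← LinearMap.ker_eq_bot, LinearMap.ker_eq_bot']
      intro v hv
      by_contra hv0
      have := hker (Matrix.toLin' M) (fun w => by
        rw [hZ, Matrix.toLin'_apply, Matrix.toLin'_apply, Matrix.toLin'_apply, Matrix.toLin'_apply, Matrix.mulVec_mulVec,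
          Matrix.mulVec_mulVec, hKz M hM]) ⟨v, hv0, hv⟩
      apply hM0
      apply Matrix.toLin'.injective
      rw [this, map_zero]
    have hdet : M.det ≠ 0 := by
      intro h
      obtain ⟨v, hv0, hv⟩ := Matrix.exists_mulVec_eq_zero_iff.2 h
      exact hv0 (hinj (by rw [Matrix.toLin'_apply, hv, map_zero]))
    let m : GL α F := Matrix.GeneralLinearGroup.mkOfDetNeZero M hdet
    have h1 : m ^ orderOf m = 1 := pow_orderOf_eq_one m
    have h2 : 0 < orderOf m := orderOf_pos m
    refine ⟨M ^ (orderOf m - 1), K.pow_mem hM _, ?_⟩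
    rw [← pow_succ', Nat.sub_add_cancel h2]
    exact congrArg Units.val h1
  obtain ⟨E, fE, aE, ρ, hmem, hEk⟩ := FieldEmb.exists_field K hKf
  -- x is a polynomial in z
  obtain ⟨v0, hv0⟩ := exists_ne (0 : α → F)
  have hli := Tens.li_pow hr hrq hZr (w := v0) (by rw [hrange]; trivial) hv0 hord.symm
  have hspan := hli.span_eq_top_of_card_eq_finrank' (by rw [Module.finrank_fintype_fun_eq_card, Fintype.card_fin])
  have hxv : (x : Matrix α α F) *ᵥ v0 ∈ Submodule.span F (Set.range fun j : Fin (Fintype.card α) => (Z ^ (j : ℕ)) v0) := by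
    rw [hspan]; trivial
  rw [Submodule.mem_span_range_iff_exists_fun] at hxv
  obtain ⟨c, hc⟩ := hxv
  let N : Matrix α α F := ∑ j, c j • (z : Matrix α α F) ^ (j : ℕ)
  have hNK : N ∈ K := K.sum_mem fun j _ => K.smul_mem (K.pow_mem hzK _) _
  have hxN : (x : Matrix α α F) = N := by
    have h1 : Matrix.toLin' ((x : Matrix α α F) - N) = 0 := by
      apply hker
      · intro v
        rw [hZ, Matrix.toLin'_apply, Matrix.toLin'_apply, Matrix.toLin'_apply, Matrix.toLin'_apply, Matrix.mulVec_mulVec,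
          Matrix.mulVec_mulVec, sub_mul, mul_sub, hKz N hNK]
        have : (x : Matrix α α F) * z = z * x := by rw [← Units.val_mul, ← Units.val_mul, hzx]
        rw [this]
      · refine ⟨v0, hv0, ?_⟩
        rw [Matrix.toLin'_apply, Matrix.sub_mulVec, ← hc]
        show _ - (∑ j, c j • (z : Matrix α α F) ^ (j : ℕ)) *ᵥ v0 = 0
        rw [Matrix.sum_mulVec, ← Finset.sum_sub_distrib]
        apply Finset.sum_eq_zero
        intro j _
        rw [Matrix.smul_mulVec, ← Matrix.toLin'_apply ((z : Matrix α α F) ^ (j : ℕ)), Matrix.toLin'_pow, ← hZ, sub_self]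
    have h2 := (map_eq_zero_iff _ Matrix.toLin'.injective).1 h1
    exact sub_eq_zero.1 h2
  obtain ⟨ζ, hζ⟩ := (hmem _).1 hzK
  obtain ⟨ξ, hξ⟩ := (hmem _).1 (hxN ▸ hNK : (x : Matrix α α F) ∈ K)
  have hρ : Function.Injective ρ := ρ.toRingHom.injective
  have hζr : ζ ^ r = 1 := by
    apply hρ
    rw [map_pow, hζ, map_one]
    exact congrArg Units.val hz
  have hξr : ξ ^ r = 1 := by
    apply hρ
    rw [map_pow, hξ, map_one]
    exact congrArg Units.val hx
  have hζ1 : ζ ≠ 1 := by
    rintro rfl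
    apply hz1
    apply Units.ext
    rw [← hζ, map_one, Units.val_one]
  have hprim : IsPrimitiveRoot ζ r := by
    haveI : Fact r.Prime := ⟨hr⟩
    have h1 : orderOf ζ = r := orderOf_eq_prime hζr hζ1
    rw [← h1]; exact IsPrimitiveRoot.orderOf ζ
  have : NeZero r := ⟨hr.ne_zero⟩
  obtain ⟨i, -, hi⟩ := hprim.eq_pow_of_pow_eq_one hξr
  refine ⟨(i : ℤ), ?_⟩
  show z ^ (i : ℤ) = x
  rw [zpow_natCast]
  apply Units.ext
  rw [Units.val_pow_eq_pow_val, ← hζ, ← map_pow, hi, hξ]

end H99.PrimeConj
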