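import Mathlib
import Cfsg.Agent.Lib.H99.Quad
import Cfsg.Agent.Lib.H99.Diag

set_option autoImplicit false
set_option linter.unusedSimpArgs false
set_option linter.unusedSectionVars false

/-! Every matrix with scalar square is conjugate to a similarity of a given quadratic form (odd characteristic). -/

namespace H99.QuadSq

open Matrix H48.QuadStd H99.Quad

variable {F : Type*} [Field F]

theorem exists_L {α β γ : Type} [Fintype α] [DecidableEq α] [Fintype β] [DecidableEq β] [Fintype γ] [DecidableEq γ]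
    (X : Matrix α α F) (D0 : Matrix γ γ F) (e : γ ≃ α) (e' : γ ≃ β) (P : Matrix α α F) (hP : P.det ≠ 0)
    (h : X * P = P * Matrix.reindex e e D0) :
    ∃ L : (α → F) ≃ₗ[F] (β → F), ∀ v, L (X *ᵥ v) = (Matrix.reindex e' e' D0) *ᵥ (L v) := by
  have hu : IsUnit P := (Matrix.isUnit_iff_isUnit_det _).2 (isUnit_iff_ne_zero.2 hP)
  obtain ⟨P', hPP'⟩ := hu.exists_right_inv
  have hP'P : P' * P = 1 := mul_eq_one_comm.1 hPP'
  let L1 : (α → F) ≃ₗ[F] (α → F) := LinearEquiv.ofLinear (Matrix.toLin' P') (Matrix.toLin' P)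
    (by rw [← Matrix.toLin'_mul, hP'P, Matrix.toLin'_one]) (by rw [← Matrix.toLin'_mul, hPP', Matrix.toLin'_one])
  let L2 : (α → F) ≃ₗ[F] (β → F) := LinearEquiv.funCongrLeft F F (e'.symm.trans e)
  refine ⟨L1.trans L2, fun v => ?_⟩
  have h1 : P' *ᵥ (X *ᵥ v) = Matrix.reindex e e D0 *ᵥ (P' *ᵥ v) := by
    have h2 : P' * X = Matrix.reindex e e D0 * P' := by
      calc P' * X = P' * (X * P) * P' := by rw [Matrix.mul_assoc, Matrix.mul_assoc, hPP', Matrix.mul_one]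
        _ = P' * (P * Matrix.reindex e e D0) * P' := by rw [h]
        _ = (P' * P) * Matrix.reindex e e D0 * P' := by rw [Matrix.mul_assoc P' P]
        _ = _ := by rw [hP'P, Matrix.one_mul]
    rw [Matrix.mulVec_mulVec, h2, ← Matrix.mulVec_mulVec]
  show L2 (P' *ᵥ (X *ᵥ v)) = (Matrix.reindex e' e' D0) *ᵥ (L2 (P' *ᵥ v))
  rw [h1]
  ext k
  obtain ⟨k', rfl⟩ := e'.surjective k
  simp only [L2, LinearEquiv.funCongrLeft_apply, LinearMap.funLeft_apply, Matrix.mulVec, dotProduct, Matrix.reindex_apply,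
    Matrix.submatrix_apply, Equiv.trans_apply, Equiv.symm_apply_apply]
  rw [← Equiv.sum_comp e, ← Equiv.sum_comp e']
  simp

theorem close_equiv {α β : Type} [Fintype α] [DecidableEq α] [Fintype β] [DecidableEq β]
    (Q : QuadraticForm F (α → F)) (Q' : QuadraticForm F (β → F)) (h : Q.Equivalent Q')
    (X : Matrix α α F) (Y : Matrix β β F) (c : F) (hY : ∀ v, Q' (Y *ᵥ v) = c * Q' v)
    (L : (α → F) ≃ₗ[F] (β → F)) (hL : ∀ v, L (X *ᵥ v) = Y *ᵥ (L v)) :
    ∃ R Y' : Matrix α α F, R.det ≠ 0 ∧ X * R = R * Y' ∧ ∀ v, Q (Y' *ᵥ v) = c * Q v := by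
  obtain ⟨E⟩ := h
  let E0 : (α → F) ≃ₗ[F] (β → F) := E.toLinearEquiv
  have hE : ∀ v, Q' (E0 v) = Q v := E.map_app
  let Rl : (α → F) ≃ₗ[F] (α → F) := E0.trans L.symm
  let Yl : (α → F) →ₗ[F] (α → F) := (E0.symm : (β → F) →ₗ[F] (α → F)) ∘ₗ (Matrix.toLin' Y) ∘ₗ (E0 : (α → F) →ₗ[F] (β → F))
  refine ⟨LinearMap.toMatrix' (Rl : (α → F) →ₗ[F] (α → F)), LinearMap.toMatrix' Yl, ?_, ?_, ?_⟩
  · rw [LinearMap.det_toMatrix']
    exact (LinearEquiv.isUnit_det' Rl).ne_zero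
  · apply Matrix.toLin'.injective
    rw [Matrix.toLin'_mul, Matrix.toLin'_mul, Matrix.toLin'_toMatrix', Matrix.toLin'_toMatrix']
    apply LinearMap.ext
    intro v
    show X *ᵥ (L.symm (E0 v)) = L.symm (E0 (E0.symm (Y *ᵥ (E0 v))))
    rw [LinearEquiv.apply_symm_apply, LinearEquiv.eq_symm_apply, hL, LinearEquiv.apply_symm_apply]
  · intro v
    rw [← Matrix.toLin'_apply, Matrix.toLin'_toMatrix']
    show Q (E0.symm (Y *ᵥ (E0 v))) = c * Q v
    rw [← hE, LinearEquiv.apply_symm_apply, hY, hE]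

theorem exists_L_sq {α β : Type} [Fintype α] [DecidableEq α] [Fintype β] [DecidableEq β]
    (X : Matrix α α F) (Y : Matrix β β F) (z : F) (hz : ¬ IsSquare z) (hX : X * X = z • (1 : Matrix α α F))
    (hY : Y * Y = z • (1 : Matrix β β F)) (hc : Fintype.card α = Fintype.card β) :
    ∃ L : (α → F) ≃ₗ[F] (β → F), ∀ v, L (X *ᵥ v) = Y *ᵥ (L v) := by
  obtain ⟨s, m, μ, h1, h2, -, -, h3⟩ := SqScalar.exists_std_matrix X z hX
  obtain ⟨s', m', μ', h1', h2', -, -, h3'⟩ := SqScalar.exists_std_matrix Y z hY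
  have hm : m = 0 := by
    by_contra h
    exact hz ⟨μ, by rw [← h2 (Nat.pos_of_ne_zero h), pow_two]⟩
  have hm' : m' = 0 := by
    by_contra h
    exact hz ⟨μ', by rw [← h2' (Nat.pos_of_ne_zero h), pow_two]⟩
  subst hm hm'
  have hs : s = s' := by omega
  subst hs
  have hstd : SqScalar.std s 0 z μ = SqScalar.std s 0 z μ' := by
    rw [SqScalar.std, SqScalar.std]
    congr 1
    ext i
    exact i.elim0
  have e : ((Fin 2 × Fin s) ⊕ Fin 0) ≃ α := Fintype.equivOfCardEq (by simp [← h1])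
  have e' : ((Fin 2 × Fin s) ⊕ Fin 0) ≃ β := Fintype.equivOfCardEq (by simp [← h1'])
  obtain ⟨P, hP, hXP⟩ := h3 e
  obtain ⟨P', hP', hYP'⟩ := h3' e'
  obtain ⟨L1, hL1⟩ := exists_L X _ e (Equiv.refl _) P hP hXP
  obtain ⟨L2, hL2⟩ := exists_L Y _ e' (Equiv.refl _) P' hP' hYP'
  refine ⟨L1.trans L2.symm, fun v => ?_⟩
  show L2.symm (L1 (X *ᵥ v)) = Y *ᵥ (L2.symm (L1 v))
  rw [LinearEquiv.symm_apply_eq, hL2, hL1, LinearEquiv.apply_symm_apply, hstd]

/-- similarity of the split form with square `z` -/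
theorem exists_plus (m : ℕ) (z : F) : ∃ Y : Matrix (Fin m ⊕ Fin m) (Fin m ⊕ Fin m) F,
    Y * Y = z • (1 : Matrix (Fin m ⊕ Fin m) (Fin m ⊕ Fin m) F) ∧ ∀ v, qPlus m F (Y *ᵥ v) = z * qPlus m F v := by
  refine ⟨Matrix.fromBlocks 0 (z • (1 : Matrix (Fin m) (Fin m) F)) 1 0, ?_, ?_⟩
  · rw [Matrix.fromBlocks_multiply]
    simp only [Matrix.zero_mul, Matrix.mul_zero, zero_add, add_zero, Matrix.mul_one, Matrix.one_mul]
    rw [← Matrix.fromBlocks_one, Matrix.fromBlocks_smul, smul_zero]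
  · intro v
    rw [qPlus_apply, qPlus_apply, Finset.mul_sum]
    refine Finset.sum_congr rfl fun i _ => ?_
    rw [Matrix.fromBlocks_mulVec]
    simp only [Sum.elim_inl, Sum.elim_inr, Matrix.zero_mulVec, Matrix.smul_mulVec, Matrix.one_mulVec, Pi.add_apply,
      Pi.zero_apply, Pi.smul_apply, Function.comp_apply, smul_eq_mul, zero_add, add_zero]
    ring

/-- similarity of the form of minus type with square `z` -/
theorem exists_minus [Finite F] (m : ℕ) (z z' : F) (hz : z ≠ 0) (hz' : ∀ t : F, t ^ 2 + t + z' ≠ 0) :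
    ∃ Y : Matrix ((Fin m ⊕ Fin m) ⊕ Fin 2) ((Fin m ⊕ Fin m) ⊕ Fin 2) F,
    Y * Y = z • (1 : Matrix ((Fin m ⊕ Fin m) ⊕ Fin 2) ((Fin m ⊕ Fin m) ⊕ Fin 2) F) ∧
      ∀ v, qMinus m F 1 z' (Y *ᵥ v) = z * qMinus m F 1 z' v := by
  obtain ⟨Y1, h1, h2⟩ := exists_plus m z
  obtain ⟨⟨a, b⟩, hab⟩ := exists_eq (nd_qBin (disc_ne_zero' hz')) (by rw [Module.finrank_prod, Module.finrank_self]) hz
  rw [qBin_apply] at hab
  simp only at hab
  refine ⟨Matrix.fromBlocks Y1 0 0 !![a, a + z' * b; b, -a], ?_, ?_⟩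
  · rw [Matrix.fromBlocks_multiply, h1]
    simp only [Matrix.zero_mul, Matrix.mul_zero, zero_add, add_zero]
    have hone : (1 : Matrix ((Fin m ⊕ Fin m) ⊕ Fin 2) ((Fin m ⊕ Fin m) ⊕ Fin 2) F) = Matrix.fromBlocks 1 0 0 1 :=
      Matrix.fromBlocks_one.symm
    rw [hone, Matrix.fromBlocks_smul, smul_zero, smul_zero]
    congr 1
    ext i j
    fin_cases i <;> fin_cases j
    · simp only [Fin.zero_eta, Matrix.mul_apply, Fin.sum_univ_two, Matrix.smul_apply, smul_eq_mul]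
      simp
      linear_combination hab
    · simp only [Fin.zero_eta, Fin.mk_one, Matrix.mul_apply, Fin.sum_univ_two, Matrix.smul_apply, smul_eq_mul]
      simp
      ring
    · simp only [Fin.zero_eta, Fin.mk_one, Matrix.mul_apply, Fin.sum_univ_two, Matrix.smul_apply, smul_eq_mul]
      simp
      ring
    · simp only [Fin.mk_one, Matrix.mul_apply, Fin.sum_univ_two, Matrix.smul_apply, smul_eq_mul]
      simp
      linear_combination hab
  · intro v
    have h3 := h2 (v ∘ Sum.inl)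
    rw [qPlus_apply, qPlus_apply] at h3
    rw [qMinus_apply, qMinus_apply, Matrix.fromBlocks_mulVec]
    simp only [Sum.elim_inl, Sum.elim_inr, Matrix.zero_mulVec, add_zero, zero_add, Matrix.mulVec_cons, Pi.add_apply, Pi.zero_apply]
    rw [h3]
    simp only [Matrix.mulVec, dotProduct, Fin.sum_univ_two, Function.comp_apply, Matrix.of_apply, Matrix.cons_val_zero,
      Matrix.cons_val_one, Matrix.cons_val_fin_one]
    linear_combination (v (.inr 0) ^ 2 + v (.inr 0) * v (.inr 1) + z' * v (.inr 1) ^ 2) * hab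

theorem exists_sim_sq [Fintype F] {n : ℕ} (h2 : (2 : F) ≠ 0) {Q : (Fin n → F) → F}
    (hQ : Cfsg.Geo.IsNondegenerateQuadraticForm Q) (X : Matrix (Fin n) (Fin n) F) (z : F) (hz : z ≠ 0)
    (hX : X * X = z • (1 : Matrix (Fin n) (Fin n) F)) :
    ∃ (R Y : Matrix (Fin n) (Fin n) F) (c : F), c ≠ 0 ∧ R.det ≠ 0 ∧ X * R = R * Y ∧ ∀ v, Q (Y *ᵥ v) = c * Q v := by
  by_cases hsq : IsSquare z
  · obtain ⟨μ, rfl⟩ := hsq
    have hμ : μ ≠ 0 := by rintro rfl; simp at hz
    obtain ⟨k, m, hkm, -, -, -, hP⟩ := Diag.exists_diag_matrix h2 X μ hμ hX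
    rw [Fintype.card_fin] at hkm
    have : Invertible (2 : F) := invertibleOfNonzero h2
    obtain ⟨w, hw⟩ := QuadraticForm.equivalent_weightedSumSquares (toQF hQ)
    have hfr : Module.finrank F (Fin n → F) = n := by rw [Module.finrank_fintype_fun_eq_card, Fintype.card_fin]
    let e : (Fin k ⊕ Fin m) ≃ Fin n := finSumFinEquiv.trans (finCongr hkm)
    let e' : (Fin k ⊕ Fin m) ≃ Fin (Module.finrank F (Fin n → F)) := e.trans (finCongr hfr.symm)
    obtain ⟨P, hP1, hP2⟩ := hP e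
    obtain ⟨L, hL⟩ := exists_L X _ e e' P hP1 hP2
    obtain ⟨R, Y', h3, h4, h5⟩ := close_equiv (toQF hQ) _ hw X (Matrix.reindex e' e' (Diag.dg k m μ)) (μ * μ) (by
      intro v
      rw [QuadraticMap.weightedSumSquares_apply, QuadraticMap.weightedSumSquares_apply, Finset.mul_sum]
      refine Finset.sum_congr rfl fun i _ => ?_
      have h6 : (Matrix.reindex e' e' (Diag.dg k m μ) *ᵥ v) i = (Sum.elim (fun _ => -μ) (fun _ => μ) (e'.symm i)) * v i := by
        rw [Diag.dg, Matrix.reindex_apply, Matrix.submatrix_diagonal_equiv, Matrix.mulVec_diagonal]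
        rfl
      rw [h6]
      rcases e'.symm i with j | j <;> simp <;> ring) L hL
    exact ⟨R, Y', μ * μ, hz, h3, h4, h5⟩
  · obtain ⟨s, m, μ, h1, h2', -, -, -⟩ := SqScalar.exists_std_matrix X z hX
    have hm : m = 0 := by
      by_contra h
      exact hsq ⟨μ, by rw [← h2' (Nat.pos_of_ne_zero h), pow_two]⟩
    subst hm
    rw [Fintype.card_fin, add_zero] at h1
    rcases classify_even s (Fin n → F) (toQF hQ) (nd_toQF hQ) (by rw [Module.finrank_fintype_fun_eq_card, Fintype.card_fin, h1]) with h | ⟨hs, z', hz', h⟩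
    · obtain ⟨Y, hY1, hY2⟩ := exists_plus s z
      obtain ⟨L, hL⟩ := exists_L_sq X Y z hsq hX hY1 (by simp; omega)
      obtain ⟨R, Y', h3, h4, h5⟩ := close_equiv (toQF hQ) _ h X Y z hY2 L hL
      exact ⟨R, Y', z, hz, h3, h4, h5⟩
    · obtain ⟨Y, hY1, hY2⟩ := exists_minus (s - 1) z z' hz hz'
      obtain ⟨L, hL⟩ := exists_L_sq X Y z hsq hX hY1 (by simp; omega)
      obtain ⟨R, Y', h3, h4, h5⟩ := close_equiv (toQF hQ) _ h X Y z hY2 L hL
      exact ⟨R, Y', z, hz, h3, h4, h5⟩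

end H99.QuadSq
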