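import Mathlib
import Cfsg.Agent.Lib.H99.BlockW
import Cfsg.Agent.Lib.H99.Skew

set_option autoImplicit false
set_option linter.unusedSimpArgs false
set_option linter.unusedSectionVars false
set_option linter.unusedVariables false

/-! Elements of `SL_4`. -/

namespace H99.SL4

open Matrix Module

universe u

variable {F : Type u} [Field F]

theorem mem_sl {x : GL (Fin 4) F} : x ∈ Cfsg.Geo.specialLinear (Fin 4) F ↔ (x : Matrix (Fin 4) (Fin 4) F).det = 1 := by
  unfold Cfsg.Geo.specialLinear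
  rw [MonoidHom.mem_ker]
  constructor
  · intro h
    have := congrArg Units.val h
    exact this
  · intro h
    apply Units.ext
    exact h

def e4 : Fin 2 ⊕ Fin 2 ≃ Fin 4 := finSumFinEquiv

/-- the block embedding -/
def emb4 (w : Matrix (Fin 2) (Fin 2) F) : Matrix (Fin 4) (Fin 4) F :=
  Matrix.reindex e4 e4 (Matrix.fromBlocks w 0 0 (1 : Matrix (Fin 2) (Fin 2) F))

theorem emb4_one : emb4 (1 : Matrix (Fin 2) (Fin 2) F) = 1 := by
  unfold emb4
  rw [Matrix.fromBlocks_one]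
  simp

theorem emb4_mul (w v : Matrix (Fin 2) (Fin 2) F) : emb4 (w * v) = emb4 w * emb4 v := by
  unfold emb4
  rw [Matrix.reindex_apply, Matrix.reindex_apply, Matrix.reindex_apply, Matrix.submatrix_mul_equiv, Matrix.fromBlocks_multiply]
  simp

theorem emb4_trace (w : Matrix (Fin 2) (Fin 2) F) : (emb4 w).trace = w.trace + 2 := by
  unfold emb4
  rw [Matrix.trace, ← e4.sum_comp, Fintype.sum_sum_type]
  simp [Matrix.trace, Fin.sum_univ_two]

theorem emb4_det (w : Matrix (Fin 2) (Fin 2) F) : (emb4 w).det = w.det := by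
  unfold emb4
  rw [Matrix.det_reindex_self, Matrix.det_fromBlocks_zero₂₁, Matrix.det_one, mul_one]

theorem emb4_inj {w v : Matrix (Fin 2) (Fin 2) F} (h : emb4 w = emb4 v) : w = v := by
  unfold emb4 at h
  have := (Matrix.reindex e4 e4).injective h
  exact (Matrix.fromBlocks_inj.1 this).1

theorem emb4_scalar {w : Matrix (Fin 2) (Fin 2) F} {z : F} (h : emb4 w = z • 1) : w = 1 := by
  have h1 := congrFun (congrFun h (e4 (Sum.inr 0))) (e4 (Sum.inr 0))
  unfold emb4 at h1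
  simp at h1
  apply emb4_inj
  rw [h, ← h1, one_smul, emb4_one]

theorem exists_block4 {r : ℕ} {w : Matrix.SpecialLinearGroup (Fin 2) F} (hw : w ^ r = 1) (hw1 : w ≠ 1) :
    ∃ x ∈ Cfsg.Geo.specialLinear (Fin 4) F, x ^ r = 1 ∧ (∀ z : F, (x : Matrix (Fin 4) (Fin 4) F) ≠ z • 1) ∧
      (x : Matrix (Fin 4) (Fin 4) F) = emb4 (w : Matrix (Fin 2) (Fin 2) F) ∧
      (x : Matrix (Fin 4) (Fin 4) F).trace = (w : Matrix (Fin 2) (Fin 2) F).trace + 2 ∧
      ((x⁻¹ : GL (Fin 4) F) : Matrix (Fin 4) (Fin 4) F).trace = (w : Matrix (Fin 2) (Fin 2) F).trace + 2 := by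
  let x : GL (Fin 4) F := ⟨emb4 (w : Matrix (Fin 2) (Fin 2) F), emb4 ((w⁻¹ : Matrix.SpecialLinearGroup (Fin 2) F) : Matrix (Fin 2) (Fin 2) F), by
    rw [← emb4_mul, ← Matrix.SpecialLinearGroup.coe_mul, mul_inv_cancel, Matrix.SpecialLinearGroup.coe_one, emb4_one], by
    rw [← emb4_mul, ← Matrix.SpecialLinearGroup.coe_mul, inv_mul_cancel, Matrix.SpecialLinearGroup.coe_one, emb4_one]⟩
  have hx : (x : Matrix (Fin 4) (Fin 4) F) = emb4 (w : Matrix (Fin 2) (Fin 2) F) := rfl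
  have hxi : ((x⁻¹ : GL (Fin 4) F) : Matrix (Fin 4) (Fin 4) F) = emb4 ((w⁻¹ : Matrix.SpecialLinearGroup (Fin 2) F) : Matrix (Fin 2) (Fin 2) F) := rfl
  have hpow : ∀ k : ℕ, (x : Matrix (Fin 4) (Fin 4) F) ^ k = emb4 ((w ^ k : Matrix.SpecialLinearGroup (Fin 2) F) : Matrix (Fin 2) (Fin 2) F) := by
    intro k
    induction k with
    | zero => rw [pow_zero, pow_zero, Matrix.SpecialLinearGroup.coe_one, emb4_one]
    | succ k ih => rw [pow_succ, ih, hx, ← emb4_mul, pow_succ, Matrix.SpecialLinearGroup.coe_mul]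
  refine ⟨x, ?_, ?_, ?_, hx, ?_, ?_⟩
  · rw [mem_sl, hx, emb4_det]; exact w.2
  · apply Units.ext
    rw [Units.val_pow_eq_pow_val, hpow, hw, Matrix.SpecialLinearGroup.coe_one, emb4_one, Units.val_one]
  · intro z hz
    apply hw1
    apply Subtype.ext
    exact emb4_scalar (z := z) hz
  · rw [hx, emb4_trace]
  · rw [hxi, emb4_trace, Matrix.SpecialLinearGroup.coe_inv, BlockW.tr_adj]

theorem exists_trans4 {p : ℕ} [CharP F p] :
    ∃ x ∈ Cfsg.Geo.specialLinear (Fin 4) F, x ^ p = 1 ∧ (∀ z : F, (x : Matrix (Fin 4) (Fin 4) F) ≠ z • 1) ∧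
      finrank F (LinearMap.range (Matrix.toLin' (x : Matrix (Fin 4) (Fin 4) F) - 1)) ≤ 1 := by
  have h01 : (0 : Fin 4) ≠ 1 := by decide
  let x : GL (Fin 4) F := ⟨Matrix.transvection 0 1 1, Matrix.transvection 0 1 (-1), by
    rw [Matrix.transvection_mul_transvection_same _ _ h01]; simp, by
    rw [Matrix.transvection_mul_transvection_same _ _ h01]; simp⟩
  have hx : (x : Matrix (Fin 4) (Fin 4) F) = Matrix.transvection 0 1 1 := rfl
  refine ⟨x, ?_, ?_, ?_, ?_⟩
  · rw [mem_sl, hx, Matrix.det_transvection_of_ne _ _ h01]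
  · apply Units.ext
    rw [Units.val_pow_eq_pow_val, hx, Units.val_one]
    have hk : ∀ k : ℕ, (Matrix.transvection (0 : Fin 4) 1 (1 : F)) ^ k = Matrix.transvection 0 1 (k : F) := by
      intro k
      induction k with
      | zero => simp
      | succ k ih => rw [pow_succ, ih, Matrix.transvection_mul_transvection_same _ _ h01, Nat.cast_succ]
    rw [hk, CharP.cast_eq_zero, Matrix.transvection_zero]
  · intro z hz
    have h1 := congrFun (congrFun hz 0) 1
    rw [hx] at h1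
    simp [Matrix.transvection] at h1
  · have : LinearMap.range (Matrix.toLin' (x : Matrix (Fin 4) (Fin 4) F) - 1) ≤ Submodule.span F {(Pi.single 0 1 : Fin 4 → F)} := by
      rintro _ ⟨v, rfl⟩
      have h1 : (Matrix.toLin' (x : Matrix (Fin 4) (Fin 4) F) - 1) v = v 1 • (Pi.single 0 1 : Fin 4 → F) := by
        show (x : Matrix (Fin 4) (Fin 4) F) *ᵥ v - v = _
        rw [hx, Matrix.transvection, Matrix.add_mulVec, Matrix.one_mulVec, add_sub_cancel_left]
        ext i
        rw [Matrix.mulVec, dotProduct]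
        fin_cases i <;> simp [Fin.sum_univ_four, Matrix.single]
      rw [h1]
      exact Submodule.smul_mem _ _ (Submodule.mem_span_singleton_self _)
    exact (Submodule.finrank_mono this).trans (finrank_span_singleton (by
      intro h
      have := congrFun h 0
      simp at this)).le

theorem exists_diag {ω : F} (hω : ω ^ 3 = 1) (hω1 : ω ≠ 1) :
    ∃ x ∈ Cfsg.Geo.specialLinear (Fin 4) F, x ^ 3 = 1 ∧ (∀ z : F, (x : Matrix (Fin 4) (Fin 4) F) ≠ z • 1) ∧
      (x : Matrix (Fin 4) (Fin 4) F) = Matrix.diagonal ![ω, ω, ω, 1] ∧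
      (x : Matrix (Fin 4) (Fin 4) F).trace * ((x⁻¹ : GL (Fin 4) F) : Matrix (Fin 4) (Fin 4) F).trace = 7 := by
  have hω3 : ω * (ω * ω) = 1 := by rw [← hω]; ring
  have hmul : (Matrix.diagonal ![ω, ω, ω, 1] : Matrix (Fin 4) (Fin 4) F) * Matrix.diagonal ![ω * ω, ω * ω, ω * ω, 1] = 1 := by
    rw [Matrix.diagonal_mul_diagonal, ← Matrix.diagonal_one]
    congr 1
    ext i
    fin_cases i <;> simp [hω3]
  let x : GL (Fin 4) F := ⟨Matrix.diagonal ![ω, ω, ω, 1], Matrix.diagonal ![ω * ω, ω * ω, ω * ω, 1], hmul, mul_eq_one_comm.1 hmul⟩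
  have hx : (x : Matrix (Fin 4) (Fin 4) F) = Matrix.diagonal ![ω, ω, ω, 1] := rfl
  have hxi : ((x⁻¹ : GL (Fin 4) F) : Matrix (Fin 4) (Fin 4) F) = Matrix.diagonal ![ω * ω, ω * ω, ω * ω, 1] := rfl
  refine ⟨x, ?_, ?_, ?_, hx, ?_⟩
  · rw [mem_sl, hx, Matrix.det_diagonal, Fin.prod_univ_four]
    simp
    rw [← hω]; ring
  · apply Units.ext
    rw [Units.val_pow_eq_pow_val, hx, Matrix.diagonal_pow, Units.val_one, ← Matrix.diagonal_one]
    congr 1
    ext i
    fin_cases i <;> simp [hω]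
  · intro z hz
    rw [hx] at hz
    have h1 := congrFun (congrFun hz 3) 3
    have h2 := congrFun (congrFun hz 0) 0
    simp at h1 h2
    apply hω1
    rw [h2, ← h1]
  · rw [hx, hxi, Matrix.trace_diagonal, Matrix.trace_diagonal, Fin.sum_univ_four, Fin.sum_univ_four]
    simp
    have h0 : ω ^ 2 + ω + 1 = 0 := by
      have : (ω - 1) * (ω ^ 2 + ω + 1) = 0 := by linear_combination hω
      exact (mul_eq_zero.1 this).resolve_left (sub_ne_zero.2 hω1)
    linear_combination (9 * ω ) * h0 - 9 * h0 + 3 * h0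

theorem trace_conj {ι : Type} [Fintype ι] [DecidableEq ι] (g x : GL ι F) :
    ((g⁻¹ * x * g : GL ι F) : Matrix ι ι F).trace = (x : Matrix ι ι F).trace := by
  rw [Units.val_mul, Units.val_mul, Matrix.trace_mul_comm, ← Matrix.mul_assoc, ← Units.val_mul, mul_inv_cancel, Units.val_one, Matrix.one_mul]

/-- from an intertwining matrix of determinant one -/
theorem conj_of_P {x y : GL (Fin 4) F} {P : Matrix (Fin 4) (Fin 4) F} (hP : P.det = 1) (h : (x : Matrix (Fin 4) (Fin 4) F) * P = P * y) :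
    ∃ g ∈ Cfsg.Geo.specialLinear (Fin 4) F, g⁻¹ * x * g = y := by
  let g : GL (Fin 4) F := Matrix.GeneralLinearGroup.mkOfDetNeZero P (by rw [hP]; exact one_ne_zero)
  refine ⟨g, mem_sl.2 hP, ?_⟩
  rw [mul_assoc, inv_mul_eq_iff_eq_mul]
  exact Units.ext h

end H99.SL4
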