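import Mathlib
import Cfsg.Agent.Lib.H97.AschNil
import Cfsg.Agent.Lib.H96.AschSympType3
import Cfsg.Agent.Lib.H99.NormFix

set_option autoImplicit false
set_option linter.unusedSimpArgs false
set_option linter.unusedSectionVars false
set_option linter.unusedVariables false

/-! 2-groups of symplectic type in dimension four. -/

namespace H99.ST

open Matrix Cfsg Cfsg.Geo Module H96.AschSympType1 H96.AschSympType2 H97.AschNonab H97.AschNil

variable {ι : Type} [Fintype ι] [DecidableEq ι] {F : Type*} [Field F]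

structure Dat (R : Subgroup (GL ι F)) : Prop where
  h2 : (2 : F) ≠ 0
  card : Fintype.card ι = 4
  full : ∀ M : Matrix ι ι F, (∀ x ∈ R, M * (x : Matrix ι ι F) = x * M) → ∃ c : F, M = c • (1 : Matrix ι ι F)
  sgn : ∀ x ∈ R, ∀ y ∈ R, (x : Matrix ι ι F) * y = y * x ∨ (x : Matrix ι ι F) * y = -(y * x)
  sq : ∀ x ∈ R, (x : Matrix ι ι F) * x = 1 ∨ (x : Matrix ι ι F) * x = -1
  neg : (-1 : GL ι F) ∈ R
  quot : Nat.card (R ⧸ (scalars ι F).subgroupOf R) = 16

theorem mem_scalars_iff [Nonempty ι] {x : GL ι F} : x ∈ scalars ι F ↔ ∃ c : F, (x : Matrix ι ι F) = c • (1 : Matrix ι ι F) := by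
  constructor
  · intro hx
    obtain ⟨c, hc⟩ := mem_scalars_sc.1 hx
    exact ⟨c, by rw [← hc, sc_val]⟩
  · rintro ⟨c, hc⟩
    have := mem_scalars_of_algebraMap (g := x) (c := c) (by rw [hc, Algebra.algebraMap_eq_smul_one])
    exact this

theorem mk [Finite F] [Nonempty ι] {R : Subgroup (GL ι F)} (hR : IsSymplecticTypeGroup 2 R) (hRi : ActsAbsolutelyIrreducibly (matrixSet R))
    (h2 : (2 : F) ≠ 0) (hcard : Fintype.card ι = 4) : Dat R := by
  have hfull := full_of_absIrr hRi
  have hnil := nil2_of_type hR hfull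
  have hexp : ∀ x ∈ R, x ^ 4 = 1 := by
    intro x hx
    have h1 := Monoid.pow_exponent_eq_one (⟨x, hx⟩ : R)
    rw [hR.exponent_eq] at h1
    exact congrArg Subtype.val h1
  have hinj : ∀ c : Fˣ, sc ι c = 1 → c = 1 := fun c h => sc_injective (by rw [h, map_one])
  have hcomm : ∀ x ∈ R, ∀ y ∈ R, ∃ c : Fˣ, c * c = 1 ∧ x * y = sc ι c * (y * x) := by
    intro x hx y hy
    obtain ⟨c, hc⟩ := mem_scalars_sc.1 (hnil x hx y hy)
    have h1 : x * y = sc ι c * (y * x) := by rw [hc]; group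
    refine ⟨c, ?_, h1⟩
    have h3 := comm_pow h1 4
    rw [hexp x hx, one_mul, mul_one] at h3
    have h4 : c ^ 4 = 1 := hinj _ (mul_eq_right.1 h3.symm)
    have h5 := mul_pow_comm h1 4
    rw [hexp x hx, hexp y hy, hexp (x * y) (R.mul_mem hx hy), mul_one, mul_one] at h5
    have h6 : c ^ 6 = 1 := hinj _ h5.symm
    have h7 : c ^ 2 = 1 := by
      have : c ^ 6 = c ^ 4 * c ^ 2 := by rw [← pow_add]
      rw [this, h4, one_mul] at h6
      exact h6
    rw [← pow_two]; exact h7
  have hcu : ∀ c : Fˣ, c * c = 1 → c = 1 ∨ c = -1 := by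
    intro c hc
    have : (c : F) * c = 1 := by rw [← Units.val_mul, hc, Units.val_one]
    rcases mul_self_eq_one_iff.1 this with h | h
    · left; exact Units.ext h
    · right; exact Units.ext (by rw [Units.val_neg, Units.val_one]; exact h)
  have hsgn : ∀ x ∈ R, ∀ y ∈ R, (x : Matrix ι ι F) * y = y * x ∨ (x : Matrix ι ι F) * y = -(y * x) := by
    intro x hx y hy
    obtain ⟨c, hc, h⟩ := hcomm x hx y hy
    have h' := congrArg Units.val h
    rw [Units.val_mul, Units.val_mul, Units.val_mul, sc_val, Matrix.smul_mul, Matrix.one_mul] at h'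
    rcases hcu c hc with rfl | rfl
    · left; rw [h', Units.val_one, one_smul]
    · right; rw [h', Units.val_neg, Units.val_one, neg_smul, one_smul]
  refine ⟨h2, hcard, ?_, hsgn, ?_, ?_, ?_⟩
  · intro M hM
    exact hRi.2 M (by rintro _ ⟨x, hx, rfl⟩; exact hM x hx)
  · intro x hx
    have hcen : x * x ∈ scalars ι F := by
      apply scalar_of_full_comm hfull
      intro y hy
      obtain ⟨c, hc, h⟩ := hcomm x hx y hy
      have := comm_pow h 2
      rw [pow_two, pow_two, hc, map_one, one_mul] at this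
      exact this
    obtain ⟨c, hc⟩ := mem_scalars_sc.1 hcen
    have hc4 : c * c = 1 := by
      apply hinj
      rw [map_mul, hc, ← hexp x hx, mul_assoc, ← pow_two, ← pow_succ', ← pow_succ']
    have h' := congrArg Units.val hc
    rw [Units.val_mul, sc_val] at h'
    rcases hcu c hc4 with rfl | rfl
    · left; rw [← h', Units.val_one, one_smul]
    · right; rw [← h', Units.val_neg, Units.val_one, neg_smul, one_smul]
  · have h3 := not_comm_of_full (by omega) hfull
    push Not at h3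
    obtain ⟨x, hx, y, hy, hxy⟩ := h3
    have h4 : x * y = -(y * x) := by
      rcases hsgn x hx y hy with h | h
      · exact absurd (Units.ext h) hxy
      · exact Units.ext h
    have h5 : (-1 : GL ι F) = x * y * x⁻¹ * y⁻¹ := by
      rw [h4]
      rw [neg_mul, neg_mul]; group
    rw [h5]
    exact R.mul_mem (R.mul_mem (R.mul_mem hx hy) (R.inv_mem hx)) (R.inv_mem hy)
  · rw [card_quot hnil hfull, hcard]; norm_num

namespace Dat

variable {R : Subgroup (GL ι F)} (D : Dat R)

include D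

theorem ne : Nonempty ι := Fintype.card_pos_iff.1 (by rw [D.card]; norm_num)

theorem scalar_of_comm {x : GL ι F} (hx : ∀ y ∈ R, x * y = y * x) : x ∈ scalars ι F := by
  have := D.ne
  obtain ⟨c, hc⟩ := D.full (x : Matrix ι ι F) (fun y hy => by
    rw [← Units.val_mul, ← Units.val_mul, hx y hy])
  exact mem_scalars_iff.2 ⟨c, hc⟩

theorem neg_one_ne : (-1 : Matrix ι ι F) ≠ 1 := by
  have := D.ne
  intro h
  obtain ⟨i⟩ := D.ne
  have h1 := congrFun (congrFun h i) i
  rw [Matrix.neg_apply, Matrix.one_apply_eq] at h1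
  apply D.h2
  linear_combination -h1

/-- noncentral elements anticommute with something -/
theorem exists_anti {x : GL ι F} (hx : x ∈ R) (hxs : x ∉ scalars ι F) : ∃ y ∈ R, (x : Matrix ι ι F) * y = -(y * x) := by
  by_contra h
  push Not at h
  apply hxs
  apply D.scalar_of_comm
  intro y hy
  rcases D.sgn x hx y hy with h1 | h1
  · exact Units.ext h1
  · exact absurd h1 (h y hy)

theorem tr_zero {x : GL ι F} (hx : x ∈ R) (hxs : x ∉ scalars ι F) : (x : Matrix ι ι F).trace = 0 := by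
  obtain ⟨y, hy, hxy⟩ := D.exists_anti hx hxs
  have h1 : (x : Matrix ι ι F) = -((y : Matrix ι ι F) * x * ((y⁻¹ : GL ι F) : Matrix ι ι F)) := by
    rw [← Matrix.neg_mul, ← hxy, Matrix.mul_assoc, ← Units.val_mul, mul_inv_cancel, Units.val_one, Matrix.mul_one]
  have h2 : (x : Matrix ι ι F).trace = -(x : Matrix ι ι F).trace := by
    conv_lhs => rw [h1]
    rw [Matrix.trace_neg, Matrix.trace_mul_comm, ← Matrix.mul_assoc, ← Units.val_mul, inv_mul_cancel, Units.val_one, Matrix.one_mul]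
  have h3 : (2 : F) * (x : Matrix ι ι F).trace = 0 := by linear_combination h2
  exact (mul_eq_zero.1 h3).resolve_left D.h2

theorem pow_four {x : GL ι F} (hx : x ∈ R) : x ^ 4 = 1 := by
  apply Units.ext
  have h1 : (x ^ 4 : GL ι F) = (x * x) * (x * x) := by
    rw [← pow_two, ← pow_two, ← pow_mul]
  rw [h1, Units.val_mul, Units.val_mul]
  rcases D.sq x hx with h | h <;> rw [h] <;> simp

theorem two_pow [Finite R] : ∃ n, Nat.card R = 2 ^ n := by
  have : Fact (Nat.Prime 2) := ⟨Nat.prime_two⟩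
  apply IsPGroup.iff_card.1
  intro x
  refine ⟨2, ?_⟩
  apply Subtype.ext
  exact D.pow_four x.2

theorem card_ne_zero [Finite R] : (Nat.card R : F) ≠ 0 := by
  obtain ⟨n, hn⟩ := D.two_pow
  rw [hn]
  push_cast
  exact pow_ne_zero _ D.h2

/-- averaging -/
theorem avg [Fintype R] (M : Matrix ι ι F) : ∃ c : F, ∑ g : R, ((g : GL ι F) : Matrix ι ι F) * M * (((g : GL ι F)⁻¹ : GL ι F) : Matrix ι ι F) = c • (1 : Matrix ι ι F) ∧
    4 * c = Fintype.card R * M.trace := by
  obtain ⟨c, hc⟩ := D.full (∑ g : R, ((g : GL ι F) : Matrix ι ι F) * M * (((g : GL ι F)⁻¹ : GL ι F) : Matrix ι ι F)) (by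
    intro x hx
    rw [Finset.sum_mul, Finset.mul_sum]
    refine Fintype.sum_equiv (Equiv.mulLeft (⟨x, hx⟩ : R)⁻¹) _ _ ?_
    intro g
    show _ = (x : Matrix ι ι F) * (((x⁻¹ * g : GL ι F) : Matrix ι ι F) * M * (((x⁻¹ * g : GL ι F)⁻¹ : GL ι F) : Matrix ι ι F))
    have e1 : ((x⁻¹ * g : GL ι F)⁻¹ : GL ι F) = (g : GL ι F)⁻¹ * x := by group
    rw [e1, Units.val_mul, Units.val_mul]
    have e2 : (x : Matrix ι ι F) * ((x⁻¹ : GL ι F) : Matrix ι ι F) = 1 := by rw [← Units.val_mul, mul_inv_cancel, Units.val_one]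
    calc _ = ((x : Matrix ι ι F) * ((x⁻¹ : GL ι F) : Matrix ι ι F)) * (((g : GL ι F) : Matrix ι ι F) * M * (((g : GL ι F)⁻¹ : GL ι F) : Matrix ι ι F) * x) := by
          rw [e2, Matrix.one_mul]
      _ = _ := by simp only [Matrix.mul_assoc])
  refine ⟨c, hc, ?_⟩
  have h1 := congrArg Matrix.trace hc
  rw [Matrix.trace_sum, Matrix.trace_smul, Matrix.trace_one, D.card] at h1
  have h2 : ∀ g : R, (((g : GL ι F) : Matrix ι ι F) * M * (((g : GL ι F)⁻¹ : GL ι F) : Matrix ι ι F)).trace = M.trace := by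
    intro g
    rw [Matrix.trace_mul_comm, ← Matrix.mul_assoc, ← Units.val_mul, inv_mul_cancel, Units.val_one, Matrix.one_mul]
  rw [Finset.sum_congr rfl (fun g _ => h2 g), Finset.sum_const, Finset.card_univ, nsmul_eq_mul, smul_eq_mul] at h1
  rw [h1]
  push_cast
  ring

theorem scalar_comm {y g : GL ι F} (hy : y ∈ subgroupNormalizer R) {r : ℕ} (hr : Odd r) (hyr : y ^ r = 1) (hg : g ∈ R)
    (hs : g * y * g⁻¹ * y⁻¹ ∈ scalars ι F) : y * g = g * y := by
  have hne := D.ne
  obtain ⟨c, hc⟩ := mem_scalars_sc.1 hs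
  have h1 : g * y = sc ι c * (y * g) := by rw [hc]; group
  have hgm : g * y * g⁻¹ * y⁻¹ ∈ R := by
    have h2 : y * g⁻¹ * y⁻¹ ∈ R := ((Subgroup.mem_normalizer_iff.1 hy) g⁻¹).1 (R.inv_mem hg)
    have h3 : g * y * g⁻¹ * y⁻¹ = g * (y * g⁻¹ * y⁻¹) := by group
    rw [h3]; exact R.mul_mem hg h2
  have h4 : c ^ 4 = 1 := by
    apply sc_injective (ι := ι) (F := F)
    rw [map_pow, hc, D.pow_four hgm, map_one]
  -- c ^ r = 1
  have h5 : c ^ r = 1 := by
    have hk : ∀ k : ℕ, g * y ^ k = sc ι (c ^ k) * (y ^ k * g) := by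
      intro k
      induction k with
      | zero => simp
      | succ k ih =>
        rw [pow_succ, ← mul_assoc, ih, pow_succ, map_mul, mul_assoc, mul_assoc, h1]
        rw [mul_assoc (sc ι (c ^ k)) (sc ι c)]
        congr 1
        rw [← mul_assoc (y ^ k) (sc ι c), ← sc_comm, mul_assoc, mul_assoc]
    have h6 := hk r
    rw [hyr, mul_one, one_mul] at h6
    apply sc_injective (ι := ι) (F := F)
    rw [map_one]
    exact (mul_eq_right.1 h6.symm)
  have h6 : c = 1 := by
    have h7 : orderOf c ∣ 4 := orderOf_dvd_of_pow_eq_one h4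
    have h8 : orderOf c ∣ r := orderOf_dvd_of_pow_eq_one h5
    have h9 : Nat.Coprime 4 r := by
      have : Nat.Coprime (2 ^ 2) r := Nat.Coprime.pow_left 2 ((Nat.coprime_two_left).2 hr)
      exact this
    have := Nat.dvd_gcd h7 h8
    rw [h9] at this
    exact orderOf_eq_one_iff.1 (Nat.dvd_one.1 this)
  rw [h6, map_one, one_mul] at h1
  exact h1.symm

theorem trace_formula [Finite R] {y : GL ι F} (hy : y ∈ subgroupNormalizer R) {r : ℕ} (hr : Odd r) (hyr : y ^ r = 1) :
    (Nat.card R : F) * ((y : Matrix ι ι F).trace * ((y⁻¹ : GL ι F) : Matrix ι ι F).trace) =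
      16 * (Nat.card (R ⊓ Subgroup.centralizer {y} : Subgroup (GL ι F)) : F) := by
  classical
  have hfR : Fintype R := Fintype.ofFinite R
  have hne := D.ne
  obtain ⟨c, hc, h4c⟩ := D.avg (y : Matrix ι ι F)
  have h1 := congrArg (fun M => (M * ((y⁻¹ : GL ι F) : Matrix ι ι F)).trace) hc
  simp only [Finset.sum_mul, Matrix.trace_sum, Matrix.smul_mul, Matrix.one_mul, Matrix.trace_smul, smul_eq_mul] at h1
  have h2 : ∀ g : R, (((g : GL ι F) : Matrix ι ι F) * (y : Matrix ι ι F) * (((g : GL ι F)⁻¹ : GL ι F) : Matrix ι ι F) * ((y⁻¹ : GL ι F) : Matrix ι ι F)).trace =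
      if y * (g : GL ι F) = g * y then (4 : F) else 0 := by
    intro g
    rw [← Units.val_mul, ← Units.val_mul, ← Units.val_mul]
    split_ifs with h
    · have : (g : GL ι F) * y * (g : GL ι F)⁻¹ * y⁻¹ = 1 := by rw [← h]; group
      rw [this, Units.val_one, Matrix.trace_one, D.card]; norm_num
    · apply D.tr_zero
      · have h2 : y * (g : GL ι F)⁻¹ * y⁻¹ ∈ R := ((Subgroup.mem_normalizer_iff.1 hy) (g : GL ι F)⁻¹).1 (R.inv_mem g.2)
        have h3 : (g : GL ι F) * y * (g : GL ι F)⁻¹ * y⁻¹ = g * (y * (g : GL ι F)⁻¹ * y⁻¹) := by group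
        rw [h3]; exact R.mul_mem g.2 h2
      · intro hs
        exact h (D.scalar_comm hy hr hyr g.2 hs)
  rw [Finset.sum_congr rfl (fun g _ => h2 g), ← Finset.sum_filter, Finset.sum_const, nsmul_eq_mul] at h1
  have h3 : (Finset.univ.filter (fun g : R => y * (g : GL ι F) = g * y)).card = Nat.card (R ⊓ Subgroup.centralizer {y} : Subgroup (GL ι F)) := by
    rw [← Fintype.card_subtype, ← Nat.card_eq_fintype_card]
    apply Nat.card_congr
    have hcz : ∀ n : GL ι F, n ∈ Subgroup.centralizer ({y} : Set (GL ι F)) ↔ y * n = n * y := by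
      intro n
      rw [Subgroup.mem_centralizer_iff]
      simp
    exact
      { toFun := fun g => ⟨(g.1 : GL ι F), Subgroup.mem_inf.2 ⟨g.1.2, (hcz _).2 g.2⟩⟩
        invFun := fun g => ⟨⟨(g : GL ι F), (Subgroup.mem_inf.1 g.2).1⟩, (hcz _).1 (Subgroup.mem_inf.1 g.2).2⟩
        left_inv := fun g => rfl
        right_inv := fun g => rfl }
  rw [h3] at h1
  rw [Nat.card_eq_fintype_card]
  linear_combination (-((y⁻¹ : GL ι F) : Matrix ι ι F).trace) * h4c - 4 * h1

/-- nondegeneracy of the centralizer -/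
theorem nondeg {y t : GL ι F} (hy : y ∈ subgroupNormalizer R) {r : ℕ} (hr : Odd r) (hyr : y ^ r = 1) (ht : t ∈ R)
    (hts : t ∉ scalars ι F) (hyt : y * t = t * y) : ∃ u ∈ R, y * u = u * y ∧ t * u = -(u * t) := by
  obtain ⟨g, hg, htg⟩ := D.exists_anti ht hts
  have htg' : t * g = -(g * t) := Units.ext htg
  have hmem : ∀ k : ℕ, (g * y) ^ k * (y ^ k)⁻¹ ∈ R := by
    intro k
    induction k with
    | zero => rw [pow_zero, pow_zero, inv_one, mul_one]; exact R.one_mem
    | succ k ih =>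
      have h1 : (g * y) ^ (k + 1) * (y ^ (k + 1))⁻¹ = ((g * y) ^ k * (y ^ k)⁻¹) * (y ^ k * g * (y ^ k)⁻¹) := by
        rw [pow_succ, pow_succ]; group
      rw [h1]
      exact R.mul_mem ih (((Subgroup.mem_normalizer_iff.1 (Subgroup.pow_mem _ hy k)) g).1 hg)
  have huR : (g * y) ^ r ∈ R := by
    have := hmem r
    rwa [hyr, inv_one, mul_one] at this
  refine ⟨(g * y) ^ r, huR, ?_, ?_⟩
  · have h1 : (g * y) * (g * y) ^ r = (g * y) ^ r * (g * y) := by rw [← pow_succ, ← pow_succ']
    set u := (g * y) ^ r with hu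
    have h2 : y * u = g⁻¹ * u * g * y := by
      have : y * u = g⁻¹ * ((g * y) * u) := by group
      rw [this, h1]; group
    rcases D.sgn u huR g hg with h3 | h3
    · have h4 : u * g = g * u := Units.ext h3
      rw [h2, mul_assoc g⁻¹, h4]; group
    · have h4 : u * g = -(g * u) := Units.ext h3
      have h5 : y * u = -(u * y) := by
        rw [h2, mul_assoc g⁻¹, h4]
        rw [mul_neg, neg_mul]
        congr 1
        group
      -- odd order
      have hk : ∀ k : ℕ, y ^ k * u = (-1) ^ k * (u * y ^ k) := by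
        intro k
        induction k with
        | zero => simp
        | succ k ih =>
          rw [pow_succ', mul_assoc, ih, pow_succ' (-1 : GL ι F)]
          have e1 : y * ((-1 : GL ι F) ^ k * (u * y ^ k)) = (-1) ^ k * (y * u * y ^ k) := by
            rcases neg_one_pow_eq_or (GL ι F) k with h | h <;> rw [h]
            · rw [one_mul, one_mul, mul_assoc]
            · rw [neg_one_mul, neg_one_mul, mul_neg, mul_assoc]
          rw [e1, h5]
          rcases neg_one_pow_eq_or (GL ι F) k with h | h <;> rw [h] <;> simp [mul_assoc]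
      have h6 := hk r
      rw [hyr, one_mul, mul_one, hr.neg_one_pow, neg_one_mul] at h6
      -- u = -u
      exfalso
      obtain ⟨i⟩ := D.ne
      have h7 : (u : Matrix ι ι F) = -u := by
        have := congrArg Units.val h6
        rwa [Units.val_neg] at this
      have h8 : (u : Matrix ι ι F) = 0 := by
        have h9 : (2 : F) • (u : Matrix ι ι F) = 0 := by
          rw [two_smul]; nth_rewrite 1 [h7]; exact neg_add_cancel _
        exact (smul_eq_zero.1 h9).resolve_left D.h2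
      have h10 : (u : Matrix ι ι F) * ((u⁻¹ : GL ι F) : Matrix ι ι F) = 1 := by rw [← Units.val_mul, mul_inv_cancel, Units.val_one]
      rw [h8, Matrix.zero_mul] at h10
      have := congrFun (congrFun h10 i) i
      rw [Matrix.one_apply_eq] at this
      exact zero_ne_one this
  · have h1 : t * (g * y) = -((g * y) * t) := by
      rw [← mul_assoc, htg', neg_mul, mul_assoc, mul_assoc, hyt]
    have hk : ∀ k : ℕ, t * (g * y) ^ k = (-1) ^ k * ((g * y) ^ k * t) := by
      intro k
      induction k with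
      | zero => simp
      | succ k ih =>
        rw [pow_succ (g * y), ← mul_assoc, ih, pow_succ (-1 : GL ι F)]
        have e1 : (-1 : GL ι F) ^ k * ((g * y) ^ k * t) * (g * y) = (-1) ^ k * ((g * y) ^ k * (t * (g * y))) := by
          simp only [mul_assoc]
        rw [e1, h1]
        rcases neg_one_pow_eq_or (GL ι F) k with h | h <;> rw [h] <;> simp [mul_assoc]
    rw [hk, hr.neg_one_pow, neg_one_mul]

theorem card_R [Finite R] : Nat.card R = 16 * Nat.card ((scalars ι F).subgroupOf R) := by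
  rw [← D.quot]
  exact Subgroup.card_eq_card_quotient_mul_card_subgroup _

/-- the possible elements of odd prime order -/
theorem main [Finite R] {y : GL ι F} (hy : y ∈ subgroupNormalizer R) {r : ℕ} [hrf : Fact r.Prime] (hr2 : r ≠ 2) (hyr : y ^ r = 1) :
    y ∈ scalars ι F ∨
    ((y : Matrix ι ι F).trace * ((y⁻¹ : GL ι F) : Matrix ι ι F).trace = 1 ∧ (r = 3 ∨ r = 5) ∧ (∀ t ∈ R, y * t = t * y → t ∈ scalars ι F)) ∨
    ((y : Matrix ι ι F).trace * ((y⁻¹ : GL ι F) : Matrix ι ι F).trace = 4 ∧ r = 3 ∧ ∃ t ∈ R, t ∉ scalars ι F ∧ y * t = t * y) := by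
  have hr : r.Prime := hrf.out
  have hodd := hr.odd_of_ne_two hr2
  have hcz : ∀ n : GL ι F, n ∈ Subgroup.centralizer ({y} : Set (GL ι F)) ↔ y * n = n * y := by
    intro n
    rw [Subgroup.mem_centralizer_iff]
    simp
  set C := R ⊓ Subgroup.centralizer {y} with hC
  have hmC : Nat.card C = Nat.card (C.subgroupOf R) := (Nat.card_congr (Subgroup.subgroupOfEquivOfLe (inf_le_left : C ≤ R)).toEquiv).symm
  have hZC : (scalars ι F).subgroupOf R ≤ C.subgroupOf R := by
    intro x hx
    rw [Subgroup.mem_subgroupOf] at hx ⊢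
    exact Subgroup.mem_inf.2 ⟨x.2, (hcz _).2 (scalars_comm hx y).symm⟩
  obtain ⟨f, hf⟩ := Subgroup.card_dvd_of_le hZC
  have hcR := D.card_R
  set z := Nat.card ((scalars ι F).subgroupOf R) with hz
  have hz0 : 0 < z := Nat.card_pos
  have h16 : f ∣ 16 := by
    have h1 := Subgroup.card_subgroup_dvd_card (C.subgroupOf R)
    rw [hf, hcR, mul_comm 16] at h1
    exact Nat.dvd_of_mul_dvd_mul_left hz0 h1
  have hrR : ¬ r ∣ Nat.card R := by
    obtain ⟨n, hn⟩ := D.two_pow
    rw [hn]
    intro h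
    exact hr2 ((Nat.prime_dvd_prime_iff_eq hr Nat.prime_two).1 (hr.dvd_of_dvd_pow h))
  have hrz : ¬ r ∣ z := fun h => hrR (h.trans ⟨16, by rw [hcR]; ring⟩)
  have hmod := NormFix.card_modEq R y hy r hyr
  rw [← hC, hmC, hf, hcR] at hmod
  have hfle : f ≤ 16 := Nat.le_of_dvd (by norm_num) h16
  have hr16 : r ∣ 16 - f := by
    have h1 : z * f ≤ 16 * z := by rw [mul_comm 16]; exact Nat.mul_le_mul_left _ hfle
    have h2 := (Nat.modEq_iff_dvd' h1).1 hmod.symm
    have h3 : 16 * z - z * f = z * (16 - f) := by rw [Nat.mul_sub, mul_comm 16]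
    rw [h3] at h2
    exact (hr.dvd_mul.1 h2).resolve_left hrz
  have htr := D.trace_formula hy hodd hyr
  rw [← hC, hmC, hf, hcR] at htr
  have hzF : (z : F) ≠ 0 := by
    intro h
    apply D.card_ne_zero
    rw [hcR]
    push_cast
    rw [h, mul_zero]
  have h16F : (16 : F) ≠ 0 := by
    have : (16 : F) = 2 ^ 4 := by norm_num
    rw [this]
    exact pow_ne_zero _ D.h2
  have htr' : (y : Matrix ι ι F).trace * ((y⁻¹ : GL ι F) : Matrix ι ι F).trace = f := by
    rw [Nat.cast_mul, Nat.cast_mul, Nat.cast_ofNat] at htr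
    apply mul_left_cancel₀ (mul_ne_zero h16F hzF)
    linear_combination htr
  have hf5 : f = 1 ∨ f = 2 ∨ f = 4 ∨ f = 8 ∨ f = 16 := by
    have : f ∈ Nat.divisors 16 := Nat.mem_divisors.2 ⟨h16, by norm_num⟩
    have h16d : Nat.divisors 16 = {1, 2, 4, 8, 16} := by decide
    rw [h16d] at this
    simpa using this
  have hne : (C.subgroupOf R) ≠ (scalars ι F).subgroupOf R → ∃ t ∈ R, t ∉ scalars ι F ∧ y * t = t * y := by
    intro hne
    by_contra hcon
    push Not at hcon
    apply hne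
    apply le_antisymm _ hZC
    intro x hx
    rw [Subgroup.mem_subgroupOf] at hx ⊢
    by_contra hxs
    exact hcon x x.2 hxs ((hcz _).1 (Subgroup.mem_inf.1 hx).2)
  rcases hf5 with rfl | rfl | rfl | rfl | rfl
  · right; left
    refine ⟨by rw [htr']; norm_num, ?_, ?_⟩
    · have h1 : r ∣ 3 * 5 := hr16
      rcases hr.dvd_mul.1 h1 with h | h
      · left; exact (Nat.prime_dvd_prime_iff_eq hr Nat.prime_three).1 h
      · right; exact (Nat.prime_dvd_prime_iff_eq hr Nat.prime_five).1 h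
    · intro t ht hyt
      have heq : (scalars ι F).subgroupOf R = C.subgroupOf R := by
        apply Subgroup.eq_of_le_of_card_ge hZC
        rw [hf, mul_one]
      have : (⟨t, ht⟩ : R) ∈ C.subgroupOf R := by
        rw [Subgroup.mem_subgroupOf]
        exact Subgroup.mem_inf.2 ⟨ht, (hcz _).2 hyt⟩
      rw [← heq, Subgroup.mem_subgroupOf] at this
      exact this
  · exfalso
    have hne' : (C.subgroupOf R) ≠ (scalars ι F).subgroupOf R := by
      intro h
      rw [h, ← hz] at hf
      omega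
    obtain ⟨t, ht, hts, hyt⟩ := hne hne'
    obtain ⟨u, hu, hyu, htu⟩ := D.nondeg hy hodd hyr ht hts hyt
    have hidx : (((scalars ι F).subgroupOf R).subgroupOf (C.subgroupOf R)).index = 2 := by
      have h1 := Subgroup.card_mul_index (((scalars ι F).subgroupOf R).subgroupOf (C.subgroupOf R))
      have h2 : Nat.card (((scalars ι F).subgroupOf R).subgroupOf (C.subgroupOf R)) = z :=
        Nat.card_congr (Subgroup.subgroupOfEquivOfLe hZC).toEquiv
      rw [h2, hf] at h1
      exact Nat.eq_of_mul_eq_mul_left hz0 h1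
    let t' : C.subgroupOf R := ⟨⟨t, ht⟩, by rw [Subgroup.mem_subgroupOf]; exact Subgroup.mem_inf.2 ⟨ht, (hcz _).2 hyt⟩⟩
    let u' : C.subgroupOf R := ⟨⟨u, hu⟩, by rw [Subgroup.mem_subgroupOf]; exact Subgroup.mem_inf.2 ⟨hu, (hcz _).2 hyu⟩⟩
    have hneg : ∀ w : GL ι F, w = -w → False := by
      intro w hw
      obtain ⟨i⟩ := D.ne
      have h7 : (w : Matrix ι ι F) = -w := by
        have := congrArg Units.val hw
        rwa [Units.val_neg] at this
      have h8 : (w : Matrix ι ι F) = 0 := by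
        have h9 : (2 : F) • (w : Matrix ι ι F) = 0 := by
          rw [two_smul]; nth_rewrite 1 [h7]; exact neg_add_cancel _
        exact (smul_eq_zero.1 h9).resolve_left D.h2
      have h10 : (w : Matrix ι ι F) * ((w⁻¹ : GL ι F) : Matrix ι ι F) = 1 := by rw [← Units.val_mul, mul_inv_cancel, Units.val_one]
      rw [h8, Matrix.zero_mul] at h10
      have := congrFun (congrFun h10 i) i
      rw [Matrix.one_apply_eq] at this
      exact zero_ne_one this
    have hus : u ∉ scalars ι F := by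
      intro h
      rw [scalars_comm h t] at htu
      exact hneg _ htu
    have h3 := (Subgroup.mul_mem_iff_of_index_two hidx (a := t') (b := u')).2 (by
      constructor
      · intro h
        exact absurd h hts
      · intro h
        exact absurd h hus)
    have h4 : t * u ∈ scalars ι F := h3
    have h5 := scalars_comm h4 t
    have h6 : u * t = t * u := by
      have : t * (u * t) = t * (t * u) := by rw [← mul_assoc]; exact h5
      exact mul_left_cancel this
    rw [h6] at htu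
    exact hneg _ htu
  · right; right
    refine ⟨by rw [htr']; norm_num, ?_, ?_⟩
    · have h1 : r ∣ 3 * 2 ^ 2 := hr16
      rcases hr.dvd_mul.1 h1 with h | h
      · exact (Nat.prime_dvd_prime_iff_eq hr Nat.prime_three).1 h
      · exact absurd ((Nat.prime_dvd_prime_iff_eq hr Nat.prime_two).1 (hr.dvd_of_dvd_pow h)) hr2
    · apply hne
      intro h
      rw [h, ← hz] at hf
      omega
  · exfalso
    have h1 : r ∣ 2 ^ 3 := hr16
    exact hr2 ((Nat.prime_dvd_prime_iff_eq hr Nat.prime_two).1 (hr.dvd_of_dvd_pow h1))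
  · left
    apply D.scalar_of_comm
    intro t ht
    have htop : C.subgroupOf R = ⊤ := by
      apply Subgroup.eq_top_of_card_eq
      rw [hf, hcR, mul_comm]
    have : (⟨t, ht⟩ : R) ∈ C.subgroupOf R := by rw [htop]; trivial
    rw [Subgroup.mem_subgroupOf] at this
    exact (hcz _).1 (Subgroup.mem_inf.1 this).2

theorem half {x : GL ι F} (hx : x ∈ R) (hxs : x ∉ scalars ι F) :
    finrank F (LinearMap.ker (Matrix.toLin' (x : Matrix ι ι F) - 1)) ≤ 2 := by
  obtain ⟨g, hg, hxg⟩ := D.exists_anti hx hxs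
  set K := LinearMap.ker (Matrix.toLin' (x : Matrix ι ι F) - 1) with hK
  have hKm : ∀ v, v ∈ K ↔ (x : Matrix ι ι F) *ᵥ v = v := by
    intro v
    rw [hK, LinearMap.mem_ker, LinearMap.sub_apply, sub_eq_zero]; rfl
  let K' := K.map (Matrix.toLin' (g : Matrix ι ι F))
  have hginj : Function.Injective (Matrix.toLin' (g : Matrix ι ι F)) := by
    intro u v h
    have h1 : ((g⁻¹ : GL ι F) : Matrix ι ι F) * (g : Matrix ι ι F) = 1 := by
      rw [← Units.val_mul, inv_mul_cancel, Units.val_one]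
    have h3 := congrArg (fun w => ((g⁻¹ : GL ι F) : Matrix ι ι F) *ᵥ w) h
    simp only [Matrix.toLin'_apply, Matrix.mulVec_mulVec, h1, Matrix.one_mulVec] at h3
    exact h3
  have hdim : finrank F K' = finrank F K := (LinearEquiv.finrank_eq (Submodule.equivMapOfInjective _ hginj K)).symm
  have hdisj : Disjoint K K' := by
    rw [Submodule.disjoint_def]
    rintro v hv ⟨w, hw, rfl⟩
    rw [hKm] at hv
    have hw' := (hKm w).1 hw
    have h1 : (x : Matrix ι ι F) *ᵥ ((g : Matrix ι ι F) *ᵥ w) = -((g : Matrix ι ι F) *ᵥ w) := by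
      rw [Matrix.mulVec_mulVec, hxg, Matrix.neg_mulVec, ← Matrix.mulVec_mulVec, hw']
    have h2 : (g : Matrix ι ι F) *ᵥ w = -((g : Matrix ι ι F) *ᵥ w) := by rw [← h1]; exact hv.symm
    have h3 : (2 : F) • ((g : Matrix ι ι F) *ᵥ w) = 0 := by
      rw [two_smul]; nth_rewrite 1 [h2]; exact neg_add_cancel _
    exact (smul_eq_zero.1 h3).resolve_left D.h2
  have h1 := Submodule.finrank_add_finrank_le_of_disjoint hdisj
  rw [hdim, Module.finrank_fintype_fun_eq_card, D.card] at h1
  omega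

/-- elements of odd prime order with a large fixed space are scalar -/
theorem trans {y : GL ι F} (hy : y ∈ subgroupNormalizer R) {r : ℕ} (hr : Odd r) (hyr : y ^ r = 1)
    (hrk : finrank F (LinearMap.range (Matrix.toLin' (y : Matrix ι ι F) - 1)) ≤ 1) : y ∈ scalars ι F := by
  have hne := D.ne
  apply D.scalar_of_comm
  by_contra hcon
  push Not at hcon
  obtain ⟨t, ht, hyt⟩ := hcon
  -- fixed space
  set H := LinearMap.ker (Matrix.toLin' (y : Matrix ι ι F) - 1) with hH
  have hHm : ∀ v, v ∈ H ↔ (y : Matrix ι ι F) *ᵥ v = v := by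
    intro v
    rw [hH, LinearMap.mem_ker, LinearMap.sub_apply, sub_eq_zero]; rfl
  have hHd : 3 ≤ finrank F H := by
    have h1 := LinearMap.finrank_range_add_finrank_ker (Matrix.toLin' (y : Matrix ι ι F) - 1)
    rw [Module.finrank_fintype_fun_eq_card, D.card, ← hH] at h1
    omega
  let H' := H.comap (Matrix.toLin' (t : Matrix ι ι F))
  have hmv : ∀ (a b : GL ι F) (v : ι → F), (a : Matrix ι ι F) *ᵥ ((b : Matrix ι ι F) *ᵥ v) = ((a * b : GL ι F) : Matrix ι ι F) *ᵥ v := by
    intro a b v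
    rw [Matrix.mulVec_mulVec, Units.val_mul]
  have hH'd : 3 ≤ finrank F H' := by
    have h1 : H ≤ H'.map (Matrix.toLin' (t : Matrix ι ι F)) := by
      intro v hv
      have e1 : (t : Matrix ι ι F) *ᵥ (((t⁻¹ : GL ι F) : Matrix ι ι F) *ᵥ v) = v := by
        rw [hmv, mul_inv_cancel, Units.val_one, Matrix.one_mulVec]
      refine ⟨((t⁻¹ : GL ι F) : Matrix ι ι F) *ᵥ v, ?_, e1⟩
      show (t : Matrix ι ι F) *ᵥ (((t⁻¹ : GL ι F) : Matrix ι ι F) *ᵥ v) ∈ H
      rw [e1]; exact hv
    exact hHd.trans ((Submodule.finrank_mono h1).trans (Submodule.finrank_map_le _ _))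
  set U := H ⊓ H' with hU
  have hUd : 2 ≤ finrank F U := by
    have h1 := Submodule.finrank_sup_add_finrank_inf_eq H H'
    have h2 := Submodule.finrank_le (H ⊔ H')
    rw [Module.finrank_fintype_fun_eq_card, D.card] at h2
    rw [← hU] at h1
    omega
  have hyinv : ∀ v, v ∈ H → ((y⁻¹ : GL ι F) : Matrix ι ι F) *ᵥ v = v := by
    intro v hv
    rw [hHm] at hv
    nth_rewrite 1 [← hv]
    rw [hmv, inv_mul_cancel, Units.val_one, Matrix.one_mulVec]
  set t1 := y * t * y⁻¹ with ht1
  set t2 := y * t1 * y⁻¹ with ht2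
  have ht1R : t1 ∈ R := ((Subgroup.mem_normalizer_iff.1 hy) t).1 ht
  have ht2R : t2 ∈ R := ((Subgroup.mem_normalizer_iff.1 hy) t1).1 ht1R
  have hU1 : ∀ v ∈ U, (t1 : Matrix ι ι F) *ᵥ v = (t : Matrix ι ι F) *ᵥ v := by
    intro v hv
    have h1 : (t : Matrix ι ι F) *ᵥ v ∈ H := hv.2
    rw [ht1, ← hmv, ← hmv, hyinv v hv.1]
    exact (hHm _).1 h1
  have hU2 : ∀ v ∈ U, (t2 : Matrix ι ι F) *ᵥ v = (t : Matrix ι ι F) *ᵥ v := by
    intro v hv
    have h1 : (t : Matrix ι ι F) *ᵥ v ∈ H := hv.2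
    rw [ht2, ← hmv, ← hmv, hyinv v hv.1, hU1 v hv]
    exact (hHm _).1 h1
  set x1 := t⁻¹ * t1 with hx1
  set x2 := t⁻¹ * t2 with hx2
  have hx1R : x1 ∈ R := R.mul_mem (R.inv_mem ht) ht1R
  have hx2R : x2 ∈ R := R.mul_mem (R.inv_mem ht) ht2R
  have hf1 : ∀ v ∈ U, (x1 : Matrix ι ι F) *ᵥ v = v := by
    intro v hv
    rw [hx1, ← hmv, hU1 v hv, hmv, inv_mul_cancel, Units.val_one, Matrix.one_mulVec]
  have hf2 : ∀ v ∈ U, (x2 : Matrix ι ι F) *ᵥ v = v := by
    intro v hv
    rw [hx2, ← hmv, hU2 v hv, hmv, inv_mul_cancel, Units.val_one, Matrix.one_mulVec]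
  have hU0 : U ≠ ⊥ := by
    intro h
    rw [h, finrank_bot] at hUd
    omega
  obtain ⟨v0, hv0, hv00⟩ := Submodule.exists_mem_ne_zero_of_ne_bot hU0
  have key : ∀ x ∈ R, (∀ v ∈ U, (x : Matrix ι ι F) *ᵥ v = v) → x ≠ 1 →
      x * x = 1 ∧ (∀ v, (x : Matrix ι ι F) *ᵥ v = v → v ∈ U) := by
    intro x hx hfx hx1
    have hxs : x ∉ scalars ι F := by
      intro hs
      obtain ⟨c, hc⟩ := mem_scalars_iff.1 hs
      have h1 := hfx v0 hv0
      rw [hc, Matrix.smul_mulVec, Matrix.one_mulVec] at h1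
      have h2 : (c - 1) • v0 = 0 := by rw [sub_smul, one_smul, h1, sub_self]
      have h3 := (smul_eq_zero.1 h2).resolve_right hv00
      apply hx1
      apply Units.ext
      rw [hc, sub_eq_zero.1 h3, one_smul, Units.val_one]
    have hle : U ≤ LinearMap.ker (Matrix.toLin' (x : Matrix ι ι F) - 1) := by
      intro v hv
      rw [LinearMap.mem_ker, LinearMap.sub_apply, sub_eq_zero]
      exact hfx v hv
    have heq := Submodule.eq_of_le_of_finrank_le hle ((D.half hx hxs).trans hUd)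
    refine ⟨?_, ?_⟩
    · rcases D.sq x hx with h | h
      · exact Units.ext h
      · exfalso
        have h1 : (x : Matrix ι ι F) *ᵥ ((x : Matrix ι ι F) *ᵥ v0) = -v0 := by
          rw [Matrix.mulVec_mulVec, h, Matrix.neg_mulVec, Matrix.one_mulVec]
        rw [hfx v0 hv0, hfx v0 hv0] at h1
        have h3 : (2 : F) • v0 = 0 := by
          rw [two_smul]; nth_rewrite 1 [h1]; exact neg_add_cancel _
        exact ((smul_eq_zero.1 h3).resolve_left D.h2 |> hv00)
    · intro v hv
      rw [heq, LinearMap.mem_ker, LinearMap.sub_apply, sub_eq_zero]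
      exact hv
  -- the three elements are nontrivial
  have hconj : ∀ k : ℕ, ∀ s : GL ι F, y * s = s * y → True := fun _ _ _ => trivial
  have hn1 : t1 ≠ t := by
    intro h
    apply hyt
    rw [ht1, mul_inv_eq_iff_eq_mul] at h
    exact h
  have hn2 : t2 ≠ t1 := by
    intro h
    apply hn1
    have : y * t1 * y⁻¹ = y * t * y⁻¹ := h
    exact mul_left_cancel (mul_right_cancel this)
  have hn3 : t2 ≠ t := by
    intro h
    have h1 : y ^ 2 * t = t * y ^ 2 := by
      have : y * (y * t * y⁻¹) * y⁻¹ = t := h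
      have h2 : y ^ 2 * t = (y * (y * t * y⁻¹) * y⁻¹) * y ^ 2 := by rw [pow_two]; group
      rw [h2, this]
    have h2 : Commute (y ^ 2) t := h1
    obtain ⟨k, hk⟩ := hr
    have h3 : Commute (y ^ (2 * (k + 1))) t := by rw [pow_mul]; exact h2.pow_left _
    have h4 : y ^ (2 * (k + 1)) = y := by
      have : 2 * (k + 1) = r + 1 := by omega
      rw [this, pow_succ, hyr, one_mul]
    rw [h4] at h3
    exact hyt h3
  have hx1n : x1 ≠ 1 := by
    intro h
    apply hn1
    exact (inv_mul_eq_one.1 h).symm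
  have hx2n : x2 ≠ 1 := by
    intro h
    apply hn3
    exact (inv_mul_eq_one.1 h).symm
  have hx3n : x1⁻¹ * x2 ≠ 1 := by
    intro h
    apply hn2
    have h1 := inv_mul_eq_one.1 h
    exact (mul_left_cancel h1).symm
  obtain ⟨s1, u1⟩ := key x1 hx1R hf1 hx1n
  obtain ⟨s2, u2⟩ := key x2 hx2R hf2 hx2n
  have hx1i : x1⁻¹ = x1 := inv_eq_of_mul_eq_one_left s1
  obtain ⟨s3, u3⟩ := key (x1⁻¹ * x2) (R.mul_mem (R.inv_mem hx1R) hx2R) (by
    intro v hv
    rw [hx1i, ← hmv, hf2 v hv, hf1 v hv]) hx3n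
  rw [hx1i] at s3 u3
  have hc12 : x1 * x2 = x2 * x1 := by
    have h1 : x1 * x2 = (x1 * x2)⁻¹ := (inv_eq_of_mul_eq_one_left s3).symm
    rw [_root_.mul_inv_rev, hx1i, inv_eq_of_mul_eq_one_left s2] at h1
    exact h1
  -- a vector negated by x1
  obtain ⟨w, hw⟩ : ∃ w, (x1 : Matrix ι ι F) *ᵥ w ≠ w := by
    by_contra h
    push Not at h
    apply hx1n
    apply Units.ext
    apply Matrix.toLin'.injective
    apply LinearMap.ext
    intro v
    rw [Matrix.toLin'_apply, h, Units.val_one, Matrix.toLin'_one]; rfl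
  set v := w - (x1 : Matrix ι ι F) *ᵥ w with hv
  have hv0 : v ≠ 0 := fun h => hw (sub_eq_zero.1 h).symm
  have hx1v : (x1 : Matrix ι ι F) *ᵥ v = -v := by
    rw [hv, Matrix.mulVec_sub, hmv, s1, Units.val_one, Matrix.one_mulVec, neg_sub]
  have hUv : ∀ w, w ∈ U → (x1 : Matrix ι ι F) *ᵥ w = -w → w = 0 := by
    intro w hw hw'
    rw [hf1 w hw] at hw'
    have h3 : (2 : F) • w = 0 := by
      rw [two_smul]; nth_rewrite 1 [hw']; exact neg_add_cancel _
    exact (smul_eq_zero.1 h3).resolve_left D.h2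
  have h1 : v + (x2 : Matrix ι ι F) *ᵥ v = 0 := by
    apply hUv
    · apply u2
      rw [Matrix.mulVec_add, hmv, s2, Units.val_one, Matrix.one_mulVec, add_comm]
    · rw [Matrix.mulVec_add, hmv x1 x2 v, hc12, ← hmv x2 x1 v, hx1v, Matrix.mulVec_neg, neg_add]
  have h2 : (x2 : Matrix ι ι F) *ᵥ v = -v := eq_neg_of_add_eq_zero_right h1
  apply hv0
  apply hUv v _ hx1v
  apply u3
  rw [← hmv, h2, Matrix.mulVec_neg, hx1v, neg_neg]

end Dat

end H99.ST
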