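import Mathlib
import Cfsg.Agent.Lib.H99.ST

set_option autoImplicit false
set_option linter.unusedSimpArgs false
set_option linter.unusedSectionVars false
set_option linter.unusedVariables false

/-! Frames in 2-groups of symplectic type in dimension four. -/

namespace H99.ST

open Matrix Cfsg Cfsg.Geo Module H96.AschSympType1 H96.AschSympType3

variable {ι : Type} [Fintype ι] [DecidableEq ι] {F : Type*} [Field F]

structure Fr (R : Subgroup (GL ι F)) (a b c d : GL ι F) : Prop where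
  ha : a ∈ R
  hb : b ∈ R
  hc : c ∈ R
  hd : d ∈ R
  ab : a * b = -(b * a)
  cd : c * d = -(d * c)
  ac : a * c = c * a
  ad : a * d = d * a
  bc : b * c = c * b
  bd : b * d = d * b

namespace Dat

variable {R : Subgroup (GL ι F)} (D : Dat R)

include D

theorem ne_neg (w : GL ι F) : w ≠ -w := by
  intro hw
  obtain ⟨i⟩ := D.ne
  have h7 : (w : Matrix ι ι F) = -w := by
    have := congrArg Units.val hw
    rwa [Units.val_neg] at this
  have h8 : (w : Matrix ι ι F) = 0 := by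
    have h9 : (2 : F) • (w : Matrix ι ι F) = 0 := by
      rw [two_smul]; nth_rewrite 1 [h7]; exact neg_add_cancel _
    exact (smul_eq_zero.1 h9).resolve_left D.h2
  have h10 : (w : Matrix ι ι F) * ((w⁻¹ : GL ι F) : Matrix ι ι F) = 1 := by rw [← Units.val_mul, mul_inv_cancel, Units.val_one]
  rw [h8, Matrix.zero_mul] at h10
  have := congrFun (congrFun h10 i) i
  rw [Matrix.one_apply_eq] at this
  exact zero_ne_one this

theorem sgn' {x y : GL ι F} (hx : x ∈ R) (hy : y ∈ R) : x * y = y * x ∨ x * y = -(y * x) := by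
  rcases D.sgn x hx y hy with h | h
  · exact Or.inl (Units.ext h)
  · exact Or.inr (Units.ext h)

theorem sq' {x : GL ι F} (hx : x ∈ R) : x * x = 1 ∨ x * x = -1 := by
  rcases D.sq x hx with h | h
  · exact Or.inl (Units.ext h)
  · exact Or.inr (Units.ext h)

/-- correcting an element to commute with a pair -/
theorem correct {a b : GL ι F} (ha : a ∈ R) (hb : b ∈ R) (hab : a * b = -(b * a)) {g : GL ι F} (hg : g ∈ R) :
    ∃ i j : Fin 2, (g * a ^ (i : ℕ) * b ^ (j : ℕ)) * a = a * (g * a ^ (i : ℕ) * b ^ (j : ℕ)) ∧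
      (g * a ^ (i : ℕ) * b ^ (j : ℕ)) * b = b * (g * a ^ (i : ℕ) * b ^ (j : ℕ)) := by
  have hba : b * a = -(a * b) := by rw [hab, neg_neg]
  -- first make it commute with b
  have h1 : ∃ i : Fin 2, (g * a ^ (i : ℕ)) * b = b * (g * a ^ (i : ℕ)) := by
    rcases D.sgn' hg hb with h | h
    · exact ⟨0, by simpa using h⟩
    · refine ⟨1, ?_⟩
      show g * a ^ 1 * b = b * (g * a ^ 1)
      rw [pow_one, mul_assoc, hab, mul_neg, ← mul_assoc, h, neg_mul, neg_neg, mul_assoc]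
  obtain ⟨i, hi⟩ := h1
  have hg' : g * a ^ (i : ℕ) ∈ R := R.mul_mem hg (R.pow_mem ha _)
  rcases D.sgn' hg' ha with h | h
  · refine ⟨i, 0, ?_, ?_⟩
    · simpa using h
    · simpa using hi
  · refine ⟨i, 1, ?_, ?_⟩
    · show (g * a ^ (i : ℕ) * b ^ 1) * a = a * (g * a ^ (i : ℕ) * b ^ 1)
      rw [pow_one, mul_assoc, hba, mul_neg, ← mul_assoc, h, neg_mul, neg_neg, mul_assoc]
    · show (g * a ^ (i : ℕ) * b ^ 1) * b = b * (g * a ^ (i : ℕ) * b ^ 1)
      rw [pow_one, hi, mul_assoc, hi]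

theorem exists_frame [Finite R] : ∃ a b c d : GL ι F, Fr R a b c d := by
  classical
  have hne := D.ne
  -- a noncommuting pair
  have hnc : ∃ a ∈ R, ∃ b ∈ R, a * b = -(b * a) := by
    by_contra h
    push Not at h
    have h1 : ∀ g ∈ R, g ∈ scalars ι F := fun g hg => D.scalar_of_comm fun y hy => by
      rcases D.sgn' hg hy with h2 | h2
      · exact h2
      · exact absurd h2 (h g hg y hy)
    have h2 : (scalars ι F).subgroupOf R = ⊤ := by
      rw [Subgroup.subgroupOf_eq_top]; exact h1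
    have h3 := D.card_R
    rw [h2, Subgroup.card_top] at h3
    have : 0 < Nat.card R := Nat.card_pos
    omega
  obtain ⟨a, ha, b, hb, hab⟩ := hnc
  -- a noncommuting pair in the centralizer
  by_cases hK : ∃ c ∈ R, ∃ d ∈ R, c * d = -(d * c) ∧ a * c = c * a ∧ a * d = d * a ∧ b * c = c * b ∧ b * d = d * b
  · obtain ⟨c, hc, d, hd, h1, h2, h3, h4, h5⟩ := hK
    exact ⟨a, b, c, d, ha, hb, hc, hd, hab, h1, h2, h3, h4, h5⟩
  · exfalso
    push Not at hK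
    -- elements of the centralizer are scalar
    have hKs : ∀ g ∈ R, g * a = a * g → g * b = b * g → g ∈ scalars ι F := by
      intro g hg hga hgb
      apply D.scalar_of_comm
      intro h hh
      obtain ⟨i, j, h1, h2⟩ := D.correct ha hb hab hh
      set h' := h * a ^ (i : ℕ) * b ^ (j : ℕ) with hh'
      have hh'R : h' ∈ R := R.mul_mem (R.mul_mem hh (R.pow_mem ha _)) (R.pow_mem hb _)
      have h3 : g * h' = h' * g := by
        rcases D.sgn' hg hh'R with h4 | h4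
        · exact h4
        · exact absurd h2.symm (hK g hg h' hh'R h4 hga.symm h1.symm hgb.symm)
      have e1 : Commute g h' := h3
      have e2 : Commute g a := hga
      have e3 : Commute g b := hgb
      have e4 : h = h' * (b ^ (j : ℕ))⁻¹ * (a ^ (i : ℕ))⁻¹ := by rw [hh']; group
      have e5 : Commute g h := by
        rw [e4]
        exact (e1.mul_right (e3.pow_right _).inv_right).mul_right (e2.pow_right _).inv_right
      exact e5
    -- at most four cosets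
    have hsurj : Function.Surjective (fun ij : Fin 2 × Fin 2 =>
        (QuotientGroup.mk (⟨(a ^ (ij.1 : ℕ) * b ^ (ij.2 : ℕ))⁻¹, R.inv_mem (R.mul_mem (R.pow_mem ha _) (R.pow_mem hb _))⟩ : R) :
          R ⧸ (scalars ι F).subgroupOf R)) := by
      intro x
      obtain ⟨g, rfl⟩ := QuotientGroup.mk_surjective x
      obtain ⟨i, j, h1, h2⟩ := D.correct ha hb hab g.2
      refine ⟨(i, j), ?_⟩
      rw [QuotientGroup.eq, Subgroup.mem_subgroupOf]
      have h3 := hKs _ (R.mul_mem (R.mul_mem g.2 (R.pow_mem ha (i : ℕ))) (R.pow_mem hb (j : ℕ))) h1 h2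
      have h4 : (g : GL ι F) * a ^ (i : ℕ) * b ^ (j : ℕ) = (a ^ (i : ℕ) * b ^ (j : ℕ)) * g := by
        have h5 := scalars_comm h3 (a ^ (i : ℕ) * b ^ (j : ℕ))⁻¹
        have h6 : (g : GL ι F) = (a ^ (i : ℕ) * b ^ (j : ℕ))⁻¹ * ((g : GL ι F) * a ^ (i : ℕ) * b ^ (j : ℕ)) := by
          rw [← h5]; group
        nth_rewrite 2 [h6]
        group
      show ((a ^ (i : ℕ) * b ^ (j : ℕ))⁻¹)⁻¹ * (g : GL ι F) ∈ scalars ι F
      rw [inv_inv, ← h4]
      exact h3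
    have h3 := Nat.card_le_card_of_surjective _ hsurj
    rw [D.quot] at h3
    simp at h3

theorem gen [Finite R] {a b c d : GL ι F} (f : Fr R a b c d) {g : GL ι F} (hg : g ∈ R) :
    ∃ s ∈ R ⊓ scalars ι F, ∃ i j k l : Fin 2, g = s * (a ^ (i : ℕ) * b ^ (j : ℕ) * c ^ (k : ℕ) * d ^ (l : ℕ)) := by
  classical
  have hne := D.ne
  let w : Fin 2 × Fin 2 × Fin 2 × Fin 2 → R := fun x =>
    ⟨a ^ (x.1 : ℕ) * b ^ (x.2.1 : ℕ) * c ^ (x.2.2.1 : ℕ) * d ^ (x.2.2.2 : ℕ),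
      R.mul_mem (R.mul_mem (R.mul_mem (R.pow_mem f.ha _) (R.pow_mem f.hb _)) (R.pow_mem f.hc _)) (R.pow_mem f.hd _)⟩
  have hba : b * a = -(a * b) := by rw [f.ab, neg_neg]
  have hdc : d * c = -(c * d) := by rw [f.cd, neg_neg]
  have hone : ∀ n : Fin 2, n = 0 ∨ n = 1 := by decide
  have hpw : ∀ (x y : GL ι F), x * y = -(y * x) → ∀ n : Fin 2, x ^ (n : ℕ) * y = (-1) ^ (n : ℕ) * (y * x ^ (n : ℕ)) := by
    intro x y h n
    rcases hone n with rfl | rfl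
    · simp
    · show x ^ 1 * y = (-1) ^ 1 * (y * x ^ 1)
      rw [pow_one, pow_one, h, neg_one_mul]
  have hpc : ∀ (x y : GL ι F), x * y = y * x → ∀ n : ℕ, x ^ n * y = y * x ^ n := by
    intro x y h n
    have : Commute x y := h
    exact this.pow_left n
  have cb : ∀ x, (w x : GL ι F) * b = (-1) ^ (x.1 : ℕ) * (b * (w x : GL ι F)) := by
    intro x
    show a ^ (x.1 : ℕ) * b ^ (x.2.1 : ℕ) * c ^ (x.2.2.1 : ℕ) * d ^ (x.2.2.2 : ℕ) * b = _
    rw [mul_assoc, hpc d b f.bd.symm, ← mul_assoc, mul_assoc _ (c ^ (x.2.2.1 : ℕ)) b, hpc c b f.bc.symm, ← mul_assoc,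
      mul_assoc _ (b ^ (x.2.1 : ℕ)) b, hpc b b rfl, ← mul_assoc, hpw a b f.ab]
    show _ = (-1) ^ (x.1 : ℕ) * (b * (a ^ (x.1 : ℕ) * b ^ (x.2.1 : ℕ) * c ^ (x.2.2.1 : ℕ) * d ^ (x.2.2.2 : ℕ)))
    simp only [mul_assoc]
  have ca : ∀ x, (w x : GL ι F) * a = (-1) ^ (x.2.1 : ℕ) * (a * (w x : GL ι F)) := by
    intro x
    show a ^ (x.1 : ℕ) * b ^ (x.2.1 : ℕ) * c ^ (x.2.2.1 : ℕ) * d ^ (x.2.2.2 : ℕ) * a = _
    rw [mul_assoc, hpc d a f.ad.symm, ← mul_assoc, mul_assoc _ (c ^ (x.2.2.1 : ℕ)) a, hpc c a f.ac.symm, ← mul_assoc,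
      mul_assoc _ (b ^ (x.2.1 : ℕ)) a, hpw b a hba]
    show _ = (-1) ^ (x.2.1 : ℕ) * (a * (a ^ (x.1 : ℕ) * b ^ (x.2.1 : ℕ) * c ^ (x.2.2.1 : ℕ) * d ^ (x.2.2.2 : ℕ)))
    rcases neg_one_pow_eq_or (GL ι F) (x.2.1 : ℕ) with h | h <;> rw [h] <;>
      simp only [one_mul, neg_one_mul, mul_neg, neg_mul, mul_assoc] <;>
      simp only [← mul_assoc, hpc a a rfl]
  have cd' : ∀ x, (w x : GL ι F) * d = (-1) ^ (x.2.2.1 : ℕ) * (d * (w x : GL ι F)) := by
    intro x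
    show a ^ (x.1 : ℕ) * b ^ (x.2.1 : ℕ) * c ^ (x.2.2.1 : ℕ) * d ^ (x.2.2.2 : ℕ) * d = (-1) ^ (x.2.2.1 : ℕ) * (d * (a ^ (x.1 : ℕ) * b ^ (x.2.1 : ℕ) * c ^ (x.2.2.1 : ℕ) * d ^ (x.2.2.2 : ℕ)))
    rw [mul_assoc _ (d ^ (x.2.2.2 : ℕ)) d, hpc d d rfl, ← mul_assoc, mul_assoc _ (c ^ (x.2.2.1 : ℕ)) d, hpw c d f.cd]
    have e1 : a ^ (x.1 : ℕ) * b ^ (x.2.1 : ℕ) * d = d * (a ^ (x.1 : ℕ) * b ^ (x.2.1 : ℕ)) := by
      rw [mul_assoc, hpc b d f.bd, ← mul_assoc, hpc a d f.ad, mul_assoc]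
    rcases neg_one_pow_eq_or (GL ι F) (x.2.2.1 : ℕ) with h | h <;> rw [h]
    · rw [one_mul, one_mul, ← mul_assoc, e1]; simp only [mul_assoc]
    · rw [neg_one_mul, neg_one_mul, mul_neg, neg_mul, ← mul_assoc, e1]; simp only [mul_assoc]
  have cc' : ∀ x, (w x : GL ι F) * c = (-1) ^ (x.2.2.2 : ℕ) * (c * (w x : GL ι F)) := by
    intro x
    show a ^ (x.1 : ℕ) * b ^ (x.2.1 : ℕ) * c ^ (x.2.2.1 : ℕ) * d ^ (x.2.2.2 : ℕ) * c = (-1) ^ (x.2.2.2 : ℕ) * (c * (a ^ (x.1 : ℕ) * b ^ (x.2.1 : ℕ) * c ^ (x.2.2.1 : ℕ) * d ^ (x.2.2.2 : ℕ)))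
    rw [mul_assoc _ (d ^ (x.2.2.2 : ℕ)) c, hpw d c hdc]
    have e1 : a ^ (x.1 : ℕ) * b ^ (x.2.1 : ℕ) * c ^ (x.2.2.1 : ℕ) * c = c * (a ^ (x.1 : ℕ) * b ^ (x.2.1 : ℕ) * c ^ (x.2.2.1 : ℕ)) := by
      rw [mul_assoc, hpc c c rfl, ← mul_assoc, mul_assoc _ (b ^ (x.2.1 : ℕ)) c, hpc b c f.bc, ← mul_assoc, hpc a c f.ac]
      simp only [mul_assoc]
    rcases neg_one_pow_eq_or (GL ι F) (x.2.2.2 : ℕ) with h | h <;> rw [h]
    · rw [one_mul, one_mul, ← mul_assoc, e1]; simp only [mul_assoc]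
    · rw [neg_one_mul, neg_one_mul, mul_neg, ← mul_assoc, e1]; simp only [mul_assoc]
  -- signs separate
  have hsep : ∀ (m n : Fin 2) (X Y s t : GL ι F), s ∈ scalars ι F → Y = X * s → X * t = (-1) ^ (m : ℕ) * (t * X) →
      Y * t = (-1) ^ (n : ℕ) * (t * Y) → m = n := by
    intro m n X Y s t hs hY h1 h2
    have h3 : Y * t = (-1) ^ (m : ℕ) * (t * Y) := by
      rw [hY, mul_assoc, scalars_comm hs t, ← mul_assoc, h1]
      simp only [mul_assoc]
    have h4 : (-1 : GL ι F) ^ (m : ℕ) = (-1) ^ (n : ℕ) := mul_right_cancel (h3.symm.trans h2)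
    rcases hone m with rfl | rfl <;> rcases hone n with rfl | rfl
    · rfl
    · exfalso
      apply D.ne_neg 1
      simpa using h4
    · exfalso
      apply D.ne_neg 1
      simpa using h4.symm
    · rfl
  have hinj : Function.Injective (fun x => (QuotientGroup.mk (w x) : R ⧸ (scalars ι F).subgroupOf R)) := by
    intro x y hxy
    have h1 := QuotientGroup.eq.1 hxy
    rw [Subgroup.mem_subgroupOf] at h1
    have h2 : (w y : GL ι F) = (w x : GL ι F) * (((w x)⁻¹ * w y : R) : GL ι F) := by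
      rw [Subgroup.coe_mul, Subgroup.coe_inv]; group
    have e1 := hsep _ _ _ _ _ _ h1 h2 (cb x) (cb y)
    have e2 := hsep _ _ _ _ _ _ h1 h2 (ca x) (ca y)
    have e3 := hsep _ _ _ _ _ _ h1 h2 (cd' x) (cd' y)
    have e4 := hsep _ _ _ _ _ _ h1 h2 (cc' x) (cc' y)
    exact Prod.ext e1 (Prod.ext e2 (Prod.ext e3 e4))
  have hfin : Finite (R ⧸ (scalars ι F).subgroupOf R) := inferInstance
  have hFt : Fintype (R ⧸ (scalars ι F).subgroupOf R) := Fintype.ofFinite _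
  have hbij : Function.Bijective (fun x => (QuotientGroup.mk (w x) : R ⧸ (scalars ι F).subgroupOf R)) := by
    rw [Fintype.bijective_iff_injective_and_card]
    refine ⟨hinj, ?_⟩
    rw [← Nat.card_eq_fintype_card, ← Nat.card_eq_fintype_card, D.quot]
    simp
  obtain ⟨x, hx⟩ := hbij.2 (QuotientGroup.mk (⟨g, hg⟩ : R))
  have h1 := QuotientGroup.eq.1 hx
  rw [Subgroup.mem_subgroupOf] at h1
  have h1' : (w x : GL ι F)⁻¹ * g ∈ scalars ι F := h1
  refine ⟨(w x : GL ι F)⁻¹ * g, Subgroup.mem_inf.2 ⟨R.mul_mem (R.inv_mem (w x).2) hg, h1'⟩, x.1, x.2.1, x.2.2.1, x.2.2.2, ?_⟩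
  rw [scalars_comm h1']
  show g = (w x : GL ι F) * ((w x : GL ι F)⁻¹ * g)
  group

/-- normalizing is checked on a frame -/
theorem norm_of [Finite F] [Finite R] {a b c d h : GL ι F} (f : Fr R a b c d) (ha : h * a * h⁻¹ ∈ R) (hb : h * b * h⁻¹ ∈ R)
    (hc : h * c * h⁻¹ ∈ R) (hd : h * d * h⁻¹ ∈ R) : h ∈ subgroupNormalizer R := by
  apply mem_subgroupNormalizer
  intro x hx
  obtain ⟨s, hs, i, j, k, l, rfl⟩ := D.gen f hx
  have hsc := (Subgroup.mem_inf.1 hs).2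
  have e1 : h * (s * (a ^ (i : ℕ) * b ^ (j : ℕ) * c ^ (k : ℕ) * d ^ (l : ℕ))) * h⁻¹ =
      s * ((h * a * h⁻¹) ^ (i : ℕ) * (h * b * h⁻¹) ^ (j : ℕ) * (h * c * h⁻¹) ^ (k : ℕ) * (h * d * h⁻¹) ^ (l : ℕ)) := by
    rw [conj_pow, conj_pow, conj_pow, conj_pow, ← mul_assoc h s, ← scalars_comm hsc h]
    group
  rw [e1]
  exact R.mul_mem (Subgroup.mem_inf.1 hs).1 (R.mul_mem (R.mul_mem (R.mul_mem (R.pow_mem ha _) (R.pow_mem hb _)) (R.pow_mem hc _)) (R.pow_mem hd _))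

end Dat

end H99.ST
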