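import Mathlib
import Cfsg.Agent.Lib.H99.ST2

set_option autoImplicit false
set_option linter.unusedSimpArgs false
set_option linter.unusedSectionVars false
set_option linter.unusedVariables false

/-! 2-groups of symplectic type in dimension four: five anticommuting involutions. -/

namespace H99.ST

open Matrix Cfsg Cfsg.Geo Module H96.AschSympType1 H96.AschSympType3

section ring

variable {A : Type*} [Ring A]

structure Five (t : Fin 5 → A) : Prop where
  sq : ∀ i, t i * t i = 1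
  anti : ∀ i j, i ≠ j → t i * t j = -(t j * t i)

theorem Five.swap {t : Fin 5 → A} (h : Five t) {i j : Fin 5} (hij : i ≠ j) (k : Fin 5) :
    (t i - t j) * t k = -(t (Equiv.swap i j k) * (t i - t j)) := by
  by_cases hki : k = i
  · subst hki
    rw [Equiv.swap_apply_left, sub_mul, mul_sub, h.sq, h.sq, neg_sub]
  · by_cases hkj : k = j
    · subst hkj
      rw [Equiv.swap_apply_right, sub_mul, mul_sub, h.sq, h.sq, neg_sub]
    · rw [Equiv.swap_apply_of_ne_of_ne hki hkj, sub_mul, mul_sub, h.anti i k (Ne.symm hki), h.anti j k (Ne.symm hkj)]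
      abel

theorem Five.sq_sub {t : Fin 5 → A} (h : Five t) {i j : Fin 5} (hij : i ≠ j) :
    (t i - t j) * (t i - t j) = 2 := by
  rw [sub_mul, mul_sub, mul_sub, h.sq, h.sq, h.anti i j hij]
  have : (2 : A) = 1 + 1 := one_add_one_eq_two.symm
  rw [this]
  abel

def fiveM (t : Fin 5 → A) : A := (t 0 - t 1) * (t 1 - t 2) * (t 2 - t 3) * (t 3 - t 4)
def fiveR (t : Fin 5 → A) : A := (t 3 - t 4) * (t 2 - t 3) * (t 1 - t 2) * (t 0 - t 1)

theorem Five.rot {t : Fin 5 → A} (h : Five t) (k : Fin 5) : fiveM t * t k = t (k + 1) * fiveM t := by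
  have e1 : Equiv.swap (0 : Fin 5) 1 (Equiv.swap 1 2 (Equiv.swap 2 3 (Equiv.swap 3 4 k))) = k + 1 := by
    revert k; decide
  unfold fiveM
  rw [mul_assoc, h.swap (by decide) k, mul_neg, ← mul_assoc, mul_assoc _ (t 2 - t 3), h.swap (i := 2) (j := 3) (by decide), mul_neg, neg_mul, neg_neg,
    ← mul_assoc, mul_assoc _ (t 1 - t 2) (t _), h.swap (i := 1) (j := 2) (by decide), mul_neg, neg_mul, neg_mul,
    ← mul_assoc, h.swap (i := 0) (j := 1) (by decide), neg_mul, neg_mul, neg_mul, neg_neg, e1]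
  simp only [mul_assoc]

theorem Five.mul_rev {t : Fin 5 → A} (h : Five t) : fiveM t * fiveR t = 16 := by
  have c1 : (t 3 - t 4) * (t 3 - t 4) = 2 := h.sq_sub (by decide)
  have c2 : (t 2 - t 3) * (t 2 - t 3) = 2 := h.sq_sub (by decide)
  have c3 : (t 1 - t 2) * (t 1 - t 2) = 2 := h.sq_sub (by decide)
  have c4 : (t 0 - t 1) * (t 0 - t 1) = 2 := h.sq_sub (by decide)
  have hc : ∀ x y : A, x * 2 * y = 2 * (x * y) := by
    intro x y
    have : x * 2 = 2 * x := by rw [two_mul, mul_two]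
    rw [this, mul_assoc]
  unfold fiveM fiveR
  calc _ = (t 0 - t 1) * (t 1 - t 2) * (t 2 - t 3) * ((t 3 - t 4) * (t 3 - t 4)) * ((t 2 - t 3) * (t 1 - t 2) * (t 0 - t 1)) := by noncomm_ring
    _ = 2 * ((t 0 - t 1) * (t 1 - t 2) * ((t 2 - t 3) * (t 2 - t 3)) * ((t 1 - t 2) * (t 0 - t 1))) := by rw [c1, hc]; simp only [mul_assoc]
    _ = 2 * (2 * ((t 0 - t 1) * ((t 1 - t 2) * (t 1 - t 2)) * (t 0 - t 1))) := by rw [c2, hc]; simp only [mul_assoc]
    _ = 2 * (2 * (2 * ((t 0 - t 1) * (t 0 - t 1)))) := by rw [c3, hc]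
    _ = 16 := by rw [c4]; norm_num

end ring

variable {ι : Type} [Fintype ι] [DecidableEq ι] {F : Type*} [Field F]

theorem sub_form (Φ : (ι → F) →+ (ι → F) →+ F) {s t : Matrix ι ι F} (hs : s * s = 1) (ht : t * t = 1) (hst : s * t = -(t * s))
    (hΦs : ∀ u v, Φ (s *ᵥ u) (s *ᵥ v) = Φ u v) (hΦt : ∀ u v, Φ (t *ᵥ u) (t *ᵥ v) = Φ u v) (u v : ι → F) :
    Φ ((s - t) *ᵥ u) ((s - t) *ᵥ v) = 2 * Φ u v := by
  have h1 : Φ (s *ᵥ u) (t *ᵥ v) = Φ u ((s * t) *ᵥ v) := by
    rw [← hΦs, Matrix.mulVec_mulVec, Matrix.mulVec_mulVec, hs, Matrix.one_mulVec]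
  have h2 : Φ (t *ᵥ u) (s *ᵥ v) = - Φ u ((s * t) *ᵥ v) := by
    rw [← hΦt, Matrix.mulVec_mulVec, Matrix.mulVec_mulVec, ht, Matrix.one_mulVec, hst, Matrix.neg_mulVec, map_neg, neg_neg]
  rw [Matrix.sub_mulVec, Matrix.sub_mulVec]
  simp only [map_sub, AddMonoidHom.sub_apply]
  rw [hΦs, hΦt, h1, h2]
  ring

theorem exists_rot (h2 : (2 : F) ≠ 0) {t : Fin 5 → GL ι F} (h : Five (fun i => (t i : Matrix ι ι F))) :
    ∃ m : GL ι F, (∀ k, m * t k = t (k + 1) * m) ∧
      ∀ Φ : (ι → F) →+ (ι → F) →+ F, (∀ i u v, Φ ((t i : Matrix ι ι F) *ᵥ u) ((t i : Matrix ι ι F) *ᵥ v) = Φ u v) →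
        ∀ u v, Φ ((m : Matrix ι ι F) *ᵥ u) ((m : Matrix ι ι F) *ᵥ v) = Φ u v := by
  set T : Fin 5 → Matrix ι ι F := fun i => (t i : Matrix ι ι F) with hT
  have h4 : (4 : F) ≠ 0 := by
    have : (4 : F) = 2 * 2 := by norm_num
    rw [this]; exact mul_ne_zero h2 h2
  have h16 : (16 : F) ≠ 0 := by
    have : (16 : F) = 4 * 4 := by norm_num
    rw [this]; exact mul_ne_zero h4 h4
  have hmul : ((4 : F)⁻¹ • fiveM T) * ((4 : F)⁻¹ • fiveR T) = 1 := by
    rw [Matrix.smul_mul, Matrix.mul_smul, h.mul_rev, smul_smul]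
    have : (16 : Matrix ι ι F) = (16 : F) • 1 := by
      rw [← Algebra.algebraMap_eq_smul_one, map_ofNat]
    rw [this, smul_smul]
    have : (4 : F)⁻¹ * 4⁻¹ * 16 = 1 := by field_simp; norm_num
    rw [this, one_smul]
  let m : GL ι F := ⟨(4 : F)⁻¹ • fiveM T, (4 : F)⁻¹ • fiveR T, hmul, mul_eq_one_comm.1 hmul⟩
  have hm : (m : Matrix ι ι F) = (4 : F)⁻¹ • fiveM T := rfl
  refine ⟨m, ?_, ?_⟩
  · intro k
    apply Units.ext
    rw [Units.val_mul, Units.val_mul, hm, Matrix.smul_mul, Matrix.mul_smul]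
    congr 1
    exact h.rot k
  · intro Φ hΦ u v
    have h01 : ∀ u v, Φ ((T 0 - T 1) *ᵥ u) ((T 0 - T 1) *ᵥ v) = 2 * Φ u v := sub_form Φ (h.sq 0) (h.sq 1) (h.anti 0 1 (by decide)) (hΦ 0) (hΦ 1)
    have h12 : ∀ u v, Φ ((T 1 - T 2) *ᵥ u) ((T 1 - T 2) *ᵥ v) = 2 * Φ u v := sub_form Φ (h.sq 1) (h.sq 2) (h.anti 1 2 (by decide)) (hΦ 1) (hΦ 2)
    have h23 : ∀ u v, Φ ((T 2 - T 3) *ᵥ u) ((T 2 - T 3) *ᵥ v) = 2 * Φ u v := sub_form Φ (h.sq 2) (h.sq 3) (h.anti 2 3 (by decide)) (hΦ 2) (hΦ 3)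
    have h34 : ∀ u v, Φ ((T 3 - T 4) *ᵥ u) ((T 3 - T 4) *ᵥ v) = 2 * Φ u v := sub_form Φ (h.sq 3) (h.sq 4) (h.anti 3 4 (by decide)) (hΦ 3) (hΦ 4)
    have hM : ∀ u v, Φ (fiveM T *ᵥ u) (fiveM T *ᵥ v) = 16 * Φ u v := by
      intro u v
      unfold fiveM
      rw [← Matrix.mulVec_mulVec, ← Matrix.mulVec_mulVec, ← Matrix.mulVec_mulVec, ← Matrix.mulVec_mulVec, ← Matrix.mulVec_mulVec, ← Matrix.mulVec_mulVec,
        h01, h12, h23, h34]
      ring
    have hq : ∀ u v, Φ u v = 16 * Φ ((4 : F)⁻¹ • u) ((4 : F)⁻¹ • v) := by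
      intro u v
      have e : ∀ w : ι → F, w = 4 • ((4 : F)⁻¹ • w) := by
        intro w
        rw [← Nat.cast_smul_eq_nsmul F, smul_smul]
        have : ((4 : ℕ) : F) * 4⁻¹ = 1 := by
          rw [show ((4 : ℕ) : F) = 4 by norm_num]; exact mul_inv_cancel₀ h4
        rw [this, one_smul]
      nth_rewrite 1 [e u, e v]
      rw [map_nsmul, map_nsmul, AddMonoidHom.nsmul_apply, smul_smul, nsmul_eq_mul]
      norm_num
    rw [hm, Matrix.smul_mulVec, Matrix.smul_mulVec]
    have h5 := hq (fiveM T *ᵥ u) (fiveM T *ᵥ v)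
    rw [hM] at h5
    exact (mul_left_cancel₀ h16 h5).symm

namespace Dat

variable {R : Subgroup (GL ι F)} (D : Dat R)

include D

theorem exists_five [Finite F] [Finite R] {a b c d : GL ι F} (f : Fr R a b c d) (haa : a * a = 1) (hbb : b * b = 1)
    (hcc : c * c = -1) (hdd : d * d = -1) :
    ∃ m ∈ subgroupNormalizer R, m ^ 5 ∈ scalars ι F ∧ m ∉ scalars ι F ∧
      ∀ Φ : (ι → F) →+ (ι → F) →+ F, (∀ g ∈ R, ∀ u v, Φ ((g : Matrix ι ι F) *ᵥ u) ((g : Matrix ι ι F) *ᵥ v) = Φ u v) →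
        ∀ u v, Φ ((m : Matrix ι ι F) *ᵥ u) ((m : Matrix ι ι F) *ᵥ v) = Φ u v := by
  have hba : b * a = -(a * b) := by rw [f.ab, neg_neg]
  have hdc : d * c = -(c * d) := by rw [f.cd, neg_neg]
  let t : Fin 5 → GL ι F := ![a, b, a * b * c, a * b * d, a * b * (c * d)]
  have htR : ∀ i, t i ∈ R := by
    intro i
    fin_cases i
    · exact f.ha
    · exact f.hb
    · exact R.mul_mem (R.mul_mem f.ha f.hb) f.hc
    · exact R.mul_mem (R.mul_mem f.ha f.hb) f.hd
    · exact R.mul_mem (R.mul_mem f.ha f.hb) (R.mul_mem f.hc f.hd)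
  -- basic relations
  have hab2 : a * b * (a * b) = -1 := by
    rw [mul_assoc, ← mul_assoc b a b, hba, neg_mul, mul_assoc a b b, hbb, mul_one, mul_neg, haa]
  have hcd2 : c * d * (c * d) = -1 := by
    rw [mul_assoc, ← mul_assoc d c d, hdc, neg_mul, mul_assoc c d d, hdd, mul_neg, mul_neg, mul_one, mul_neg, neg_neg, hcc]
  have hpc : Commute (a * b) c := Commute.mul_left f.ac f.bc
  have hpd : Commute (a * b) d := Commute.mul_left f.ad f.bd
  have hpcd : Commute (a * b) (c * d) := hpc.mul_right hpd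
  have sq2 : ∀ x : GL ι F, Commute (a * b) x → x * x = -1 → a * b * x * (a * b * x) = 1 := by
    intro x h1 h3
    have h4 : Commute (a * b) x := h1
    rw [mul_assoc, ← mul_assoc x, ← h4.eq, mul_assoc (a * b) x x, h3, ← mul_assoc, hab2]
    simp
  have anti2 : ∀ x y : GL ι F, Commute (a * b) x → Commute (a * b) y → x * y = -(y * x) → a * b * x * (a * b * y) = -(a * b * y * (a * b * x)) := by
    intro x y h1 h3 h4
    rw [mul_assoc, ← mul_assoc x, ← h1.eq, mul_assoc (a * b) x y, ← mul_assoc, hab2, h4]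
    rw [mul_assoc (a * b) y, ← mul_assoc y (a * b), ← h3.eq, mul_assoc (a * b) y x, ← mul_assoc (a * b) (a * b), hab2]
    simp
  have antia : ∀ x : GL ι F, a * x = x * a → a * (a * b * x) = -(a * b * x * a) := by
    intro x h1
    rw [mul_assoc (a * b) x a, ← h1, ← mul_assoc (a * b) a x, mul_assoc a b a, hba, mul_neg, neg_mul, neg_neg]
    simp only [mul_assoc]
  have antib : ∀ x : GL ι F, b * x = x * b → b * (a * b * x) = -(a * b * x * b) := by
    intro x h1
    rw [mul_assoc (a * b) x b, ← h1, ← mul_assoc (a * b) b x, ← mul_assoc b (a * b) x, ← mul_assoc b a b, hba, neg_mul, neg_mul]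
  have haCD : a * (c * d) = c * d * a := by rw [← mul_assoc, f.ac, mul_assoc, f.ad, mul_assoc]
  have hbCD : b * (c * d) = c * d * b := by rw [← mul_assoc, f.bc, mul_assoc, f.bd, mul_assoc]
  have hccd : c * (c * d) = -(c * d * c) := by rw [mul_assoc c d c, hdc, mul_neg, neg_neg]
  have hdcd : d * (c * d) = -(c * d * d) := by rw [← mul_assoc, hdc, neg_mul]
  have hsq : ∀ i, t i * t i = 1 := by
    intro i
    fin_cases i
    · exact haa
    · exact hbb
    · exact sq2 c hpc hcc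
    · exact sq2 d hpd hdd
    · exact sq2 (c * d) hpcd hcd2
  have hlt : ∀ i j : Fin 5, i < j → t i * t j = -(t j * t i) := by
    intro i j hij
    fin_cases i <;> fin_cases j <;> first | (exfalso; revert hij; decide) | skip
    · exact f.ab
    · exact antia c f.ac
    · exact antia d f.ad
    · exact antia (c * d) haCD
    · exact antib c f.bc
    · exact antib d f.bd
    · exact antib (c * d) hbCD
    · exact anti2 c d hpc hpd f.cd
    · exact anti2 c (c * d) hpc hpcd hccd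
    · exact anti2 d (c * d) hpd hpcd hdcd
  have hanti : ∀ i j : Fin 5, i ≠ j → t i * t j = -(t j * t i) := by
    intro i j hij
    rcases lt_or_gt_of_ne hij with h | h
    · exact hlt i j h
    · rw [hlt j i h, neg_neg]
  have hfive : Five (fun i => (t i : Matrix ι ι F)) := by
    refine ⟨fun i => ?_, fun i j hij => ?_⟩
    · have := congrArg Units.val (hsq i)
      exact this
    · have := congrArg Units.val (hanti i j hij)
      rw [Units.val_neg] at this
      exact this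
  obtain ⟨m, hm, hΦ⟩ := exists_rot D.h2 hfive
  have hmc : ∀ k, m * t k * m⁻¹ = t (k + 1) := by
    intro k; rw [hm]; group
  have e0 : t 0 = a := rfl
  have e1 : t 1 = b := rfl
  have e2 : t 2 = a * b * c := rfl
  have e3 : t 3 = a * b * d := rfl
  have hca : m * a * m⁻¹ ∈ R := by
    have := hmc 0
    rw [e0] at this; rw [this]; exact htR _
  have hcb : m * b * m⁻¹ ∈ R := by
    have := hmc 1
    rw [e1] at this; rw [this]; exact htR _
  have hcab : m * (a * b) * m⁻¹ ∈ R := by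
    have : m * (a * b) * m⁻¹ = (m * a * m⁻¹) * (m * b * m⁻¹) := by group
    rw [this]; exact R.mul_mem hca hcb
  have hcc' : m * c * m⁻¹ ∈ R := by
    have h3 : m * (a * b * c) * m⁻¹ ∈ R := by
      have := hmc 2
      rw [e2] at this; rw [this]; exact htR _
    have : m * c * m⁻¹ = (m * (a * b) * m⁻¹)⁻¹ * (m * (a * b * c) * m⁻¹) := by group
    rw [this]; exact R.mul_mem (R.inv_mem hcab) h3
  have hcd' : m * d * m⁻¹ ∈ R := by
    have h3 : m * (a * b * d) * m⁻¹ ∈ R := by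
      have := hmc 3
      rw [e3] at this; rw [this]; exact htR _
    have : m * d * m⁻¹ = (m * (a * b) * m⁻¹)⁻¹ * (m * (a * b * d) * m⁻¹) := by group
    rw [this]; exact R.mul_mem (R.inv_mem hcab) h3
  have hpow : ∀ (n : ℕ) (k : Fin 5), m ^ n * t k = t ((fun j : Fin 5 => j + 1)^[n] k) * m ^ n := by
    intro n
    induction n with
    | zero => intro k; simp
    | succ n ih =>
      intro k
      rw [pow_succ, mul_assoc, hm, ← mul_assoc, ih, mul_assoc]
      rfl
  have h5 : ∀ k, m ^ 5 * t k = t k * m ^ 5 := by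
    intro k
    rw [hpow]
    congr 2
    revert k; decide
  refine ⟨m, D.norm_of f hca hcb hcc' hcd', ?_, ?_, ?_⟩
  · apply D.scalar_of_comm
    intro y hy
    obtain ⟨s, hs, i, j, k, l, rfl⟩ := D.gen f hy
    have hsc := (Subgroup.mem_inf.1 hs).2
    have c1 : Commute (m ^ 5) a := h5 0
    have c2 : Commute (m ^ 5) b := h5 1
    have c3 : Commute (m ^ 5) c := by
      have h6 : Commute (m ^ 5) (a * b * c) := h5 2
      have h7 : c = (a * b)⁻¹ * (a * b * c) := by group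
      rw [h7]; exact (c1.mul_right c2).inv_right.mul_right h6
    have c4 : Commute (m ^ 5) d := by
      have h6 : Commute (m ^ 5) (a * b * d) := h5 3
      have h7 : d = (a * b)⁻¹ * (a * b * d) := by group
      rw [h7]; exact (c1.mul_right c2).inv_right.mul_right h6
    have c0 : Commute (m ^ 5) s := (scalars_comm hsc (m ^ 5)).symm
    exact c0.mul_right ((((c1.pow_right _).mul_right (c2.pow_right _)).mul_right (c3.pow_right _)).mul_right (c4.pow_right _))
  · intro hms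
    have h6 := hm 0
    rw [scalars_comm hms] at h6
    have h7 : t 0 = t 1 := mul_right_cancel h6
    have h8 := hanti 0 1 (by decide)
    rw [← h7, hsq] at h8
    exact D.ne_neg 1 h8
  · intro Φ hR u v
    exact hΦ Φ (fun i => hR _ (htR i)) u v

end Dat

end H99.ST
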