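import Mathlib
import Cfsg.Agent.Lib.H99.ST3

set_option autoImplicit false
set_option linter.unusedSimpArgs false
set_option linter.unusedSectionVars false
set_option linter.unusedVariables false

/-! 2-groups of symplectic type in dimension four: normalized frames. -/

namespace H99.ST

open Matrix Cfsg Cfsg.Geo Module H96.AschSympType1 H96.AschSympType3

variable {ι : Type} [Fintype ι] [DecidableEq ι] {F : Type*} [Field F]

namespace Dat

variable {R : Subgroup (GL ι F)} (D : Dat R)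

include D

/-- normalizing an anticommuting pair -/
theorem pair_norm {a b : GL ι F} (ha : a ∈ R) (hb : b ∈ R) (hab : a * b = -(b * a)) :
    ∃ a' ∈ R, ∃ b' ∈ R, a' * b' = -(b' * a') ∧ (∀ g, g * a = a * g → g * b = b * g → g * a' = a' * g ∧ g * b' = b' * g) ∧
      ((a' * a' = 1 ∧ b' * b' = 1) ∨ (a' * a' = -1 ∧ b' * b' = -1)) := by
  have hba : b * a = -(a * b) := by rw [hab, neg_neg]
  have hcm : ∀ g : GL ι F, g * a = a * g → g * b = b * g → g * (a * b) = a * b * g := by
    intro g h1 h2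
    rw [← mul_assoc, h1, mul_assoc, h2, mul_assoc]
  rcases D.sq' ha with h1 | h1 <;> rcases D.sq' hb with h2 | h2
  · exact ⟨a, ha, b, hb, hab, fun g h3 h4 => ⟨h3, h4⟩, Or.inl ⟨h1, h2⟩⟩
  · refine ⟨a, ha, a * b, R.mul_mem ha hb, ?_, fun g h3 h4 => ⟨h3, hcm g h3 h4⟩, Or.inl ⟨h1, ?_⟩⟩
    · rw [mul_assoc a b a, hba, mul_neg, neg_neg]
    · rw [mul_assoc, ← mul_assoc b a b, hba, neg_mul, mul_assoc a b b, h2, mul_neg, mul_neg, mul_one, mul_neg, neg_neg, h1]
  · refine ⟨a * b, R.mul_mem ha hb, b, hb, ?_, fun g h3 h4 => ⟨hcm g h3 h4, h4⟩, Or.inl ⟨?_, h2⟩⟩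
    · rw [← mul_assoc b a b, hba, neg_mul, neg_neg]
    · rw [mul_assoc, ← mul_assoc b a b, hba, neg_mul, mul_assoc a b b, h2, mul_neg, mul_one, h1, neg_neg]
  · exact ⟨a, ha, b, hb, hab, fun g h3 h4 => ⟨h3, h4⟩, Or.inr ⟨h1, h2⟩⟩

/-- independent commuting involutions do not exist in minus type -/
theorem no_elem [Finite R] (hm : IsOfMinusType 2 R) {u v : GL ι F} (hu : u ∈ R) (hv : v ∈ R) (huu : u * u = 1) (hvv : v * v = 1)
    (huv : u * v = v * u) (hu1 : u ≠ 1) (hu2 : u ≠ -1) (hv1 : v ≠ 1) (hv2 : v ≠ -1) (h1 : u ≠ v) (h2 : u ≠ -v) : False := by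
  classical
  let n' : R := ⟨-1, D.neg⟩
  let u' : R := ⟨u, hu⟩
  let v' : R := ⟨v, hv⟩
  let S : Set R := {n', u', v'}
  have hcomm : ∀ x ∈ S, ∀ y ∈ S, x * y = y * x := by
    intro x hx y hy
    apply Subtype.ext
    rcases hx with rfl | rfl | rfl <;> rcases hy with rfl | rfl | rfl
    · rfl
    · show (-1 : GL ι F) * u = u * -1
      simp
    · show (-1 : GL ι F) * v = v * -1
      simp
    · show u * (-1 : GL ι F) = -1 * u
      simp
    · rfl
    · exact huv
    · show v * (-1 : GL ι F) = -1 * v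
      simp
    · exact huv.symm
    · rfl
  let A : Subgroup R := Subgroup.closure S
  have hA : IsMulCommutative A := Subgroup.isMulCommutative_closure hcomm
  have hAc : ∀ x ∈ A, ∀ y ∈ A, x * y = y * x := by
    intro x hx y hy
    have := hA.is_comm.comm ⟨x, hx⟩ ⟨y, hy⟩
    exact congrArg Subtype.val this
  have hsq : ∀ x ∈ A, x * x = 1 := by
    intro x hx
    induction hx using Subgroup.closure_induction with
    | mem x hx =>
      apply Subtype.ext
      rcases hx with rfl | rfl | rfl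
      · show (-1 : GL ι F) * -1 = 1
        simp
      · exact huu
      · exact hvv
    | one => rw [mul_one]
    | mul x y hx hy ihx ihy =>
      have : x * y * (x * y) = x * x * (y * y) := by
        rw [mul_assoc, ← mul_assoc y x y, hAc y hy x hx]
        simp only [mul_assoc]
      rw [this, ihx, ihy, mul_one]
    | inv x hx ih => rw [← _root_.mul_inv_rev, ih, inv_one]
  have hlt := hm A hA hsq
  have hp : IsPGroup 2 A := by
    intro x
    refine ⟨1, ?_⟩
    apply Subtype.ext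
    rw [pow_one, pow_two]
    exact hsq x x.2
  obtain ⟨k, hk⟩ := IsPGroup.iff_card.1 hp
  have hle : Nat.card A ≤ 4 := by
    rw [hk] at hlt ⊢
    have : k < 3 := (Nat.pow_lt_pow_iff_right (by norm_num)).1 hlt
    calc 2 ^ k ≤ 2 ^ 2 := Nat.pow_le_pow_right (by norm_num) (by omega)
      _ = 4 := by norm_num
  -- five elements
  have hn1 : (-1 : GL ι F) ≠ 1 := fun h => D.ne_neg 1 h.symm
  have memS : ∀ x ∈ S, x ∈ A := fun x hx => Subgroup.subset_closure hx
  have hn'A : n' ∈ A := memS _ (by simp [S])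
  have hu'A : u' ∈ A := memS _ (by simp [S])
  have hv'A : v' ∈ A := memS _ (by simp [S])
  let w : Fin 5 → GL ι F := ![1, -1, u, -u, v]
  let w' : Fin 5 → A := ![1, ⟨n', hn'A⟩, ⟨u', hu'A⟩, ⟨n' * u', A.mul_mem hn'A hu'A⟩, ⟨v', hv'A⟩]
  have hww : ∀ i, (((w' i : A) : R) : GL ι F) = w i := by
    intro i
    fin_cases i
    · rfl
    · rfl
    · rfl
    · show (-1 : GL ι F) * u = -u
      simp
    · rfl
  have hnu1 : -u ≠ 1 := fun h => hu2 (by rw [← h, neg_neg])
  have hnu2 : -u ≠ -1 := fun h => hu1 (neg_injective h)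
  have hnu3 : -u ≠ u := fun h => D.ne_neg u h.symm
  have hnu4 : -u ≠ v := fun h => h2 (by rw [← h, neg_neg])
  have hinj : Function.Injective w := by
    have hlt' : ∀ i j : Fin 5, i < j → w i ≠ w j := by
      intro i j hij
      fin_cases i <;> fin_cases j <;> first | (exfalso; revert hij; decide) | skip
      · exact hn1.symm
      · exact hu1.symm
      · exact hnu1.symm
      · exact hv1.symm
      · exact hu2.symm
      · exact hnu2.symm
      · exact hv2.symm
      · exact hnu3.symm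
      · exact h1
      · exact hnu4
    intro i j hij
    by_contra hne
    rcases lt_or_gt_of_ne hne with h | h
    · exact hlt' i j h hij
    · exact hlt' j i h hij.symm
  have hinj' : Function.Injective w' := by
    intro i j hij
    apply hinj
    rw [← hww, ← hww, hij]
  have h5 := Nat.card_le_card_of_injective w' hinj'
  rw [Nat.card_eq_fintype_card, Fintype.card_fin] at h5
  omega

/-- the frame of minus type -/
theorem minus_frame [Finite R] (hm : IsOfMinusType 2 R) (hsc : ∀ s ∈ R, s ∈ scalars ι F → s = 1 ∨ s = -1) :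
    ∃ a b c d, Fr R a b c d ∧ a * a = 1 ∧ b * b = 1 ∧ c * c = -1 ∧ d * d = -1 := by
  obtain ⟨a₀, b₀, c₀, d₀, f⟩ := D.exists_frame
  obtain ⟨a, ha, b, hb, hab, hca, hsa⟩ := D.pair_norm f.ha f.hb f.ab
  obtain ⟨c, hc, d, hd, hcd, hcc, hsc'⟩ := D.pair_norm f.hc f.hd f.cd
  have hac : c * a = a * c ∧ c * b = b * c := by
    have h1 : ∀ x, x * c₀ = c₀ * x → x * d₀ = d₀ * x → x * c = c * x := fun x h h' => (hcc x h h').1
    have h2 := h1 a₀ f.ac f.ad
    have h3 := h1 b₀ f.bc f.bd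
    exact hca c h2.symm h3.symm
  have had : d * a = a * d ∧ d * b = b * d := by
    have h1 : ∀ x, x * c₀ = c₀ * x → x * d₀ = d₀ * x → x * d = d * x := fun x h h' => (hcc x h h').2
    have h2 := h1 a₀ f.ac f.ad
    have h3 := h1 b₀ f.bc f.bd
    exact hca d h2.symm h3.symm
  have hba : b * a = -(a * b) := by rw [hab, neg_neg]
  -- elements anticommuting with something are not scalar
  have hns : ∀ x y : GL ι F, x * y = -(y * x) → x ≠ 1 ∧ x ≠ -1 := by
    intro x y hxy
    constructor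
    · rintro rfl
      rw [one_mul, mul_one] at hxy
      exact D.ne_neg y hxy
    · rintro rfl
      rw [neg_one_mul, mul_neg_one, neg_neg] at hxy
      exact D.ne_neg y hxy.symm
  have hne : ∀ x y z : GL ι F, x * z = -(z * x) → y * z = z * y → x ≠ y ∧ x ≠ -y := by
    intro x y z hx hy
    constructor
    · rintro rfl
      rw [hx] at hy
      exact D.ne_neg _ hy.symm
    · rintro rfl
      rw [neg_mul, mul_neg, neg_neg, hy] at hx
      exact D.ne_neg _ hx.symm
  rcases hsa with ⟨h1, h2⟩ | ⟨h1, h2⟩ <;> rcases hsc' with ⟨h3, h4⟩ | ⟨h3, h4⟩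
  · exfalso
    obtain ⟨e1, e2⟩ := hns a b hab
    obtain ⟨e3, e4⟩ := hns c d hcd
    obtain ⟨e5, e6⟩ := hne a c b hab hac.2
    exact D.no_elem hm ha hc h1 h3 hac.1.symm e1 e2 e3 e4 e5 e6
  · exact ⟨a, b, c, d, ⟨ha, hb, hc, hd, hab, hcd, hac.1.symm, had.1.symm, hac.2.symm, had.2.symm⟩, h1, h2, h3, h4⟩
  · exact ⟨c, d, a, b, ⟨hc, hd, ha, hb, hcd, hab, hac.1, hac.2, had.1, had.2⟩, h3, h4, h1, h2⟩
  · exfalso
    have hdc : d * c = -(c * d) := by rw [hcd, neg_neg]
    have k1 : a * c * b = -(b * (a * c)) := by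
      rw [mul_assoc, hac.2, ← mul_assoc, hab, neg_mul, mul_assoc]
    have k2 : b * d * b = b * (b * d) := by
      rw [mul_assoc, had.2]
    have k3 : b * d * a = -(a * (b * d)) := by
      rw [mul_assoc, had.1, ← mul_assoc, hba, neg_mul, mul_assoc]
    obtain ⟨e1, e2⟩ := hns (a * c) b k1
    obtain ⟨e3, e4⟩ := hns (b * d) a k3
    obtain ⟨e5, e6⟩ := hne (a * c) (b * d) b k1 k2
    have s1 : a * c * (a * c) = 1 := by
      rw [mul_assoc, ← mul_assoc c a c, hac.1, mul_assoc a c c, ← mul_assoc, h1, h3]; simp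
    have s2 : b * d * (b * d) = 1 := by
      rw [mul_assoc, ← mul_assoc d b d, had.2, mul_assoc b d d, ← mul_assoc, h2, h4]; simp
    have s3 : a * c * (b * d) = b * d * (a * c) := by
      have l1 : a * c * (b * d) = a * b * (c * d) := by
        rw [mul_assoc a c, ← mul_assoc c b d, hac.2]; simp only [mul_assoc]
      have l2 : b * d * (a * c) = b * a * (d * c) := by
        rw [mul_assoc b d, ← mul_assoc d a c, had.1]; simp only [mul_assoc]
      rw [l1, l2, hba, hdc, neg_mul_neg]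
    exact D.no_elem hm (R.mul_mem ha hc) (R.mul_mem hb hd) s1 s2 s3 e1 e2 e3 e4 e5 e6

/-- the frame when a square root of `-1` is in `R` -/
theorem full_frame [Finite R] {z : GL ι F} (hz : z ∈ R) (hzs : z ∈ scalars ι F) (hz2 : z * z = -1) :
    ∃ a b c d, Fr R a b c d ∧ a * a = 1 ∧ b * b = 1 ∧ c * c = -1 ∧ d * d = -1 := by
  obtain ⟨a, b, c, d, f⟩ := D.exists_frame
  -- adjusting one element
  have hzc : ∀ g : GL ι F, z * g = g * z := scalars_comm hzs
  have key : ∀ (x : GL ι F), x ∈ R → ∀ ε : GL ι F, (ε = 1 ∨ ε = -1) → ∃ x' ∈ R, x' * x' = ε ∧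
      (∀ g, x * g = g * x → x' * g = g * x') ∧ (∀ g, x * g = -(g * x) → x' * g = -(g * x')) := by
    intro x hx ε hε
    have h1 : x * x = ε ∨ x * x = -ε := by
      rcases hε with rfl | rfl
      · exact D.sq' hx
      · rw [neg_neg]; exact (D.sq' hx).symm
    rcases h1 with h1 | h1
    · exact ⟨x, hx, h1, fun g h => h, fun g h => h⟩
    · refine ⟨z * x, R.mul_mem hz hx, ?_, fun g h => ?_, fun g h => ?_⟩
      · rw [mul_assoc, ← mul_assoc x z x, ← hzc x, mul_assoc z x x, h1, ← mul_assoc, hz2]; simp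
      · rw [mul_assoc, h, ← mul_assoc, hzc g, mul_assoc]
      · rw [mul_assoc, h, mul_neg, ← mul_assoc, hzc g, mul_assoc]
  obtain ⟨a', ha', ha2, ha3, ha4⟩ := key a f.ha 1 (Or.inl rfl)
  obtain ⟨b', hb', hb2, hb3, hb4⟩ := key b f.hb 1 (Or.inl rfl)
  obtain ⟨c', hc', hc2, hc3, hc4⟩ := key c f.hc (-1) (Or.inr rfl)
  obtain ⟨d', hd', hd2, hd3, hd4⟩ := key d f.hd (-1) (Or.inr rfl)
  have flip : ∀ x y : GL ι F, x * y = -(y * x) → y * x = -(x * y) := fun x y h => by rw [h, neg_neg]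
  refine ⟨a', b', c', d', ⟨ha', hb', hc', hd', ?_, ?_, ?_, ?_, ?_, ?_⟩, ha2, hb2, hc2, hd2⟩
  · exact flip _ _ (hb4 _ (flip _ _ (ha4 _ f.ab)))
  · exact flip _ _ (hd4 _ (flip _ _ (hc4 _ f.cd)))
  · exact (hc3 _ (ha3 _ f.ac).symm).symm
  · exact (hd3 _ (ha3 _ f.ad).symm).symm
  · exact (hc3 _ (hb3 _ f.bc).symm).symm
  · exact (hd3 _ (hb3 _ f.bd).symm).symm

/-- in minus type, elements of order three centralize a noncentral element -/
theorem minus_three [Finite R] (hm : IsOfMinusType 2 R) (hsc : ∀ s ∈ R, s ∈ scalars ι F → s = 1 ∨ s = -1) {y : GL ι F}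
    (hy : y ∈ subgroupNormalizer R) (hy3 : y ^ 3 = 1) : ∃ t ∈ R, y * t = t * y ∧ t ∉ scalars ι F := by
  have hne := D.ne
  by_contra hcon
  push Not at hcon
  obtain ⟨a, b, c, d, f, haa, hbb, hcc, hdd⟩ := D.minus_frame hm hsc
  have hconj : ∀ g ∈ R, y * g * y⁻¹ ∈ R := fun g hg => ((Subgroup.mem_normalizer_iff.1 hy) g).1 hg
  have has : a ∉ scalars ι F := by
    intro h
    have h1 := f.ab
    rw [scalars_comm h b] at h1
    exact D.ne_neg _ h1
  set a1 := y * a * y⁻¹ with ha1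
  set a2 := y * a1 * y⁻¹ with ha2
  have ha1R : a1 ∈ R := hconj a f.ha
  have ha2R : a2 ∈ R := hconj a1 ha1R
  have ha3 : y * a2 * y⁻¹ = a := by
    have y3 : y ^ 3 = y * y * y := by rw [pow_succ, pow_two]
    have e : y * a2 * y⁻¹ = (y * y * y) * a * (y * y * y)⁻¹ := by rw [ha2, ha1]; group
    rw [e, ← y3, hy3]; simp
  have sq1 : a1 * a1 = 1 := by
    rw [ha1]
    calc y * a * y⁻¹ * (y * a * y⁻¹) = y * (a * a) * y⁻¹ := by group
      _ = 1 := by rw [haa]; group
  have sq2 : a2 * a2 = 1 := by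
    rw [ha2]
    calc y * a1 * y⁻¹ * (y * a1 * y⁻¹) = y * (a1 * a1) * y⁻¹ := by group
      _ = 1 := by rw [sq1]; group
  -- the product commutes with y
  set p := a * a1 * a2 with hp
  have hpR : p ∈ R := R.mul_mem (R.mul_mem f.ha ha1R) ha2R
  have hyp : y * p * y⁻¹ = a1 * a2 * a := by
    calc y * p * y⁻¹ = (y * a * y⁻¹) * (y * a1 * y⁻¹) * (y * a2 * y⁻¹) := by rw [hp]; group
      _ = a1 * a2 * a := by rw [ha3]
  have hodd : Odd 3 := by decide
  have hn1 : (-1 : GL ι F) ∈ scalars ι F := mem_scalars_iff.2 ⟨-1, by rw [Units.val_neg, Units.val_one, neg_smul, one_smul]⟩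
  have hyp' : y * p * y⁻¹ = p ∨ y * p * y⁻¹ = -p := by
    rw [hyp, hp]
    rcases D.sgn' f.ha (R.mul_mem ha1R ha2R) with h | h
    · left; exact h.symm.trans (mul_assoc _ _ _).symm
    · right; rw [mul_assoc a a1 a2, h, neg_neg]
  have hcp : y * p = p * y := by
    apply D.scalar_comm hy hodd hy3 hpR
    have e : p * y * p⁻¹ * y⁻¹ = p * (y * p * y⁻¹)⁻¹ := by group
    rw [e]
    rcases hyp' with h | h
    · rw [h, mul_inv_cancel]; exact Subgroup.one_mem _
    · rw [h]
      have : p * (-p)⁻¹ = -1 := by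
        rw [inv_neg, mul_neg, mul_inv_cancel]
      rw [this]; exact hn1
  have hps := hcon p hpR hcp
  -- so a1 commutes with a
  have ha2' : a2 = (a * a1)⁻¹ ∨ a2 = -(a * a1)⁻¹ := by
    have e : a2 = (a * a1)⁻¹ * p := by rw [hp]; group
    rcases hsc p hpR hps with h | h
    · left; rw [e, h, mul_one]
    · right; rw [e, h, mul_neg, mul_one]
  have hsq : a * a1 * (a * a1) = 1 := by
    have e : (a * a1)⁻¹ * (a * a1)⁻¹ = 1 := by
      rcases ha2' with h | h
      · rw [← h]; exact sq2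
      · have : (a * a1)⁻¹ = -a2 := by rw [h, neg_neg]
        rw [this, neg_mul_neg]; exact sq2
    rw [← _root_.mul_inv_rev] at e
    exact inv_eq_one.1 e
  have hcomm : a * a1 = a1 * a := by
    have e : a1 * a = (a * (a * a1 * (a * a1)) * a1)  := by
      calc a1 * a = (a * a) * (a1 * a) * (a1 * a1) := by rw [haa, sq1, one_mul, mul_one]
        _ = _ := by group
    rw [e, hsq, mul_one]
  have has1 : ∀ x : GL ι F, x ∈ R → x ∉ scalars ι F → x ≠ 1 ∧ x ≠ -1 := by
    intro x _ hx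
    constructor
    · rintro rfl; exact hx (Subgroup.one_mem _)
    · rintro rfl; exact hx hn1
  obtain ⟨e1, e2⟩ := has1 a f.ha has
  have ha1s : a1 ∉ scalars ι F := by
    intro h
    apply has
    have : a = y⁻¹ * a1 * y := by rw [ha1]; group
    rw [this, mul_assoc, scalars_comm h, ← mul_assoc, inv_mul_cancel, one_mul]
    exact h
  obtain ⟨e3, e4⟩ := has1 a1 ha1R ha1s
  have hcontr : y * a ≠ a * y := fun h => has (hcon a f.ha h)
  refine D.no_elem hm f.ha ha1R haa sq1 hcomm e1 e2 e3 e4 ?_ ?_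
  · intro h
    apply hcontr
    have : y * a * y⁻¹ = a := by rw [← ha1, ← h]
    calc y * a = y * a * y⁻¹ * y := by group
      _ = a * y := by rw [this]
  · intro h
    apply hcontr
    apply D.scalar_comm hy hodd hy3 f.ha
    have e : a * y * a⁻¹ * y⁻¹ = a * a1⁻¹ := by rw [ha1]; group
    rw [e]
    have : a * a1⁻¹ = -1 := by
      nth_rewrite 1 [h]
      rw [neg_mul, mul_inv_cancel]
    rw [this]; exact hn1

end Dat

end H99.ST
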