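import Mathlib
import Cfsg.Agent.Lib.H99.ST4

set_option autoImplicit false
set_option linter.unusedSimpArgs false
set_option linter.unusedSectionVars false
set_option linter.unusedVariables false

/-! 2-groups of symplectic type in dimension four: reflections and elements of order three in the normalizer. -/

namespace H99.ST

open Matrix Cfsg Cfsg.Geo Module H96.AschSympType1 H96.AschSympType3

variable {ι : Type} [Fintype ι] [DecidableEq ι] {F : Type*} [Field F]

/-- the Hurwitz unit -/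
theorem hurwitz (h2 : (2 : F) ≠ 0) {a b : Matrix ι ι F} (haa : a * a = -1) (hbb : b * b = -1) (hab : a * b = -(b * a)) :
    ∃ h : Matrix ι ι F, h = (2 : F)⁻¹ • (-1 + a + b + a * b) ∧ h * h + h + 1 = 0 ∧ h * a = (a * b) * h ∧ h * b = a * h := by
  have hba : b * a = -(a * b) := by rw [hab, neg_neg]
  have e1 : a * b * a = b := by rw [mul_assoc, hba, mul_neg, ← mul_assoc, haa]; simp
  have e2 : a * b * b = -a := by rw [mul_assoc, hbb]; simp
  have e3 : a * (a * b) = -b := by rw [← mul_assoc, haa]; simp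
  have e4 : b * (a * b) = a := by rw [← mul_assoc, hba, neg_mul, e2, neg_neg]
  have e5 : a * b * (a * b) = -1 := by rw [← mul_assoc, e1, hbb]
  set u := -1 + a + b + a * b with hu
  have huu : u * u = (-2 : F) • u + (-4 : F) • 1 := by
    rw [hu]
    simp only [add_mul, mul_add, haa, hbb, e1, e2, e3, e4, e5, hba, neg_mul, mul_neg, one_mul, mul_one]
    module
  have hua : u * a = (a * b) * u := by
    rw [hu]
    simp only [add_mul, mul_add, haa, hbb, e1, e2, e3, e4, e5, hba, neg_mul, mul_neg, one_mul, mul_one]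
    abel
  have hub : u * b = a * u := by
    rw [hu]
    simp only [add_mul, mul_add, haa, hbb, e1, e2, e3, e4, e5, hba, neg_mul, mul_neg, one_mul, mul_one]
    abel
  refine ⟨(2 : F)⁻¹ • u, rfl, ?_, ?_, ?_⟩
  · rw [Matrix.smul_mul, Matrix.mul_smul, huu]
    have h4 : (2 : F)⁻¹ * 2 = 1 := inv_mul_cancel₀ h2
    have : ((2 : F)⁻¹ • (2 : F)⁻¹ • ((-2 : F) • u + (-4 : F) • (1 : Matrix ι ι F))) + (2 : F)⁻¹ • u + 1 =
        ((2 : F)⁻¹ * ((2 : F)⁻¹ * (-2) + 1)) • u + ((2 : F)⁻¹ * (2 : F)⁻¹ * (-4) + 1) • (1 : Matrix ι ι F) := by module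
    rw [this]
    have h5 : (2 : F)⁻¹ * (-2) + 1 = 0 := by linear_combination -h4
    have h6 : (2 : F)⁻¹ * (2 : F)⁻¹ * (-4) + 1 = 0 := by linear_combination (-(2 : F)⁻¹ * 2 - 1) * h4
    rw [h5, h6, mul_zero, zero_smul, zero_smul, zero_add]
  · rw [Matrix.smul_mul, hua, Matrix.mul_smul]
  · rw [Matrix.smul_mul, hub, Matrix.mul_smul]

/-- the reflection -/
theorem refl_elt (h2 : (2 : F) ≠ 0) {a c : Matrix ι ι F} (haa : a * a = 1) (hcc : c * c = 1) (hac : a * c = c * a) :
    ∃ w : Matrix ι ι F, w = (2 : F)⁻¹ • (1 + a + c - a * c) ∧ w * w = 1 ∧ w * a = a * w ∧ w * c = c * w ∧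
      (∀ b : Matrix ι ι F, b * a = -(a * b) → b * c = c * b → w * b = (c * b) * w) ∧
      (∀ d : Matrix ι ι F, d * a = a * d → d * c = -(c * d) → w * d = (a * d) * w) := by
  have hca : c * a = a * c := hac.symm
  have e1 : a * c * a = c := by rw [mul_assoc, hca, ← mul_assoc, haa, one_mul]
  have e2 : a * c * c = a := by rw [mul_assoc, hcc, mul_one]
  have e3 : a * (a * c) = c := by rw [← mul_assoc, haa, one_mul]
  have e4 : c * (a * c) = a := by rw [← mul_assoc, hca, e2]
  have e5 : a * c * (a * c) = 1 := by rw [← mul_assoc, e1, hcc]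
  set u := 1 + a + c - a * c with hu
  have huu : u * u = (4 : F) • 1 := by
    rw [hu]
    simp only [add_mul, mul_add, sub_mul, mul_sub, haa, hcc, e1, e2, e3, e4, e5, hca, neg_mul, mul_neg, one_mul, mul_one]
    module
  have hua : u * a = a * u := by
    rw [hu]
    simp only [add_mul, mul_add, sub_mul, mul_sub, haa, hcc, e1, e2, e3, e4, e5, hca, neg_mul, mul_neg, one_mul, mul_one]
  have huc : u * c = c * u := by
    rw [hu]
    simp only [add_mul, mul_add, sub_mul, mul_sub, haa, hcc, e1, e2, e3, e4, e5, hca, neg_mul, mul_neg, one_mul, mul_one]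
  have hub : ∀ b : Matrix ι ι F, b * a = -(a * b) → b * c = c * b → u * b = (c * b) * u := by
    intro b h1 h3
    have f1 : c * b * a = -(a * c * b) := by rw [mul_assoc, h1, mul_neg, ← mul_assoc, hca]
    have f2 : c * b * c = b := by rw [mul_assoc, h3, ← mul_assoc, hcc, one_mul]
    have f3 : c * b * (a * c) = -(a * b) := by
      rw [← mul_assoc, f1, neg_mul, mul_assoc (a * c) b c, h3, ← mul_assoc, e2]
    rw [hu]
    simp only [add_mul, mul_add, sub_mul, mul_sub, f1, f2, f3, one_mul, mul_one]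
    abel
  have hud : ∀ d : Matrix ι ι F, d * a = a * d → d * c = -(c * d) → u * d = (a * d) * u := by
    intro d h1 h3
    have f1 : a * d * a = d := by rw [mul_assoc, h1, ← mul_assoc, haa, one_mul]
    have f2 : a * d * c = -(a * c * d) := by rw [mul_assoc, h3, mul_neg, ← mul_assoc]
    have f3 : a * d * (a * c) = -(c * d) := by
      rw [← mul_assoc, f1, h3]
    rw [hu]
    simp only [add_mul, mul_add, sub_mul, mul_sub, f1, f2, f3, one_mul, mul_one]
    abel
  refine ⟨(2 : F)⁻¹ • u, rfl, ?_, ?_, ?_, ?_, ?_⟩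
  · rw [Matrix.smul_mul, Matrix.mul_smul, huu]
    have h4 : (2 : F)⁻¹ * 2 = 1 := inv_mul_cancel₀ h2
    rw [smul_smul, smul_smul]
    have h6 : (2 : F)⁻¹ * (2 : F)⁻¹ * 4 = 1 := by linear_combination ((2 : F)⁻¹ * 2 + 1) * h4
    rw [← mul_assoc] at *
    rw [h6, one_smul]
  · rw [Matrix.smul_mul, hua, Matrix.mul_smul]
  · rw [Matrix.smul_mul, huc, Matrix.mul_smul]
  · intro b h1 h3
    rw [Matrix.smul_mul, hub b h1 h3, Matrix.mul_smul]
  · intro d h1 h3
    rw [Matrix.smul_mul, hud d h1 h3, Matrix.mul_smul]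

namespace Dat

variable {R : Subgroup (GL ι F)} (D : Dat R)

include D

/-- frames with prescribed squares when a square root of `-1` is in `R` -/
theorem full_frame_gen [Finite R] {z : GL ι F} (hz : z ∈ R) (hzs : z ∈ scalars ι F) (hz2 : z * z = -1) (ε₁ ε₂ ε₃ ε₄ : GL ι F)
    (h₁ : ε₁ = 1 ∨ ε₁ = -1) (h₂ : ε₂ = 1 ∨ ε₂ = -1) (h₃ : ε₃ = 1 ∨ ε₃ = -1) (h₄ : ε₄ = 1 ∨ ε₄ = -1) :
    ∃ a b c d, Fr R a b c d ∧ a * a = ε₁ ∧ b * b = ε₂ ∧ c * c = ε₃ ∧ d * d = ε₄ := by
  obtain ⟨a, b, c, d, f⟩ := D.exists_frame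
  -- adjusting one element
  have hzc : ∀ g : GL ι F, z * g = g * z := scalars_comm hzs
  have key : ∀ (x : GL ι F), x ∈ R → ∀ ε : GL ι F, (ε = 1 ∨ ε = -1) → ∃ x' ∈ R, x' * x' = ε ∧
      (∀ g, x * g = g * x → x' * g = g * x') ∧ (∀ g, x * g = -(g * x) → x' * g = -(g * x')) := by
    intro x hx ε hε
    have h1 : x * x = ε ∨ x * x = -ε := by
      rcases hε with rfl | rfl
      · exact D.sq' hx
      · rw [neg_neg]; exact (D.sq' hx).symm
    rcases h1 with h1 | h1
    · exact ⟨x, hx, h1, fun g h => h, fun g h => h⟩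
    · refine ⟨z * x, R.mul_mem hz hx, ?_, fun g h => ?_, fun g h => ?_⟩
      · rw [mul_assoc, ← mul_assoc x z x, ← hzc x, mul_assoc z x x, h1, ← mul_assoc, hz2]; simp
      · rw [mul_assoc, h, ← mul_assoc, hzc g, mul_assoc]
      · rw [mul_assoc, h, mul_neg, ← mul_assoc, hzc g, mul_assoc]
  obtain ⟨a', ha', ha2, ha3, ha4⟩ := key a f.ha ε₁ h₁
  obtain ⟨b', hb', hb2, hb3, hb4⟩ := key b f.hb ε₂ h₂
  obtain ⟨c', hc', hc2, hc3, hc4⟩ := key c f.hc ε₃ h₃
  obtain ⟨d', hd', hd2, hd3, hd4⟩ := key d f.hd ε₄ h₄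
  have flip : ∀ x y : GL ι F, x * y = -(y * x) → y * x = -(x * y) := fun x y h => by rw [h, neg_neg]
  refine ⟨a', b', c', d', ⟨ha', hb', hc', hd', ?_, ?_, ?_, ?_, ?_, ?_⟩, ha2, hb2, hc2, hd2⟩
  · exact flip _ _ (hb4 _ (flip _ _ (ha4 _ f.ab)))
  · exact flip _ _ (hd4 _ (flip _ _ (hc4 _ f.cd)))
  · exact (hc3 _ (ha3 _ f.ac).symm).symm
  · exact (hd3 _ (ha3 _ f.ad).symm).symm
  · exact (hc3 _ (hb3 _ f.bc).symm).symm
  · exact (hd3 _ (hb3 _ f.bd).symm).symm

theorem not_scalar_of_anti {u v : GL ι F} (huv : u * v = -(v * u)) : u ∉ scalars ι F := by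
  intro hs
  rw [scalars_comm hs v] at huv
  exact D.ne_neg _ huv

/-- a reflection in the normalizer -/
theorem exists_refl [Finite F] [Finite R] {a b c d : GL ι F} (f : Fr R a b c d) (haa : a * a = 1) (hcc : c * c = 1) :
    ∃ w ∈ subgroupNormalizer R, w * w = 1 ∧ (w : Matrix ι ι F).trace = 2 ∧
      ((w : Matrix ι ι F) = (2 : F)⁻¹ • (1 + (a : Matrix ι ι F) + c - a * c)) := by
  have toM : ∀ x y : GL ι F, x = y → (x : Matrix ι ι F) = y := fun x y h => congrArg Units.val h
  have haa' : (a : Matrix ι ι F) * a = 1 := toM _ _ haa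
  have hcc' : (c : Matrix ι ι F) * c = 1 := toM _ _ hcc
  have hac' : (a : Matrix ι ι F) * c = c * a := toM _ _ f.ac
  obtain ⟨w, hw, hww, hwa, hwc, hwb, hwd⟩ := refl_elt D.h2 haa' hcc' hac'
  let W : GL ι F := ⟨w, w, hww, hww⟩
  have hW : (W : Matrix ι ι F) = w := rfl
  have hWW : W * W = 1 := Units.ext hww
  have hWi : W⁻¹ = W := by rw [inv_eq_iff_mul_eq_one]; exact hWW
  have f1 : (b : Matrix ι ι F) * a = -((a : Matrix ι ι F) * b) := by
    have := toM _ _ (show b * a = -(a * b) by rw [f.ab, neg_neg])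
    rw [Units.val_neg] at this
    exact this
  have f2 : (b : Matrix ι ι F) * c = c * b := toM _ _ f.bc
  have f3 : (d : Matrix ι ι F) * a = a * d := toM _ _ f.ad.symm
  have f4 : (d : Matrix ι ι F) * c = -((c : Matrix ι ι F) * d) := by
    have := toM _ _ (show d * c = -(c * d) by rw [f.cd, neg_neg])
    rw [Units.val_neg] at this
    exact this
  have key : ∀ x y : GL ι F, w * (x : Matrix ι ι F) = y * w → W * x * W⁻¹ = y := by
    intro x y h
    rw [mul_inv_eq_iff_eq_mul]
    exact Units.ext h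
  refine ⟨W, ?_, hWW, ?_, hw⟩
  · apply D.norm_of f
    · rw [key a a hwa]; exact f.ha
    · rw [key b (c * b) (hwb _ f1 f2)]; exact R.mul_mem f.hc f.hb
    · rw [key c c hwc]; exact f.hc
    · rw [key d (a * d) (hwd _ f3 f4)]; exact R.mul_mem f.ha f.hd
  · rw [hW, hw, Matrix.trace_smul, Matrix.trace_sub, Matrix.trace_add, Matrix.trace_add, Matrix.trace_one, D.card]
    have t1 : (a : Matrix ι ι F).trace = 0 := D.tr_zero f.ha (D.not_scalar_of_anti f.ab)
    have t2 : (c : Matrix ι ι F).trace = 0 := D.tr_zero f.hc (D.not_scalar_of_anti f.cd)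
    have t3 : ((a : Matrix ι ι F) * c).trace = 0 := by
      have : (a * c) * b = -(b * (a * c)) := by
        rw [mul_assoc, ← f.bc, ← mul_assoc, f.ab, neg_mul, mul_assoc]
      have := D.tr_zero (R.mul_mem f.ha f.hc) (D.not_scalar_of_anti this)
      rw [Units.val_mul] at this
      exact this
    rw [t1, t2, t3, smul_eq_mul]
    have h2 := D.h2
    push_cast
    field_simp
    ring

/-- an element of order three in the normalizer, centralizing the second pair -/
theorem exists_hurwitz [Finite F] [Finite R] {a b c d : GL ι F} (f : Fr R a b c d) (haa : a * a = -1) (hbb : b * b = -1) :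
    ∃ h ∈ subgroupNormalizer R, h * h * h = 1 ∧ (h : Matrix ι ι F) * h + h + 1 = 0 ∧ h * a = a * b * h ∧ h * b = a * h ∧
      (∀ x : GL ι F, x * a = a * x → x * b = b * x → h * x = x * h) := by
  have toM : ∀ x y : GL ι F, x = y → (x : Matrix ι ι F) = y := fun x y h => congrArg Units.val h
  have toM' : ∀ x y : GL ι F, x = -y → (x : Matrix ι ι F) = -y := fun x y h => by
    have := congrArg Units.val h
    rw [Units.val_neg] at this; exact this
  have haa' : (a : Matrix ι ι F) * a = -1 := toM' _ 1 haa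
  have hbb' : (b : Matrix ι ι F) * b = -1 := toM' _ 1 hbb
  have hab' : (a : Matrix ι ι F) * b = -((b : Matrix ι ι F) * a) := toM' _ (b * a) f.ab
  obtain ⟨h, hh, h1, h2, h3⟩ := hurwitz D.h2 haa' hbb' hab'
  have hinv : h * (-h - 1) = 1 := by
    rw [mul_sub, mul_neg, mul_one]
    rw [← sub_eq_zero]
    have : -(h * h) - h - 1 = -(h * h + h + 1) := by abel
    rw [this, h1, neg_zero]
  let H : GL ι F := ⟨h, -h - 1, hinv, mul_eq_one_comm.1 hinv⟩
  have key : ∀ x y : GL ι F, h * (x : Matrix ι ι F) = y * h → H * x * H⁻¹ = y := by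
    intro x y h
    rw [mul_inv_eq_iff_eq_mul]
    exact Units.ext h
  have hcomm : ∀ x : GL ι F, x * a = a * x → x * b = b * x → H * x = x * H := by
    intro x hxa hxb
    apply Units.ext
    show h * (x : Matrix ι ι F) = x * h
    have e1 : (x : Matrix ι ι F) * a = a * x := toM _ _ hxa
    have e2 : (x : Matrix ι ι F) * b = b * x := toM _ _ hxb
    rw [hh, Matrix.smul_mul, Matrix.mul_smul]
    congr 1
    simp only [add_mul, mul_add, neg_mul, mul_neg, one_mul, mul_one, e1, e2]
    rw [mul_assoc, ← e2, ← mul_assoc, ← e1, mul_assoc]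
  refine ⟨H, ?_, ?_, h1, Units.ext h2, Units.ext h3, hcomm⟩
  · apply D.norm_of f
    · rw [key a (a * b) h2]; exact R.mul_mem f.ha f.hb
    · rw [key b a h3]; exact f.ha
    · have := hcomm c f.ac.symm f.bc.symm
      rw [this, mul_inv_cancel_right]; exact f.hc
    · have := hcomm d f.ad.symm f.bd.symm
      rw [this, mul_inv_cancel_right]; exact f.hd
  · apply Units.ext
    show h * h * h = 1
    have e : h * h = -h - 1 := by
      rw [eq_sub_iff_add_eq, eq_neg_iff_add_eq_zero]
      rw [← h1]; abel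
    rw [e, mul_eq_one_comm.1 hinv]

/-- an element of order three with fixed vectors -/
theorem exists_hurwitz2 [Finite F] [Finite R] {a b c d : GL ι F} (f : Fr R a b c d) (haa : a * a = -1) (hbb : b * b = -1)
    (hcc : c * c = -1) (hdd : d * d = -1) (h3 : (3 : F) ≠ 0) :
    ∃ y ∈ subgroupNormalizer R, y * y * y = 1 ∧ y ≠ 1 ∧ (y : Matrix ι ι F) * y + y + 1 ≠ 0 := by
  obtain ⟨h, hN, hh, hp, ha, hb, hc⟩ := D.exists_hurwitz f haa hbb
  obtain ⟨k, kN, kk, kp, kc, kd, ka⟩ := D.exists_hurwitz (a := c) (b := d) (c := a) (d := b)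
    ⟨f.hc, f.hd, f.ha, f.hb, f.cd, f.ab, f.ac.symm, f.bc.symm, f.ad.symm, f.bd.symm⟩ hcc hdd
  have hka : k * a = a * k := ka a f.ac f.ad
  have hkb : k * b = b * k := ka b f.bc f.bd
  have hhk : h * k = k * h := hc k hka hkb
  have hne : h ≠ k := by
    rintro rfl
    rw [hka] at ha
    have h1 : a = a * b := mul_right_cancel ha
    have hb1 : b = 1 := (mul_eq_left.1 h1.symm)
    have h2 := f.ab
    rw [hb1, mul_one, one_mul] at h2
    exact D.ne_neg _ h2
  refine ⟨h * k, Subgroup.mul_mem _ hN kN, ?_, ?_, ?_⟩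
  · have c1 : Commute h k := hhk
    calc h * k * (h * k) * (h * k) = h * (k * h) * (k * h) * k := by group
      _ = h * (h * k) * (h * k) * k := by rw [hhk]
      _ = h * h * (k * h) * k * k := by group
      _ = h * h * (h * k) * k * k := by rw [hhk]
      _ = (h * h * h) * (k * k * k) := by group
      _ = 1 := by rw [hh, kk, one_mul]
  · intro h1
    -- k = h⁻¹ = h * h, so k commutes with c and k c = c d k
    have hk : k = h * h := by
      calc k = (h * h * h) * k := by rw [hh, one_mul]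
        _ = h * h * (h * k) := by group
        _ = h * h := by rw [h1, mul_one]
    have hca : h * c = c * h := hc c f.ac.symm f.bc.symm
    have hkc : k * c = c * k := by
      rw [hk, mul_assoc, hca, ← mul_assoc, hca, mul_assoc]
    rw [hkc] at kc
    have h1 : c = c * d := mul_right_cancel kc
    have hd1 : d = 1 := (mul_eq_left.1 h1.symm)
    have h2 := f.cd
    rw [hd1, mul_one, one_mul] at h2
    exact D.ne_neg _ h2
  · intro h1
    rw [Units.val_mul] at h1
    set H := (h : Matrix ι ι F) with hH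
    set K := (k : Matrix ι ι F) with hK
    have hHK : H * K = K * H := congrArg Units.val hhk
    have eH : H * H = -H - 1 := by
      rw [eq_sub_iff_add_eq, eq_neg_iff_add_eq_zero]
      rw [← hp]; abel
    have eK : K * K = -K - 1 := by
      rw [eq_sub_iff_add_eq, eq_neg_iff_add_eq_zero]
      rw [← kp]; abel
    have e1 : H * K * (H * K) = H * K + H + K + 1 := by
      calc H * K * (H * K) = H * (K * H) * K := by simp only [mul_assoc]
        _ = H * (H * K) * K := by rw [hHK]
        _ = (H * H) * (K * K) := by simp only [mul_assoc]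
        _ = (-H - 1) * (-K - 1) := by rw [eH, eK]
        _ = _ := by noncomm_ring
    rw [e1] at h1
    have e2 : (2 : F) • (H * K) + H + K + (2 : F) • 1 = 0 := by
      rw [← h1]; module
    have e3 : (3 : F) • (H - K) = 0 := by
      have e4 : ((2 : F) • H + 1) * ((2 : F) • (H * K) + H + K + (2 : F) • 1) = (3 : F) • (H - K) := by
        have e5 : ((2 : F) • H + 1) * ((2 : F) • (H * K) + H + K + (2 : F) • 1) =
            (4 : F) • ((H * H) * K) + (2 : F) • (H * H) + (4 : F) • (H * K) + (5 : F) • H + K + (2 : F) • 1 := by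
          simp only [add_mul, mul_add, Matrix.smul_mul, Matrix.mul_smul, one_mul, mul_one, mul_assoc]
          module
        rw [e5, eH]
        simp only [sub_mul, neg_mul, one_mul]
        module
      rw [← e4, e2, mul_zero]
    apply hne
    apply Units.ext
    exact sub_eq_zero.1 ((smul_eq_zero.1 e3).resolve_left h3)

end Dat

end H99.ST
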