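import Mathlib
import Cfsg.Agent.Lib.H99.ST5

set_option autoImplicit false
set_option linter.unusedSimpArgs false
set_option linter.unusedSectionVars false
set_option linter.unusedVariables false

/-! 2-groups of symplectic type in dimension four: explicit elements of order three. -/

namespace H99.ST

open Matrix Cfsg Cfsg.Geo Module H96.AschSympType1 H96.AschSympType3

variable {ι : Type} [Fintype ι] [DecidableEq ι] {F : Type*} [Field F]

namespace Dat

variable {R : Subgroup (GL ι F)} (D : Dat R)

include D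

/-- an element of order three in the normalizer, centralizing the second pair -/
theorem exists_hurwitz' [Finite F] [Finite R] {a b c d : GL ι F} (f : Fr R a b c d) (haa : a * a = -1) (hbb : b * b = -1) :
    ∃ h ∈ subgroupNormalizer R, h * h * h = 1 ∧ (h : Matrix ι ι F) * h + h + 1 = 0 ∧ h * a = a * b * h ∧ h * b = a * h ∧
      (∀ x : GL ι F, x * a = a * x → x * b = b * x → h * x = x * h) ∧
      (h : Matrix ι ι F) = (2 : F)⁻¹ • (-1 + (a : Matrix ι ι F) + b + a * b) := by
  have toM : ∀ x y : GL ι F, x = y → (x : Matrix ι ι F) = y := fun x y h => congrArg Units.val h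
  have toM' : ∀ x y : GL ι F, x = -y → (x : Matrix ι ι F) = -y := fun x y h => by
    have := congrArg Units.val h
    rw [Units.val_neg] at this; exact this
  have haa' : (a : Matrix ι ι F) * a = -1 := toM' _ 1 haa
  have hbb' : (b : Matrix ι ι F) * b = -1 := toM' _ 1 hbb
  have hab' : (a : Matrix ι ι F) * b = -((b : Matrix ι ι F) * a) := toM' _ (b * a) f.ab
  obtain ⟨h, hh, h1, h2, h3⟩ := hurwitz D.h2 haa' hbb' hab'
  have hinv : h * (-h - 1) = 1 := by
    rw [mul_sub, mul_neg, mul_one]
    rw [← sub_eq_zero]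
    have : -(h * h) - h - 1 = -(h * h + h + 1) := by abel
    rw [this, h1, neg_zero]
  let H : GL ι F := ⟨h, -h - 1, hinv, mul_eq_one_comm.1 hinv⟩
  have key : ∀ x y : GL ι F, h * (x : Matrix ι ι F) = y * h → H * x * H⁻¹ = y := by
    intro x y h
    rw [mul_inv_eq_iff_eq_mul]
    exact Units.ext h
  have hcomm : ∀ x : GL ι F, x * a = a * x → x * b = b * x → H * x = x * H := by
    intro x hxa hxb
    apply Units.ext
    show h * (x : Matrix ι ι F) = x * h
    have e1 : (x : Matrix ι ι F) * a = a * x := toM _ _ hxa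
    have e2 : (x : Matrix ι ι F) * b = b * x := toM _ _ hxb
    rw [hh, Matrix.smul_mul, Matrix.mul_smul]
    congr 1
    simp only [add_mul, mul_add, neg_mul, mul_neg, one_mul, mul_one, e1, e2]
    rw [mul_assoc, ← e2, ← mul_assoc, ← e1, mul_assoc]
  refine ⟨H, ?_, ?_, h1, Units.ext h2, Units.ext h3, hcomm, hh⟩
  · apply D.norm_of f
    · rw [key a (a * b) h2]; exact R.mul_mem f.ha f.hb
    · rw [key b a h3]; exact f.ha
    · have := hcomm c f.ac.symm f.bc.symm
      rw [this, mul_inv_cancel_right]; exact f.hc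
    · have := hcomm d f.ad.symm f.bd.symm
      rw [this, mul_inv_cancel_right]; exact f.hd
  · apply Units.ext
    show h * h * h = 1
    have e : h * h = -h - 1 := by
      rw [eq_sub_iff_add_eq, eq_neg_iff_add_eq_zero]
      rw [← h1]; abel
    rw [e, mul_eq_one_comm.1 hinv]

/-- an element of order three with fixed vectors -/
theorem exists_hurwitz2' [Finite F] [Finite R] {a b c d : GL ι F} (f : Fr R a b c d) (haa : a * a = -1) (hbb : b * b = -1)
    (hcc : c * c = -1) (hdd : d * d = -1) (h3 : (3 : F) ≠ 0) :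
    ∃ y ∈ subgroupNormalizer R, y * y * y = 1 ∧ y ≠ 1 ∧ (y : Matrix ι ι F) * y + y + 1 ≠ 0 ∧
      ∃ h k : GL ι F, y = h * k ∧ (h : Matrix ι ι F) * h + h + 1 = 0 ∧ (k : Matrix ι ι F) * k + k + 1 = 0 ∧
        (h : Matrix ι ι F) = (2 : F)⁻¹ • (-1 + (a : Matrix ι ι F) + b + a * b) ∧
        (k : Matrix ι ι F) = (2 : F)⁻¹ • (-1 + (c : Matrix ι ι F) + d + c * d) := by
  obtain ⟨h, hN, hh, hp, ha, hb, hc, hform⟩ := D.exists_hurwitz' f haa hbb
  obtain ⟨k, kN, kk, kp, kc, kd, ka, kform⟩ := D.exists_hurwitz' (a := c) (b := d) (c := a) (d := b)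
    ⟨f.hc, f.hd, f.ha, f.hb, f.cd, f.ab, f.ac.symm, f.bc.symm, f.ad.symm, f.bd.symm⟩ hcc hdd
  have hka : k * a = a * k := ka a f.ac f.ad
  have hkb : k * b = b * k := ka b f.bc f.bd
  have hhk : h * k = k * h := hc k hka hkb
  have hne : h ≠ k := by
    rintro rfl
    rw [hka] at ha
    have h1 : a = a * b := mul_right_cancel ha
    have hb1 : b = 1 := (mul_eq_left.1 h1.symm)
    have h2 := f.ab
    rw [hb1, mul_one, one_mul] at h2
    exact D.ne_neg _ h2
  refine ⟨h * k, Subgroup.mul_mem _ hN kN, ?_, ?_, ?_, h, k, rfl, hp, kp, hform, kform⟩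
  · have c1 : Commute h k := hhk
    calc h * k * (h * k) * (h * k) = h * (k * h) * (k * h) * k := by group
      _ = h * (h * k) * (h * k) * k := by rw [hhk]
      _ = h * h * (k * h) * k * k := by group
      _ = h * h * (h * k) * k * k := by rw [hhk]
      _ = (h * h * h) * (k * k * k) := by group
      _ = 1 := by rw [hh, kk, one_mul]
  · intro h1
    -- k = h⁻¹ = h * h, so k commutes with c and k c = c d k
    have hk : k = h * h := by
      calc k = (h * h * h) * k := by rw [hh, one_mul]
        _ = h * h * (h * k) := by group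
        _ = h * h := by rw [h1, mul_one]
    have hca : h * c = c * h := hc c f.ac.symm f.bc.symm
    have hkc : k * c = c * k := by
      rw [hk, mul_assoc, hca, ← mul_assoc, hca, mul_assoc]
    rw [hkc] at kc
    have h1 : c = c * d := mul_right_cancel kc
    have hd1 : d = 1 := (mul_eq_left.1 h1.symm)
    have h2 := f.cd
    rw [hd1, mul_one, one_mul] at h2
    exact D.ne_neg _ h2
  · intro h1
    rw [Units.val_mul] at h1
    set H := (h : Matrix ι ι F) with hH
    set K := (k : Matrix ι ι F) with hK
    have hHK : H * K = K * H := congrArg Units.val hhk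
    have eH : H * H = -H - 1 := by
      rw [eq_sub_iff_add_eq, eq_neg_iff_add_eq_zero]
      rw [← hp]; abel
    have eK : K * K = -K - 1 := by
      rw [eq_sub_iff_add_eq, eq_neg_iff_add_eq_zero]
      rw [← kp]; abel
    have e1 : H * K * (H * K) = H * K + H + K + 1 := by
      calc H * K * (H * K) = H * (K * H) * K := by simp only [mul_assoc]
        _ = H * (H * K) * K := by rw [hHK]
        _ = (H * H) * (K * K) := by simp only [mul_assoc]
        _ = (-H - 1) * (-K - 1) := by rw [eH, eK]
        _ = _ := by noncomm_ring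
    rw [e1] at h1
    have e2 : (2 : F) • (H * K) + H + K + (2 : F) • 1 = 0 := by
      rw [← h1]; module
    have e3 : (3 : F) • (H - K) = 0 := by
      have e4 : ((2 : F) • H + 1) * ((2 : F) • (H * K) + H + K + (2 : F) • 1) = (3 : F) • (H - K) := by
        have e5 : ((2 : F) • H + 1) * ((2 : F) • (H * K) + H + K + (2 : F) • 1) =
            (4 : F) • ((H * H) * K) + (2 : F) • (H * H) + (4 : F) • (H * K) + (5 : F) • H + K + (2 : F) • 1 := by
          simp only [add_mul, mul_add, Matrix.smul_mul, Matrix.mul_smul, one_mul, mul_one, mul_assoc]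
          module
        rw [e5, eH]
        simp only [sub_mul, neg_mul, one_mul]
        module
      rw [← e4, e2, mul_zero]
    apply hne
    apply Units.ext
    exact sub_eq_zero.1 ((smul_eq_zero.1 e3).resolve_left h3)

end Dat

end H99.ST
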