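import Mathlib
import Cfsg.Agent.Lib.H99.Skew
import Cfsg.Agent.Lib.H99.SelfAdj2

set_option autoImplicit false
set_option linter.unusedSimpArgs false
set_option linter.unusedSectionVars false
set_option linter.unusedVariables false

/-! Involutions of the symplectic group, conjugacy. -/

namespace H99.Sp4

open Matrix Module RElt

universe u

/-- elements of square `-1` are conjugate -/
theorem conj_neg {F : Type u} [Field F] [Fintype F] (h2 : (2 : F) ≠ 0) {d : ℕ} (x y : GL (Fin d ⊕ Fin d) F)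
    (hx : x ∈ Cfsg.spGL d F) (hy : y ∈ Cfsg.spGL d F)
    (hx2 : ∀ v, (x : Matrix (Fin d ⊕ Fin d) (Fin d ⊕ Fin d) F) *ᵥ ((x : Matrix (Fin d ⊕ Fin d) (Fin d ⊕ Fin d) F) *ᵥ v) = -v)
    (hy2 : ∀ v, (y : Matrix (Fin d ⊕ Fin d) (Fin d ⊕ Fin d) F) *ᵥ ((y : Matrix (Fin d ⊕ Fin d) (Fin d ⊕ Fin d) F) *ᵥ v) = -v) :
    ∃ g ∈ Cfsg.spGL d F, g⁻¹ * x * g = y := by
  have hA := sympB_alt (F := F) d
  have hN := sympB_nd (F := F) d
  obtain ⟨ι₂, f₂, d₂, by', l1, l2, l3, l4⟩ := Alt.exists_symp_basis_neg h2 _ (sympB d F) hA hN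
    (Matrix.toLin' (y : Matrix (Fin d ⊕ Fin d) (Fin d ⊕ Fin d) F)) (SpInv.gl_isom hy) hy2
  obtain ⟨ι₃, f₃, d₃, bx, k1, k2, k3, k4⟩ := Alt.exists_symp_basis_neg h2 _ (sympB d F) hA hN
    (Matrix.toLin' (x : Matrix (Fin d ⊕ Fin d) (Fin d ⊕ Fin d) F)) (SpInv.gl_isom hx) hx2
  let e : ι₂ ≃ ι₃ := Fintype.equivOfCardEq (by rw [SpInv.card_idx by', SpInv.card_idx bx])
  obtain ⟨G, hG, hGb⟩ := SpInv.match_isom hA by' bx l1 l2 l3 k1 k2 k3 e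
  have ha : ∀ a : Fin 2, a = 0 ∨ a = 1 := by decide
  exact SpInv.conj_of_isom x y G hG (by
    intro v
    have key : (Matrix.toLin' (x : Matrix (Fin d ⊕ Fin d) (Fin d ⊕ Fin d) F)) ∘ₗ G.toLinearMap =
        G.toLinearMap ∘ₗ (Matrix.toLin' (y : Matrix (Fin d ⊕ Fin d) (Fin d ⊕ Fin d) F)) := by
      apply by'.ext
      rintro ⟨a, i⟩
      show Matrix.toLin' (x : Matrix (Fin d ⊕ Fin d) (Fin d ⊕ Fin d) F) (G (by' (a, i))) =
        G (Matrix.toLin' (y : Matrix (Fin d ⊕ Fin d) (Fin d ⊕ Fin d) F) (by' (a, i)))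
      rcases ha a with rfl | rfl
      · rw [hGb, (k4 _).1, (l4 _).1, hGb]
      · rw [hGb, (k4 _).2, (l4 _).2, map_neg, hGb]
    exact LinearMap.congr_fun key v)

/-- both signs occur -/
theorem signs {F : Type u} [Field F] (h2 : (2 : F) ≠ 0) {x : GL (Fin 2 ⊕ Fin 2) F} {ι : Type} [Fintype ι] [DecidableEq ι]
    (bx : Basis (Fin 2 × ι) F (Fin 2 ⊕ Fin 2 → F)) (s : ι → F) (hs : ∀ i, s i = 1 ∨ s i = -1)
    (hs0 : ∀ i, Matrix.toLin' (x : Matrix (Fin 2 ⊕ Fin 2) (Fin 2 ⊕ Fin 2) F) (bx (0, i)) = s i • bx (0, i))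
    (hs1 : ∀ i, Matrix.toLin' (x : Matrix (Fin 2 ⊕ Fin 2) (Fin 2 ⊕ Fin 2) F) (bx (1, i)) = s i • bx (1, i))
    (hxs : ∀ z : F, (x : Matrix (Fin 2 ⊕ Fin 2) (Fin 2 ⊕ Fin 2) F) ≠ z • (1 : Matrix (Fin 2 ⊕ Fin 2) (Fin 2 ⊕ Fin 2) F)) :
    ∃ e : Fin 2 ≃ ι, s (e 0) = 1 ∧ s (e 1) = -1 := by
  have ha : ∀ a : Fin 2, a = 0 ∨ a = 1 := by decide
  have hscal : ∀ z : F, ¬ ∀ i, s i = z := by
    intro z hz
    apply hxs z
    apply Skew.matrix_ext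
    intro v
    have key : Matrix.toLin' (x : Matrix (Fin 2 ⊕ Fin 2) (Fin 2 ⊕ Fin 2) F) = z • LinearMap.id := by
      apply bx.ext
      rintro ⟨a, i⟩
      rcases ha a with rfl | rfl
      · rw [hs0, hz]; rfl
      · rw [hs1, hz]; rfl
    rw [Matrix.smul_mulVec, Matrix.one_mulVec]
    exact LinearMap.congr_fun key v
  obtain ⟨i0, hi0⟩ : ∃ i, s i = 1 := by
    by_contra h
    push Not at h
    exact hscal (-1) (fun i => (hs i).resolve_left (h i))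
  obtain ⟨i1, hi1⟩ : ∃ i, s i = -1 := by
    by_contra h
    push Not at h
    exact hscal 1 (fun i => (hs i).resolve_right (h i))
  have hi01 : i0 ≠ i1 := by
    rintro rfl
    rw [hi0] at hi1
    apply h2
    linear_combination hi1
  have hinj : Function.Injective (![i0, i1] : Fin 2 → ι) := by
    intro a b hab
    fin_cases a <;> fin_cases b
    · rfl
    · exact absurd hab hi01
    · exact absurd hab.symm hi01
    · rfl
  have hbij : Function.Bijective (![i0, i1] : Fin 2 → ι) := by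
    rw [Fintype.bijective_iff_injective_and_card]
    exact ⟨hinj, by rw [SpInv.card_idx bx, Fintype.card_fin]⟩
  exact ⟨Equiv.ofBijective _ hbij, hi0, hi1⟩

/-- nonscalar involutions of `Sp_4` are conjugate -/
theorem conj_pos {F : Type u} [Field F] (h2 : (2 : F) ≠ 0) (x y : GL (Fin 2 ⊕ Fin 2) F)
    (hx : x ∈ Cfsg.spGL 2 F) (hy : y ∈ Cfsg.spGL 2 F)
    (hx2 : ∀ v, (x : Matrix (Fin 2 ⊕ Fin 2) (Fin 2 ⊕ Fin 2) F) *ᵥ ((x : Matrix (Fin 2 ⊕ Fin 2) (Fin 2 ⊕ Fin 2) F) *ᵥ v) = v)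
    (hy2 : ∀ v, (y : Matrix (Fin 2 ⊕ Fin 2) (Fin 2 ⊕ Fin 2) F) *ᵥ ((y : Matrix (Fin 2 ⊕ Fin 2) (Fin 2 ⊕ Fin 2) F) *ᵥ v) = v)
    (hxs : ∀ z : F, (x : Matrix (Fin 2 ⊕ Fin 2) (Fin 2 ⊕ Fin 2) F) ≠ z • (1 : Matrix (Fin 2 ⊕ Fin 2) (Fin 2 ⊕ Fin 2) F))
    (hys : ∀ z : F, (y : Matrix (Fin 2 ⊕ Fin 2) (Fin 2 ⊕ Fin 2) F) ≠ z • (1 : Matrix (Fin 2 ⊕ Fin 2) (Fin 2 ⊕ Fin 2) F)) :
    ∃ g ∈ Cfsg.spGL 2 F, g⁻¹ * x * g = y := by
  classical
  have hA := sympB_alt (F := F) 2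
  have hN := sympB_nd (F := F) 2
  obtain ⟨ι₁, f₁, d₁, bs, h1, h2', h3, h4⟩ := Alt.exists_symp_basis_pos h2 _ (sympB 2 F) hA hN
    (Matrix.toLin' (y : Matrix (Fin 2 ⊕ Fin 2) (Fin 2 ⊕ Fin 2) F)) (SpInv.gl_isom hy) hy2
  obtain ⟨ι₂, f₂, d₂, bx, k1, k2, k3, k4⟩ := Alt.exists_symp_basis_pos h2 _ (sympB 2 F) hA hN
    (Matrix.toLin' (x : Matrix (Fin 2 ⊕ Fin 2) (Fin 2 ⊕ Fin 2) F)) (SpInv.gl_isom hx) hx2
  choose s hs hs0 hs1 using k4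
  choose t ht ht0 ht1 using h4
  obtain ⟨e, he0, he1⟩ := signs h2 bx s hs hs0 hs1 hxs
  obtain ⟨f, hf0, hf1⟩ := signs h2 bs t ht ht0 ht1 hys
  have hst : ∀ i, s (e (f.symm i)) = t i := by
    intro i
    obtain ⟨j, rfl⟩ := f.surjective i
    rw [Equiv.symm_apply_apply]
    fin_cases j
    · show s (e 0) = t (f 0); rw [he0, hf0]
    · show s (e 1) = t (f 1); rw [he1, hf1]
  obtain ⟨G, hG, hGb⟩ := SpInv.match_isom hA bs bx h1 h2' h3 k1 k2 k3 (f.symm.trans e)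
  have ha : ∀ a : Fin 2, a = 0 ∨ a = 1 := by decide
  exact SpInv.conj_of_isom x y G hG (by
    intro v
    have key : (Matrix.toLin' (x : Matrix (Fin 2 ⊕ Fin 2) (Fin 2 ⊕ Fin 2) F)) ∘ₗ G.toLinearMap =
        G.toLinearMap ∘ₗ (Matrix.toLin' (y : Matrix (Fin 2 ⊕ Fin 2) (Fin 2 ⊕ Fin 2) F)) := by
      apply bs.ext
      rintro ⟨a, i⟩
      show Matrix.toLin' (x : Matrix (Fin 2 ⊕ Fin 2) (Fin 2 ⊕ Fin 2) F) (G (bs (a, i))) =
        G (Matrix.toLin' (y : Matrix (Fin 2 ⊕ Fin 2) (Fin 2 ⊕ Fin 2) F) (bs (a, i)))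
      rcases ha a with rfl | rfl
      · rw [hGb, hs0, ht0, map_smul, hGb]
        show s (e (f.symm i)) • _ = _
        rw [hst]
      · rw [hGb, hs1, ht1, map_smul, hGb]
        show s (e (f.symm i)) • _ = _
        rw [hst]
    exact LinearMap.congr_fun key v)

end H99.Sp4
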