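import Mathlib
import Cfsg.Agent.Lib.H99.Ti3
import Cfsg.Agent.Lib.H99.TiArith
import Cfsg.Agent.Lib.H99.Iso4
import Cfsg.Agent.Lib.H16.Witt

set_option autoImplicit false
set_option linter.unusedSimpArgs false
set_option linter.unusedSectionVars false
set_option linter.unusedVariables false

/-! Totally isotropic invariant subspaces of isometries of odd prime order of alternating forms. -/

namespace H99.SpTi

open Module H99.Iso H99.Ti H99.TiArith

universe u

/-- the multiplicative order of `q` modulo `r` -/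
noncomputable abbrev oi (F : Type*) [Fintype F] (r : ℕ) : ℕ := orderOf ((Fintype.card F : ℕ) : ZMod r)

/-- an alternating space -/
structure Sm (F : Type u) [Field F] where
  V : Type u
  [i1 : AddCommGroup V]
  [i2 : Module F V]
  [i3 : FiniteDimensional F V]
  B : LinearMap.BilinForm F V
  alt : ∀ v, B v v = 0
  nd : ND B ⊤

attribute [instance] Sm.i1 Sm.i2 Sm.i3

variable {F : Type u} [Field F] [Fintype F] {r : ℕ}

theorem refl_alt {V : Type*} [AddCommGroup V] [Module F V] {B : LinearMap.BilinForm F V} (hA : ∀ v, B v v = 0) : B.IsRefl := by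
  have : B.IsAlt := hA
  exact this.isRefl

theorem skew {V : Type*} [AddCommGroup V] [Module F V] {B : LinearMap.BilinForm F V} (hA : ∀ v, B v v = 0) (u v : V) : B u v = (-1) * B v u := by
  have h := hA (u + v)
  simp only [_root_.map_add, LinearMap.add_apply, hA, zero_add, add_zero] at h
  linear_combination h

theorem oi_pos (hr : r.Prime) (hrq : ¬ r ∣ Fintype.card F) : 0 < oi F r := by
  have h1 : ((Fintype.card F : ℕ) : ZMod r) ≠ 0 := by
    intro h; exact hrq ((ZMod.natCast_eq_zero_iff _ _).1 h)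
  have : Fact r.Prime := ⟨hr⟩
  have := orderOf_pos (Units.mk0 _ h1)
  rwa [← orderOf_units, Units.val_mk0] at this

/-- bound on the totally isotropic invariant subspaces without fixed vectors -/
def WB {V : Type*} [AddCommGroup V] [Module F V] (B : LinearMap.BilinForm F V) (f : V →ₗ[F] V) (w : ℕ) : Prop :=
  ∀ W : Submodule F V, (∀ v ∈ W, f v ∈ W) → (∀ u ∈ W, ∀ v ∈ W, B u v = 0) → (∀ v ∈ W, f v = v → v = 0) → finrank F W ≤ w

theorem restrict_pow {V : Type*} [AddCommGroup V] [Module F V] {T : V →ₗ[F] V} {W : Submodule F V} (hW : ∀ v ∈ W, T v ∈ W) (k : ℕ) (v : W) :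
    (((T.restrict hW) ^ k) v : V) = (T ^ k) (v : V) := by
  induction k with
  | zero => rfl
  | succ k ih => rw [pow_succ', pow_succ', Module.End.mul_apply, Module.End.mul_apply, ← ih]; rfl

theorem restrict_pow_one {V : Type*} [AddCommGroup V] [Module F V] {T : V →ₗ[F] V} {W : Submodule F V} (hW : ∀ v ∈ W, T v ∈ W) {k : ℕ} (hT : T ^ k = 1) : (T.restrict hW) ^ k = 1 := by
  apply LinearMap.ext
  intro v
  apply Subtype.ext
  rw [restrict_pow, hT]; rfl

/-- the anisotropic part -/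
theorem exists_an (hr : r.Prime) (hr2 : r ≠ 2) (hrq : ¬ r ∣ Fintype.card F) (o : ℕ) (ho : oi F r * o ≤ r - 1) (hodd : Odd (oi F r) → o = 0) :
    ∃ (A : Sm F) (f : A.V →ₗ[F] A.V), (∀ u v, A.B (f u) (f v) = A.B u v) ∧ f ^ r = 1 ∧ (∀ v, f v = v → v = 0) ∧ finrank F A.V = oi F r * o ∧
      ∀ Z : Submodule F A.V, (∀ v ∈ Z, f v ∈ Z) → (∀ u ∈ Z, ∀ v ∈ Z, A.B u v = 0) → Z = ⊥ := by
  rcases Nat.eq_zero_or_pos o with h0 | hpos
  · refine ⟨⟨PUnit, 0, fun x => rfl, fun x _ _ => Subsingleton.elim _ _⟩, 1, fun u v => rfl, one_pow _, fun v _ => Subsingleton.elim _ _, ?_, ?_⟩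
    · rw [h0, mul_zero]
      exact finrank_zero_of_subsingleton (M := PUnit.{u + 1})
    · intro Z _ _
      rw [eq_bot_iff]
      intro v _
      exact (Submodule.mem_bot F).2 (Subsingleton.elim (α := PUnit.{u + 1}) _ _)
  · have he : Even (oi F r) := by
      rcases Nat.even_or_odd (oi F r) with h | h
      · exact h
      · have := hodd h
        omega
    obtain ⟨M, i1, i2, i3, f, hf, hg⟩ := Ti.exists_reg (F := F) hr
    let B : LinearMap.BilinForm F (Module.Dual F M × M) := Ti.hB (-1)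
    have hεε : (-1 : F) * (-1) = 1 := by ring
    have hBA : ∀ v, B v v = 0 := fun v => by
      show Ti.hB (-1) v v = 0
      rw [Ti.hB_apply]; ring
    have hBr : B.IsRefl := refl_alt hBA
    have hT := Ti.hT_one hr.pos hf
    have hiso : ∀ u v, B (Ti.hT r f u) (Ti.hT r f v) = B u v := Ti.hB_iso hr.pos hf
    have hN : Iso.ND B ⊤ := Ti.hB_nd hεε
    obtain ⟨n1, -, -⟩ := Iso.nd_mov hr hrq hBr hT hiso (X := ⊤) (fun v _ => trivial) hN
    have hXi := Iso.mov_inv (T := Ti.hT r f) (X := ⊤) (fun v _ => trivial)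
    have hXf := Iso.mov_fpf hr hrq hT (X := ⊤)
    obtain ⟨P, -, -, Y, y1, y2, y3, -, y5, y6⟩ := Ti.exists_aniso hr hr2 hrq hBr hT hiso hXi n1 hXf he (by
      intro g hg1 hgd
      obtain ⟨m, hm0, hm⟩ := hg g hg1 hgd
      have h1 : Polynomial.aeval (Ti.hT r f) g ((0 : Module.Dual F M), m) = 0 := by
        rw [Ti.hT_aeval, hm]; rfl
      refine ⟨(0, m), ⟨trivial, ?_⟩, fun h => hm0 (congrArg Prod.snd h), h1⟩
      have hcop : IsCoprime g (Polynomial.X - 1 : Polynomial F) := by
        rw [hg1.coprime_iff_not_dvd]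
        intro hd
        have hsq : Squarefree (Polynomial.X ^ r - 1 : Polynomial F) :=
          (Polynomial.separable_X_pow_sub_C (1 : F) (Iso.natCast_ne_zero hr hrq) one_ne_zero).squarefree
        have : Fact r.Prime := ⟨hr⟩
        rw [← Polynomial.cyclotomic_prime_mul_X_sub_one] at hsq
        exact hg1.not_isUnit (hsq g (mul_dvd_mul hgd hd))
      obtain ⟨a, b, hab⟩ := hcop
      refine ⟨Polynomial.aeval (Ti.hT r f) b ((0 : Module.Dual F M), m), ?_⟩
      have h2 : ((0 : Module.Dual F M), m) = Polynomial.aeval (Ti.hT r f) (a * g + b * (Polynomial.X - 1)) ((0 : Module.Dual F M), m) := by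
        rw [hab, _root_.map_one]; rfl
      conv_rhs => rw [h2]
      rw [_root_.map_add, LinearMap.add_apply, _root_.map_mul, Module.End.mul_apply, h1, map_zero, zero_add, mul_comm, _root_.map_mul,
        Module.End.mul_apply, _root_.map_sub, Polynomial.aeval_X, _root_.map_one]) o ho
    refine ⟨⟨Y, B.restrict Y, fun v => hBA _, ?_⟩, (Ti.hT r f).restrict y2, ?_, restrict_pow_one y2 hT, ?_, y5, ?_⟩
    · rintro ⟨x, hx⟩ _ h
      apply Subtype.ext
      apply y3 x hx
      intro y hy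
      exact h ⟨y, hy⟩ trivial
    · intro u v
      exact hiso u v
    · intro v hv
      exact Subtype.ext (hXf _ (y1 v.2) (congrArg Subtype.val hv))
    · intro Z hZi hZt
      have h1 := y6 (Z.map Y.subtype) (by rintro _ ⟨z, _, rfl⟩; exact z.2) (by
        rintro _ ⟨z, hz, rfl⟩
        exact ⟨_, hZi z hz, rfl⟩) (by
        rintro _ ⟨z, hz, rfl⟩ _ ⟨z', hz', rfl⟩
        exact hZt z hz z' hz')
      rw [eq_bot_iff]
      intro z hz
      have h2 : (z : Module.Dual F M × M) ∈ Z.map Y.subtype := ⟨z, hz, rfl⟩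
      rw [h1] at h2
      exact (Submodule.mem_bot F).2 (Subtype.ext ((Submodule.mem_bot F).1 h2))

/-- orthogonal sums -/
noncomputable def psum {V₁ V₂ : Type*} [AddCommGroup V₁] [Module F V₁] [AddCommGroup V₂] [Module F V₂] (B₁ : LinearMap.BilinForm F V₁)
    (B₂ : LinearMap.BilinForm F V₂) : LinearMap.BilinForm F (V₁ × V₂) :=
  LinearMap.mk₂ F (fun x y => B₁ x.1 y.1 + B₂ x.2 y.2)
    (fun x x' y => by simp only [Prod.fst_add, Prod.snd_add, LinearMap.add_apply, _root_.map_add]; ring)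
    (fun c x y => by simp only [Prod.smul_fst, Prod.smul_snd, LinearMap.smul_apply, _root_.map_smul, smul_eq_mul]; ring)
    (fun x y y' => by simp only [Prod.fst_add, Prod.snd_add, LinearMap.add_apply, _root_.map_add]; ring)
    (fun c x y => by simp only [Prod.smul_fst, Prod.smul_snd, LinearMap.smul_apply, _root_.map_smul, smul_eq_mul]; ring)

theorem psum_apply {V₁ V₂ : Type*} [AddCommGroup V₁] [Module F V₁] [AddCommGroup V₂] [Module F V₂] (B₁ : LinearMap.BilinForm F V₁)
    (B₂ : LinearMap.BilinForm F V₂) (x y : V₁ × V₂) : psum B₁ B₂ x y = B₁ x.1 y.1 + B₂ x.2 y.2 := rfl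

theorem psum_nd {V₁ V₂ : Type*} [AddCommGroup V₁] [Module F V₁] [AddCommGroup V₂] [Module F V₂] {B₁ : LinearMap.BilinForm F V₁}
    {B₂ : LinearMap.BilinForm F V₂} (h1 : ND B₁ ⊤) (h2 : ND B₂ ⊤) : ND (psum B₁ B₂) ⊤ := by
  intro x _ h
  refine Prod.ext (h1 x.1 trivial fun y _ => ?_) (h2 x.2 trivial fun y _ => ?_)
  · have := h (y, 0) trivial
    rw [psum_apply] at this
    simpa using this
  · have := h (0, y) trivial
    rw [psum_apply] at this
    simpa using this

theorem prodMap_pow {V V' : Type*} [AddCommGroup V] [Module F V] [AddCommGroup V'] [Module F V'] (f : V →ₗ[F] V) (g : V' →ₗ[F] V') (k : ℕ) :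
    (f.prodMap g) ^ k = (f ^ k).prodMap (g ^ k) := by
  induction k with
  | zero => rw [pow_zero, pow_zero, pow_zero]; rfl
  | succ k ih => rw [pow_succ, ih, pow_succ, pow_succ]; rfl

/-- **alternating forms with prescribed totally isotropic invariant subspaces** -/
theorem exists_sm_ti (hr : r.Prime) (hr2 : r ≠ 2) (hrq : ¬ r ∣ Fintype.card F) (s o : ℕ) (ho : oi F r * o ≤ r - 1) (hodd : Odd (oi F r) → o = 0) :
    ∃ (A : Sm F) (f : A.V →ₗ[F] A.V), (∀ u v, A.B (f u) (f v) = A.B u v) ∧ f ^ r = 1 ∧ (∀ v, f v = v → v = 0) ∧ finrank F A.V = oi F r * (2 * s + o) ∧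
      WB A.B f (oi F r * s) := by
  obtain ⟨A, f, f1, f2, f3, f4, f5⟩ := exists_an (F := F) hr hr2 hrq o ho hodd
  obtain ⟨M, i1, i2, i3, g, g1, g2, g3⟩ := Ti.exists_mod (F := F) hr hrq s
  have hεε : (-1 : F) * (-1) = 1 := by ring
  have hT := Ti.hT_one hr.pos g1
  have hN : Iso.ND (Ti.hB (M := M) (-1 : F)) ⊤ := Ti.hB_nd hεε
  have hND := psum_nd hN A.nd
  have halt : ∀ v, psum (Ti.hB (M := M) (-1 : F)) A.B v v = 0 := fun v => by
    rw [psum_apply, A.alt, Ti.hB_apply]; ring
  have hpow : ((Ti.hT r g).prodMap f) ^ r = 1 := by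
    rw [prodMap_pow, hT, f2]; rfl
  have hisoQ : ∀ u v, psum (Ti.hB (M := M) (-1 : F)) A.B (((Ti.hT r g).prodMap f) u) (((Ti.hT r g).prodMap f) v) = psum (Ti.hB (M := M) (-1 : F)) A.B u v := by
    rintro ⟨a, b⟩ ⟨a', b'⟩
    rw [psum_apply, psum_apply]
    show Ti.hB (-1) (Ti.hT r g a) (Ti.hT r g a') + A.B (f b) (f b') = Ti.hB (-1) a a' + A.B b b'
    rw [f1, Ti.hB_iso hr.pos g1]
  refine ⟨⟨(Module.Dual F M × M) × A.V, psum (Ti.hB (-1)) A.B, halt, hND⟩, (Ti.hT r g).prodMap f, hisoQ, hpow, ?_, ?_, ?_⟩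
  · rintro ⟨a, b⟩ hab
    have h1 : Ti.hT r g a = a := congrArg Prod.fst hab
    have h2 : f b = b := congrArg Prod.snd hab
    rw [Ti.hT_fpf hr.pos g1 g2 a h1, f3 b h2]; rfl
  · show finrank F ((Module.Dual F M × M) × A.V) = _
    rw [finrank_prod, finrank_prod, Subspace.dual_finrank_eq, g3, f4]; ring
  · intro W hWi hWt _
    have hL : finrank F (Ti.Lg F M) = oi F r * s := by rw [Ti.Lg_dim, g3]
    rw [← hL]
    exact Ti.prod_bound (B := psum (Ti.hB (-1)) A.B) (B₁ := Ti.hB (-1)) (B₂ := A.B) (psum_apply _ _) (refl_alt halt) hND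
      hr.pos (T₁ := Ti.hT r g) (T₂ := f) hpow hisoQ (Ti.Lg_inv r g) (Ti.Lg_ti (-1)) (Ti.Lg_max hεε) f5 hWi hWt

/-- adding a fixed part -/
theorem real_prod {V C : Type u} [AddCommGroup V] [Module F V] [FiniteDimensional F V] [AddCommGroup C] [Module F C] [FiniteDimensional F C]
    {B : LinearMap.BilinForm F V} (BC : LinearMap.BilinForm F C) {w : ℕ}
    (f : V →ₗ[F] V) (f1 : ∀ u v, B (f u) (f v) = B u v) (f2 : f ^ r = 1) (f3 : ∀ v, f v = v → v = 0) (f4 : WB B f w) :
    ∃ g : (V × C) →ₗ[F] (V × C), (∀ u v, psum B BC (g u) (g v) = psum B BC u v) ∧ g ^ r = 1 ∧ finrank F (LinearMap.ker (g - 1)) = finrank F C ∧ WB (psum B BC) g w := by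
  refine ⟨f.prodMap LinearMap.id, ?_, ?_, ?_, ?_⟩
  · rintro ⟨a, b⟩ ⟨a', b'⟩
    rw [psum_apply, psum_apply]
    show B (f a) (f a') + _ = B a a' + _
    rw [f1]; rfl
  · rw [prodMap_pow, f2]
    have : (LinearMap.id : C →ₗ[F] C) ^ r = 1 := one_pow r
    rw [this]; rfl
  · have : LinearMap.ker (f.prodMap (LinearMap.id : C →ₗ[F] C) - 1) = LinearMap.range (LinearMap.inr F V C) := by
      ext ⟨a, b⟩
      rw [LinearMap.mem_ker, LinearMap.mem_range]
      constructor
      · intro h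
        have h1 : f a - a = 0 := congrArg Prod.fst h
        exact ⟨b, by rw [f3 a (sub_eq_zero.1 h1)]; rfl⟩
      · rintro ⟨b', hb'⟩
        have h1 : (0 : V) = a := congrArg Prod.fst hb'
        rw [← h1]
        show (f 0 - 0, b - b) = (0, 0)
        rw [_root_.map_zero, sub_self, sub_self]
    rw [this]
    exact LinearMap.finrank_range_of_inj LinearMap.inr_injective
  · intro W w1 w2 w3
    have hW0 : ∀ v ∈ W, v.2 = 0 := by
      let N : W →ₗ[F] W := (f.prodMap (LinearMap.id : C →ₗ[F] C)).restrict w1 - LinearMap.id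
      have hinj : Function.Injective N := by
        rw [← LinearMap.ker_eq_bot, LinearMap.ker_eq_bot']
        intro v hv
        apply Subtype.ext
        apply w3 v v.2
        exact congrArg Subtype.val (sub_eq_zero.1 hv)
      have hs := LinearMap.injective_iff_surjective.1 hinj
      intro v hv
      obtain ⟨u, hu⟩ := hs ⟨v, hv⟩
      have h1 : (N u : V × C) = v := congrArg Subtype.val hu
      rw [← h1]
      show (f.prodMap (LinearMap.id : C →ₗ[F] C) (u : V × C) - (u : V × C)).2 = 0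
      show (u : V × C).2 - (u : V × C).2 = 0
      exact sub_self _
    have hmap : (W.comap (LinearMap.inl F V C)).map (LinearMap.inl F V C) = W := by
      apply le_antisymm (Submodule.map_comap_le _ _)
      intro v hv
      refine ⟨v.1, ?_, ?_⟩
      · show (v.1, (0 : C)) ∈ W
        rw [← hW0 v hv]; exact hv
      · show (v.1, (0 : C)) = v
        rw [← hW0 v hv]
    have hd : finrank F (W.comap (LinearMap.inl F V C)) = finrank F W := by
      conv_rhs => rw [← hmap]
      exact (Submodule.equivMapOfInjective _ LinearMap.inl_injective _).finrank_eq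
    rw [← hd]
    apply f4
    · intro v hv
      have h1 := w1 _ hv
      have h2 : (f.prodMap (LinearMap.id : C →ₗ[F] C)) (LinearMap.inl F V C v) = LinearMap.inl F V C (f v) := rfl
      rw [h2] at h1
      exact h1
    · intro a ha b hb
      have h1 := w2 _ ha _ hb
      rw [psum_apply] at h1
      have h2 : BC (LinearMap.inl F V C a).2 (LinearMap.inl F V C b).2 = 0 := by
        show BC 0 0 = 0
        rw [_root_.map_zero]
      rw [h2, add_zero] at h1
      exact h1
    · intro v hv hfv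
      have h1 := w3 _ hv (by
        show (f v, (0 : C)) = (v, 0)
        rw [hfv])
      exact congrArg Prod.fst h1

/-- alternating spaces of the same dimension are isometric -/
theorem exists_isometry' {V V' : Type u} [AddCommGroup V] [Module F V] [FiniteDimensional F V] [AddCommGroup V'] [Module F V'] [FiniteDimensional F V']
    {B : LinearMap.BilinForm F V} {B' : LinearMap.BilinForm F V'} (hA : ∀ v, B v v = 0) (hA' : ∀ v, B' v v = 0) (hN : ND B ⊤) (hN' : ND B' ⊤)
    (hd : finrank F V = finrank F V') : ∃ e : V ≃ₗ[F] V', ∀ u v, B' (e u) (e v) = B u v := by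
  obtain ⟨j, hj⟩ := even_of_alt (refl_alt hA) _ ⊤ rfl hN (fun x _ => hA x)
  have hj' : finrank F V = 2 * j := by rw [← finrank_top F V, hj]; ring
  obtain ⟨e, he⟩ := exists_std (refl_alt hA) hA hN (j := j) (by rw [finrank_top, hj'])
  obtain ⟨e', he'⟩ := exists_std (refl_alt hA') hA' hN' (j := j) (by rw [finrank_top, ← hd, hj'])
  refine ⟨Submodule.topEquiv.symm.trans ((e.symm.trans e').trans Submodule.topEquiv), fun u v => ?_⟩
  have h1 := he' (e.symm (Submodule.topEquiv.symm u)) (e.symm (Submodule.topEquiv.symm v))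
  have h2 := he (e.symm (Submodule.topEquiv.symm u)) (e.symm (Submodule.topEquiv.symm v))
  rw [LinearEquiv.apply_symm_apply, LinearEquiv.apply_symm_apply] at h2
  rw [← h2] at h1
  exact h1

/-- transport -/
theorem real_equiv {V V' : Type u} [AddCommGroup V] [Module F V] [FiniteDimensional F V] [AddCommGroup V'] [Module F V'] [FiniteDimensional F V']
    {B : LinearMap.BilinForm F V} {B' : LinearMap.BilinForm F V'} (e : V ≃ₗ[F] V') (he : ∀ u v, B' (e u) (e v) = B u v) {n w : ℕ}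
    (h : ∃ f : V →ₗ[F] V, (∀ u v, B (f u) (f v) = B u v) ∧ f ^ r = 1 ∧ finrank F (LinearMap.ker (f - 1)) = n ∧ WB B f w) :
    ∃ f : V' →ₗ[F] V', (∀ u v, B' (f u) (f v) = B' u v) ∧ f ^ r = 1 ∧ finrank F (LinearMap.ker (f - 1)) = n ∧ WB B' f w := by
  obtain ⟨f, f1, f2, f3, f4⟩ := h
  have h1 : ∀ v, e (e.symm v) = v := fun v => e.apply_symm_apply v
  have h2 : ∀ v, e.symm (e v) = v := fun v => e.symm_apply_apply v
  let g : V' →ₗ[F] V' := e.toLinearMap ∘ₗ f ∘ₗ e.symm.toLinearMap
  have hg : ∀ v, g v = e (f (e.symm v)) := fun v => rfl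
  have hk : ∀ (k : ℕ) v, (g ^ k) v = e ((f ^ k) (e.symm v)) := by
    intro k
    induction k with
    | zero => intro v; exact (h1 v).symm
    | succ k ih => intro v; rw [pow_succ', Module.End.mul_apply, ih, hg, h2, pow_succ']; rfl
  refine ⟨g, fun u v => by rw [hg, hg, he, f1, ← he, h1, h1], ?_, ?_, ?_⟩
  · apply LinearMap.ext
    intro v
    rw [hk, f2]
    exact h1 v
  · rw [← f3]
    have : LinearMap.ker (g - 1) = (LinearMap.ker (f - 1)).map e.toLinearMap := by
      ext v
      rw [LinearMap.mem_ker, Submodule.mem_map]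
      constructor
      · intro hv
        have hv' : g v = v := sub_eq_zero.1 hv
        refine ⟨e.symm v, ?_, h1 v⟩
        rw [LinearMap.mem_ker]
        rw [hg] at hv'
        show f (e.symm v) - e.symm v = 0
        rw [sub_eq_zero, ← h2 (f (e.symm v)), hv']
      · rintro ⟨w, hw, rfl⟩
        have hw' : f w = w := sub_eq_zero.1 (LinearMap.mem_ker.1 hw)
        show g (e w) - e w = 0
        rw [hg, h2, hw', sub_self]
    rw [this]
    exact LinearEquiv.finrank_map_eq e _
  · intro W w1 w2 w3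
    have hd : finrank F (W.comap e.toLinearMap) = finrank F W := by
      have h3 : (W.comap e.toLinearMap).map e.toLinearMap = W :=
        Submodule.map_comap_eq_of_surjective e.surjective W
      rw [← LinearEquiv.finrank_map_eq e, h3]
    rw [← hd]
    apply f4
    · intro v hv
      show e (f v) ∈ W
      have h3 := w1 _ hv
      have h4 : g (e v) = e (f v) := by rw [hg, h2]
      rw [← h4]; exact h3
    · intro a ha b hb
      rw [← he]
      exact w2 _ ha _ hb
    · intro v hv hfv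
      have h3 := w3 _ hv (by
        show g (e v) = e v
        rw [hg, h2, hfv])
      have h4 : e.symm (e v) = e.symm 0 := congrArg _ h3
      rwa [h2, _root_.map_zero] at h4

/-- alternating spaces exist in every even dimension -/
theorem exists_sm (c : ℕ) : ∃ A : Sm F, finrank F A.V = 2 * c := by
  have hεε : (-1 : F) * (-1) = 1 := by ring
  refine ⟨⟨Module.Dual F (Fin c → F) × (Fin c → F), Ti.hB (-1), fun v => by rw [Ti.hB_apply]; ring, Ti.hB_nd hεε⟩, ?_⟩
  show finrank F (Module.Dual F (Fin c → F) × (Fin c → F)) = _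
  rw [finrank_prod, Subspace.dual_finrank_eq, finrank_fintype_fun_eq_card, Fintype.card_fin]; ring

/-- **realisation with a bound** -/
theorem realize_ti (hr : r.Prime) (hr2 : r ≠ 2) (hrq : ¬ r ∣ Fintype.card F) {V : Type u} [AddCommGroup V] [Module F V] [FiniteDimensional F V]
    {B : LinearMap.BilinForm F V} (hA : ∀ v, B v v = 0) (hN : ND B ⊤) (s o : ℕ) (ho : oi F r * o ≤ r - 1) (hodd : Odd (oi F r) → o = 0)
    (hs : oi F r * (2 * s + o) ≤ finrank F V) :
    ∃ f : V →ₗ[F] V, (∀ u v, B (f u) (f v) = B u v) ∧ f ^ r = 1 ∧ finrank F (LinearMap.ker (f - 1)) + oi F r * (2 * s + o) = finrank F V ∧ WB B f (oi F r * s) := by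
  obtain ⟨A, f, f1, f2, f3, a1, f4⟩ := exists_sm_ti (F := F) hr hr2 hrq s o ho hodd
  obtain ⟨j, hj⟩ := even_of_alt (refl_alt hA) _ ⊤ rfl hN (fun x _ => hA x)
  obtain ⟨j', hj'⟩ := even_of_alt (refl_alt A.alt) _ ⊤ rfl A.nd (fun x _ => A.alt x)
  rw [finrank_top] at hj hj'
  obtain ⟨C, hC⟩ := exists_sm (F := F) (j - j')
  obtain ⟨e, he⟩ := exists_isometry' (B := psum A.B C.B) (B' := B) (fun v => by rw [psum_apply, A.alt, C.alt, add_zero]) hA (psum_nd A.nd C.nd) hN (by
    rw [finrank_prod, hC]; omega)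
  obtain ⟨g, g1, g2, g3, g4⟩ := real_equiv e he (r := r) (real_prod C.B f f1 f2 f3 f4)
  exact ⟨g, g1, g2, by rw [g3, hC]; omega, g4⟩

/-- totally isotropic subspaces: upper bound -/
theorem ti_le {V : Type u} [AddCommGroup V] [Module F V] [FiniteDimensional F V] {B : LinearMap.BilinForm F V} (hA : ∀ v, B v v = 0)
    {X : Submodule F V} (hX : ND B X) {U : Submodule F V} (hUX : U ≤ X) (hU : ∀ u ∈ U, ∀ v ∈ U, B u v = 0) : 2 * finrank F U ≤ finrank F X := by
  -- the pairing of `U` with `X / U` is perfect on the left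
  have hinj : Function.Injective (B.domRestrict₁₂ U X) := by
    rw [← LinearMap.ker_eq_bot, LinearMap.ker_eq_bot']
    intro u hu
    apply Subtype.ext
    apply hX u (hUX u.2)
    intro y hy
    exact congrArg (fun φ : X →ₗ[F] F => φ ⟨y, hy⟩) hu
  have h1 := LinearMap.finrank_range_of_inj hinj
  have h2 : LinearMap.range (B.domRestrict₁₂ U X) ≤ (U.comap X.subtype).dualAnnihilator := by
    rintro _ ⟨u, rfl⟩
    rw [Submodule.mem_dualAnnihilator]
    intro w hw
    exact hU u u.2 w hw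
  have h3 : finrank F U ≤ finrank F ((U.comap X.subtype).dualAnnihilator) := h1 ▸ Submodule.finrank_mono h2
  have h4 : finrank F (U.comap X.subtype) + finrank F ((U.comap X.subtype).dualAnnihilator) = finrank F X :=
    Subspace.finrank_add_finrank_dualAnnihilator_eq (K := F) (V := X) (U.comap X.subtype)
  rw [(Submodule.comapSubtypeEquivOfLe hUX).finrank_eq] at h4
  omega

/-- totally isotropic subspaces: existence -/
theorem ti_exists {V : Type u} [AddCommGroup V] [Module F V] [FiniteDimensional F V] {B : LinearMap.BilinForm F V} (hA : ∀ v, B v v = 0)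
    {X : Submodule F V} (hX : ND B X) {j : ℕ} (hj : 2 * j ≤ finrank F X) : ∃ U ≤ X, (∀ u ∈ U, ∀ v ∈ U, B u v = 0) ∧ finrank F U = j := by
  have hs : Module.End.IsSemisimple (1 : V →ₗ[F] V) := Module.End.isSemisimple_id
  obtain ⟨L, H, A, h1, h3, h4, h5, h6, h7, h8, h9, h10, h11, h12, h13, h14, h15⟩ := Ti.exists_hyp (refl_alt hA) (by norm_num : 0 < 1)
    (T := (1 : V →ₗ[F] V)) (pow_one 1) hs (fun u v => rfl) (X := X) (fun v hv => hv) hX
  have hA0 : A = ⊥ := by
    by_contra hne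
    obtain ⟨v, hv, hv0⟩ := Submodule.exists_mem_ne_zero_of_ne_bot hne
    have h := h14 (Submodule.span F {v}) (by
      rw [Submodule.span_le]
      rintro x rfl
      exact hv) (fun x hx => hx) (by
      intro x hx y hy
      obtain ⟨a, rfl⟩ := Submodule.mem_span_singleton.1 hx
      obtain ⟨b, rfl⟩ := Submodule.mem_span_singleton.1 hy
      simp only [_root_.map_smul, LinearMap.smul_apply, hA, smul_zero])
    rw [Submodule.span_singleton_eq_bot] at h
    exact hv0 h
  rw [hA0, finrank_bot, add_zero, h9] at h12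
  have hle : j ≤ finrank F L := by omega
  let b := Module.finBasis F L
  have hli : LinearIndependent F (fun k : Fin j => ((b (Fin.castLE hle k) : L) : V)) :=
    (b.linearIndependent.comp _ (Fin.castLE_injective hle)).map' L.subtype (LinearMap.ker_eq_bot.2 L.injective_subtype)
  have hUL : Submodule.span F (Set.range fun k : Fin j => ((b (Fin.castLE hle k) : L) : V)) ≤ L := by
    rw [Submodule.span_le]
    rintro _ ⟨k, rfl⟩
    exact (b (Fin.castLE hle k)).2
  exact ⟨_, hUL.trans (h1.trans h3), fun u hu v hv => h6 u (hUL hu) v (hUL hv), by rw [finrank_span_eq_card hli, Fintype.card_fin]⟩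

/-- **structure** -/
theorem struct_ti {V : Type u} [AddCommGroup V] [Module F V] [FiniteDimensional F V] {B : LinearMap.BilinForm F V} (hA : ∀ v, B v v = 0) (hN : ND B ⊤)
    (hr : r.Prime) (hr2 : r ≠ 2) (hrq : ¬ r ∣ Fintype.card F) (f : V →ₗ[F] V) (hf : ∀ u v, B (f u) (f v) = B u v) (hfr : f ^ r = 1) :
    ∃ s o, finrank F (LinearMap.ker (f - 1)) + oi F r * (2 * s + o) = finrank F V ∧ oi F r * o ≤ r - 1 ∧ (Odd (oi F r) → o = 0) ∧
      ∀ k ≤ s, ∃ L ≤ LinearMap.range (f - 1), (∀ v ∈ L, f v ∈ L) ∧ (∀ u ∈ L, ∀ v ∈ L, B u v = 0) ∧ finrank F L = oi F r * k := by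
  have hB := refl_alt hA
  obtain ⟨n1, n2, n3⟩ := Iso.nd_mov hr hrq hB hfr hf (X := ⊤) (fun v _ => trivial) hN
  have hXi := Iso.mov_inv (T := f) (X := ⊤) (fun v _ => trivial)
  have hXf := Iso.mov_fpf hr hrq hfr (X := ⊤)
  rw [top_inf_eq] at n1 n3 hXi
  rw [top_inf_eq, finrank_top] at n3
  obtain ⟨s, o, h1, h2, h3, h4⟩ := Ti.ti_struct hr hr2 hrq (B := B) (ε := -1) (skew hA) hfr hf (X := LinearMap.range (f - 1)) hXi n1
    (fun v hv => hXf v ⟨trivial, hv⟩) (by
    intro hoi Y hY hYi hYd hYn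
    have := even_of_alt hB _ Y hYd hYn (fun x _ => hA x)
    exact (Nat.not_odd_iff_even.2 this) hoi)
  exact ⟨s, o, by rw [← n3, h1]; ring, h2, h3, h4⟩

/-- **sufficient condition** -/
theorem ti_suf {V : Type u} [AddCommGroup V] [Module F V] [FiniteDimensional F V] {B : LinearMap.BilinForm F V} (hA : ∀ v, B v v = 0) (hN : ND B ⊤)
    (hr : r.Prime) (hrq : ¬ r ∣ Fintype.card F) (f : V →ₗ[F] V) (hf : ∀ u v, B (f u) (f v) = B u v) (hfr : f ^ r = 1)
    {L : Submodule F V} (hL : L ≤ LinearMap.range (f - 1)) (hLi : ∀ v ∈ L, f v ∈ L) (hLs : ∀ u ∈ L, ∀ v ∈ L, B u v = 0) {j : ℕ}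
    (hj : 2 * j ≤ finrank F (LinearMap.ker (f - 1))) :
    ∃ W : Submodule F V, finrank F W = finrank F L + j ∧ (∀ u ∈ W, ∀ v ∈ W, B u v = 0) ∧ ∀ v ∈ W, f v ∈ W := by
  have hB := refl_alt hA
  obtain ⟨n1, n2, n3⟩ := Iso.nd_mov hr hrq hB hfr hf (X := ⊤) (fun v _ => trivial) hN
  rw [top_inf_eq] at n2
  obtain ⟨U, u1, u2, u3⟩ := ti_exists hA n2 hj
  have hdis : L ⊓ U = ⊥ := by
    rw [eq_bot_iff]
    rintro v ⟨hv, hv'⟩
    exact (Submodule.disjoint_def.1 (RElt.disjoint (natCast_ne_zero hr hrq) f hfr)) v (hL hv) (u1 hv')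
  have hfU : ∀ v ∈ U, f v = v := fun v hv => sub_eq_zero.1 (LinearMap.mem_ker.1 (u1 hv))
  refine ⟨L ⊔ U, ?_, ?_, ?_⟩
  · have := Submodule.finrank_sup_add_finrank_inf_eq L U
    rw [hdis, finrank_bot, add_zero, u3] at this
    exact this
  · exact Ti.ti_sup hB hLs u2 (fun a ha b hb => (RElt.orth f hf a b (hL ha) (u1 hb)).1)
  · intro v hv
    obtain ⟨a, ha, b, hb, rfl⟩ := Submodule.mem_sup.1 hv
    rw [_root_.map_add, hfU b hb]
    exact Submodule.add_mem_sup (hLi a ha) hb

/-- **necessary condition** -/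
theorem ti_nec {V : Type u} [AddCommGroup V] [Module F V] [FiniteDimensional F V] {B : LinearMap.BilinForm F V} (hA : ∀ v, B v v = 0) (hN : ND B ⊤)
    (hr : r.Prime) (hrq : ¬ r ∣ Fintype.card F) (f : V →ₗ[F] V) (hf : ∀ u v, B (f u) (f v) = B u v) (hfr : f ^ r = 1)
    {W : Submodule F V} (hWi : ∀ v ∈ W, f v ∈ W) (hWs : ∀ u ∈ W, ∀ v ∈ W, B u v = 0) :
    ∃ (k j : ℕ), (∃ L ≤ W, (∀ v ∈ L, f v ∈ L) ∧ (∀ v ∈ L, f v = v → v = 0) ∧ finrank F L = oi F r * k) ∧
      finrank F W = oi F r * k + j ∧ 2 * j ≤ finrank F (LinearMap.ker (f - 1)) ∧ (k = 0 → W ≤ LinearMap.ker (f - 1)) := by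
  have hB := refl_alt hA
  obtain ⟨n1, n2, n3⟩ := Iso.nd_mov hr hrq hB hfr hf (X := ⊤) (fun v _ => trivial) hN
  rw [top_inf_eq] at n2
  have hmi := Iso.mov_inv (T := f) (X := W) hWi
  have hmf := Iso.mov_fpf hr hrq hfr (X := W)
  obtain ⟨k, hk, -⟩ := Ti.dims hr hrq hfr _ _ rfl hmi hmf
  have hsup : (W ⊓ LinearMap.range (f - 1)) ⊔ (W ⊓ LinearMap.ker (f - 1)) = W := by
    apply le_antisymm (sup_le inf_le_left inf_le_left)
    intro x hx
    obtain ⟨a, ha, b, hb, rfl⟩ := Iso.fix_mov hr hrq hfr hWi x hx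
    exact Submodule.add_mem_sup ha hb
  have hinf : (W ⊓ LinearMap.range (f - 1)) ⊓ (W ⊓ LinearMap.ker (f - 1)) = ⊥ := by
    rw [eq_bot_iff]
    rintro x ⟨h1, h2⟩
    exact (Submodule.mem_bot F).2 (hmf x h1 (sub_eq_zero.1 (LinearMap.mem_ker.1 h2.2)))
  have hd := Submodule.finrank_sup_add_finrank_inf_eq (W ⊓ LinearMap.range (f - 1)) (W ⊓ LinearMap.ker (f - 1))
  rw [hsup, hinf, finrank_bot, add_zero] at hd
  have hU := ti_le hA n2 (U := W ⊓ LinearMap.ker (f - 1)) inf_le_right (fun u hu v hv => hWs u hu.1 v hv.1)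
  refine ⟨k, finrank F (W ⊓ LinearMap.ker (f - 1) : Submodule F V), ⟨_, inf_le_left, hmi, hmf, hk⟩, by rw [hd, hk], hU, ?_⟩
  intro h0
  have h1 : W ⊓ LinearMap.range (f - 1) = ⊥ := by
    apply Submodule.finrank_eq_zero.1
    rw [hk, h0, mul_zero]
  rw [h1, bot_sup_eq] at hsup
  rw [← hsup]
  exact inf_le_right

end H99.SpTi
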