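import Mathlib
import Cfsg.Agent.Lib.H99.SpTi

set_option autoImplicit false
set_option linter.unusedSimpArgs false
set_option linter.unusedSectionVars false
set_option linter.unusedVariables false

/-! Elements of prime order of symplectic groups: reduction modulo scalars, counting. -/

namespace H99.SpTi

open Module H99.Iso H99.Ti H99.TiArith Matrix

universe u

section gen

variable {F : Type u} [Field F] [Fintype F]

/-- isometries are symplectic -/
theorem sp_isom {d : ℕ} (x : symplecticGroup (Fin d) F) (u v : Fin d ⊕ Fin d → F) :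
    RElt.sympB d F (Matrix.toLin' (x : Matrix (Fin d ⊕ Fin d) (Fin d ⊕ Fin d) F) u) (Matrix.toLin' (x : Matrix (Fin d ⊕ Fin d) (Fin d ⊕ Fin d) F) v) =
      RElt.sympB d F u v := by
  rw [Matrix.toLin'_apply, Matrix.toLin'_apply]
  exact (H6.Symp.mem_iff_bf).1 x.2 u v

/-- a scalar isometry has square one -/
theorem sc_sq {V : Type u} [AddCommGroup V] [Module F V] [Nontrivial V] {B : LinearMap.BilinForm F V} (hN : ND B ⊤) {f : V →ₗ[F] V}
    (hf : ∀ u v, B (f u) (f v) = B u v) {z : F} (hz : ∀ v, f v = z • v) : z * z = 1 := by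
  obtain ⟨v, hv⟩ := exists_ne (0 : V)
  obtain ⟨w, hw⟩ : ∃ w, B v w ≠ 0 := by
    by_contra hcon
    push Not at hcon
    exact hv (hN v trivial fun y _ => hcon y)
  have h1 := hf v w
  rw [hz, hz] at h1
  simp only [_root_.map_smul, LinearMap.smul_apply, smul_eq_mul] at h1
  apply mul_right_cancel₀ hw
  rw [one_mul]
  linear_combination h1

theorem isom_pow {V : Type u} [AddCommGroup V] [Module F V] {B : LinearMap.BilinForm F V} {f : V →ₗ[F] V}
    (hf : ∀ u v, B (f u) (f v) = B u v) (k : ℕ) (u v : V) : B ((f ^ k) u) ((f ^ k) v) = B u v := by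
  induction k with
  | zero => rfl
  | succ k ih => rw [pow_succ', Module.End.mul_apply, Module.End.mul_apply, hf, ih]

theorem inv_map' {d : ℕ} {x : Matrix (Fin d ⊕ Fin d) (Fin d ⊕ Fin d) F} {W : Submodule F (Fin d ⊕ Fin d → F)} :
    W.map (Matrix.toLin' x) ≤ W ↔ ∀ v ∈ W, Matrix.toLin' x v ∈ W := by
  constructor
  · intro h v hv; exact h ⟨v, hv, rfl⟩
  · rintro h _ ⟨v, hv, rfl⟩; exact h v hv

theorem smul_mat {d : ℕ} {x : Matrix (Fin d ⊕ Fin d) (Fin d ⊕ Fin d) F} {z : F} (h : x = z • (1 : Matrix (Fin d ⊕ Fin d) (Fin d ⊕ Fin d) F))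
    (v : Fin d ⊕ Fin d → F) : Matrix.toLin' x v = z • v := by
  rw [h, _root_.map_smul, Matrix.toLin'_one]; rfl

theorem mat_smul {d : ℕ} {x : Matrix (Fin d ⊕ Fin d) (Fin d ⊕ Fin d) F} {z : F} (h : ∀ v, Matrix.toLin' x v = z • v) :
    x = z • (1 : Matrix (Fin d ⊕ Fin d) (Fin d ⊕ Fin d) F) := by
  apply Matrix.toLin'.injective
  rw [_root_.map_smul, Matrix.toLin'_one]
  apply LinearMap.ext
  intro v
  exact h v

/-- **reduction modulo scalars, odd order** -/
theorem sp_iff {d : ℕ} (hd : 0 < d) {r : ℕ} (hr : Odd r) (P : Submodule F (Fin d ⊕ Fin d → F) → Prop) :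
    (∀ x : ↥(Matrix.symplecticGroup (Fin d) F),
      (∃ z : F, ((x ^ r : ↥(Matrix.symplecticGroup (Fin d) F)) : Matrix (Fin d ⊕ Fin d) (Fin d ⊕ Fin d) F) = z • (1 : Matrix (Fin d ⊕ Fin d) (Fin d ⊕ Fin d) F)) →
      (∀ z : F, (x : Matrix (Fin d ⊕ Fin d) (Fin d ⊕ Fin d) F) ≠ z • (1 : Matrix (Fin d ⊕ Fin d) (Fin d ⊕ Fin d) F)) →
      ∃ W : Submodule F (Fin d ⊕ Fin d → F), P W ∧ W.map (Matrix.toLin' (x : Matrix (Fin d ⊕ Fin d) (Fin d ⊕ Fin d) F)) ≤ W) ↔
    (∀ f : (Fin d ⊕ Fin d → F) →ₗ[F] (Fin d ⊕ Fin d → F), (∀ u v, RElt.sympB d F (f u) (f v) = RElt.sympB d F u v) → f ^ r = 1 → f ≠ 1 →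
      ∃ W, P W ∧ ∀ v ∈ W, f v ∈ W) := by
  have : Nonempty (Fin d) := ⟨⟨0, hd⟩⟩
  have : Nontrivial (Fin d ⊕ Fin d → F) := inferInstance
  have hN := Iso.sympB_top (F := F) d
  constructor
  · intro H f hf hfr hf1
    obtain ⟨x, hx⟩ := Iso.exists_sp_of_isom f hf
    have hxr : (((x ^ r : ↥(Matrix.symplecticGroup (Fin d) F)) : Matrix (Fin d ⊕ Fin d) (Fin d ⊕ Fin d) F)) = 1 := by
      apply Matrix.toLin'.injective
      rw [SubmonoidClass.coe_pow, Matrix.toLin'_pow, hx, hfr, Matrix.toLin'_one]; rfl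
    obtain ⟨W, W1, W2⟩ := H x ⟨1, by rw [hxr, one_smul]⟩ (by
      intro z hz
      have h1 : ∀ v, f v = z • v := fun v => by rw [← hx]; exact smul_mat hz v
      have h2 := sc_sq hN hf h1
      have h3 : ∀ k : ℕ, ∀ v, (f ^ k) v = z ^ k • v := by
        intro k
        induction k with
        | zero => intro v; rw [pow_zero, pow_zero, one_smul]; rfl
        | succ k ih => intro v; rw [pow_succ', Module.End.mul_apply, ih, h1, smul_smul, pow_succ']
      obtain ⟨v, hv⟩ := exists_ne (0 : Fin d ⊕ Fin d → F)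
      have h4 := h3 r v
      rw [hfr] at h4
      have h5 : z ^ r = 1 := by
        by_contra hne
        have h6 : (z ^ r - 1) • v = 0 := by
          rw [sub_smul, ← h4, one_smul]
          exact sub_self v
        rcases smul_eq_zero.1 h6 with h | h
        · exact hne (sub_eq_zero.1 h)
        · exact hv h
      obtain ⟨k, hk⟩ := hr
      rw [hk, pow_succ, pow_mul, pow_two, h2, one_pow, one_mul] at h5
      apply hf1
      apply LinearMap.ext
      intro v
      rw [h1, h5, one_smul]; rfl)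
    refine ⟨W, W1, ?_⟩
    rw [← hx]
    exact inv_map'.1 W2
  · intro H x hz hnz
    obtain ⟨z, hz⟩ := hz
    set f := Matrix.toLin' (x : Matrix (Fin d ⊕ Fin d) (Fin d ⊕ Fin d) F) with hf
    have hiso : ∀ u v, RElt.sympB d F (f u) (f v) = RElt.sympB d F u v := sp_isom x
    have hfr : ∀ v, (f ^ r) v = z • v := by
      intro v
      rw [hf, ← Matrix.toLin'_pow, ← SubmonoidClass.coe_pow]
      exact smul_mat hz v
    have h2 := sc_sq hN (isom_pow hiso r) hfr
    have hz0 : z ≠ 0 := by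
      rintro rfl
      rw [mul_zero] at h2
      exact zero_ne_one h2
    obtain ⟨W, W1, W2⟩ := H (z • f) (fun u v => by
      simp only [LinearMap.smul_apply, _root_.map_smul, smul_eq_mul]
      rw [hiso, ← mul_assoc, h2, one_mul]) (by
      rw [smul_pow]
      obtain ⟨k, hk⟩ := hr
      apply LinearMap.ext
      intro v
      rw [LinearMap.smul_apply, hfr, smul_smul, ← pow_succ, hk, show 2 * k + 1 + 1 = 2 * (k + 1) by ring, pow_mul, pow_two, h2, one_pow, one_smul]; rfl) (by
      intro h1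
      apply hnz z
      apply mat_smul
      intro v
      have h3 : z • f v = v := congrArg (fun φ : (Fin d ⊕ Fin d → F) →ₗ[F] (Fin d ⊕ Fin d → F) => φ v) h1
      have h4 : z • (z • f v) = z • v := by rw [h3]
      rw [smul_smul, h2, one_smul] at h4
      exact h4)
    refine ⟨W, W1, inv_map'.2 fun v hv => ?_⟩
    have h3 := W.smul_mem z (W2 v hv)
    rw [LinearMap.smul_apply, smul_smul, h2, one_smul] at h3
    exact h3

/-- the isometry group of a bilinear form -/
def isoG {V : Type u} [AddCommGroup V] [Module F V] (B : LinearMap.BilinForm F V) : Subgroup (V ≃ₗ[F] V) where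
  carrier := {g | ∀ u v, B (g u) (g v) = B u v}
  mul_mem' := by
    intro g h hg hh u v
    show B (g (h u)) (g (h v)) = _
    rw [hg, hh]
  one_mem' := fun u v => rfl
  inv_mem' := by
    intro g hg u v
    have h1 := hg (g⁻¹ u) (g⁻¹ v)
    have h2 : ∀ w, g (g⁻¹ w) = w := fun w => LinearEquiv.apply_symm_apply g w
    rw [h2, h2] at h1
    exact h1.symm

/-- totally isotropic subspaces of dimension `m` -/
def TIs {V : Type u} [AddCommGroup V] [Module F V] (B : LinearMap.BilinForm F V) (m : ℕ) : Set (Submodule F V) :=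
  {W | finrank F W = m ∧ ∀ u ∈ W, ∀ v ∈ W, B u v = 0}

theorem TIs.map {V : Type u} [AddCommGroup V] [Module F V] {B : LinearMap.BilinForm F V} {m : ℕ} {W : Submodule F V} (hW : W ∈ TIs B m)
    (g : V →ₗ[F] V) (hg : ∀ u v, B (g u) (g v) = B u v) (hinj : Function.Injective g) : W.map g ∈ TIs B m := by
  refine ⟨?_, ?_⟩
  · rw [← hW.1]
    exact (Submodule.equivMapOfInjective g hinj W).finrank_eq.symm
  · rintro _ ⟨w, hw, rfl⟩ _ ⟨w', hw', rfl⟩
    rw [hg]; exact hW.2 w hw w' hw'

theorem nondeg_of_nd {V : Type u} [AddCommGroup V] [Module F V] [FiniteDimensional F V] {B : LinearMap.BilinForm F V} (hA : ∀ v, B v v = 0) (hN : ND B ⊤) :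
    B.Nondegenerate := by
  refine ⟨fun x h => hN x trivial fun y _ => h y, fun x h => hN x trivial fun y _ => ?_⟩
  exact refl_alt hA _ _ (h y)

theorem TIs.dvd {V : Type u} [AddCommGroup V] [Module F V] [FiniteDimensional F V] {B : LinearMap.BilinForm F V} (hA : ∀ v, B v v = 0)
    (hN : ND B ⊤) (m : ℕ) (hne : (TIs B m).Nonempty) : Nat.card (TIs B m) ∣ Nat.card (isoG B) := by
  classical
  have : Finite V := Module.finite_of_finite F
  let G := isoG B
  let act : MulAction G (TIs B m) :=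
    { smul := fun g W => ⟨W.1.map (g.1 : V →ₗ[F] V), TIs.map W.2 _ g.2 (LinearEquiv.injective g.1)⟩
      one_smul := fun W => Subtype.ext (by
        show W.1.map ((1 : G).1 : V →ₗ[F] V) = W.1
        exact Submodule.map_id W.1)
      mul_smul := fun g h W => Subtype.ext (by
        show W.1.map ((g * h).1 : V →ₗ[F] V) = (W.1.map (h.1 : V →ₗ[F] V)).map (g.1 : V →ₗ[F] V)
        rw [← Submodule.map_comp]; rfl) }
  obtain ⟨W0, hW0⟩ := hne
  have htrans : MulAction.orbit G (⟨W0, hW0⟩ : TIs B m) = Set.univ := by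
    rw [Set.eq_univ_iff_forall]
    rintro ⟨W, hW⟩
    let e : W0 ≃ₗ[F] W := LinearEquiv.ofFinrankEq _ _ (by rw [hW0.1, hW.1])
    obtain ⟨g, hg, hgx⟩ := H16.Witt.witt_alt B (nondeg_of_nd hA hN) hA W0 W e (fun x x' => by
        rw [hW.2 _ (e x).2 _ (e x').2, hW0.2 _ x.2 _ x'.2])
    refine ⟨⟨g, hg⟩, Subtype.ext ?_⟩
    show W0.map (g : V →ₗ[F] V) = W
    apply Submodule.eq_of_le_of_finrank_eq
    · rintro _ ⟨x, hx, rfl⟩
      have := hgx ⟨x, hx⟩
      show g x ∈ W
      rw [this]
      exact (e ⟨x, hx⟩).2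
    · rw [LinearEquiv.finrank_map_eq g W0, hW0.1, hW.1]
  have h1 := Nat.card_congr (MulAction.orbitEquivQuotientStabilizer G (⟨W0, hW0⟩ : TIs B m))
  rw [htrans, Nat.card_univ] at h1
  rw [h1]
  exact Subgroup.card_quotient_dvd_card _

end gen

variable {F : Type u} [Field F] [Fintype F] {r : ℕ}

/-- no isometries of order `r` in small dimension -/
theorem no_r (hr : r.Prime) (hr2 : r ≠ 2) (hrq : ¬ r ∣ Fintype.card F) {V : Type u} [AddCommGroup V] [Module F V] [FiniteDimensional F V]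
    {B : LinearMap.BilinForm F V} (hA : ∀ v, B v v = 0) (hN : ND B ⊤) (hC : finrank F V < blk (oi F r)) : ¬ r ∣ Nat.card (isoG B) := by
  classical
  intro h
  have : Finite V := Module.finite_of_finite F
  have : Finite (isoG B) := by
    have : Finite (V ≃ₗ[F] V) := Finite.of_injective (fun g : V ≃ₗ[F] V => (g : V → V)) DFunLike.coe_injective
    infer_instance
  have : Fact r.Prime := ⟨hr⟩
  obtain ⟨g, hg⟩ := exists_prime_orderOf_dvd_card' (G := isoG B) r h
  let f : V →ₗ[F] V := (g.1 : V →ₗ[F] V)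
  have hf : ∀ u v, B (f u) (f v) = B u v := g.2
  have hk : ∀ k : ℕ, ((((g ^ k : isoG B) : V ≃ₗ[F] V)) : V →ₗ[F] V) = f ^ k := by
    intro k
    induction k with
    | zero => rfl
    | succ k ih => rw [pow_succ, pow_succ, ← ih]; rfl
  have hfr : f ^ r = 1 := by
    rw [← hk, ← hg, pow_orderOf_eq_one]; rfl
  have hf1 : f ≠ 1 := by
    intro h1
    have : g = 1 := by
      apply Subtype.ext
      apply LinearEquiv.ext
      intro v
      exact congrArg (fun φ : V →ₗ[F] V => φ v) h1
    rw [this, orderOf_one] at hg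
    exact hr.one_lt.ne hg
  obtain ⟨n1, n2, n3⟩ := Iso.nd_mov hr hrq (refl_alt hA) hfr hf (X := ⊤) (fun v _ => trivial) hN
  obtain ⟨Y, -, -, -, hY⟩ := Iso.exists_block hr hr2 hrq (refl_alt hA) hA hfr hf (Iso.mov_inv (X := ⊤) (fun v _ => trivial))
    (fun v hv => Iso.mov_fpf hr hrq hfr v hv) n1 (by
    rw [top_inf_eq]
    intro h0
    apply hf1
    exact sub_eq_zero.1 (LinearMap.range_eq_bot.1 h0))
  have h5 := Submodule.finrank_le Y
  have h6 : finrank F Y = blk (oi F r) := hY
  omega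

theorem ti_not_dvd (hr : r.Prime) (hr2 : r ≠ 2) (hrq : ¬ r ∣ Fintype.card F) {V : Type u} [AddCommGroup V] [Module F V] [FiniteDimensional F V]
    {B : LinearMap.BilinForm F V} (hA : ∀ v, B v v = 0) (hN : ND B ⊤) {m : ℕ} (hm : m < oi F r) (f : V →ₗ[F] V) (hf : ∀ u v, B (f u) (f v) = B u v)
    (hfr : f ^ r = 1) (hC : finrank F (LinearMap.ker (f - 1)) < blk (oi F r))
    (hdvd : r ∣ Nat.card (TIs B m)) : ¬ ∃ W ∈ TIs B m, ∀ v ∈ W, f v ∈ W := by
  classical
  rintro ⟨W0, hW0, hfW0⟩
  have : Finite V := Module.finite_of_finite F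
  have : Fact r.Prime := ⟨hr⟩
  obtain ⟨n1, n2, n3⟩ := Iso.nd_mov hr hrq (refl_alt hA) hfr hf (X := ⊤) (fun v _ => trivial) hN
  rw [top_inf_eq] at n2
  have hle : ∀ W ∈ TIs B m, (∀ v ∈ W, f v ∈ W) → W ≤ LinearMap.ker (f - 1) := by
    intro W hW hfW
    obtain ⟨k, j, -, k1, k2, k4⟩ := ti_nec hA hN hr hrq f hf hfr hfW hW.2
    apply k4
    by_contra hk
    have : oi F r ≤ oi F r * k := Nat.le_mul_of_pos_right _ (by omega)
    rw [hW.1] at k1
    omega
  have hinj : Function.Injective f := by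
    intro a b hab
    have h1 : (f ^ (r - 1)) (f a) = (f ^ (r - 1)) (f b) := by rw [hab]
    have h2 : ∀ v, (f ^ (r - 1)) (f v) = v := by
      intro v
      have : f ^ (r - 1) * f = 1 := by rw [← pow_succ, Nat.sub_add_cancel hr.pos, hfr]
      exact congrArg (fun φ : V →ₗ[F] V => φ v) this
    rwa [h2, h2] at h1
  have hfin : Finite (Submodule F V) := Finite.of_injective (fun W : Submodule F V => (W : Set V)) SetLike.coe_injective
  have : Fintype (TIs B m) := Fintype.ofFinite _
  let φ : Function.End (TIs B m) := fun W => ⟨W.1.map f, TIs.map W.2 f hf hinj⟩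
  have hφ : ∀ (k : ℕ) (W : TIs B m), (((φ ^ k) W : TIs B m) : Submodule F V) = W.1.map (f ^ k) := by
    intro k
    induction k with
    | zero => intro W; exact (Submodule.map_id W.1).symm
    | succ k ih =>
      intro W
      rw [pow_succ', pow_succ']
      show (((φ ^ k) W : TIs B m) : Submodule F V).map f = W.1.map (f * f ^ k)
      rw [ih, ← Submodule.map_comp]; rfl
  have h1 := Equiv.Perm.card_fixedPoints_modEq (f := φ) (p := r) (n := 1) (by
    rw [pow_one]
    funext W
    apply Subtype.ext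
    rw [hφ, hfr]
    exact Submodule.map_id W.1)
  have h2 : r ∣ Fintype.card (Function.fixedPoints φ) := by
    rw [← Nat.modEq_zero_iff_dvd]
    refine h1.symm.trans ?_
    rw [Nat.modEq_zero_iff_dvd, ← Nat.card_eq_fintype_card]; exact hdvd
  have hfixv : ∀ v ∈ LinearMap.ker (f - 1), f v = v := fun v hv => sub_eq_zero.1 (LinearMap.mem_ker.1 hv)
  -- fixed points are the subspaces of the fixed space
  have hfixeq : ∀ W : TIs B m, φ W = W ↔ W.1 ≤ LinearMap.ker (f - 1) := by
    intro W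
    constructor
    · intro h
      apply hle W.1 W.2
      intro v hv
      have h3 : W.1.map f = W.1 := congrArg Subtype.val h
      rw [← h3]; exact ⟨v, hv, rfl⟩
    · intro h
      apply Subtype.ext
      show W.1.map f = W.1
      ext v
      constructor
      · rintro ⟨w, hw, rfl⟩
        rw [hfixv w (h hw)]; exact hw
      · intro hv
        exact ⟨v, hv, hfixv v (h hv)⟩
  let e : Function.fixedPoints φ ≃ TIs (B.restrict (LinearMap.ker (f - 1))) m :=
    { toFun := fun W => ⟨W.1.1.comap (LinearMap.ker (f - 1)).subtype, by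
        have hWle := (hfixeq W.1).1 W.2
        exact ⟨by rw [(Submodule.comapSubtypeEquivOfLe hWle).finrank_eq]; exact W.1.2.1, fun w hw w' hw' => W.1.2.2 _ hw _ hw'⟩⟩
      invFun := fun W => ⟨⟨W.1.map (LinearMap.ker (f - 1)).subtype, by
        refine ⟨by rw [Submodule.finrank_map_subtype_eq]; exact W.2.1, ?_⟩
        rintro _ ⟨w, hw, rfl⟩ _ ⟨w', hw', rfl⟩
        exact W.2.2 w hw w' hw'⟩, (hfixeq _).2 (by
          rintro _ ⟨v, _, rfl⟩
          exact v.2)⟩
      left_inv := fun W => by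
        apply Subtype.ext
        apply Subtype.ext
        have hWle := (hfixeq W.1).1 W.2
        show (W.1.1.comap (LinearMap.ker (f - 1)).subtype).map (LinearMap.ker (f - 1)).subtype = W.1.1
        rw [Submodule.map_comap_subtype]
        exact inf_eq_right.2 hWle
      right_inv := fun W => by
        apply Subtype.ext
        show (W.1.map (LinearMap.ker (f - 1)).subtype).comap (LinearMap.ker (f - 1)).subtype = W.1
        exact Submodule.comap_map_eq_of_injective (LinearMap.ker (f - 1)).injective_subtype W.1 }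
  rw [← Nat.card_eq_fintype_card, Nat.card_congr e] at h2
  have hne : (TIs (B.restrict (LinearMap.ker (f - 1))) m).Nonempty := ⟨_, (e ⟨⟨W0, hW0⟩, (hfixeq _).2 (hle W0 hW0 hfW0)⟩).2⟩
  have hCnd : ND (B.restrict (LinearMap.ker (f - 1))) ⊤ := by
    rintro ⟨x, hx⟩ _ h
    apply Subtype.ext
    apply n2 x hx
    intro y hy
    exact h ⟨y, hy⟩ trivial
  exact no_r hr hr2 hrq (B := B.restrict (LinearMap.ker (f - 1))) (fun v => hA _) hCnd hC (h2.trans (TIs.dvd (B := B.restrict (LinearMap.ker (f - 1))) (fun v => hA _) hCnd m hne))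

end H99.SpTi
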