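import Mathlib
import Cfsg.Agent.Lib.H99.SpTi2

set_option autoImplicit false
set_option linter.unusedSimpArgs false
set_option linter.unusedSectionVars false
set_option linter.unusedVariables false

/-! The criterion for totally isotropic subspaces, elements of odd order prime to the characteristic. -/

namespace H99.SpTi

open Module H99.Iso H99.Ti H99.TiArith Matrix

universe u

variable {F : Type u} [Field F] [Fintype F] {r : ℕ}

/-- **core criterion** -/
theorem core_sp (hr : r.Prime) (hr2 : r ≠ 2) (hrq : ¬ r ∣ Fintype.card F) {V : Type u} [AddCommGroup V] [Module F V] [FiniteDimensional F V]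
    {B : LinearMap.BilinForm F V} (hA : ∀ v, B v v = 0) (hN : ND B ⊤) (m : ℕ) :
    (∀ f : V →ₗ[F] V, (∀ u v, B (f u) (f v) = B u v) → f ^ r = 1 → f ≠ 1 →
      ∃ W : Submodule F V, (finrank F W = m ∧ ∀ u ∈ W, ∀ v ∈ W, B u v = 0) ∧ ∀ v ∈ W, f v ∈ W) ↔
      ∀ s o, allT r (oi F r) (finrank F V) (fun _ => True) s o → okT (oi F r) (finrank F V) m (fun _ => True) s o := by
  have hi0 := oi_pos (F := F) hr hrq
  constructor
  · rintro H s o ⟨a1, a2, a3, a4, -⟩
    obtain ⟨f, f1, f2, f3, f4⟩ := realize_ti hr hr2 hrq hA hN s o a2 a3 a4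
    obtain ⟨W, W1, W2⟩ := H f f1 f2 (by
      rintro rfl
      rw [sub_self, LinearMap.ker_zero, finrank_top] at f3
      have h2 : 0 < oi F r * (2 * s + o) := Nat.mul_pos hi0 (by omega)
      omega)
    obtain ⟨k, j, ⟨L, l1, l2, l3, l4⟩, k1, k2, -⟩ := ti_nec hA hN hr hrq f f1 f2 W2 W1.2
    have hLw := f4 L l2 (fun u hu v hv => W1.2 u (l1 hu) v (l1 hv)) l3
    rw [l4] at hLw
    have hks : k ≤ s := Nat.le_of_mul_le_mul_left hLw hi0
    rw [W1.1] at k1
    exact ⟨k, hks, by omega, by omega, fun _ => trivial⟩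
  · intro H f f1 f2 hf1
    obtain ⟨s, o, s1, s2, s3, s4⟩ := struct_ti hA hN hr hr2 hrq f f1 f2
    have hs : 1 ≤ s + o := by
      by_contra hs
      have e1 : s = 0 := by omega
      have e2 : o = 0 := by omega
      rw [e1, e2] at s1
      have := Submodule.eq_top_of_finrank_eq (K := F) (S := LinearMap.ker (f - 1)) (by simpa using s1)
      apply hf1
      apply LinearMap.ext
      intro v
      have h1 : v ∈ LinearMap.ker (f - 1) := by rw [this]; trivial
      exact sub_eq_zero.1 (LinearMap.mem_ker.1 h1)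
    obtain ⟨κ, c1, c2, c3, -⟩ := H s o ⟨hs, s2, s3, by omega, fun _ => trivial⟩
    obtain ⟨L, l1, l2, l3, l4⟩ := s4 κ c1
    obtain ⟨W, w1, w2, w3⟩ := ti_suf hA hN hr hrq f f1 f2 l1 l2 l3 (j := m - oi F r * κ) (by omega)
    exact ⟨W, ⟨by omega, w2⟩, w3⟩

/-- **divisibility consequence** -/
theorem core_dvd_sp (hr : r.Prime) (hr2 : r ≠ 2) (hrq : ¬ r ∣ Fintype.card F) {V : Type u} [AddCommGroup V] [Module F V] [FiniteDimensional F V]
    {B : LinearMap.BilinForm F V} (hA : ∀ v, B v v = 0) (hN : ND B ⊤) {m : ℕ} (hne : (TIs B m).Nonempty)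
    (hdvd : r ∣ Nat.card (TIs B m))
    (H : ∀ f : V →ₗ[F] V, (∀ u v, B (f u) (f v) = B u v) → f ^ r = 1 → f ≠ 1 →
      ∃ W : Submodule F V, (finrank F W = m ∧ ∀ u ∈ W, ∀ v ∈ W, B u v = 0) ∧ ∀ v ∈ W, f v ∈ W) : oi F r ≤ m := by
  by_contra hlt
  push Not at hlt
  have hi0 := oi_pos (F := F) hr hrq
  have hr' : Fact r.Prime := ⟨hr⟩
  have hce : Even (blk (oi F r)) := by
    unfold blk
    split_ifs with h
    · exact h
    · exact even_two_mul _
  have hc0 : 0 < blk (oi F r) := by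
    unfold blk
    split_ifs <;> omega
  have hdv : oi F r ∣ blk (oi F r) := by
    unfold blk
    split_ifs
    · exact dvd_rfl
    · exact dvd_mul_left _ _
  obtain ⟨f, f1, f2, f3⟩ := Iso.exists_max hr hr2 hrq (refl_alt hA) hA hN hce hc0 (by
    rw [← Nat.modEq_iff_dvd' (Nat.one_le_pow _ _ Fintype.card_pos), ← ZMod.natCast_eq_natCast_iff]
    push_cast
    exact (orderOf_dvd_iff_pow_eq_one.1 hdv).symm) _ (1 : V →ₗ[F] V) (fun u v => rfl) (one_pow r) rfl
  have hno := ti_not_dvd hr hr2 hrq hA hN hlt f f1 f2 f3 hdvd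
  by_cases hf1 : f = 1
  · obtain ⟨W, hW⟩ := hne
    exact hno ⟨W, hW, fun v hv => by rw [hf1]; exact hv⟩
  · obtain ⟨W, W1, W2⟩ := H f f1 f2 hf1
    exact hno ⟨W, W1, W2⟩

/-- **the criterion for odd primes different from the characteristic** -/
theorem crit_sp (hr : r.Prime) (hr2 : r ≠ 2) (hrq : ¬ r ∣ Fintype.card F) {V : Type u} [AddCommGroup V] [Module F V] [FiniteDimensional F V]
    {B : LinearMap.BilinForm F V} (hA : ∀ v, B v v = 0) (hN : ND B ⊤) {n m : ℕ} (hn : finrank F V = n) (hmn : 2 * m ≤ n)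
    (hdvd : r ∣ Nat.card (TIs B m)) {i c : ℕ} (hi : i = oi F r) (hc : c = if Even i then i else 2 * i) :
    (∀ f : V →ₗ[F] V, (∀ u v, B (f u) (f v) = B u v) → f ^ r = 1 → f ≠ 1 →
      ∃ W : Submodule F V, (finrank F W = m ∧ ∀ u ∈ W, ∀ v ∈ W, B u v = 0) ∧ ∀ v ∈ W, f v ∈ W) ↔
      (i ≤ m ∧ 2 * (m % i) ≤ n % c ∧ (Odd i ∨ (r - 1) / i + 2 * (m / i) ≤ n / i)) := by
  have hne : (TIs B m).Nonempty := by
    obtain ⟨U, -, u1, u2⟩ := ti_exists hA hN (j := m) (by rw [finrank_top, hn]; exact hmn)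
    exact ⟨U, u2, u1⟩
  have hi0 : 0 < i := by rw [hi]; exact oi_pos (F := F) hr hrq
  have hr' : Fact r.Prime := ⟨hr⟩
  have hidvd : i ∣ r - 1 := by
    have h1 : ((Fintype.card F : ℕ) : ZMod r) ≠ 0 := by
      intro h; exact hrq ((ZMod.natCast_eq_zero_iff _ _).1 h)
    have h2 := orderOf_dvd_of_pow_eq_one (ZMod.pow_card_sub_one_eq_one h1)
    rw [hi]; exact h2
  have key : ∀ (him : i ≤ m), (∀ s o, allT r i n (fun _ => True) s o → okT i n m (fun _ => True) s o) ↔
      (2 * (m % i) ≤ n % c ∧ (Odd i ∨ (r - 1) / i + 2 * (m / i) ≤ n / i)) := by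
    intro him
    rcases Nat.even_or_odd i with he | ho
    · have hno : ¬ Odd i := Nat.not_odd_iff_even.2 he
      rw [if_pos he] at hc
      have ht1 : 1 ≤ (r - 1) / i := by
        apply Nat.div_pos (Nat.le_of_dvd (by have := hr.two_le; omega) hidvd) hi0
      rw [even_case (r := r) (t := (r - 1) / i) hi0 he (Nat.mul_div_cancel' hidvd) ht1 him hmn (Nat.div_add_mod n i).symm (Nat.mod_lt n hi0)
        (Nat.div_add_mod m i).symm (Nat.mod_lt m hi0) (τ := fun _ => True) (fun o => Iff.rfl) (fun h => trivial), hc]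
      simp only [hno, not_true, and_true, and_false, false_and, or_false, false_or]
      exact and_comm
    · have hne' : ¬ Even i := Nat.not_even_iff_odd.2 ho
      rw [if_neg hne'] at hc
      rw [odd_case (r := r) hi0 ho him hmn (by rw [← hc]; exact (Nat.div_add_mod n c).symm) (by rw [← hc]; exact Nat.mod_lt n (by omega))
        (Nat.div_add_mod m i).symm (Nat.mod_lt m hi0) (τ := fun _ => True) (fun h => trivial)]
      simp only [ho, true_or, and_true, not_true, and_false, or_false]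
  have hcore := core_sp hr hr2 hrq hA hN m
  rw [hn, ← hi] at hcore
  constructor
  · intro H
    have him : i ≤ m := by rw [hi]; exact core_dvd_sp hr hr2 hrq hA hN hne hdvd H
    exact ⟨him, (key him).1 (hcore.1 H)⟩
  · rintro ⟨him, h⟩
    exact hcore.2 ((key him).2 h)

end H99.SpTi
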