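import Mathlib
import Cfsg.Agent.Lib.H99.SpTi3
import Cfsg.Agent.Lib.H99.OrthTsTwo

set_option autoImplicit false
set_option linter.unusedSimpArgs false
set_option linter.unusedSectionVars false
set_option linter.unusedVariables false

/-! Involutions and elements of order four of symplectic groups, and the count modulo `p`. -/

namespace H99.SpTi

open Module H99.Iso H99.Ti H99.TiArith Matrix

universe u

variable {F : Type u} [Field F] [Fintype F]

section two

variable {V : Type u} [AddCommGroup V] [Module F V] [FiniteDimensional F V] {B : LinearMap.BilinForm F V}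

theorem J_ti (h2 : (2 : F) ≠ 0) (hsq : ¬ IsSquare (-1 : F)) (hA : ∀ v, B v v = 0) (hN : ND B ⊤) {f : V →ₗ[F] V} (hiso : ∀ u v, B (f u) (f v) = B u v)
    (hf : ∀ v, f (f v) = -v) {j : ℕ} (hj : 4 * j ≤ finrank F V) :
    ∃ W : Submodule F V, finrank F W = 2 * j ∧ (∀ u ∈ W, ∀ v ∈ W, B u v = 0) ∧ ∀ v ∈ W, f v ∈ W := by
  have hf4 : f ^ 4 = 1 := by
    apply LinearMap.ext
    intro v
    show f (f (f (f v))) = v
    rw [hf, hf, neg_neg]
  obtain ⟨L, H, A, h1, h3, h4, h5, h6, h7, h8, h9, h10, h11, h12, h13, h14, h15⟩ := Ti.exists_hyp (refl_alt hA) (by norm_num : 0 < 4) hf4 (OrthTi.J_ss h2 hf) hiso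
    (X := ⊤) (fun v _ => trivial) hN
  have hA2 : finrank F A ≤ 2 := by
    by_contra hcon
    push Not at hcon
    let Q : QuadraticForm F V := LinearMap.BilinMap.toQuadraticMap (B.compl₂ f)
    have hQ : ∀ v, Q v = B v (f v) := fun v => rfl
    obtain ⟨u, hu0, hu⟩ := H48.QuadStd.exists_singular (Q.restrict A) hcon
    have hu' : B (u : V) (f u) = 0 := hu
    have huu : (u : V) ≠ 0 := fun h => hu0 (Subtype.ext h)
    have hu'' : B (f u) (u : V) = 0 := refl_alt hA _ _ hu'
    have hbot := h14 (Submodule.span F {(u : V), f u}) (by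
      rw [Submodule.span_le]
      rintro x (rfl | rfl)
      · exact u.2
      · exact h10 u u.2) (OrthTi.J_line_inv hf u) (by
      intro x hx y hy
      obtain ⟨a, b, rfl⟩ := Submodule.mem_span_pair.1 hx
      obtain ⟨a', b', rfl⟩ := Submodule.mem_span_pair.1 hy
      simp only [_root_.map_add, _root_.map_smul, LinearMap.add_apply, LinearMap.smul_apply, hA, hu', hu'', smul_zero, add_zero])
    have h := OrthTi.J_line hsq hf huu
    rw [hbot, finrank_bot] at h
    omega
  rw [finrank_top] at h12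
  obtain ⟨e, he⟩ := OrthTi.J_even hsq hf h5
  obtain ⟨W, w1, w2, w3⟩ := OrthTi.J_sub h2 hsq hf h5 j (by omega)
  exact ⟨W, w3, fun u hu v hv => h6 u (w1 hu) v (w1 hv), w2⟩

/-- eigenspaces when `-1` is a square -/
theorem J_ti_sq (h2 : (2 : F) ≠ 0) (hsq : IsSquare (-1 : F)) {f : V →ₗ[F] V} (hiso : ∀ u v, B (f u) (f v) = B u v)
    (hf : ∀ v, f (f v) = -v) {j : ℕ} (hj : 2 * j ≤ finrank F V) :
    ∃ W : Submodule F V, finrank F W = j ∧ (∀ u ∈ W, ∀ v ∈ W, B u v = 0) ∧ ∀ v ∈ W, f v ∈ W := by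
  obtain ⟨e, he⟩ := hsq
  have hev : ∀ ζ : F, ζ * ζ = -1 → ∀ u v, f u = ζ • u → f v = ζ • v → B u v = 0 := by
    intro ζ hζ u v hu hv
    have h1 := hiso u v
    rw [hu, hv] at h1
    simp only [_root_.map_smul, LinearMap.smul_apply, smul_eq_mul] at h1
    have h3 : 2 * B u v = 0 := by
      rw [← mul_assoc, hζ] at h1
      linear_combination -h1
    exact (mul_eq_zero.1 h3).resolve_left h2
  let E : F → Submodule F V := fun ζ => LinearMap.ker (f - ζ • LinearMap.id)
  have hE : ∀ ζ v, v ∈ E ζ ↔ f v = ζ • v := by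
    intro ζ v
    show f v - ζ • v = 0 ↔ _
    exact sub_eq_zero
  have hsup : E e ⊔ E (-e) = ⊤ := by
    rw [eq_top_iff]
    intro v _
    have h1 : v = (2 : F)⁻¹ • (v - e • f v) + (2 : F)⁻¹ • (v + e • f v) := by
      rw [← smul_add]
      have : v - e • f v + (v + e • f v) = (2 : F) • v := by rw [two_smul]; abel
      rw [this, smul_smul, inv_mul_cancel₀ h2, one_smul]
    rw [h1]
    apply Submodule.add_mem_sup
    · apply Submodule.smul_mem
      rw [hE, _root_.map_sub, _root_.map_smul, hf, smul_sub, smul_smul, ← he, smul_neg, neg_smul, one_smul]; abel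
    · apply Submodule.smul_mem
      rw [hE, _root_.map_add, _root_.map_smul, hf, smul_add, smul_smul, neg_mul, ← he, smul_neg, neg_smul, neg_neg, one_smul]; abel
  have h3 := Submodule.finrank_add_le_finrank_add_finrank (E e) (E (-e))
  rw [hsup, finrank_top] at h3
  have hts : ∀ ζ : F, ζ * ζ = -1 → j ≤ finrank F (E ζ) → ∃ W : Submodule F V, finrank F W = j ∧ (∀ u ∈ W, ∀ v ∈ W, B u v = 0) ∧ ∀ v ∈ W, f v ∈ W := by
    intro ζ hζ hle
    obtain ⟨W, w1, w2⟩ := OrthTi.exists_sub (E ζ) hle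
    refine ⟨W, w2, fun u hu v hv => hev ζ hζ u v ((hE ζ u).1 (w1 hu)) ((hE ζ v).1 (w1 hv)), fun v hv => ?_⟩
    rw [(hE ζ v).1 (w1 hv)]
    exact W.smul_mem _ hv
  rcases (by omega : j ≤ finrank F (E e) ∨ j ≤ finrank F (E (-e))) with h | h
  · exact hts e he.symm h
  · exact hts (-e) (by rw [neg_mul_neg]; exact he.symm) h

/-- involutions: eigenspace decomposition -/
theorem inv_dec (h2 : (2 : F) ≠ 0) (hB : B.IsRefl) (hN : ND B ⊤) {f : V →ₗ[F] V} (hiso : ∀ u v, B (f u) (f v) = B u v)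
    (hf : ∀ v, f (f v) = v) : ND B (LinearMap.ker (f - 1)) ∧ ND B (LinearMap.ker (f + 1)) ∧
      (∀ u ∈ LinearMap.ker (f - 1), ∀ v ∈ LinearMap.ker (f + 1), B u v = 0) ∧
      finrank F (LinearMap.ker (f - 1)) + finrank F (LinearMap.ker (f + 1)) = finrank F V := by
  have m1 : ∀ v, v ∈ LinearMap.ker (f - 1) ↔ f v = v := fun v => by
    rw [LinearMap.mem_ker]
    show f v - v = 0 ↔ _
    exact sub_eq_zero
  have m2 : ∀ v, v ∈ LinearMap.ker (f + 1) ↔ f v = -v := fun v => by
    rw [LinearMap.mem_ker]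
    show f v + v = 0 ↔ _
    exact add_eq_zero_iff_eq_neg
  have horth : ∀ u ∈ LinearMap.ker (f - 1), ∀ v ∈ LinearMap.ker (f + 1), B u v = 0 := by
    intro u hu v hv
    have h := hiso u v
    rw [(m1 u).1 hu, (m2 v).1 hv, _root_.map_neg] at h
    have h3 : 2 * B u v = 0 := by linear_combination -h
    exact (mul_eq_zero.1 h3).resolve_left h2
  have hdec : ∀ v, ∃ a ∈ LinearMap.ker (f - 1), ∃ b ∈ LinearMap.ker (f + 1), a + b = v := by
    intro v
    refine ⟨(2 : F)⁻¹ • (v + f v), Submodule.smul_mem _ _ ((m1 _).2 (by rw [_root_.map_add, hf, add_comm])),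
      (2 : F)⁻¹ • (v - f v), Submodule.smul_mem _ _ ((m2 _).2 (by rw [_root_.map_sub, hf, neg_sub])), ?_⟩
    rw [← smul_add]
    have : v + f v + (v - f v) = (2 : F) • v := by rw [two_smul]; abel
    rw [this, smul_smul, inv_mul_cancel₀ h2, one_smul]
  refine ⟨?_, ?_, horth, ?_⟩
  · intro x hx h
    apply hN x trivial
    intro y _
    obtain ⟨a, ha, b, hb, rfl⟩ := hdec y
    rw [_root_.map_add, h a ha, horth x hx b hb, add_zero]
  · intro x hx h
    apply hN x trivial
    intro y _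
    obtain ⟨a, ha, b, hb, rfl⟩ := hdec y
    rw [_root_.map_add, h b hb, hB _ _ (horth a ha x hx), add_zero]
  · have hinf : LinearMap.ker (f - 1) ⊓ LinearMap.ker (f + 1) = ⊥ := by
      rw [eq_bot_iff]
      rintro v ⟨h1, h3⟩
      have h4 := (m1 v).1 h1
      rw [(m2 v).1 h3] at h4
      have h5 : (2 : F) • v = 0 := by
        rw [two_smul]
        nth_rw 1 [← h4]
        exact neg_add_cancel v
      exact (Submodule.mem_bot F).2 ((smul_eq_zero.1 h5).resolve_left h2)
    have hsup : LinearMap.ker (f - 1) ⊔ LinearMap.ker (f + 1) = ⊤ := by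
      rw [eq_top_iff]
      intro v _
      obtain ⟨a, ha, b, hb, rfl⟩ := hdec v
      exact Submodule.add_mem_sup ha hb
    have h := Submodule.finrank_sup_add_finrank_inf_eq (LinearMap.ker (f - 1)) (LinearMap.ker (f + 1))
    rw [hinf, hsup, finrank_bot, add_zero, finrank_top] at h
    exact h.symm

/-- involutions always fix totally isotropic subspaces -/
theorem inv_ti (h2 : (2 : F) ≠ 0) (hA : ∀ v, B v v = 0) (hN : ND B ⊤) {f : V →ₗ[F] V} (hiso : ∀ u v, B (f u) (f v) = B u v)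
    (hf : ∀ v, f (f v) = v) {m : ℕ} (hm : 2 * m ≤ finrank F V) :
    ∃ W : Submodule F V, finrank F W = m ∧ (∀ u ∈ W, ∀ v ∈ W, B u v = 0) ∧ ∀ v ∈ W, f v ∈ W := by
  have hB := refl_alt hA
  obtain ⟨d1, d2, d3, d4⟩ := inv_dec h2 hB hN hiso hf
  obtain ⟨a, ha⟩ := even_of_alt hB _ _ rfl d1 (fun x _ => hA x)
  obtain ⟨b, hb⟩ := even_of_alt hB _ _ rfl d2 (fun x _ => hA x)
  obtain ⟨U, u1, u2, u3⟩ := ti_exists hA d1 (j := min m a) (by omega)
  obtain ⟨W, w1, w2, w3⟩ := ti_exists hA d2 (j := m - min m a) (by omega)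
  have hdis : U ⊓ W = ⊥ := by
    rw [eq_bot_iff]
    rintro v ⟨h1, h3⟩
    apply (Submodule.mem_bot F).2
    apply d1 v (u1 h1)
    intro y hy
    exact hB _ _ (d3 y hy v (w1 h3))
  refine ⟨U ⊔ W, ?_, Ti.ti_sup hB u2 w2 (fun u hu w hw => d3 u (u1 hu) w (w1 hw)), ?_⟩
  · have := Submodule.finrank_sup_add_finrank_inf_eq U W
    rw [hdis, finrank_bot, add_zero, u3, w3] at this
    rw [this]
    have := min_le_left m a
    omega
  · intro v hv
    obtain ⟨x, hx, y, hy, rfl⟩ := Submodule.mem_sup.1 hv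
    have e1 : f x = x := sub_eq_zero.1 (LinearMap.mem_ker.1 (u1 hx))
    have e2 : f y = -y := add_eq_zero_iff_eq_neg.1 (LinearMap.mem_ker.1 (w1 hy))
    rw [_root_.map_add, e1, e2]
    exact Submodule.add_mem_sup hx (W.neg_mem hy)

end two

end H99.SpTi
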