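import Mathlib
import Cfsg.Agent.Lib.H99.SpTi4

set_option autoImplicit false
set_option linter.unusedSimpArgs false
set_option linter.unusedSectionVars false
set_option linter.unusedVariables false

/-! Elements of prime order of symplectic groups on nondegenerate subspaces: order prime to the characteristic. -/

namespace H99.SpTi

open Module H99.Iso H99.Ti Matrix

universe u

variable {F : Type u} [Field F] [Fintype F] {r : ℕ}

/-- nondegenerate subspaces of dimension `m` -/
def NDs {V : Type u} [AddCommGroup V] [Module F V] (B : LinearMap.BilinForm F V) (m : ℕ) : Set (Submodule F V) :=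
  {W | finrank F W = m ∧ ND B W}

theorem nd_iff' {V : Type u} [AddCommGroup V] [Module F V] {B : LinearMap.BilinForm F V} {W : Submodule F V} :
    ND B W ↔ ∀ u ∈ W, u ≠ 0 → ∃ v ∈ W, B u v ≠ 0 := by
  constructor
  · intro h u hu hu0
    by_contra hcon
    push Not at hcon
    exact hu0 (h u hu hcon)
  · intro h u hu hv
    by_contra hne
    obtain ⟨v, hv1, hv2⟩ := h u hu hne
    exact hv2 (hv v hv1)

theorem NDs.map {V : Type u} [AddCommGroup V] [Module F V] {B : LinearMap.BilinForm F V} {m : ℕ} {W : Submodule F V} (hW : W ∈ NDs B m)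
    (g : V →ₗ[F] V) (hg : ∀ u v, B (g u) (g v) = B u v) (hinj : Function.Injective g) : W.map g ∈ NDs B m := by
  refine ⟨?_, ?_⟩
  · rw [← hW.1]
    exact (Submodule.equivMapOfInjective g hinj W).finrank_eq.symm
  · rintro _ ⟨w, hw, rfl⟩ h
    rw [hW.2 w hw (fun y hy => by
      rw [← hg]
      exact h _ ⟨y, hy, rfl⟩), _root_.map_zero]

theorem NDs.dvd {V : Type u} [AddCommGroup V] [Module F V] [FiniteDimensional F V] {B : LinearMap.BilinForm F V} (hA : ∀ v, B v v = 0)
    (hN : ND B ⊤) (m : ℕ) (hne : (NDs B m).Nonempty) : Nat.card (NDs B m) ∣ Nat.card (isoG B) := by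
  classical
  have : Finite V := Module.finite_of_finite F
  let G := isoG B
  let act : MulAction G (NDs B m) :=
    { smul := fun g W => ⟨W.1.map (g.1 : V →ₗ[F] V), NDs.map W.2 _ g.2 (LinearEquiv.injective g.1)⟩
      one_smul := fun W => Subtype.ext (by
        show W.1.map ((1 : G).1 : V →ₗ[F] V) = W.1
        exact Submodule.map_id W.1)
      mul_smul := fun g h W => Subtype.ext (by
        show W.1.map ((g * h).1 : V →ₗ[F] V) = (W.1.map (h.1 : V →ₗ[F] V)).map (g.1 : V →ₗ[F] V)
        rw [← Submodule.map_comp]; rfl) }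
  obtain ⟨W0, hW0⟩ := hne
  have htrans : MulAction.orbit G (⟨W0, hW0⟩ : NDs B m) = Set.univ := by
    rw [Set.eq_univ_iff_forall]
    rintro ⟨W, hW⟩
    obtain ⟨e, he⟩ := Iso.exists_isometry (refl_alt hA) hA hW0.2 hW.2 (by rw [hW0.1, hW.1])
    obtain ⟨g, hg, hgx⟩ := H16.Witt.witt_alt B (nondeg_of_nd hA hN) hA W0 W e he
    refine ⟨⟨g, hg⟩, Subtype.ext ?_⟩
    show W0.map (g : V →ₗ[F] V) = W
    apply Submodule.eq_of_le_of_finrank_eq
    · rintro _ ⟨x, hx, rfl⟩
      have := hgx ⟨x, hx⟩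
      show g x ∈ W
      rw [this]
      exact (e ⟨x, hx⟩).2
    · rw [LinearEquiv.finrank_map_eq g W0, hW0.1, hW.1]
  have h1 := Nat.card_congr (MulAction.orbitEquivQuotientStabilizer G (⟨W0, hW0⟩ : NDs B m))
  rw [htrans, Nat.card_univ] at h1
  rw [h1]
  exact Subgroup.card_quotient_dvd_card _

/-- invariant nondegenerate subspaces: dimensions -/
theorem nd_dims (hr : r.Prime) (hr2 : r ≠ 2) (hrq : ¬ r ∣ Fintype.card F) {V : Type u} [AddCommGroup V] [Module F V] [FiniteDimensional F V]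
    {B : LinearMap.BilinForm F V} (hA : ∀ v, B v v = 0) {f : V →ₗ[F] V} (hf : ∀ u v, B (f u) (f v) = B u v) (hfr : f ^ r = 1)
    {W : Submodule F V} (hWi : ∀ v ∈ W, f v ∈ W) (hW : ND B W) :
    ∃ j, finrank F (W ⊓ LinearMap.range (f - 1) : Submodule F V) = blk (oi F r) * j ∧
      blk (oi F r) * j + finrank F (W ⊓ LinearMap.ker (f - 1) : Submodule F V) = finrank F W := by
  obtain ⟨n1, n2, n3⟩ := Iso.nd_mov hr hrq (refl_alt hA) hfr hf hWi hW
  obtain ⟨j, hj⟩ := Iso.dvd_finrank hr hr2 hrq (refl_alt hA) hA hfr hf _ _ rfl (Iso.mov_inv hWi) (Iso.mov_fpf hr hrq hfr) n1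
  exact ⟨j, hj, by rw [← hj]; exact n3⟩

theorem nd_not_dvd (hr : r.Prime) (hr2 : r ≠ 2) (hrq : ¬ r ∣ Fintype.card F) {V : Type u} [AddCommGroup V] [Module F V] [FiniteDimensional F V]
    {B : LinearMap.BilinForm F V} (hA : ∀ v, B v v = 0) (hN : ND B ⊤) {m : ℕ} (hm : m < blk (oi F r)) (f : V →ₗ[F] V) (hf : ∀ u v, B (f u) (f v) = B u v)
    (hfr : f ^ r = 1) (hC : finrank F (LinearMap.ker (f - 1)) < blk (oi F r))
    (hdvd : r ∣ Nat.card (NDs B m)) : ¬ ∃ W ∈ NDs B m, ∀ v ∈ W, f v ∈ W := by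
  classical
  rintro ⟨W0, hW0, hfW0⟩
  have : Finite V := Module.finite_of_finite F
  have : Fact r.Prime := ⟨hr⟩
  obtain ⟨n1, n2, n3⟩ := Iso.nd_mov hr hrq (refl_alt hA) hfr hf (X := ⊤) (fun v _ => trivial) hN
  rw [top_inf_eq] at n2
  have hle : ∀ W ∈ NDs B m, (∀ v ∈ W, f v ∈ W) → W ≤ LinearMap.ker (f - 1) := by
    intro W hW hfW
    obtain ⟨j, j1, j2⟩ := nd_dims hr hr2 hrq hA hf hfr hfW hW.2
    rw [hW.1] at j2
    have hj : j = 0 := by
      by_contra hj
      have : blk (oi F r) ≤ blk (oi F r) * j := Nat.le_mul_of_pos_right _ (by omega)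
      omega
    rw [hj, mul_zero, zero_add] at j2
    have h1 : W ⊓ LinearMap.ker (f - 1) = W := Submodule.eq_of_le_of_finrank_eq inf_le_left (by rw [j2, hW.1])
    rw [← h1]; exact inf_le_right
  have hinj : Function.Injective f := by
    intro a b hab
    have h1 : (f ^ (r - 1)) (f a) = (f ^ (r - 1)) (f b) := by rw [hab]
    have h2 : ∀ v, (f ^ (r - 1)) (f v) = v := by
      intro v
      have : f ^ (r - 1) * f = 1 := by rw [← pow_succ, Nat.sub_add_cancel hr.pos, hfr]
      exact congrArg (fun φ : V →ₗ[F] V => φ v) this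
    rwa [h2, h2] at h1
  have hfin : Finite (Submodule F V) := Finite.of_injective (fun W : Submodule F V => (W : Set V)) SetLike.coe_injective
  have : Fintype (NDs B m) := Fintype.ofFinite _
  let φ : Function.End (NDs B m) := fun W => ⟨W.1.map f, NDs.map W.2 f hf hinj⟩
  have hφ : ∀ (k : ℕ) (W : NDs B m), (((φ ^ k) W : NDs B m) : Submodule F V) = W.1.map (f ^ k) := by
    intro k
    induction k with
    | zero => intro W; exact (Submodule.map_id W.1).symm
    | succ k ih =>
      intro W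
      rw [pow_succ', pow_succ']
      show (((φ ^ k) W : NDs B m) : Submodule F V).map f = W.1.map (f * f ^ k)
      rw [ih, ← Submodule.map_comp]; rfl
  have h1 := Equiv.Perm.card_fixedPoints_modEq (f := φ) (p := r) (n := 1) (by
    rw [pow_one]
    funext W
    apply Subtype.ext
    rw [hφ, hfr]
    exact Submodule.map_id W.1)
  have h2 : r ∣ Fintype.card (Function.fixedPoints φ) := by
    rw [← Nat.modEq_zero_iff_dvd]
    refine h1.symm.trans ?_
    rw [Nat.modEq_zero_iff_dvd, ← Nat.card_eq_fintype_card]; exact hdvd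
  have hfixv : ∀ v ∈ LinearMap.ker (f - 1), f v = v := fun v hv => sub_eq_zero.1 (LinearMap.mem_ker.1 hv)
  -- fixed points are the subspaces of the fixed space
  have hfixeq : ∀ W : NDs B m, φ W = W ↔ W.1 ≤ LinearMap.ker (f - 1) := by
    intro W
    constructor
    · intro h
      apply hle W.1 W.2
      intro v hv
      have h3 : W.1.map f = W.1 := congrArg Subtype.val h
      rw [← h3]; exact ⟨v, hv, rfl⟩
    · intro h
      apply Subtype.ext
      show W.1.map f = W.1
      ext v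
      constructor
      · rintro ⟨w, hw, rfl⟩
        rw [hfixv w (h hw)]; exact hw
      · intro hv
        exact ⟨v, hv, hfixv v (h hv)⟩
  let e : Function.fixedPoints φ ≃ NDs (B.restrict (LinearMap.ker (f - 1))) m :=
    { toFun := fun W => ⟨W.1.1.comap (LinearMap.ker (f - 1)).subtype, by
        have hWle := (hfixeq W.1).1 W.2
        refine ⟨by rw [(Submodule.comapSubtypeEquivOfLe hWle).finrank_eq]; exact W.1.2.1, fun w hw h => ?_⟩
        apply Subtype.ext
        apply W.1.2.2 w hw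
        intro y hy
        exact h ⟨y, hWle hy⟩ hy⟩
      invFun := fun W => ⟨⟨W.1.map (LinearMap.ker (f - 1)).subtype, by
        refine ⟨by rw [Submodule.finrank_map_subtype_eq]; exact W.2.1, ?_⟩
        rintro _ ⟨w, hw, rfl⟩ h
        have h3 := W.2.2 w hw (fun y hy => h _ ⟨y, hy, rfl⟩)
        rw [h3]; rfl⟩, (hfixeq _).2 (by
          rintro _ ⟨v, _, rfl⟩
          exact v.2)⟩
      left_inv := fun W => by
        apply Subtype.ext
        apply Subtype.ext
        have hWle := (hfixeq W.1).1 W.2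
        show (W.1.1.comap (LinearMap.ker (f - 1)).subtype).map (LinearMap.ker (f - 1)).subtype = W.1.1
        rw [Submodule.map_comap_subtype]
        exact inf_eq_right.2 hWle
      right_inv := fun W => by
        apply Subtype.ext
        show (W.1.map (LinearMap.ker (f - 1)).subtype).comap (LinearMap.ker (f - 1)).subtype = W.1
        exact Submodule.comap_map_eq_of_injective (LinearMap.ker (f - 1)).injective_subtype W.1 }
  rw [← Nat.card_eq_fintype_card, Nat.card_congr e] at h2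
  have hne : (NDs (B.restrict (LinearMap.ker (f - 1))) m).Nonempty := ⟨_, (e ⟨⟨W0, hW0⟩, (hfixeq _).2 (hle W0 hW0 hfW0)⟩).2⟩
  have hCnd : ND (B.restrict (LinearMap.ker (f - 1))) ⊤ := by
    rintro ⟨x, hx⟩ _ h
    apply Subtype.ext
    apply n2 x hx
    intro y hy
    exact h ⟨y, hy⟩ trivial
  exact no_r hr hr2 hrq (B := B.restrict (LinearMap.ker (f - 1))) (fun v => hA _) hCnd hC
    (h2.trans (NDs.dvd (B := B.restrict (LinearMap.ker (f - 1))) (fun v => hA _) hCnd m hne))

/-- **the criterion for odd primes different from the characteristic** -/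
theorem crit_nd (hr : r.Prime) (hr2 : r ≠ 2) (hrq : ¬ r ∣ Fintype.card F) {V : Type u} [AddCommGroup V] [Module F V] [FiniteDimensional F V]
    {B : LinearMap.BilinForm F V} (hA : ∀ v, B v v = 0) (hN : ND B ⊤) {n m : ℕ} (hn : finrank F V = n) (hm : Even m) (hmn : m ≤ n)
    (hdvd : r ∣ Nat.card (NDs B m)) {i c : ℕ} (hi : i = oi F r) (hc : c = if Even i then i else 2 * i) :
    (∀ f : V →ₗ[F] V, (∀ u v, B (f u) (f v) = B u v) → f ^ r = 1 → f ≠ 1 →
      ∃ W : Submodule F V, (finrank F W = m ∧ ND B W) ∧ ∀ v ∈ W, f v ∈ W) ↔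
      (c ≤ m ∧ m % c ≤ n % c) := by
  have hB := refl_alt hA
  have hi0 : 0 < i := by rw [hi]; exact oi_pos (F := F) hr hrq
  have hr' : Fact r.Prime := ⟨hr⟩
  have hcb : c = blk (oi F r) := by rw [hc, blk, ← hi]
  have hce : Even c := by
    rw [hc]
    split_ifs with h
    · exact h
    · exact even_two_mul _
  have hc0 : 0 < c := by
    rw [hc]
    split_ifs <;> omega
  have hdv : i ∣ c := by
    rw [hc]
    split_ifs
    · exact dvd_rfl
    · exact dvd_mul_left _ _
  obtain ⟨em, hem⟩ := hm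
  obtain ⟨ec, hec⟩ := hce
  have hne : (NDs B m).Nonempty := by
    obtain ⟨Y, -, y1, y2⟩ := Iso.exists_even hB hA em ⊤ (by rw [finrank_top, hn]; omega) hN
    exact ⟨Y, by omega, y1⟩
  constructor
  · intro H
    obtain ⟨f, f1, f2, f3⟩ := Iso.exists_max hr hr2 hrq hB hA hN (c := c) ⟨ec, hec⟩ hc0 (by
      rw [← Nat.modEq_iff_dvd' (Nat.one_le_pow _ _ Fintype.card_pos), ← ZMod.natCast_eq_natCast_iff]
      push_cast
      rw [hi] at hdv
      exact (orderOf_dvd_iff_pow_eq_one.1 hdv).symm) _ (1 : V →ₗ[F] V) (fun u v => rfl) (one_pow r) rfl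
    have hcm : c ≤ m := by
      by_contra hlt
      push Not at hlt
      rw [hcb] at hlt f3
      have hno := nd_not_dvd hr hr2 hrq hA hN hlt f f1 f2 f3 hdvd
      by_cases hf1 : f = 1
      · obtain ⟨W, hW⟩ := hne
        exact hno ⟨W, hW, fun v hv => by rw [hf1]; exact hv⟩
      · obtain ⟨W, W1, W2⟩ := H f f1 f2 hf1
        exact hno ⟨W, W1, W2⟩
    refine ⟨hcm, ?_⟩
    obtain ⟨s, s1, s2⟩ := nd_dims hr hr2 hrq hA f1 f2 (W := ⊤) (fun v _ => trivial) hN
    rw [top_inf_eq, finrank_top, hn, ← hcb] at s2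
    have hf1 : f ≠ 1 := by
      rintro rfl
      rw [sub_self, LinearMap.ker_zero, finrank_top, hn] at f3
      omega
    obtain ⟨W, W1, W2⟩ := H f f1 f2 hf1
    obtain ⟨j, j1, j2⟩ := nd_dims hr hr2 hrq hA f1 f2 W2 W1.2
    rw [W1.1, ← hcb] at j2
    have h1 := Submodule.finrank_mono (R := F) (inf_le_right : W ⊓ LinearMap.ker (f - 1) ≤ LinearMap.ker (f - 1))
    rw [← s2, ← j2, Nat.mul_add_mod, Nat.mul_add_mod, Nat.mod_eq_of_lt f3, Nat.mod_eq_of_lt (lt_of_le_of_lt h1 f3)]
    exact h1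
  · rintro ⟨-, hmod⟩ f f1 f2 hf1
    obtain ⟨s, s1, s2⟩ := nd_dims hr hr2 hrq hA f1 f2 (W := ⊤) (fun v _ => trivial) hN
    obtain ⟨n1, n2, n3⟩ := Iso.nd_mov hr hrq hB f2 f1 (X := ⊤) (fun v _ => trivial) hN
    rw [finrank_top, hn, ← hcb] at s2
    rw [← hcb] at s1
    have hme := Nat.div_add_mod m c
    have hne' := Nat.div_add_mod n c
    have hdimC : m - c * (min s (m / c)) ≤ finrank F (⊤ ⊓ LinearMap.ker (f - 1) : Submodule F V) := by
      rcases le_total s (m / c) with h | h
      · rw [min_eq_left h]; omega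
      · rw [min_eq_right h]
        have h3 : n % c ≤ finrank F (⊤ ⊓ LinearMap.ker (f - 1) : Submodule F V) := by
          rw [← s2, Nat.mul_add_mod]
          exact Nat.mod_le _ _
        omega
    have hjm : c * (min s (m / c)) ≤ m := by
      have h3 := Nat.mul_le_mul_left c (min_le_right s (m / c))
      omega
    obtain ⟨Y, y1, y2, y3, y4⟩ := Iso.exists_blocks hr hr2 hrq hB hA f2 f1 (min s (m / c)) (⊤ ⊓ LinearMap.range (f - 1)) (by
      rw [s1, mul_comm]
      have h4 : blk (oi F r) = c := hcb.symm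
      rw [h4]
      exact Nat.mul_le_mul_left _ (min_le_left _ _)) (Iso.mov_inv (fun v _ => trivial)) (Iso.mov_fpf hr hrq f2) n1
    have hy4 : finrank F Y = c * min s (m / c) := by rw [y4, mul_comm, hcb]
    have hev : c * min s (m / c) = 2 * (ec * min s (m / c)) := by rw [hec]; ring
    obtain ⟨Z, z1, z2, z3⟩ := Iso.exists_even hB hA (em - ec * min s (m / c)) (⊤ ⊓ LinearMap.ker (f - 1)) (by omega) n2
    have horth : ∀ y ∈ Y, ∀ z ∈ Z, B y z = 0 := fun y hy z hz => (RElt.orth f f1 y z (y1 hy).2 (z1 hz).2).1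
    obtain ⟨w1, w2⟩ := nd_sup hB y3 z2 horth
    refine ⟨Y ⊔ Z, ⟨by rw [w2, hy4, z3]; omega, w1⟩, ?_⟩
    intro v hv
    obtain ⟨a, ha, b, hb, rfl⟩ := Submodule.mem_sup.1 hv
    have hfb : f b = b := sub_eq_zero.1 (LinearMap.mem_ker.1 (z1 hb).2)
    rw [_root_.map_add, hfb]
    exact Submodule.add_mem_sup (y2 a ha) hb

section two

variable {V : Type u} [AddCommGroup V] [Module F V] [FiniteDimensional F V] {B : LinearMap.BilinForm F V}

/-- involutions always fix nondegenerate subspaces -/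
theorem inv_nd (h2 : (2 : F) ≠ 0) (hA : ∀ v, B v v = 0) (hN : ND B ⊤) {f : V →ₗ[F] V} (hiso : ∀ u v, B (f u) (f v) = B u v)
    (hf : ∀ v, f (f v) = v) {j : ℕ} (hm : 2 * j ≤ finrank F V) :
    ∃ W : Submodule F V, finrank F W = 2 * j ∧ ND B W ∧ ∀ v ∈ W, f v ∈ W := by
  have hB := refl_alt hA
  obtain ⟨d1, d2, d3, d4⟩ := inv_dec h2 hB hN hiso hf
  obtain ⟨a, ha⟩ := even_of_alt hB _ _ rfl d1 (fun x _ => hA x)
  obtain ⟨b, hb⟩ := even_of_alt hB _ _ rfl d2 (fun x _ => hA x)
  obtain ⟨U, u1, u2, u3⟩ := Iso.exists_even hB hA (min j a) _ (by omega) d1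
  obtain ⟨W, w1, w2, w3⟩ := Iso.exists_even hB hA (j - min j a) _ (by omega) d2
  obtain ⟨e1, e2⟩ := nd_sup hB u2 w2 (fun u hu w hw => d3 u (u1 hu) w (w1 hw))
  refine ⟨U ⊔ W, ?_, e1, ?_⟩
  · rw [e2, u3, w3]
    have := min_le_left j a
    omega
  · intro v hv
    obtain ⟨x, hx, y, hy, rfl⟩ := Submodule.mem_sup.1 hv
    have e1 : f x = x := sub_eq_zero.1 (LinearMap.mem_ker.1 (u1 hx))
    have e2 : f y = -y := add_eq_zero_iff_eq_neg.1 (LinearMap.mem_ker.1 (w1 hy))
    rw [_root_.map_add, e1, e2]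
    exact Submodule.add_mem_sup hx (W.neg_mem hy)

/-- a two-dimensional nondegenerate subspace -/
theorem nd_pair (hA : ∀ v, B v v = 0) {v w : V} (h : B v w ≠ 0) : ND B (Submodule.span F {v, w}) ∧ finrank F (Submodule.span F {v, w}) = 2 := by
  have hB := refl_alt hA
  have hs : ∀ u v, B u v = -B v u := fun u v => by rw [skew hA u v]; ring
  have hnd : ∀ a b : F, B v (a • v + b • w) = 0 → B w (a • v + b • w) = 0 → a = 0 ∧ b = 0 := by
    intro a b h1 h3
    simp only [_root_.map_add, _root_.map_smul, hA, smul_eq_mul, mul_zero, zero_add, add_zero] at h1 h3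
    rw [hs w v] at h3
    constructor
    · rcases mul_eq_zero.1 h3 with h4 | h4
      · exact h4
      · exact absurd (neg_eq_zero.1 h4) h
    · exact (mul_eq_zero.1 h1).resolve_right h
  have hv : v ∈ Submodule.span F {v, w} := Submodule.subset_span (by simp)
  have hw : w ∈ Submodule.span F {v, w} := Submodule.subset_span (by simp)
  constructor
  · intro x hx hx'
    obtain ⟨a, b, rfl⟩ := Submodule.mem_span_pair.1 hx
    obtain ⟨h1, h3⟩ := hnd a b (hB _ _ (hx' v hv)) (hB _ _ (hx' w hw))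
    rw [h1, h3, zero_smul, zero_smul, add_zero]
  · have hli : LinearIndependent F ![v, w] := by
      rw [LinearIndependent.pair_iff]
      intro s t hst
      exact hnd s t (by rw [hst, _root_.map_zero]) (by rw [hst, _root_.map_zero])
    have h5 := finrank_span_eq_card hli
    rw [Matrix.range_cons, Matrix.range_cons, Matrix.range_empty, Set.union_empty, Fintype.card_fin] at h5
    rw [show ({v, w} : Set V) = {v} ∪ {w} from rfl]
    exact h5

/-- elements with square `-1` fix nondegenerate subspaces -/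
theorem J_nd (h2 : (2 : F) ≠ 0) (hA : ∀ v, B v v = 0) (hN : ND B ⊤) {f : V →ₗ[F] V} (hiso : ∀ u v, B (f u) (f v) = B u v)
    (hf : ∀ v, f (f v) = -v) (j : ℕ) (hj : 2 * j ≤ finrank F V) :
    ∃ W : Submodule F V, finrank F W = 2 * j ∧ ND B W ∧ ∀ v ∈ W, f v ∈ W := by
  have hB := refl_alt hA
  have hf4 : f ^ 4 = 1 := by
    apply LinearMap.ext
    intro v
    show f (f (f (f v))) = v
    rw [hf, hf, neg_neg]
  induction j with
  | zero => exact ⟨⊥, by rw [finrank_bot], Iso.nd_bot, Ti.inv_bot f⟩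
  | succ j ih =>
    obtain ⟨W, w1, w2, w3⟩ := ih (by omega)
    obtain ⟨h1, h3, h4, h5⟩ := Iso.split hB hN w2 le_top
    have hXi := Iso.inf_orth_inv hf4 (by norm_num) hiso (X := ⊤) (fun v _ => trivial) w3
    rw [finrank_top] at h3
    obtain ⟨v, hv, hv2⟩ : ∃ v ∈ (⊤ ⊓ B.orthogonal W : Submodule F V), B v (f v) ≠ 0 := by
      by_contra hcon
      push Not at hcon
      have hz : ∀ x ∈ (⊤ ⊓ B.orthogonal W : Submodule F V), x = 0 := by
        intro x hx
        apply h1 x hx
        intro y hy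
        -- y = f (-f y)
        have h6 : ∀ u ∈ (⊤ ⊓ B.orthogonal W : Submodule F V), ∀ v ∈ (⊤ ⊓ B.orthogonal W : Submodule F V), B u (f v) = 0 := by
          intro u hu v hv
          have e1 := hcon (u + v) (Submodule.add_mem _ hu hv)
          rw [_root_.map_add, _root_.map_add, _root_.map_add, LinearMap.add_apply, LinearMap.add_apply, hcon u hu, hcon v hv, zero_add, add_zero] at e1
          have e2 : B v (f u) = B u (f v) := by
            rw [← hiso v (f u), hf, _root_.map_neg, skew hA (f v) u]; ring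
          rw [e2] at e1
          have e3 : 2 * B u (f v) = 0 := by linear_combination e1
          exact (mul_eq_zero.1 e3).resolve_left h2
        have h7 := h6 x hx (f y) (hXi y hy)
        rw [hf, _root_.map_neg, neg_eq_zero] at h7
        exact h7
      have hbot : (⊤ ⊓ B.orthogonal W : Submodule F V) = ⊥ := by
        rw [eq_bot_iff]
        intro x hx
        exact (Submodule.mem_bot F).2 (hz x hx)
      rw [hbot, finrank_bot] at h3
      omega
    obtain ⟨p1, p2⟩ := nd_pair hA hv2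
    have hP : Submodule.span F {v, f v} ≤ B.orthogonal W := by
      rw [Submodule.span_le]
      rintro x (rfl | rfl)
      · exact hv.2
      · exact (hXi v hv).2
    obtain ⟨e1, e2⟩ := nd_sup hB w2 p1 (fun w hw y hy => hP hy w hw)
    refine ⟨W ⊔ Submodule.span F {v, f v}, by rw [e2, w1, p2]; ring, e1, ?_⟩
    intro x hx
    obtain ⟨a, ha, b, hb, rfl⟩ := Submodule.mem_sup.1 hx
    rw [_root_.map_add]
    exact Submodule.add_mem_sup (w3 a ha) (OrthTi.J_line_inv hf v b hb)

end two

end H99.SpTi
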