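import Mathlib
import Cfsg.Agent.Lib.H99.SpNd

set_option autoImplicit false
set_option linter.unusedSimpArgs false
set_option linter.unusedSectionVars false
set_option linter.unusedVariables false

/-! Involutions of symplectic groups in characteristic two: invariant nondegenerate subspaces. -/

namespace H99.SpTi

open Module H99.Iso H99.Ti Matrix

universe u

variable {F : Type u} [Field F] [Fintype F] {V : Type u} [AddCommGroup V] [Module F V] [FiniteDimensional F V] {B : LinearMap.BilinForm F V}

/-- a four-dimensional nondegenerate subspace -/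
theorem nd_quad (h2 : (2 : F) = 0) (hA : ∀ v, B v v = 0) {f : V →ₗ[F] V} (hiso : ∀ u v, B (f u) (f v) = B u v) (hf : ∀ v, f (f v) = v)
    (hz : ∀ v, B v (f v) = 0) {u v : V} (h : B u (v + f v) ≠ 0) :
    ND B (Submodule.span F {v, f v} ⊔ Submodule.span F {u, f u}) ∧ finrank F (Submodule.span F {v, f v} ⊔ Submodule.span F {u, f u} : Submodule F V) = 4 := by
  have hneg : ∀ a : F, -a = a := fun a => by
    have h3 : (2 : F) * a = 0 := by rw [h2, zero_mul]
    linear_combination -h3
  have hs : ∀ u v, B u v = B v u := fun u v => by rw [skew hA u v, neg_one_mul, hneg]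
  have hβ : B (f u) v = B u (f v) := by rw [← hiso (f u) v, hf]
  have hα : B (f u) (f v) = B u v := hiso u v
  have hz' : ∀ v, B (f v) v = 0 := fun v => by rw [hs]; exact hz v
  have hf0 : ∀ v, B (f v) (f v) = 0 := fun v => hA _
  have hvu : B v u = B u v := hs _ _
  have hvfu : B v (f u) = B u (f v) := by rw [hs, hβ]
  have hfvu : B (f v) u = B u (f v) := hs _ _
  have hfvfu : B (f v) (f u) = B u v := by rw [hs, hα]
  rw [_root_.map_add] at h
  have hsq : B u v * B u v - B u (f v) * B u (f v) ≠ 0 := by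
    intro h0
    apply h
    have h3 : (B u v + B u (f v)) * (B u v + B u (f v)) = 0 := by
      have e1 : (2 : F) * (B u (f v) * (B u v + B u (f v))) = 0 := by rw [h2, zero_mul]
      linear_combination h0 + e1
    exact mul_self_eq_zero.1 h3
  have key : ∀ a b c e : F, B u ((a • v + b • f v) + (c • u + e • f u)) = 0 → B (f u) ((a • v + b • f v) + (c • u + e • f u)) = 0 →
      B v ((a • v + b • f v) + (c • u + e • f u)) = 0 → B (f v) ((a • v + b • f v) + (c • u + e • f u)) = 0 → a = 0 ∧ b = 0 ∧ c = 0 ∧ e = 0 := by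
    intro a b c e h3 h4 h5 h6
    simp only [_root_.map_add, _root_.map_smul, hA, hz, hz', hβ, hα, hvu, hvfu, hfvu, hfvfu, smul_eq_mul, mul_zero, zero_add, add_zero] at h3 h4 h5 h6
    refine ⟨?_, ?_, ?_, ?_⟩
    · have : a * (B u v * B u v - B u (f v) * B u (f v)) = 0 := by linear_combination B u v * h3 - B u (f v) * h4
      exact (mul_eq_zero.1 this).resolve_right hsq
    · have : b * (B u v * B u v - B u (f v) * B u (f v)) = 0 := by linear_combination B u v * h4 - B u (f v) * h3
      exact (mul_eq_zero.1 this).resolve_right hsq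
    · have : c * (B u v * B u v - B u (f v) * B u (f v)) = 0 := by linear_combination B u v * h5 - B u (f v) * h6
      exact (mul_eq_zero.1 this).resolve_right hsq
    · have : e * (B u v * B u v - B u (f v) * B u (f v)) = 0 := by linear_combination B u v * h6 - B u (f v) * h5
      exact (mul_eq_zero.1 this).resolve_right hsq
  have m1 : v ∈ Submodule.span F {v, f v} ⊔ Submodule.span F {u, f u} := Submodule.mem_sup_left (Submodule.subset_span (by simp))
  have m2 : f v ∈ Submodule.span F {v, f v} ⊔ Submodule.span F {u, f u} := Submodule.mem_sup_left (Submodule.subset_span (by simp))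
  have m3 : u ∈ Submodule.span F {v, f v} ⊔ Submodule.span F {u, f u} := Submodule.mem_sup_right (Submodule.subset_span (by simp))
  have m4 : f u ∈ Submodule.span F {v, f v} ⊔ Submodule.span F {u, f u} := Submodule.mem_sup_right (Submodule.subset_span (by simp))
  constructor
  · intro x hx hx'
    obtain ⟨p, hp, q, hq, rfl⟩ := Submodule.mem_sup.1 hx
    obtain ⟨a, b, rfl⟩ := Submodule.mem_span_pair.1 hp
    obtain ⟨c, e, rfl⟩ := Submodule.mem_span_pair.1 hq
    obtain ⟨r1, r2, r3, r4⟩ := key a b c e ((hs _ _).trans (hx' _ m3)) ((hs _ _).trans (hx' _ m4)) ((hs _ _).trans (hx' _ m1)) ((hs _ _).trans (hx' _ m2))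
    rw [r1, r2, r3, r4]; simp
  · have hli : LinearIndependent F ![v, f v, u, f u] := by
      rw [Fintype.linearIndependent_iff]
      intro g hg
      rw [Fin.sum_univ_four] at hg
      have hg' : (g 0 • v + g 1 • f v) + (g 2 • u + g 3 • f u) = 0 := by
        rw [← add_assoc]; exact hg
      obtain ⟨r1, r2, r3, r4⟩ := key (g 0) (g 1) (g 2) (g 3) (by rw [hg', _root_.map_zero]) (by rw [hg', _root_.map_zero])
        (by rw [hg', _root_.map_zero]) (by rw [hg', _root_.map_zero])
      intro i
      fin_cases i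
      · exact r1
      · exact r2
      · exact r3
      · exact r4
    have h5 := finrank_span_eq_card hli
    rw [Fintype.card_fin] at h5
    have h6 : Submodule.span F (Set.range ![v, f v, u, f u]) = Submodule.span F {v, f v} ⊔ Submodule.span F {u, f u} := by
      rw [← Submodule.span_union]
      congr 1
      ext x
      simp only [Set.mem_range, Set.mem_union, Set.mem_insert_iff, Set.mem_singleton_iff]
      constructor
      · rintro ⟨i, rfl⟩
        fin_cases i <;> simp
      · rintro ((rfl | rfl) | (rfl | rfl))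
        · exact ⟨0, rfl⟩
        · exact ⟨1, rfl⟩
        · exact ⟨2, rfl⟩
        · exact ⟨3, rfl⟩
    rw [← h6]; exact h5

theorem line_inv {f : V →ₗ[F] V} (hf : ∀ v, f (f v) = v) (v : V) : ∀ x ∈ Submodule.span F {v, f v}, f x ∈ Submodule.span F {v, f v} := by
  intro x hx
  obtain ⟨a, b, rfl⟩ := Submodule.mem_span_pair.1 hx
  rw [_root_.map_add, _root_.map_smul, _root_.map_smul, hf]
  exact Submodule.add_mem _ (Submodule.smul_mem _ _ (Submodule.subset_span (by simp)))
    (Submodule.smul_mem _ _ (Submodule.subset_span (by simp)))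

/-- **existence** -/
theorem c2_suf (h2 : (2 : F) = 0) (hA : ∀ v, B v v = 0) {f : V →ₗ[F] V} (hiso : ∀ u v, B (f u) (f v) = B u v) (hf : ∀ v, f (f v) = v) :
    ∀ D : ℕ, ∀ X : Submodule F V, finrank F X = 2 * D → (∀ v ∈ X, f v ∈ X) → ND B X → ∀ M ≤ D, (Odd D ∨ Even M) →
      ∃ W ≤ X, (∀ v ∈ W, f v ∈ W) ∧ ND B W ∧ finrank F W = 2 * M := by
  have hB := refl_alt hA
  have hf2 : f ^ 2 = 1 := by
    apply LinearMap.ext
    intro v
    show f (f v) = v
    exact hf v
  have glue : ∀ (X P W : Submodule F V), P ≤ X → (∀ v ∈ P, f v ∈ P) → ND B P → W ≤ X ⊓ B.orthogonal P → (∀ v ∈ W, f v ∈ W) → ND B W →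
      ∃ W' ≤ X, (∀ v ∈ W', f v ∈ W') ∧ ND B W' ∧ finrank F W' = finrank F P + finrank F W := by
    intro X P W hPX hPi hPn hW hWi hWn
    obtain ⟨e1, e2⟩ := nd_sup hB hPn hWn (fun y hy z hz => (hW hz).2 y hy)
    refine ⟨P ⊔ W, sup_le hPX (hW.trans inf_le_left), ?_, e1, e2⟩
    intro x hx
    obtain ⟨a, ha, b, hb, rfl⟩ := Submodule.mem_sup.1 hx
    rw [_root_.map_add]
    exact Submodule.add_mem_sup (hPi a ha) (hWi b hb)
  intro D
  induction D using Nat.strong_induction_on with
  | _ D ih =>
    intro X hXd hXi hXn M hM hpar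
    rcases Nat.eq_zero_or_pos M with rfl | hM0
    · exact ⟨⊥, bot_le, Ti.inv_bot f, Iso.nd_bot, by rw [finrank_bot]⟩
    rcases hM.eq_or_lt with hMD | hMD
    · exact ⟨X, le_rfl, hXi, hXn, by rw [hXd, hMD]⟩
    by_cases hP : ∃ P ≤ X, (∀ v ∈ P, f v ∈ P) ∧ ND B P ∧ finrank F P = 2
    · obtain ⟨P, p1, p2, p3, p4⟩ := hP
      obtain ⟨s1, s2, -, -⟩ := Iso.split hB hXn p3 p1
      have hi := Iso.inf_orth_inv hf2 (by norm_num) hiso hXi p2
      rcases Nat.even_or_odd M with hMe | hMo
      · obtain ⟨W, w1, w2, w3, w4⟩ := ih (D - 1) (by omega) _ (by omega) hi s1 M (by omega) (Or.inr hMe)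
        exact ⟨W, w1.trans inf_le_left, w2, w3, w4⟩
      · obtain ⟨k, hk⟩ := hMo
        obtain ⟨W, w1, w2, w3, w4⟩ := ih (D - 1) (by omega) _ (by omega) hi s1 (M - 1) (by omega) (Or.inr ⟨k, by omega⟩)
        obtain ⟨W', v1, v2, v3, v4⟩ := glue X P W p1 p2 p3 w1 w2 w3
        exact ⟨W', v1, v2, v3, by rw [v4, p4, w4]; omega⟩
    · -- every vector is orthogonal to its image
      have hz : ∀ v ∈ X, B v (f v) = 0 := by
        intro v hv
        by_contra hne
        obtain ⟨p1, p2⟩ := nd_pair hA hne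
        exact hP ⟨_, by
          rw [Submodule.span_le]
          rintro x (rfl | rfl)
          · exact hv
          · exact hXi v hv, line_inv hf v, p1, p2⟩
      obtain ⟨v, hv, hvf⟩ : ∃ v ∈ X, v + f v ≠ 0 := by
        by_contra hcon
        push Not at hcon
        have hfix : ∀ v ∈ X, f v = v := by
          intro v hv
          have h3 := hcon v hv
          have h4 : f v = -v := (neg_eq_of_add_eq_zero_right h3).symm
          rw [h4, ← neg_one_smul F v]
          have : (-1 : F) = 1 := by linear_combination -h2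
          rw [this, one_smul]
        obtain ⟨Y, y1, y2, y3⟩ := Iso.exists_even hB hA 1 X (by omega) hXn
        exact hP ⟨Y, y1, fun v hv => by rw [hfix v (y1 hv)]; exact hv, y2, y3⟩
      obtain ⟨u, hu, huv⟩ : ∃ u ∈ X, B u (v + f v) ≠ 0 := by
        by_contra hcon
        push Not at hcon
        exact hvf (hXn _ (X.add_mem hv (hXi v hv)) (fun y hy => hB _ _ (hcon y hy)))
      -- restrict to X
      let P : Submodule F V := Submodule.span F {v, f v} ⊔ Submodule.span F {u, f u}
      have hPX : P ≤ X := by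
        apply sup_le <;> rw [Submodule.span_le]
        · rintro x (rfl | rfl)
          · exact hv
          · exact hXi v hv
        · rintro x (rfl | rfl)
          · exact hu
          · exact hXi u hu
      have hPi : ∀ v ∈ P, f v ∈ P := by
        intro x hx
        obtain ⟨a, ha, b, hb, rfl⟩ := Submodule.mem_sup.1 hx
        rw [_root_.map_add]
        exact Submodule.add_mem_sup (line_inv hf v a ha) (line_inv hf u b hb)
      have hPn : ND B P ∧ finrank F P = 4 := by
        let v' : X := ⟨v, hv⟩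
        let u' : X := ⟨u, hu⟩
        have h5 := nd_quad (B := B.restrict X) h2 (fun v => hA _) (f := f.restrict hXi) (fun u v => hiso _ _) (fun v => Subtype.ext (hf _))
          (fun v => hz _ v.2) (u := u') (v := v') huv
        have hmap : (Submodule.span F {v', (f.restrict hXi) v'} ⊔ Submodule.span F {u', (f.restrict hXi) u'}).map X.subtype = P := by
          rw [Submodule.map_sup, Submodule.map_span, Submodule.map_span, Set.image_pair, Set.image_pair]; rfl
        constructor
        · rw [← hmap]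
          rintro _ ⟨w, hw, rfl⟩ h
          have h3 := h5.1 w hw (fun y hy => h _ ⟨y, hy, rfl⟩)
          rw [h3]; rfl
        · rw [← hmap, Submodule.finrank_map_subtype_eq]
          exact h5.2
      obtain ⟨s1, s2, -, -⟩ := Iso.split hB hXn hPn.1 hPX
      have hi := Iso.inf_orth_inv hf2 (by norm_num) hiso hXi hPi
      rw [hPn.2] at s2
      rcases Nat.even_or_odd M with hMe | hMo
      · obtain ⟨k, hk⟩ := hMe
        obtain ⟨W, w1, w2, w3, w4⟩ := ih (D - 2) (by omega) _ (by omega) hi s1 (M - 2) (by omega) (Or.inr ⟨k - 1, by omega⟩)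
        obtain ⟨W', v1, v2, v3, v4⟩ := glue X P W hPX hPi hPn.1 w1 w2 w3
        exact ⟨W', v1, v2, v3, by rw [v4, hPn.2, w4]; omega⟩
      · have hDo : Odd D := hpar.resolve_right (Nat.not_even_iff_odd.2 hMo)
        obtain ⟨k, hk⟩ := hMo
        obtain ⟨l, hl⟩ := hDo
        obtain ⟨W, w1, w2, w3, w4⟩ := ih (D - 2) (by omega) _ (by omega) hi s1 M (by omega) (Or.inl ⟨l - 1, by omega⟩)
        exact ⟨W, w1.trans inf_le_left, w2, w3, w4⟩

/-- **restriction**: involutions of type `a` with fixed space of half dimension -/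
theorem c2_nec (h2 : (2 : F) = 0) (hA : ∀ v, B v v = 0) (hN : ND B ⊤) {f : V →ₗ[F] V} (hiso : ∀ u v, B (f u) (f v) = B u v) (hf : ∀ v, f (f v) = v)
    (hz : ∀ v, B v (f v) = 0) {D : ℕ} (hD : finrank F V = 2 * D) (hk : finrank F (LinearMap.ker (f - 1)) = D) {W : Submodule F V}
    (hW : ND B W) (hWi : ∀ v ∈ W, f v ∈ W) {M : ℕ} (hM : finrank F W = 2 * M) : Even M := by
  have hB := refl_alt hA
  have hf2 : f ^ 2 = 1 := by
    apply LinearMap.ext
    intro v
    show f (f v) = v
    exact hf v
  have hneg : ∀ a : F, -a = a := fun a => by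
    have h3 : (2 : F) * a = 0 := by rw [h2, zero_mul]
    linear_combination -h3
  have hnegv : ∀ v : V, -v = v := fun v => by
    rw [← neg_one_smul F v]
    have : (-1 : F) = 1 := hneg 1
    rw [this, one_smul]
  have hs : ∀ u v, B u v = B v u := fun u v => by rw [skew hA u v, neg_one_mul, hneg]
  set N := f - 1 with hNdef
  have hNv : ∀ v, N v = v + f v := fun v => by
    show f v - v = _
    rw [sub_eq_add_neg, hnegv, add_comm]
  have hNN : ∀ v, N (N v) = 0 := fun v => by
    rw [hNv, hNv, _root_.map_add, hf]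
    have : v + f v + (f v + v) = (v + f v) + (v + f v) := by abel
    rw [this]
    nth_rw 2 [← hnegv (v + f v)]
    exact add_neg_cancel _
  have hmov : ∀ U : Submodule F V, (∀ v ∈ U, f v ∈ U) → ∀ v ∈ U, N v ∈ U := fun U hU v hv => by
    rw [hNv]; exact U.add_mem hv (hU v hv)
  -- bound
  have hbd : ∀ U : Submodule F V, (∀ v ∈ U, f v ∈ U) → finrank F U ≤ 2 * finrank F (U ⊓ LinearMap.ker N : Submodule F V) := by
    intro U hU
    have h3 := LinearMap.finrank_range_add_finrank_ker (N.domRestrict U)
    have h4 : finrank F (LinearMap.ker (N.domRestrict U)) = finrank F (U ⊓ LinearMap.ker N : Submodule F V) := by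
      rw [LinearMap.ker_domRestrict, ← Submodule.finrank_map_subtype_eq U, Submodule.map_comap_subtype]
    have h5 : LinearMap.range (N.domRestrict U) ≤ U ⊓ LinearMap.ker N := by
      rintro _ ⟨u, rfl⟩
      exact ⟨hmov U hU u u.2, LinearMap.mem_ker.2 (hNN u)⟩
    have h6 := Submodule.finrank_mono h5
    omega
  obtain ⟨s1, s2, s3, s4⟩ := Iso.split hB hN hW le_top
  have hWoi := Iso.inf_orth_inv hf2 (by norm_num) hiso (X := ⊤) (fun v _ => trivial) hWi
  rw [finrank_top] at s2
  have b1 := hbd W hWi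
  have b2 := hbd _ hWoi
  -- the kernel splits
  have hker : finrank F (W ⊓ LinearMap.ker N : Submodule F V) + finrank F ((⊤ ⊓ B.orthogonal W) ⊓ LinearMap.ker N : Submodule F V) ≤
      finrank F (LinearMap.ker N) := by
    have h3 := Submodule.finrank_sup_add_finrank_inf_eq (W ⊓ LinearMap.ker N) ((⊤ ⊓ B.orthogonal W) ⊓ LinearMap.ker N)
    have h4 : (W ⊓ LinearMap.ker N) ⊓ ((⊤ ⊓ B.orthogonal W) ⊓ LinearMap.ker N) = ⊥ := by
      rw [eq_bot_iff, ← s4.eq_bot]
      exact inf_le_inf inf_le_left inf_le_left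
    rw [h4, finrank_bot, add_zero] at h3
    rw [← h3]
    exact Submodule.finrank_mono (sup_le inf_le_right inf_le_right)
  have hWk : finrank F (W ⊓ LinearMap.ker N : Submodule F V) = M := by omega
  -- the form
  let β : LinearMap.BilinForm F V := B.compl₂ N
  have hβ : ∀ u v, β u v = B u (N v) := fun u v => rfl
  have hβA : ∀ v, β v v = 0 := fun v => by rw [hβ, hNv, _root_.map_add, hA, hz, add_zero]
  obtain ⟨C, hC⟩ := Submodule.exists_isCompl ((LinearMap.ker N).comap W.subtype)
  have hCd := Submodule.finrank_add_eq_of_isCompl hC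
  have hkd : finrank F ((LinearMap.ker N).comap W.subtype) = M := by
    rw [← hWk, ← Submodule.finrank_map_subtype_eq W, Submodule.map_comap_subtype]
  have hβR : (β.restrict W).IsRefl := refl_alt (fun v => hβA _)
  have hrad : ∀ a : W, a ∈ (LinearMap.ker N).comap W.subtype → ∀ u : W, β.restrict W u a = 0 := by
    intro a ha u
    show B (u : V) (N (a : V)) = 0
    rw [show N (a : V) = 0 from ha, _root_.map_zero]
  have hnd : ND (β.restrict W) C := by
    intro c hc h
    have h3 : N (c : V) = 0 := by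
      apply hW _ (hmov W hWi c c.2)
      intro y hy
      have h4 : (⟨y, hy⟩ : W) ∈ (LinearMap.ker N).comap W.subtype ⊔ C := by rw [hC.sup_eq_top]; trivial
      obtain ⟨a, ha, b, hb, hab⟩ := Submodule.mem_sup.1 h4
      have h5 : β.restrict W c ⟨y, hy⟩ = 0 := by
        rw [← hab, _root_.map_add, h b hb, add_zero]
        exact hrad a ha c
      have h6 : β.restrict W ⟨y, hy⟩ c = 0 := hβR _ _ h5
      rw [hs]
      exact h6
    exact (Submodule.disjoint_def.1 hC.disjoint) c h3 hc
  obtain ⟨k, hk'⟩ := even_of_alt hβR _ C rfl hnd (fun x _ => hβA _)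
  exact ⟨k, by omega⟩

/-- **the special involutions** -/
theorem exists_a (h2 : (2 : F) = 0) (hA : ∀ v, B v v = 0) (hN : ND B ⊤) {D : ℕ} (hD : finrank F V = 2 * D) (hDe : Even D) (hD0 : 0 < D) :
    ∃ f : V →ₗ[F] V, (∀ u v, B (f u) (f v) = B u v) ∧ (∀ v, f (f v) = v) ∧ (∀ v, B v (f v) = 0) ∧ finrank F (LinearMap.ker (f - 1)) = D ∧ f ≠ 1 := by
  have hneg : ∀ a : F, -a = a := fun a => by
    have h3 : (2 : F) * a = 0 := by rw [h2, zero_mul]
    linear_combination -h3
  have haa : ∀ a : F, a + a = 0 := fun a => by rw [← two_mul, h2, zero_mul]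
  obtain ⟨c, hc⟩ := hDe
  obtain ⟨A, hAd⟩ := exists_sm (F := F) c
  have hAs : ∀ u v, A.B u v = A.B v u := fun u v => by rw [skew A.alt u v, neg_one_mul, hneg]
  have hvv : ∀ v : A.V, v + v = 0 := fun v => by rw [← two_smul F v, h2, zero_smul]
  let B' : LinearMap.BilinForm F (A.V × A.V) := LinearMap.mk₂ F (fun x y => A.B x.1 y.2 + A.B x.2 y.1)
    (fun x x' y => by simp only [Prod.fst_add, Prod.snd_add, LinearMap.add_apply, _root_.map_add]; ring)
    (fun c x y => by simp only [Prod.smul_fst, Prod.smul_snd, LinearMap.smul_apply, _root_.map_smul, smul_eq_mul]; ring)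
    (fun x y y' => by simp only [Prod.fst_add, Prod.snd_add, LinearMap.add_apply, _root_.map_add]; ring)
    (fun c x y => by simp only [Prod.smul_fst, Prod.smul_snd, LinearMap.smul_apply, _root_.map_smul, smul_eq_mul]; ring)
  have hB' : ∀ x y, B' x y = A.B x.1 y.2 + A.B x.2 y.1 := fun x y => rfl
  have hA' : ∀ x, B' x x = 0 := fun x => by rw [hB', hAs x.2 x.1]; exact haa _
  have hN' : ND B' ⊤ := by
    intro x _ h
    refine Prod.ext ?_ ?_
    · apply A.nd _ trivial
      intro y _
      have h3 := h (0, y) trivial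
      rw [hB'] at h3
      simpa using h3
    · apply A.nd _ trivial
      intro y _
      have h3 := h (y, 0) trivial
      rw [hB'] at h3
      simpa using h3
  obtain ⟨e, he⟩ := exists_isometry' (B := B') (B' := B) hA' hA hN' hN (by rw [finrank_prod, hAd, hD]; omega)
  let g : (A.V × A.V) →ₗ[F] (A.V × A.V) := (LinearMap.fst F A.V A.V + LinearMap.snd F A.V A.V).prod (LinearMap.snd F A.V A.V)
  have hg : ∀ x, g x = (x.1 + x.2, x.2) := fun x => rfl
  have g1 : ∀ u v, B' (g u) (g v) = B' u v := by
    intro u v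
    rw [hB', hB', hg, hg]
    show A.B (u.1 + u.2) v.2 + A.B u.2 (v.1 + v.2) = _
    rw [_root_.map_add, LinearMap.add_apply, _root_.map_add]
    linear_combination haa (A.B u.2 v.2)
  have g2 : ∀ v, g (g v) = v := by
    intro v
    rw [hg, hg]
    show (v.1 + v.2 + v.2, v.2) = v
    rw [add_assoc, hvv, add_zero]
  have g3 : ∀ v, B' v (g v) = 0 := by
    intro v
    rw [hB', hg]
    show A.B v.1 v.2 + A.B v.2 (v.1 + v.2) = 0
    rw [_root_.map_add, A.alt, add_zero, hAs v.2 v.1]
    exact haa _
  have h1 : ∀ v, e (e.symm v) = v := fun v => e.apply_symm_apply v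
  have h3 : ∀ v, e.symm (e v) = v := fun v => e.symm_apply_apply v
  let f : V →ₗ[F] V := e.toLinearMap ∘ₗ g ∘ₗ e.symm.toLinearMap
  have hf : ∀ v, f v = e (g (e.symm v)) := fun v => rfl
  have hker : LinearMap.ker (f - 1) = ((⊤ : Submodule F A.V).map (LinearMap.inl F A.V A.V)).map e.toLinearMap := by
    ext v
    rw [LinearMap.mem_ker]
    constructor
    · intro hv
      have hv' : f v = v := sub_eq_zero.1 hv
      have h4 : g (e.symm v) = e.symm v := by
        rw [hf] at hv'
        rw [← h3 (g (e.symm v)), hv']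
      have h5 : (e.symm v).2 = 0 := by
        have h6 : (e.symm v).1 + (e.symm v).2 = (e.symm v).1 := congrArg Prod.fst h4
        exact add_eq_left.1 h6
      exact ⟨e.symm v, ⟨(e.symm v).1, trivial, Prod.ext rfl h5.symm⟩, h1 v⟩
    · rintro ⟨_, ⟨a, -, rfl⟩, rfl⟩
      show f (e (LinearMap.inl F A.V A.V a)) - e (LinearMap.inl F A.V A.V a) = 0
      rw [hf, h3, hg, sub_eq_zero]
      congr 1
      exact Prod.ext (add_zero a) rfl
  have hkd : finrank F (LinearMap.ker (f - 1)) = D := by
    rw [hker, LinearEquiv.finrank_map_eq e, ← (Submodule.equivMapOfInjective _ LinearMap.inl_injective _).finrank_eq, finrank_top, hAd]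
    omega
  refine ⟨f, fun u v => by rw [hf, hf, he, g1, ← he, h1, h1], fun v => by rw [hf, hf, h3, g2, h1], fun v => ?_, hkd, ?_⟩
  · rw [hf]
    nth_rw 1 [← h1 v]
    rw [he]; exact g3 _
  · intro h
    rw [h, sub_self, LinearMap.ker_zero, finrank_top, hD] at hkd
    omega

end H99.SpTi
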