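import Mathlib
import Cfsg.Agent.Lib.H99.SpNd2
import Cfsg.Agent.Lib.H99.OrthUni

set_option autoImplicit false
set_option linter.unusedSimpArgs false
set_option linter.unusedSectionVars false
set_option linter.unusedVariables false

/-! Unipotent isometries of alternating forms: orthogonal decomposition into blocks. -/

namespace H99.SpTi

open Module H99.Iso H99.Ti Matrix

universe u

variable {F : Type u} [Field F] [Fintype F] {V : Type u} [AddCommGroup V] [Module F V] [FiniteDimensional F V] {B : LinearMap.BilinForm F V}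

/-- **block lemma** -/
theorem block (hB : B.IsRefl) (hnd : ∀ u, (∀ v, B u v = 0) → u = 0) {x : V →ₗ[F] V} (hiso : ∀ u v, B (x u) (x v) = B u v) {t : ℕ} (w : Fin t → V) (j : ℕ)
    (hw : ∀ a, ((x - 1) ^ (j + 1)) (w a) = 0)
    (hH : ∀ c : Fin t → F, (∀ b, ∑ a, c a * B (w a) (((x - 1) ^ j) (w b)) = 0) → c = 0) {X : Submodule F V} (hX : ∀ v ∈ X, x v ∈ X)
    (hwX : ∀ a, w a ∈ X) :
    ∃ D ≤ X, (∀ v ∈ D, x v ∈ D) ∧ ND B D ∧ finrank F D = (j + 1) * t := by
  set N := x - 1 with hN
  have hNX : ∀ v ∈ X, N v ∈ X := fun v hv => X.sub_mem (hX v hv) hv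
  have hNkX : ∀ k : ℕ, ∀ v ∈ X, (N ^ k) v ∈ X := by
    intro k
    induction k with
    | zero => intro v hv; exact hv
    | succ k ih =>
      intro v hv
      rw [pow_succ', Module.End.mul_apply]
      exact hNX _ (ih v hv)
  have hbig : ∀ k, j + 1 ≤ k → ∀ a, (N ^ k) (w a) = 0 := by
    intro k hk a
    obtain ⟨l, rfl⟩ := Nat.exists_eq_add_of_le hk
    rw [add_comm, pow_add, Module.End.mul_apply, hw, _root_.map_zero]
  let y : Fin (j + 1) × Fin t → V := fun ia => (N ^ (ia.1 : ℕ)) (w ia.2)
  let D : Submodule F V := Submodule.span F (Set.range y)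
  have hyD : ∀ ia, y ia ∈ D := fun ia => Submodule.subset_span ⟨ia, rfl⟩
  have hDX : D ≤ X := by
    show Submodule.span F _ ≤ X
    rw [Submodule.span_le]
    rintro _ ⟨ia, rfl⟩
    exact hNkX _ _ (hwX _)
  have hND' : ∀ v ∈ D, N v ∈ D := by
    intro v hv
    have h1 : D ≤ D.comap N := by
      show Submodule.span F _ ≤ _
      rw [Submodule.span_le]
      rintro _ ⟨⟨i, a⟩, rfl⟩
      show N ((N ^ (i : ℕ)) (w a)) ∈ D
      rw [← Module.End.mul_apply, ← pow_succ']
      by_cases hi : (i : ℕ) + 1 < j + 1
      · exact hyD (⟨i + 1, hi⟩, a)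
      · rw [hbig _ (by omega)]
        exact D.zero_mem
    exact h1 hv
  -- pairing
  have pair0 : ∀ (i k : ℕ) (a b : Fin t), j + 1 ≤ i + k → B ((N ^ i) (w a)) ((N ^ k) (w b)) = 0 := by
    intro i k a b hik
    apply OrthUni.orth_pow hnd hiso i (w a) ((N ^ k) (w b))
    rw [← Module.End.mul_apply, ← pow_add]
    exact hbig _ hik b
  have pairj : ∀ (i k : ℕ) (a b : Fin t), i + k = j → B ((N ^ i) (w a)) ((N ^ k) (w b)) = (-1) ^ i * B (w a) ((N ^ j) (w b)) := by
    intro i k a b hik
    rw [OrthUni.adj_pow hnd hiso i (w a) ((N ^ k) (w b)), ← Module.End.mul_apply, ← pow_add, hik]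
    rw [← Module.End.mul_apply, ← pow_add]
    exact hbig _ (by omega) b
  have key : ∀ c : Fin (j + 1) × Fin t → F, (∀ d ∈ D, B (∑ ia, c ia • y ia) d = 0) → c = 0 := by
    intro c hc
    have h1 : ∀ n : ℕ, ∀ (hn : n < j + 1) a, c (⟨n, hn⟩, a) = 0 := by
      intro n
      induction n using Nat.strong_induction_on with
      | _ n ih =>
        intro hn
        have h2 : (fun a => c (⟨n, hn⟩, a)) = 0 := by
          apply hH
          intro b
          have h3 := hc _ (hyD (⟨j - n, by omega⟩, b))
          rw [_root_.map_sum, LinearMap.sum_apply, Fintype.sum_prod_type] at h3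
          rw [Finset.sum_eq_single (⟨n, hn⟩ : Fin (j + 1))] at h3
          · have h4 : ∀ a, B (c (⟨n, hn⟩, a) • y (⟨n, hn⟩, a)) (y (⟨j - n, by omega⟩, b)) = (-1) ^ n * (c (⟨n, hn⟩, a) * B (w a) ((N ^ j) (w b))) := by
              intro a
              rw [_root_.map_smul, LinearMap.smul_apply, smul_eq_mul]
              show _ * B ((N ^ n) (w a)) ((N ^ (j - n)) (w b)) = _
              rw [pairj n (j - n) a b (by omega)]; ring
            rw [Finset.sum_congr rfl (fun a _ => h4 a), ← Finset.mul_sum] at h3
            exact (mul_eq_zero.1 h3).resolve_left (pow_ne_zero _ (neg_ne_zero.2 one_ne_zero))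
          · intro i _ hi
            apply Finset.sum_eq_zero
            intro a _
            rw [_root_.map_smul, LinearMap.smul_apply, smul_eq_mul]
            by_cases hlt : (i : ℕ) < n
            · have h5 := ih i hlt i.2 a
              rw [show c (i, a) = c (⟨i, i.2⟩, a) from rfl, h5, zero_mul]
            · have hne : (i : ℕ) ≠ n := fun h => hi (Fin.ext h)
              have h6 : B (y (i, a)) (y (⟨j - n, by omega⟩, b)) = 0 := by
                show B ((N ^ (i : ℕ)) (w a)) ((N ^ (j - n)) (w b)) = 0
                exact pair0 _ _ a b (by omega)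
              rw [h6, mul_zero]
          · intro h; exact absurd (Finset.mem_univ _) h
        intro a
        exact congrFun h2 a
    funext ⟨i, a⟩
    exact h1 i i.2 a
  refine ⟨D, hDX, ?_, ?_, ?_⟩
  · intro v hv
    have h1 : x v = v + N v := by
      show x v = v + (x v - v); abel
    rw [h1]
    exact D.add_mem hv (hND' v hv)
  · intro v hv h
    obtain ⟨c, rfl⟩ := (Submodule.mem_span_range_iff_exists_fun F).1 hv
    rw [key c h]
    simp
  · have hli : LinearIndependent F y := by
      rw [Fintype.linearIndependent_iff]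
      intro c hc i
      rw [key c (fun d _ => by rw [hc, _root_.map_zero]; rfl)]; rfl
    have h1 := finrank_span_eq_card hli
    rw [Fintype.card_prod, Fintype.card_fin, Fintype.card_fin] at h1
    exact h1

/-- **decomposition** of unipotent isometries -/
theorem uni_suf (h2 : (2 : F) ≠ 0) (hA : ∀ v, B v v = 0) (hN : ND B ⊤) {x : V →ₗ[F] V} (hiso : ∀ u v, B (x u) (x v) = B u v) {p : ℕ} (hp : 0 < p) (hxp : x ^ p = 1)
    (hNp : (x - 1) ^ p = 0) :
    ∀ n : ℕ, ∀ X : Submodule F V, finrank F X = n → (∀ v ∈ X, x v ∈ X) → ND B X →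
      ∃ μ : Multiset ℕ, (∀ a ∈ μ, 0 < a ∧ a ≤ p) ∧ (∀ a, Odd a → Even (μ.count a)) ∧ μ.sum = n ∧
        ∀ ν ≤ μ, (∀ a, Odd a → Even (ν.count a)) → ∃ W ≤ X, (∀ v ∈ W, x v ∈ W) ∧ ND B W ∧ finrank F W = ν.sum := by
  classical
  have hB := refl_alt hA
  have hnd : ∀ u, (∀ v, B u v = 0) → u = 0 := fun u h => hN u trivial fun v _ => h v
  intro n
  induction n using Nat.strong_induction_on with
  | _ n ih =>
    intro X hXd hXi hXn
    by_cases hX0 : X = ⊥
    · refine ⟨0, fun a h => absurd h (Multiset.notMem_zero a), fun a _ => by rw [Multiset.count_zero]; exact Even.zero, ?_, ?_⟩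
      · rw [Multiset.sum_zero, ← hXd, hX0, finrank_bot]
      · intro ν hν _
        have : ν = 0 := Multiset.le_zero.1 hν
        refine ⟨⊥, bot_le, Ti.inv_bot x, Iso.nd_bot, ?_⟩
        rw [this, finrank_bot, Multiset.sum_zero]
    -- the maximal block size
    have hex : ∃ k : ℕ, ∀ v ∈ X, ((x - 1) ^ k) v = 0 := ⟨p, fun v _ => by rw [hNp]; rfl⟩
    obtain ⟨v0, hv0X, hv00⟩ := Submodule.exists_mem_ne_zero_of_ne_bot hX0
    have hk0 : Nat.find hex ≠ 0 := by
      intro h
      have := Nat.find_spec hex v0 hv0X
      rw [h, pow_zero] at this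
      exact hv00 this
    obtain ⟨j, hj⟩ := Nat.exists_eq_succ_of_ne_zero hk0
    have hjp : j + 1 ≤ p := by
      have := Nat.find_min' hex (fun v _ => by rw [hNp]; rfl : ∀ v ∈ X, ((x - 1) ^ p) v = 0)
      omega
    have hkill : ∀ v ∈ X, ((x - 1) ^ (j + 1)) v = 0 := by
      have := Nat.find_spec hex
      rw [hj] at this
      exact this
    have hnot : ¬ ∀ v ∈ X, ((x - 1) ^ j) v = 0 := Nat.find_min hex (by omega)
    push Not at hnot
    obtain ⟨v, hv, hvj⟩ := hnot
    have hNX : ∀ k : ℕ, ∀ v ∈ X, ((x - 1) ^ k) v ∈ X := by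
      intro k
      induction k with
      | zero => intro v hv; exact hv
      | succ k ih =>
        intro v hv
        rw [pow_succ', Module.End.mul_apply]
        exact X.sub_mem (hXi _ (ih v hv)) (ih v hv)
    obtain ⟨u, hu, huv⟩ : ∃ u ∈ X, B u (((x - 1) ^ j) v) ≠ 0 := by
      by_contra hcon
      push Not at hcon
      exact hvj (hXn _ (hNX j v hv) (fun y hy => hB _ _ (hcon y hy)))
    have hsymm : ∀ a ∈ X, ∀ b ∈ X, B a (((x - 1) ^ j) b) = (-1) ^ (j + 1) * B b (((x - 1) ^ j) a) := by
      intro a ha b hb
      have h1 := OrthUni.adj_pow hnd hiso j a b (hkill b hb)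
      have h3 : ((-1 : F)) ^ j * (-1) ^ j = 1 := by rw [← mul_pow, neg_mul_neg, one_mul, one_pow]
      have h4 : B (((x - 1) ^ j) a) b = - B b (((x - 1) ^ j) a) := by rw [skew hA]; ring
      rw [h4] at h1
      rw [pow_succ]
      linear_combination (-1) ^ j * (-h1) - B a (((x - 1) ^ j) b) * h3
    -- the block
    have hblock : ∃ D ≤ X, (∀ v ∈ D, x v ∈ D) ∧ ND B D ∧ finrank F D = (j + 1) * (if Even (j + 1) then 1 else 2) := by
      by_cases he : Even (j + 1)
      · rw [if_pos he]
        obtain ⟨w, hw, hww⟩ : ∃ w ∈ X, B w (((x - 1) ^ j) w) ≠ 0 := by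
          by_contra hcon
          push Not at hcon
          apply huv
          have h1 := hcon (u + v) (X.add_mem hu hv)
          rw [_root_.map_add ((x - 1) ^ j), _root_.map_add, _root_.map_add, LinearMap.add_apply, LinearMap.add_apply, hcon u hu, hcon v hv,
            hsymm v hv u hu, he.neg_one_pow] at h1
          have h3 : 2 * B u (((x - 1) ^ j) v) = 0 := by linear_combination h1
          exact (mul_eq_zero.1 h3).resolve_left h2
        obtain ⟨D, d1, d2, d3, d4⟩ := block hB hnd hiso (t := 1) (fun _ => w) j (fun _ => hkill w hw) (by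
          intro c hc
          have h1 := hc 0
          rw [Fin.sum_univ_one] at h1
          funext a
          rw [Subsingleton.elim a 0]
          exact (mul_eq_zero.1 h1).resolve_right hww) hXi (fun _ => hw)
        exact ⟨D, d1, d2, d3, d4⟩
      · rw [if_neg he]
        have ho : Odd (j + 1) := Nat.not_even_iff_odd.1 he
        have hself : ∀ a ∈ X, B a (((x - 1) ^ j) a) = 0 := by
          intro a ha
          have h1 := hsymm a ha a ha
          rw [ho.neg_one_pow] at h1
          have h3 : 2 * B a (((x - 1) ^ j) a) = 0 := by linear_combination h1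
          exact (mul_eq_zero.1 h3).resolve_left h2
        have hvu : B v (((x - 1) ^ j) u) ≠ 0 := by
          rw [hsymm v hv u hu, ho.neg_one_pow]
          intro h
          apply huv
          linear_combination -h
        obtain ⟨D, d1, d2, d3, d4⟩ := block hB hnd hiso (t := 2) ![u, v] j (by
          intro a
          fin_cases a
          · exact hkill u hu
          · exact hkill v hv) (by
          intro c hc
          have h1 := hc 0
          have h3 := hc 1
          rw [Fin.sum_univ_two] at h1 h3
          have h1' : c 0 * B u (((x - 1) ^ j) u) + c 1 * B v (((x - 1) ^ j) u) = 0 := h1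
          have h3' : c 0 * B u (((x - 1) ^ j) v) + c 1 * B v (((x - 1) ^ j) v) = 0 := h3
          rw [hself u hu, mul_zero, zero_add] at h1'
          rw [hself v hv, mul_zero, add_zero] at h3'
          funext a
          fin_cases a
          · exact (mul_eq_zero.1 h3').resolve_right huv
          · exact (mul_eq_zero.1 h1').resolve_right hvu) hXi (by
          intro a
          fin_cases a
          · exact hu
          · exact hv)
        exact ⟨D, d1, d2, d3, d4⟩
    obtain ⟨D, d1, d2, d3, d4⟩ := hblock
    obtain ⟨s1, s2, -, -⟩ := Iso.split hB hXn d3 d1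
    have hi := Iso.inf_orth_inv hxp hp hiso hXi d2
    have hDpos : 0 < finrank F D := by
      rw [d4]
      split_ifs <;> omega
    obtain ⟨μ', m1, m2, m3, m4⟩ := ih (finrank F (X ⊓ B.orthogonal D : Submodule F V)) (by omega) _ rfl hi s1
    have glue : ∀ (W : Submodule F V), W ≤ X ⊓ B.orthogonal D → (∀ v ∈ W, x v ∈ W) → ND B W →
        ∃ W' ≤ X, (∀ v ∈ W', x v ∈ W') ∧ ND B W' ∧ finrank F W' = finrank F D + finrank F W := by
      intro W hW hWi hWn
      obtain ⟨e1, e2⟩ := nd_sup hB d3 hWn (fun y hy z hz => (hW hz).2 y hy)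
      refine ⟨D ⊔ W, sup_le d1 (hW.trans inf_le_left), ?_, e1, e2⟩
      intro y hy
      obtain ⟨a, ha, b, hb, rfl⟩ := Submodule.mem_sup.1 hy
      rw [_root_.map_add]
      exact Submodule.add_mem_sup (d2 a ha) (hWi b hb)
    by_cases he : Even (j + 1)
    · rw [if_pos he, mul_one] at d4
      refine ⟨(j + 1) ::ₘ μ', ?_, ?_, ?_, ?_⟩
      · intro a ha
        rcases Multiset.mem_cons.1 ha with rfl | ha
        · exact ⟨by omega, hjp⟩
        · exact m1 a ha
      · intro a ha
        rw [Multiset.count_cons_of_ne]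
        · exact m2 a ha
        · rintro rfl
          exact (Nat.not_even_iff_odd.2 ha) he
      · rw [Multiset.sum_cons, m3]; omega
      · intro ν hν hνp
        by_cases hle : ν ≤ μ'
        · obtain ⟨W, w1, w2, w3, w4⟩ := m4 ν hle hνp
          exact ⟨W, w1.trans inf_le_left, w2, w3, w4⟩
        · have hmem : (j + 1) ∈ ν := by
            by_contra hn
            exact hle ((Multiset.le_cons_of_notMem hn).1 hν)
          obtain ⟨ν', rfl⟩ := Multiset.exists_cons_of_mem hmem
          have hν' : ν' ≤ μ' := (Multiset.cons_le_cons_iff _).1 hν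
          obtain ⟨W, w1, w2, w3, w4⟩ := m4 ν' hν' (by
            intro a ha
            have h1 := hνp a ha
            rw [Multiset.count_cons_of_ne] at h1
            · exact h1
            · rintro rfl
              exact (Nat.not_even_iff_odd.2 ha) he)
          obtain ⟨W', v1, v2, v3, v4⟩ := glue W w1 w2 w3
          exact ⟨W', v1, v2, v3, by rw [v4, d4, w4, Multiset.sum_cons]⟩
    · rw [if_neg he] at d4
      refine ⟨(j + 1) ::ₘ (j + 1) ::ₘ μ', ?_, ?_, ?_, ?_⟩
      · intro a ha
        rcases Multiset.mem_cons.1 ha with rfl | ha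
        · exact ⟨by omega, hjp⟩
        rcases Multiset.mem_cons.1 ha with rfl | ha
        · exact ⟨by omega, hjp⟩
        · exact m1 a ha
      · intro a ha
        by_cases h1 : a = j + 1
        · subst h1
          rw [Multiset.count_cons_self, Multiset.count_cons_self]
          obtain ⟨k, hk⟩ := m2 _ ha
          exact ⟨k + 1, by omega⟩
        · rw [Multiset.count_cons_of_ne h1, Multiset.count_cons_of_ne h1]
          exact m2 a ha
      · rw [Multiset.sum_cons, Multiset.sum_cons, m3]; omega
      · intro ν hν hνp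
        by_cases hle : ν ≤ μ'
        · obtain ⟨W, w1, w2, w3, w4⟩ := m4 ν hle hνp
          exact ⟨W, w1.trans inf_le_left, w2, w3, w4⟩
        · have ho : Odd (j + 1) := Nat.not_even_iff_odd.1 he
          have hcμ := m2 _ ho
          have hcν := hνp _ ho
          have hcle : μ'.count (j + 1) + 2 ≤ ν.count (j + 1) := by
            by_contra hlt
            push Not at hlt
            apply hle
            rw [Multiset.le_iff_count]
            intro a
            by_cases h1 : a = j + 1
            · subst h1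
              obtain ⟨k, hk⟩ := hcμ
              obtain ⟨l, hl⟩ := hcν
              omega
            · have h3 := Multiset.le_iff_count.1 hν a
              rwa [Multiset.count_cons_of_ne h1, Multiset.count_cons_of_ne h1] at h3
          have hmem : (j + 1) ∈ ν := by
            rw [← Multiset.count_pos]; omega
          obtain ⟨ν₁, rfl⟩ := Multiset.exists_cons_of_mem hmem
          rw [Multiset.count_cons_self] at hcle
          have hmem2 : (j + 1) ∈ ν₁ := by
            rw [← Multiset.count_pos]; omega
          obtain ⟨ν', rfl⟩ := Multiset.exists_cons_of_mem hmem2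
          have hν' : ν' ≤ μ' := (Multiset.cons_le_cons_iff _).1 ((Multiset.cons_le_cons_iff _).1 hν)
          obtain ⟨W, w1, w2, w3, w4⟩ := m4 ν' hν' (by
            intro a ha
            have h1 := hνp a ha
            by_cases h3 : a = j + 1
            · subst h3
              rw [Multiset.count_cons_self, Multiset.count_cons_self] at h1
              obtain ⟨k, hk⟩ := h1
              exact ⟨k - 1, by omega⟩
            · rwa [Multiset.count_cons_of_ne h3, Multiset.count_cons_of_ne h3] at h1)
          obtain ⟨W', v1, v2, v3, v4⟩ := glue W w1 w2 w3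
          exact ⟨W', v1, v2, v3, by rw [v4, d4, w4, Multiset.sum_cons, Multiset.sum_cons]; ring⟩

end H99.SpTi
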