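import Mathlib
import Cfsg.Agent.Lib.H99.SpNd3
import Cfsg.Agent.Lib.H99.OrthUni3

set_option autoImplicit false
set_option linter.unusedSimpArgs false
set_option linter.unusedSectionVars false
set_option linter.unusedVariables false

/-! Unipotent isometries of alternating forms: existence and parity of Jordan types. -/

namespace H99.SpTi

open Module H99.Iso H99.Ti Matrix

universe u

variable {F : Type u} [Field F] [Fintype F]

/-- there is a skew endomorphism with the ranks of Jordan type `μ` -/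
def HasN {V : Type u} [AddCommGroup V] [Module F V] (B : LinearMap.BilinForm F V) (μ : Multiset ℕ) : Prop :=
  ∃ N : V →ₗ[F] V, (∀ u v, B (N u) v = - B u (N v)) ∧ ∀ k, finrank F (LinearMap.range (N ^ k)) = (μ.map (fun e => e - k)).sum

theorem HasN.equiv {V V' : Type u} [AddCommGroup V] [Module F V] [AddCommGroup V'] [Module F V'] {B : LinearMap.BilinForm F V} {B' : LinearMap.BilinForm F V'}
    {μ : Multiset ℕ} (h : HasN B μ) (e : V ≃ₗ[F] V') (he : ∀ u v, B' (e u) (e v) = B u v) : HasN B' μ := by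
  obtain ⟨N, h1, h2⟩ := h
  have h3 : ∀ v, e (e.symm v) = v := fun v => e.apply_symm_apply v
  refine ⟨e.toLinearMap ∘ₗ N ∘ₗ e.symm.toLinearMap, fun u v => ?_, fun k => by rw [OrthUni2.rank_conj, h2]⟩
  show B' (e (N (e.symm u))) v = - B' u (e (N (e.symm v)))
  nth_rw 1 [← h3 v]
  nth_rw 2 [← h3 u]
  rw [he, he, h1]

theorem HasN.psum {V V' : Type u} [AddCommGroup V] [Module F V] [FiniteDimensional F V] [AddCommGroup V'] [Module F V'] [FiniteDimensional F V']
    {B : LinearMap.BilinForm F V} {B' : LinearMap.BilinForm F V'} {μ μ' : Multiset ℕ} (h : HasN B μ) (h' : HasN B' μ') : HasN (SpTi.psum B B') (μ + μ') := by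
  obtain ⟨N, h1, h2⟩ := h
  obtain ⟨N', h1', h2'⟩ := h'
  refine ⟨N.prodMap N', ?_, ?_⟩
  · rintro ⟨u, u'⟩ ⟨v, v'⟩
    rw [psum_apply, psum_apply]
    show B (N u) v + B' (N' u') v' = - (B u (N v) + B' u' (N' v'))
    rw [h1, h1']; ring
  · intro k
    rw [OrthUni2.prodMap_pow', LinearMap.range_prodMap, OrthUni2.finrank_prod_sub, h2, h2', Multiset.map_add, Multiset.sum_add]

theorem hasN_pair (e : ℕ) : HasN (Ti.hB (M := Fin e → F) (-1 : F)) ({e, e} : Multiset ℕ) := by
  let f : (Fin e → F) →ₗ[F] (Fin e → F) := Matrix.toLin' (H48.Jordan.J0 e F)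
  have hpow : ∀ k : ℕ, (f.dualMap) ^ k = (f ^ k).dualMap := by
    intro k
    induction k with
    | zero => rfl
    | succ k ih =>
      rw [pow_succ', ih, pow_succ]
      rfl
  have r1 : ∀ k, finrank F (LinearMap.range (f ^ k)) = e - k := by
    intro k
    show finrank F (LinearMap.range ((Matrix.toLin' (H48.Jordan.J0 e F)) ^ k)) = e - k
    rw [← Matrix.toLin'_pow, ← H48.Jordan.rank_J0_pow (F := F) e k]
    rfl
  refine ⟨(-f.dualMap).prodMap f, ?_, ?_⟩
  · rintro ⟨φ, u⟩ ⟨ψ, v⟩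
    rw [Ti.hB_apply, Ti.hB_apply]
    show (-(f.dualMap φ)) v + (-1) * ψ (f u) = -(φ (f v) + (-1) * (-(f.dualMap ψ)) u)
    rw [LinearMap.neg_apply, LinearMap.neg_apply, LinearMap.dualMap_apply, LinearMap.dualMap_apply]; ring
  · intro k
    rw [OrthUni2.prodMap_pow', LinearMap.range_prodMap, OrthUni2.finrank_prod_sub, OrthUni2.range_neg_pow, hpow,
      LinearMap.finrank_range_dualMap_eq_finrank_range, r1]
    simp

/-- the form `Σ (-1)^i u_i v_{n-i}` -/
noncomputable def sA (n : ℕ) (F : Type u) [Field F] : LinearMap.BilinForm F (Fin (n + 1) → F) :=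
  LinearMap.mk₂ F (fun u v => ∑ i : Fin (n + 1), (-1) ^ (i : ℕ) * (u i * v (Fin.rev i)))
    (fun x x' y => by rw [← Finset.sum_add_distrib]; exact Finset.sum_congr rfl fun i _ => by rw [Pi.add_apply]; ring)
    (fun c x y => by rw [smul_eq_mul, Finset.mul_sum]; exact Finset.sum_congr rfl fun i _ => by rw [Pi.smul_apply, smul_eq_mul]; ring)
    (fun x y y' => by rw [← Finset.sum_add_distrib]; exact Finset.sum_congr rfl fun i _ => by rw [Pi.add_apply]; ring)
    (fun c x y => by rw [smul_eq_mul, Finset.mul_sum]; exact Finset.sum_congr rfl fun i _ => by rw [Pi.smul_apply, smul_eq_mul]; ring)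

theorem sA_apply (n : ℕ) (u v : Fin (n + 1) → F) : sA n F u v = ∑ i : Fin (n + 1), (-1) ^ (i : ℕ) * (u i * v (Fin.rev i)) := rfl

theorem sA_comm {n : ℕ} (hn : Odd n) (u v : Fin (n + 1) → F) : sA n F u v = - sA n F v u := by
  rw [sA_apply, sA_apply, ← Equiv.sum_comp Fin.revPerm, ← Finset.sum_neg_distrib]
  refine Finset.sum_congr rfl fun i _ => ?_
  rw [Fin.revPerm_apply, Fin.rev_rev]
  have : ((-1 : F)) ^ ((Fin.rev i : Fin (n + 1)) : ℕ) = - (-1) ^ (i : ℕ) := by
    rw [Fin.val_rev]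
    have hi := i.2
    obtain ⟨k, hk⟩ := hn
    rw [← neg_one_mul ((-1 : F) ^ (i : ℕ)), ← pow_succ', neg_one_pow_eq_pow_mod_two, neg_one_pow_eq_pow_mod_two (n := (i : ℕ) + 1)]
    congr 1
    omega
  rw [this]; ring

theorem sA_alt (h2 : (2 : F) ≠ 0) {n : ℕ} (hn : Odd n) (v : Fin (n + 1) → F) : sA n F v v = 0 := by
  have h := sA_comm hn v v
  have h3 : 2 * sA n F v v = 0 := by linear_combination h
  exact (mul_eq_zero.1 h3).resolve_left h2

theorem sA_nd (n : ℕ) : ND (sA n F) ⊤ := by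
  intro v _ hv
  ext j
  have h := hv (Pi.single (Fin.rev j) 1) trivial
  rw [sA_apply, Finset.sum_eq_single j] at h
  · rw [Pi.single_eq_same, mul_one] at h
    exact (mul_eq_zero.1 h).resolve_left (pow_ne_zero _ (neg_ne_zero.2 one_ne_zero))
  · intro i _ hij
    rw [Pi.single_eq_of_ne, mul_zero, mul_zero]
    intro h
    exact hij (Fin.rev_injective h)
  · intro h; exact absurd (Finset.mem_univ _) h

theorem sA_skew (n : ℕ) (u v : Fin (n + 1) → F) :
    sA n F ((H48.Jordan.J0 (n + 1) F).mulVec u) v = - sA n F u ((H48.Jordan.J0 (n + 1) F).mulVec v) := by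
  rw [sA_apply, sA_apply]
  rw [Fin.sum_univ_succ, OrthUni2.J0_mulVec_zero, Fin.sum_univ_castSucc (n := n) (fun i => (-1) ^ (i : ℕ) * (u i * ((H48.Jordan.J0 (n + 1) F).mulVec v (Fin.rev i)))),
    Fin.rev_last, OrthUni2.J0_mulVec_zero, mul_zero, mul_zero, add_zero, zero_mul, mul_zero, zero_add, ← Finset.sum_neg_distrib]
  refine Finset.sum_congr rfl fun j _ => ?_
  rw [OrthUni2.J0_mulVec_succ, Fin.rev_succ, Fin.rev_castSucc, OrthUni2.J0_mulVec_succ, Fin.val_succ, Fin.val_castSucc, pow_succ]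
  ring

theorem hasN_single (n : ℕ) : HasN (sA n F) ({n + 1} : Multiset ℕ) := by
  refine ⟨Matrix.toLin' (H48.Jordan.J0 (n + 1) F), ?_, ?_⟩
  · intro u v
    rw [Matrix.toLin'_apply, Matrix.toLin'_apply, sA_skew]
  · intro k
    rw [← Matrix.toLin'_pow, Multiset.map_singleton, Multiset.sum_singleton, ← H48.Jordan.rank_J0_pow (F := F) (n + 1) k]
    rfl

theorem exists_zero : ∃ A : Sm F, finrank F A.V = 0 ∧ HasN A.B 0 := by
  obtain ⟨A, hA⟩ := exists_sm (F := F) 0
  refine ⟨A, by rw [hA], 0, fun u v => by simp, fun k => ?_⟩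
  rw [Multiset.map_zero, Multiset.sum_zero]
  have := Submodule.finrank_le (LinearMap.range ((0 : A.V →ₗ[F] A.V) ^ k))
  omega

/-- orthogonal sums -/
theorem sum_sm (A A' : Sm F) : ∃ C : Sm F, finrank F C.V = finrank F A.V + finrank F A'.V ∧ ∀ μ μ', HasN A.B μ → HasN A'.B μ' → HasN C.B (μ + μ') :=
  ⟨⟨A.V × A'.V, psum A.B A'.B, fun v => by rw [psum_apply, A.alt, A'.alt, add_zero], psum_nd A.nd A'.nd⟩, finrank_prod, fun μ μ' h h' => h.psum h'⟩

theorem exists_pairs (ν : Multiset ℕ) : ∃ A : Sm F, finrank F A.V = (ν + ν).sum ∧ HasN A.B (ν + ν) := by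
  induction ν using Multiset.induction_on with
  | empty => exact exists_zero
  | cons e ν ih =>
    obtain ⟨A, a1, a2⟩ := ih
    have hεε : (-1 : F) * (-1) = 1 := by ring
    obtain ⟨C, c1, c2⟩ := sum_sm ⟨Module.Dual F (Fin e → F) × (Fin e → F), Ti.hB (-1), fun v => by rw [Ti.hB_apply]; ring, Ti.hB_nd hεε⟩ A
    refine ⟨C, ?_, ?_⟩
    · rw [c1, a1]
      have : finrank F (Module.Dual F (Fin e → F) × (Fin e → F)) = e + e := by
        rw [finrank_prod, Subspace.dual_finrank_eq, finrank_fintype_fun_eq_card, Fintype.card_fin]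
      rw [this, Multiset.sum_add, Multiset.sum_add, Multiset.sum_cons]; ring
    · have := c2 _ _ (hasN_pair e) a2
      convert this using 1
      ext k
      simp only [Multiset.count_add, Multiset.count_cons, Multiset.insert_eq_cons, Multiset.count_singleton]
      ring

theorem exists_evens (h2 : (2 : F) ≠ 0) (ω : Multiset ℕ) (hω : ∀ a ∈ ω, Even a ∧ 0 < a) : ∃ A : Sm F, finrank F A.V = ω.sum ∧ HasN A.B ω := by
  induction ω using Multiset.induction_on with
  | empty => exact exists_zero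
  | cons e ω ih =>
    obtain ⟨A, a1, a2⟩ := ih (fun a ha => hω a (Multiset.mem_cons_of_mem ha))
    obtain ⟨⟨k, hk⟩, hpos⟩ := hω e (Multiset.mem_cons_self e ω)
    obtain ⟨n, rfl⟩ : ∃ n, e = n + 1 := ⟨e - 1, by omega⟩
    have hn : Odd n := ⟨k - 1, by omega⟩
    obtain ⟨C, c1, c2⟩ := sum_sm ⟨Fin (n + 1) → F, sA n F, sA_alt h2 hn, sA_nd n⟩ A
    refine ⟨C, ?_, ?_⟩
    · rw [c1, a1, Multiset.sum_cons]
      congr 1
      show finrank F (Fin (n + 1) → F) = n + 1
      rw [finrank_fintype_fun_eq_card, Fintype.card_fin]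
    · have := c2 _ _ (hasN_single n) a2
      rw [Multiset.singleton_add] at this
      exact this

/-- **existence** of skew endomorphisms of every admissible type -/
theorem exists_nil (h2 : (2 : F) ≠ 0) {V : Type u} [AddCommGroup V] [Module F V] [FiniteDimensional F V] {B : LinearMap.BilinForm F V}
    (hA : ∀ v, B v v = 0) (hN : ND B ⊤) (μ : Multiset ℕ) (hμ0 : ∀ a ∈ μ, 0 < a) (hμ : ∀ a, Odd a → Even (μ.count a)) (hs : μ.sum = finrank F V) : HasN B μ := by
  obtain ⟨ν, hν⟩ := OrthUni2.exists_half (μ.filter (fun e => Odd e)) (by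
    intro e
    rw [Multiset.count_filter]
    split_ifs with he
    · exact hμ e he
    · exact Even.zero)
  have hsplit : (ν + ν) + μ.filter (fun e => Even e) = μ := by
    rw [← hν, add_comm]
    have := Multiset.filter_add_not (fun e => Even e) μ
    have h3 : μ.filter (fun e => ¬ Even e) = μ.filter (fun e => Odd e) := by
      apply Multiset.filter_congr
      intro e _
      exact Nat.not_even_iff_odd
    rwa [h3] at this
  obtain ⟨A, a1, a2⟩ := exists_pairs (F := F) ν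
  obtain ⟨A', b1, b2⟩ := exists_evens (F := F) h2 (μ.filter (fun e => Even e)) (fun a ha => by
    rw [Multiset.mem_filter] at ha
    exact ⟨ha.2, hμ0 a ha.1⟩)
  obtain ⟨C, c1, c2⟩ := sum_sm A A'
  obtain ⟨e, he⟩ := exists_isometry' C.alt hA C.nd hN (by
    rw [c1, a1, b1, ← hs, ← Multiset.sum_add, hsplit])
  have := (c2 _ _ a2 b2).equiv e he
  rwa [hsplit] at this

/-- Cayley transform -/
theorem cayleyB (h2 : (2 : F) ≠ 0) {V : Type u} [AddCommGroup V] [Module F V] [FiniteDimensional F V] {B : LinearMap.BilinForm F V}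
    (N : V →ₗ[F] V) (h1 : ∀ u v, B (N u) v = - B u (N v)) (p : ℕ) (hNp : N ^ p = 0) :
    ∃ x : V →ₗ[F] V, (∀ u v, B (x u) (x v) = B u v) ∧ (x - 1) ^ p = 0 ∧
      ∀ k, finrank F (LinearMap.range ((x - 1) ^ k)) = finrank F (LinearMap.range (N ^ k)) := by
  have hnil : IsNilpotent N := ⟨p, hNp⟩
  obtain ⟨u, hu⟩ := hnil.isUnit_one_sub
  have h2u : IsUnit ((2 : F) • (1 : V →ₗ[F] V)) := ⟨⟨(2 : F) • 1, (2 : F)⁻¹ • 1, by rw [smul_mul_smul_comm, one_mul, mul_inv_cancel₀ h2, one_smul],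
    by rw [smul_mul_smul_comm, one_mul, inv_mul_cancel₀ h2, one_smul]⟩, rfl⟩
  let g : V →ₗ[F] V := (1 + N) * ((u⁻¹ : (V →ₗ[F] V)ˣ) : V →ₗ[F] V)
  have hg : ∀ w, g ((1 - N) w) = (1 + N) w := by
    intro w
    show ((1 + N) * ((u⁻¹ : (V →ₗ[F] V)ˣ) : V →ₗ[F] V)) ((1 - N) w) = _
    rw [← Module.End.mul_apply, ← hu, mul_assoc, Units.inv_mul, mul_one]
  have hsurj : ∀ v, ∃ w, (1 - N) w = v := by
    intro v
    refine ⟨((u⁻¹ : (V →ₗ[F] V)ˣ) : V →ₗ[F] V) v, ?_⟩
    rw [← hu, ← Module.End.mul_apply, Units.mul_inv]; rfl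
  have hiso : ∀ v v', B (g v) (g v') = B v v' := by
    intro v v'
    obtain ⟨w, rfl⟩ := hsurj v
    obtain ⟨w', rfl⟩ := hsurj v'
    rw [hg, hg]
    have e1 : ∀ w, (1 + N) w = w + N w := fun w => rfl
    have e2 : ∀ w, (1 - N) w = w - N w := fun w => rfl
    rw [e1, e1, e2, e2]
    simp only [_root_.map_add, _root_.map_sub, LinearMap.add_apply, LinearMap.sub_apply, h1]
    ring
  let c : V →ₗ[F] V := ((2 : F) • (1 : V →ₗ[F] V)) * ((u⁻¹ : (V →ₗ[F] V)ˣ) : V →ₗ[F] V)
  have hc : IsUnit c := h2u.mul (u⁻¹).isUnit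
  have hNu : Commute N (u : V →ₗ[F] V) := by
    rw [hu]; exact (Commute.one_right N).sub_right (Commute.refl N)
  have hNc : Commute N c := by
    have e1 : Commute N ((u⁻¹ : (V →ₗ[F] V)ˣ) : V →ₗ[F] V) := hNu.units_inv_right
    have e2 : Commute N ((2 : F) • (1 : V →ₗ[F] V)) := (Commute.one_right N).smul_right _
    exact e2.mul_right e1
  have hx1 : g - 1 = N * c := by
    have e1 : g - 1 = ((1 + N) - (u : V →ₗ[F] V)) * ((u⁻¹ : (V →ₗ[F] V)ˣ) : V →ₗ[F] V) := by
      rw [sub_mul, Units.mul_inv]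
    have e2 : (1 + N) - (u : V →ₗ[F] V) = N * ((2 : F) • (1 : V →ₗ[F] V)) := by
      rw [hu, mul_smul_comm, mul_one, two_smul]; abel
    rw [e1, e2, mul_assoc]
  have hpow : ∀ k : ℕ, (g - 1) ^ k = N ^ k * c ^ k := fun k => by rw [hx1, hNc.mul_pow]
  refine ⟨g, hiso, ?_, ?_⟩
  · rw [hpow, hNp, zero_mul]
  · intro k
    rw [hpow]
    have hck : LinearMap.range (c ^ k) = ⊤ := by
      rw [LinearMap.range_eq_top]
      obtain ⟨u', hu'⟩ := hc.pow k
      intro v
      refine ⟨((u'⁻¹ : (V →ₗ[F] V)ˣ) : V →ₗ[F] V) v, ?_⟩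
      rw [← hu', ← Module.End.mul_apply, Units.mul_inv]; rfl
    have : LinearMap.range (N ^ k * c ^ k) = LinearMap.range (N ^ k) := LinearMap.range_comp_of_range_eq_top _ hck
    rw [this]

/-! parity -/

open OrthUni in
theorem parity_alt {V : Type u} [AddCommGroup V] [Module F V] [FiniteDimensional F V] {B : LinearMap.BilinForm F V}
    (h2 : (2 : F) ≠ 0) (hA : ∀ v, B v v = 0) (hnd : ∀ u, (∀ v, B u v = 0) → u = 0) {x : V →ₗ[F] V}
    (hiso : ∀ u v, B (x u) (x v) = B u v) (k : ℕ) (hk : Even k) :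
    ∃ m, gk (x - 1) ⊤ k = gk (x - 1) ⊤ (k + 1) + 2 * m := by
  have hrefl : B.IsRefl := refl_alt hA
  have hsk : ∀ u v, B u v = - B v u := fun u v => by rw [skew hA]; ring
  have hBnd : B.Nondegenerate := by
    rw [LinearMap.BilinForm.nondegenerate_iff_ker_eq_bot, LinearMap.ker_eq_bot']
    intro u hu
    apply hnd
    intro v
    rw [hu, LinearMap.zero_apply]
  set N := x - 1 with hN
  -- orthogonal of the kernel is the range
  have horth : B.orthogonal (LinearMap.ker (N ^ (k + 1))) = LinearMap.range (N ^ (k + 1)) := by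
    symm
    apply Submodule.eq_of_le_of_finrank_eq
    · rintro _ ⟨u, rfl⟩
      rw [LinearMap.BilinForm.mem_orthogonal_iff]
      intro v hv
      show B v ((N ^ (k + 1)) u) = 0
      exact hrefl _ _ (orth_pow hnd hiso _ u v (LinearMap.mem_ker.1 hv))
    · have e1 := LinearMap.BilinForm.finrank_orthogonal hBnd (LinearMap.ker (N ^ (k + 1)))
      have e2 := LinearMap.finrank_range_add_finrank_ker (N ^ (k + 1))
      omega
  let A : Submodule F V := LinearMap.ker (N ^ (k + 1))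
  let R : Submodule F V := A ⊓ (LinearMap.range (N ^ (k + 1))).comap (N ^ k)
  have hkerA : LinearMap.ker (N ^ k) ≤ A := by
    intro v hv
    rw [LinearMap.mem_ker] at hv
    show v ∈ LinearMap.ker (N ^ (k + 1))
    rw [LinearMap.mem_ker, pow_succ', Module.End.mul_apply, hv, map_zero]
  have hkerR : LinearMap.ker (N ^ k) ≤ R := by
    intro v hv
    refine ⟨hkerA hv, ?_⟩
    rw [SetLike.mem_coe, Submodule.mem_comap, LinearMap.mem_ker.1 hv]
    exact zero_mem _
  have hAd := rank_map (N ^ k) A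
  have hR := rank_map (N ^ k) R
  rw [inf_eq_left.2 hkerA] at hAd
  rw [inf_eq_left.2 hkerR] at hR
  have hA' : A.map (N ^ k) = LinearMap.ker N ⊓ (⊤ : Submodule F V).map (N ^ k) := by
    ext w
    constructor
    · rintro ⟨u, hu, rfl⟩
      refine ⟨?_, ⟨u, trivial, rfl⟩⟩
      rw [SetLike.mem_coe, LinearMap.mem_ker]
      have : (N ^ (k + 1)) u = 0 := LinearMap.mem_ker.1 hu
      rwa [pow_succ', Module.End.mul_apply] at this
    · rintro ⟨hw, ⟨u, -, rfl⟩⟩
      refine ⟨u, ?_, rfl⟩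
      rw [SetLike.mem_coe, LinearMap.mem_ker] at hw
      show u ∈ LinearMap.ker (N ^ (k + 1))
      rw [LinearMap.mem_ker, pow_succ', Module.End.mul_apply]; exact hw
  have hR' : R.map (N ^ k) = LinearMap.ker N ⊓ (⊤ : Submodule F V).map (N ^ (k + 1)) := by
    ext w
    constructor
    · rintro ⟨u, ⟨hu, hu'⟩, rfl⟩
      refine ⟨?_, ?_⟩
      · rw [SetLike.mem_coe, LinearMap.mem_ker]
        have : (N ^ (k + 1)) u = 0 := LinearMap.mem_ker.1 hu
        rwa [pow_succ', Module.End.mul_apply] at this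
      · rw [Submodule.map_top]; exact hu'
    · rintro ⟨hw, ⟨u, -, rfl⟩⟩
      refine ⟨N u, ⟨?_, ?_⟩, ?_⟩
      · show N u ∈ LinearMap.ker (N ^ (k + 1))
        rw [SetLike.mem_coe, LinearMap.mem_ker] at hw
        rw [LinearMap.mem_ker, ← Module.End.mul_apply, ← pow_succ, pow_succ', Module.End.mul_apply]
        exact hw
      · rw [SetLike.mem_coe, Submodule.mem_comap]
        exact ⟨u, by rw [pow_succ]; rfl⟩
      · rw [← Module.End.mul_apply, ← pow_succ]
  -- the form on A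
  let γ : LinearMap.BilinForm F A := (B ∘ₗ (N ^ k)).domRestrict₁₂ A A
  have hγ : ∀ u v : A, γ u v = B ((N ^ k) u) v := fun u v => rfl
  have hskew : ∀ u v : A, γ u v = - γ v u := by
    intro u v
    rw [hγ, hγ, adj_pow hnd hiso k u v (LinearMap.mem_ker.1 v.2), hk.neg_one_pow, one_mul, hsk]
  have halt : γ.IsAlt := by
    intro u
    have := hskew u u
    have h' : (2 : F) * γ u u = 0 := by linear_combination this
    exact (mul_eq_zero.1 h').resolve_left h2
  let RA : Submodule F A := R.comap A.subtype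
  have hRA : ∀ u : A, u ∈ RA ↔ ∀ v, γ u v = 0 := by
    intro u
    constructor
    · rintro ⟨-, hu⟩ v
      rw [SetLike.mem_coe, Submodule.mem_comap, ← horth, LinearMap.BilinForm.mem_orthogonal_iff] at hu
      rw [hγ]
      exact hrefl _ _ (hu v v.2)
    · intro hu
      refine ⟨u.2, ?_⟩
      rw [SetLike.mem_coe, Submodule.mem_comap, ← horth, LinearMap.BilinForm.mem_orthogonal_iff]
      intro v hv
      show B v ((N ^ k) u) = 0
      exact hrefl _ _ (hu ⟨v, hv⟩)
  obtain ⟨C, hC⟩ := Submodule.exists_isCompl RA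
  have hCnd : Iso.ND γ C := by
    intro c hc h
    have : c ∈ RA := by
      rw [hRA]
      intro v
      obtain ⟨a, ha, b, hb, rfl⟩ := Submodule.mem_sup.1 (show v ∈ RA ⊔ C by rw [hC.sup_eq_top]; trivial)
      rw [map_add, h b hb, add_zero, hskew, (hRA a).1 ha, neg_zero]
    exact (Submodule.disjoint_def.1 hC.disjoint) c this hc
  obtain ⟨m, hm⟩ := Iso.even_of_alt halt.isRefl _ C rfl hCnd (fun c _ => halt c)
  have hfin := Submodule.finrank_add_eq_of_isCompl hC
  have hRAf : finrank F RA = finrank F R := by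
    have e : RA.map A.subtype = R := by
      show (R.comap A.subtype).map A.subtype = R
      rw [Submodule.map_comap_subtype, inf_eq_right.2 (inf_le_left : R ≤ A)]
    rw [← Submodule.finrank_map_subtype_eq A RA, e]
  refine ⟨m, ?_⟩
  unfold gk
  rw [← hA', ← hR']
  omega

open OrthUni in
theorem parity' {V : Type u} [AddCommGroup V] [Module F V] [FiniteDimensional F V] {B : LinearMap.BilinForm F V} (h2 : (2 : F) ≠ 0) (hA : ∀ v, B v v = 0) {x : V →ₗ[F] V}
    (hiso : ∀ u v, B (x u) (x v) = B u v) {U : Submodule F V} (hU : ∀ v ∈ U, x v ∈ U) (hnd : Iso.ND B U) (k : ℕ) (hk : Even k) :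
    ∃ m, gk (x - 1) U k = gk (x - 1) U (k + 1) + 2 * m := by
  have hNU : ∀ v ∈ U, (x - 1) v ∈ U := fun v hv => U.sub_mem (hU v hv) hv
  rw [gk_restrict (x - 1) U hNU, gk_restrict (x - 1) U hNU]
  have h1 : (x - 1).restrict hNU = x.restrict hU - 1 := by
    ext v; rfl
  rw [h1]
  exact parity_alt (B := B.domRestrict₁₂ U U) h2 (fun u => hA _) (fun u hu => by
    apply Subtype.ext
    exact hnd u u.2 (fun v hv => hu ⟨v, hv⟩)) (fun u v => hiso _ _) k hk

/-- **the Jordan type of an invariant nondegenerate subspace** -/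
theorem sub_type' {V : Type u} [AddCommGroup V] [Module F V] [FiniteDimensional F V] {B : LinearMap.BilinForm F V} (p : ℕ) (hp : 0 < p) (h2 : (2 : F) ≠ 0)
    (hA : ∀ v, B v v = 0) (μ : Multiset ℕ) (hμ : ∀ e ∈ μ, 0 < e ∧ e ≤ p) (x : V →ₗ[F] V) (hxp : x ^ p = 1)
    (hiso : ∀ u v, B (x u) (x v) = B u v) (hN : (x - 1) ^ p = 0)
    (hr : ∀ k, finrank F (LinearMap.range ((x - 1) ^ k)) = (μ.map (fun e => e - k)).sum)
    (W : Submodule F V) (hW : ND B W) (hWi : ∀ v ∈ W, x v ∈ W) :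
    ∃ ν : Multiset ℕ, ν ≤ μ ∧ ν.sum = finrank F W ∧ (∀ e, Odd e → Even (ν.count e)) := by
  have hrefl := refl_alt hA
  have hoi : ∀ v ∈ B.orthogonal W, x v ∈ B.orthogonal W := Iso.inv_orth hxp hp hiso hWi
  have hsub : ∀ U : Submodule F V, (∀ v ∈ U, x v ∈ U) → U.map (x - 1) ≤ U := by
    rintro U hU _ ⟨v, hv, rfl⟩
    exact U.sub_mem (hU v hv) hv
  obtain ⟨ν, h1, h2', h3, h4⟩ := OrthUni.core (x - 1) p hN μ hμ hr W _ (hW.isCompl hrefl) (hsub W hWi) (hsub _ hoi)
  refine ⟨ν, h1, h2', ?_⟩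
  intro e he
  by_cases hep : 1 ≤ e ∧ e ≤ p
  · obtain ⟨m, hm⟩ := parity' h2 hA hiso hWi hW (e - 1) (by
      obtain ⟨k, hk⟩ := he
      exact ⟨k, by omega⟩)
    rw [Nat.sub_add_cancel hep.1] at hm
    have h5 := h4 e hep.1 hep.2
    rw [hm] at h5
    push_cast at h5
    refine ⟨m, ?_⟩
    have : ((ν.count e : ℕ) : ℤ) = ((m + m : ℕ) : ℤ) := by push_cast; linarith
    exact_mod_cast this
  · have : e ∉ ν := by
      intro h
      have := hμ e (Multiset.mem_of_le h1 h)
      omega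
    rw [Multiset.count_eq_zero_of_notMem this]
    exact Even.zero

/-- **the criterion for the odd characteristic** -/
theorem crit_p (p : ℕ) [hpf : Fact p.Prime] [CharP F p] (hp2 : p ≠ 2) {V : Type u} [AddCommGroup V] [Module F V] [FiniteDimensional F V]
    {B : LinearMap.BilinForm F V} (hA : ∀ v, B v v = 0) (hN : ND B ⊤) {n m : ℕ} (hn : finrank F V = n) (hmn : m ≤ n) (hm : Even m) :
    (∀ f : V →ₗ[F] V, (∀ u v, B (f u) (f v) = B u v) → f ^ p = 1 → f ≠ 1 →
      ∃ W : Submodule F V, (finrank F W = m ∧ ND B W) ∧ ∀ v ∈ W, f v ∈ W) ↔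
    (∀ μ : Multiset ℕ, (∀ a ∈ μ, 0 < a ∧ a ≤ p) → (∀ a : ℕ, Odd a → Even (μ.count a)) → μ.sum = n →
        ∃ ν : Multiset ℕ, ν ≤ μ ∧ ν.sum = m ∧ ∀ a : ℕ, Odd a → Even (ν.count a)) := by
  have hp := hpf.out
  have h2 : (2 : F) ≠ 0 := OrthUni3.two_ne' p hp2
  have hpow : ∀ f : V →ₗ[F] V, (f - 1) ^ p = f ^ p - 1 := by
    intro f
    have h3 : (Polynomial.X - 1 : Polynomial F) ^ p = Polynomial.X ^ p - 1 := by rw [sub_pow_char, one_pow]
    have h4 := congrArg (Polynomial.aeval f) h3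
    simp only [_root_.map_pow, _root_.map_sub, Polynomial.aeval_X, _root_.map_one] at h4
    exact h4
  constructor
  · intro H μ hμ hpar hs
    by_cases hne : ∃ e ∈ μ, e ≠ 1
    · obtain ⟨N, n1, n2⟩ := exists_nil h2 hA hN μ (fun a ha => (hμ a ha).1) hpar (by rw [hs, hn])
      have hNp : N ^ p = 0 := by
        have h3 := n2 p
        have h4 : (μ.map (fun e => e - p)).sum = 0 := by
          rw [Multiset.sum_eq_zero_iff]
          intro m hm
          obtain ⟨e, he, rfl⟩ := Multiset.mem_map.1 hm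
          have := (hμ e he).2
          omega
        rw [h4] at h3
        exact LinearMap.range_eq_bot.1 (Submodule.finrank_eq_zero.1 h3)
      obtain ⟨x, x1, x2, x3⟩ := cayleyB h2 N n1 p hNp
      have hxp : x ^ p = 1 := by
        have := hpow x
        rw [x2] at this
        exact (sub_eq_zero.1 this.symm)
      have hx1 : x ≠ 1 := by
        rintro rfl
        have h3 := x3 1
        rw [n2 1, sub_self, pow_one, LinearMap.range_zero, finrank_bot] at h3
        have hpos : 0 < (μ.map (fun e => e - 1)).sum := by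
          obtain ⟨e', he', hne'⟩ := hne
          have h4 := Multiset.single_le_sum (s := μ.map (fun e => e - 1)) (fun x _ => Nat.zero_le x) (e' - 1) (Multiset.mem_map_of_mem _ he')
          have := (hμ e' he').1
          omega
        omega
      obtain ⟨W, W1, W2⟩ := H x x1 hxp hx1
      obtain ⟨ν, v1, v2, v3⟩ := sub_type' p hp.pos h2 hA μ hμ x hxp x1 x2 (fun k => by rw [x3, n2]) W W1.2 W2
      exact ⟨ν, v1, by rw [v2, W1.1], v3⟩
    · push Not at hne
      have hrep : μ = Multiset.replicate (Multiset.card μ) 1 := Multiset.eq_replicate_card.2 hne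
      have hcard : Multiset.card μ = n := by
        rw [hrep, Multiset.sum_replicate, smul_eq_mul, mul_one] at hs
        exact hs
      refine ⟨Multiset.replicate m 1, ?_, ?_, ?_⟩
      · rw [hrep, hcard]
        exact (Multiset.replicate_mono 1 hmn)
      · rw [Multiset.sum_replicate, smul_eq_mul, mul_one]
      · intro a _
        rw [Multiset.count_replicate]
        split_ifs
        · exact hm
        · exact Even.zero
  · intro H f f1 f2 hf1
    have hNp : (f - 1) ^ p = 0 := by rw [hpow, f2, sub_self]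
    obtain ⟨μ, m1, m2, m3, m4⟩ := uni_suf h2 hA hN f1 hp.pos f2 hNp n ⊤ (by rw [finrank_top, hn]) (fun v _ => trivial) hN
    obtain ⟨ν, v1, v2, v3⟩ := H μ m1 m2 m3
    obtain ⟨W, -, w2, w3, w4⟩ := m4 ν v1 v3
    exact ⟨W, ⟨by rw [w4, v2], w3⟩, w2⟩

end H99.SpTi
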