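import Mathlib
import Cfsg.Agent.Lib.H99.SpTi3

set_option autoImplicit false
set_option linter.unusedSimpArgs false
set_option linter.unusedSectionVars false
set_option linter.unusedVariables false

/-! The number of totally isotropic subspaces modulo the characteristic. -/

namespace H99.SpTi

open Module H99.Iso H99.Ti H99.TiArith

universe u

variable {F : Type u} [Field F] [Fintype F]

section siegel

variable {V₀ : Type u} [AddCommGroup V₀] [Module F V₀] [FiniteDimensional F V₀]

/-- the hyperbolic plane -/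
noncomputable def hyB (F : Type u) [Field F] : LinearMap.BilinForm F (F × F) :=
  LinearMap.mk₂ F (fun x y => x.1 * y.2 - x.2 * y.1)
    (fun x x' y => by simp only [Prod.fst_add, Prod.snd_add]; ring)
    (fun c x y => by simp only [Prod.smul_fst, Prod.smul_snd, smul_eq_mul]; ring)
    (fun x y y' => by simp only [Prod.fst_add, Prod.snd_add]; ring)
    (fun c x y => by simp only [Prod.smul_fst, Prod.smul_snd, smul_eq_mul]; ring)

theorem hyB_apply (x y : F × F) : hyB F x y = x.1 * y.2 - x.2 * y.1 := rfl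

theorem hyB_alt (x : F × F) : hyB F x x = 0 := by rw [hyB_apply]; ring

theorem hyB_nd : ND (hyB F) ⊤ := by
  intro x _ h
  have h1 := h (0, 1) trivial
  have h2 := h (1, 0) trivial
  rw [hyB_apply] at h1 h2
  refine Prod.ext ?_ ?_
  · simpa using h1
  · simpa using h2

/-- the degenerate form on `F × V₀` -/
noncomputable def dB (B₀ : LinearMap.BilinForm F V₀) : LinearMap.BilinForm F (F × V₀) :=
  B₀.compl₁₂ (LinearMap.snd F F V₀) (LinearMap.snd F F V₀)

theorem dB_apply (B₀ : LinearMap.BilinForm F V₀) (x y : F × V₀) : dB B₀ x y = B₀ x.2 y.2 := rfl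

/-- transvections -/
def tr (V₀ : Type u) [AddCommGroup V₀] [Module F V₀] (c : F) : ((F × F) × V₀) →ₗ[F] ((F × F) × V₀) where
  toFun x := ((x.1.1 + c * x.1.2, x.1.2), x.2)
  map_add' x x' := by
    refine Prod.ext (Prod.ext ?_ rfl) rfl
    show (x.1.1 + x'.1.1) + c * (x.1.2 + x'.1.2) = (x.1.1 + c * x.1.2) + (x'.1.1 + c * x'.1.2)
    ring
  map_smul' a x := by
    refine Prod.ext (Prod.ext ?_ rfl) rfl
    show a * x.1.1 + c * (a * x.1.2) = a * (x.1.1 + c * x.1.2)
    ring

theorem tr_apply (c : F) (x : (F × F) × V₀) : tr V₀ c x = ((x.1.1 + c * x.1.2, x.1.2), x.2) := rfl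

theorem tr_iso (B₀ : LinearMap.BilinForm F V₀) (c : F) (x y : (F × F) × V₀) : psum (hyB F) B₀ (tr V₀ c x) (tr V₀ c y) = psum (hyB F) B₀ x y := by
  rw [psum_apply, psum_apply, hyB_apply, hyB_apply, tr_apply, tr_apply]
  show (x.1.1 + c * x.1.2) * y.1.2 - x.1.2 * (y.1.1 + c * y.1.2) + B₀ x.2 y.2 = _
  ring

theorem tr_zero : tr (F := F) V₀ 0 = LinearMap.id := by
  apply LinearMap.ext
  intro x
  rw [tr_apply, zero_mul, add_zero]; rfl

theorem tr_add (c c' : F) : tr V₀ (c + c') = tr V₀ c ∘ₗ tr V₀ c' := by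
  apply LinearMap.ext
  intro x
  rw [LinearMap.comp_apply, tr_apply, tr_apply, tr_apply]
  refine Prod.ext (Prod.ext ?_ rfl) rfl
  show x.1.1 + (c + c') * x.1.2 = (x.1.1 + c' * x.1.2) + c * x.1.2
  ring

theorem tr_inj (c : F) : Function.Injective (tr (F := F) V₀ c) := by
  intro a b hab
  have h1 : ∀ x, tr V₀ (-c) (tr V₀ c x) = x := by
    intro x
    rw [← LinearMap.comp_apply, ← tr_add, neg_add_cancel, tr_zero]; rfl
  rw [← h1 a, hab, h1]

/-- the inclusion of the perpendicular space -/
def io (F : Type u) [Field F] (V₀ : Type u) [AddCommGroup V₀] [Module F V₀] : (F × V₀) →ₗ[F] ((F × F) × V₀) := (LinearMap.inl F F F).prodMap LinearMap.id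

theorem io_apply (x : F × V₀) : io F V₀ x = ((x.1, 0), x.2) := rfl

theorem io_inj : Function.Injective (io F V₀) := by
  intro x y h
  exact Prod.ext (congrArg (fun z : (F × F) × V₀ => z.1.1) h) (congrArg (fun z : (F × F) × V₀ => z.2) h)

theorem pgrp (p : ℕ) [CharP F p] (M : Type*) [AddCommGroup M] [Module F M] : IsPGroup p (Multiplicative M) := by
  intro g
  refine ⟨1, ?_⟩
  rw [pow_one]
  apply Multiplicative.toAdd.injective
  show p • (Multiplicative.toAdd g) = 0
  rw [← Nat.cast_smul_eq_nsmul F, CharP.cast_eq_zero, zero_smul]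

/-- **first step** -/
theorem ti_step1 {p : ℕ} [Fact p.Prime] [CharP F p] (B₀ : LinearMap.BilinForm F V₀) (m : ℕ) :
    Nat.card (TIs (psum (hyB F) B₀) m) ≡ Nat.card (TIs (dB B₀) m) [MOD p] := by
  classical
  have hfinV : Finite V₀ := Module.finite_of_finite F
  have hfin : Finite (Submodule F ((F × F) × V₀)) :=
    Finite.of_injective (fun W : Submodule F ((F × F) × V₀) => (W : Set ((F × F) × V₀))) SetLike.coe_injective
  let act : MulAction (Multiplicative F) (TIs (psum (hyB F) B₀) m) :=
    { smul := fun g W => ⟨W.1.map (tr V₀ (Multiplicative.toAdd g)), TIs.map W.2 _ (tr_iso B₀ _) (tr_inj _)⟩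
      one_smul := fun W => Subtype.ext (by
        show W.1.map (tr V₀ 0) = W.1
        rw [tr_zero]; exact Submodule.map_id W.1)
      mul_smul := fun g h W => Subtype.ext (by
        show W.1.map (tr V₀ (Multiplicative.toAdd g + Multiplicative.toAdd h)) = (W.1.map (tr V₀ (Multiplicative.toAdd h))).map (tr V₀ (Multiplicative.toAdd g))
        rw [tr_add, Submodule.map_comp]) }
  have h1 := (pgrp (F := F) p F).card_modEq_card_fixedPoints (TIs (psum (hyB F) B₀) m)
  refine h1.trans ?_
  have hfixed : ∀ W : TIs (psum (hyB F) B₀) m, W ∈ MulAction.fixedPoints (Multiplicative F) (TIs (psum (hyB F) B₀) m) →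
      ∀ x ∈ W.1, x.1.2 = 0 := by
    intro W hW x hx
    have h2 := hW (Multiplicative.ofAdd 1)
    have h3 : W.1.map (tr V₀ 1) = W.1 := congrArg Subtype.val h2
    have h4 : tr V₀ 1 x ∈ W.1 := by
      have h9 : tr V₀ 1 x ∈ W.1.map (tr V₀ 1) := ⟨x, hx, rfl⟩
      rwa [h3] at h9
    have h5 := W.2.2 _ h4 _ hx
    rw [psum_apply, hyB_apply, tr_apply] at h5
    have h6 := W.2.2 _ hx _ hx
    rw [psum_apply, hyB_apply] at h6
    have h7 : x.1.2 * x.1.2 = 0 := by
      have h8 : (x.1.1 + 1 * x.1.2) * x.1.2 - x.1.2 * x.1.1 + B₀ x.2 x.2 = 0 := h5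
      linear_combination h8 - h6
    exact mul_self_eq_zero.1 h7
  have hmc : ∀ W : TIs (psum (hyB F) B₀) m, W ∈ MulAction.fixedPoints (Multiplicative F) (TIs (psum (hyB F) B₀) m) →
      (W.1.comap (io F V₀)).map (io F V₀) = W.1 := by
    intro W hW
    apply le_antisymm (Submodule.map_comap_le _ _)
    intro x hx
    have h2 := hfixed W hW x hx
    have h3 : io F V₀ (x.1.1, x.2) = x := by
      rw [io_apply]
      exact Prod.ext (Prod.ext rfl h2.symm) rfl
    exact ⟨(x.1.1, x.2), by
      show io F V₀ (x.1.1, x.2) ∈ W.1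
      rw [h3]; exact hx, h3⟩
  have hBio : ∀ x y, psum (hyB F) B₀ (io F V₀ x) (io F V₀ y) = dB B₀ x y := by
    intro x y
    rw [psum_apply, hyB_apply, dB_apply, io_apply, io_apply]
    show x.1 * 0 - 0 * y.1 + B₀ x.2 y.2 = _
    ring
  let e : MulAction.fixedPoints (Multiplicative F) (TIs (psum (hyB F) B₀) m) ≃ TIs (dB B₀) m :=
    { toFun := fun W => ⟨W.1.1.comap (io F V₀), by
        constructor
        · have h9 := (Submodule.equivMapOfInjective (io F V₀) io_inj (W.1.1.comap (io F V₀))).finrank_eq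
          rw [hmc W.1 W.2] at h9
          exact h9.trans W.1.2.1
        · intro u hu v hv
          rw [← hBio]
          exact W.1.2.2 _ hu _ hv⟩
      invFun := fun U => ⟨⟨U.1.map (io F V₀), by
        constructor
        · exact (Submodule.equivMapOfInjective (io F V₀) io_inj U.1).finrank_eq.symm.trans U.2.1
        · rintro _ ⟨x, hx, rfl⟩ _ ⟨y, hy, rfl⟩
          rw [hBio]
          exact U.2.2 _ hx _ hy⟩, by
        intro g
        apply Subtype.ext
        show (U.1.map (io F V₀)).map (tr V₀ (Multiplicative.toAdd g)) = U.1.map (io F V₀)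
        rw [← Submodule.map_comp]
        congr 1
        apply LinearMap.ext
        intro x
        rw [LinearMap.comp_apply, io_apply, tr_apply]
        refine Prod.ext (Prod.ext ?_ rfl) rfl
        show x.1 + (Multiplicative.toAdd g) * 0 = x.1
        rw [mul_zero, add_zero]⟩
      left_inv := fun W => by
        apply Subtype.ext
        apply Subtype.ext
        exact hmc W.1 W.2
      right_inv := fun U => by
        apply Subtype.ext
        exact Submodule.comap_map_eq_of_injective io_inj U.1 }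
  rw [Nat.card_congr e]

/-- second family -/
def si (B₀ : LinearMap.BilinForm F V₀) (y : V₀) : (F × V₀) →ₗ[F] (F × V₀) where
  toFun x := (x.1 + B₀ x.2 y, x.2)
  map_add' x x' := by
    refine Prod.ext ?_ rfl
    show (x.1 + x'.1) + B₀ (x.2 + x'.2) y = (x.1 + B₀ x.2 y) + (x'.1 + B₀ x'.2 y)
    rw [_root_.map_add, LinearMap.add_apply]; ring
  map_smul' a x := by
    refine Prod.ext ?_ rfl
    show a * x.1 + B₀ (a • x.2) y = a * (x.1 + B₀ x.2 y)
    rw [_root_.map_smul, LinearMap.smul_apply, smul_eq_mul]; ring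

theorem si_apply (B₀ : LinearMap.BilinForm F V₀) (y : V₀) (x : F × V₀) : si B₀ y x = (x.1 + B₀ x.2 y, x.2) := rfl

theorem si_zero (B₀ : LinearMap.BilinForm F V₀) : si B₀ 0 = LinearMap.id := by
  apply LinearMap.ext
  intro x
  rw [si_apply, _root_.map_zero, add_zero]; rfl

theorem si_add (B₀ : LinearMap.BilinForm F V₀) (y y' : V₀) : si B₀ (y + y') = si B₀ y ∘ₗ si B₀ y' := by
  apply LinearMap.ext
  intro x
  rw [LinearMap.comp_apply, si_apply, si_apply, si_apply]
  refine Prod.ext ?_ rfl
  show x.1 + B₀ x.2 (y + y') = (x.1 + B₀ x.2 y') + B₀ x.2 y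
  rw [_root_.map_add]; ring

theorem si_inj (B₀ : LinearMap.BilinForm F V₀) (y : V₀) : Function.Injective (si B₀ y) := by
  intro a b hab
  have h1 : ∀ x, si B₀ (-y) (si B₀ y x) = x := by
    intro x
    rw [← LinearMap.comp_apply, ← si_add, neg_add_cancel, si_zero]; rfl
  rw [← h1 a, hab, h1]

/-- **second step** -/
theorem ti_step2 {p : ℕ} [Fact p.Prime] [CharP F p] {B₀ : LinearMap.BilinForm F V₀} (hN : ND B₀ ⊤) (m : ℕ) :
    Nat.card (TIs (dB B₀) (m + 1)) ≡ Nat.card (TIs B₀ m) [MOD p] := by
  classical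
  have hfinV : Finite V₀ := Module.finite_of_finite F
  have hfin : Finite (Submodule F (F × V₀)) :=
    Finite.of_injective (fun W : Submodule F (F × V₀) => (W : Set (F × V₀))) SetLike.coe_injective
  let act : MulAction (Multiplicative V₀) (TIs (dB B₀) (m + 1)) :=
    { smul := fun g W => ⟨W.1.map (si B₀ (Multiplicative.toAdd g)), TIs.map W.2 _ (fun _ _ => rfl) (si_inj B₀ _)⟩
      one_smul := fun W => Subtype.ext (by
        show W.1.map (si B₀ 0) = W.1
        rw [si_zero]; exact Submodule.map_id W.1)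
      mul_smul := fun g h W => Subtype.ext (by
        show W.1.map (si B₀ (Multiplicative.toAdd g + Multiplicative.toAdd h)) = (W.1.map (si B₀ (Multiplicative.toAdd h))).map (si B₀ (Multiplicative.toAdd g))
        rw [si_add, Submodule.map_comp]) }
  have h1 := (pgrp (F := F) p V₀).card_modEq_card_fixedPoints (TIs (dB B₀) (m + 1))
  refine h1.trans ?_
  have hfixed : ∀ W : TIs (dB B₀) (m + 1), W ∈ MulAction.fixedPoints (Multiplicative V₀) (TIs (dB B₀) (m + 1)) →
      ((1 : F), (0 : V₀)) ∈ W.1 := by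
    intro W hW
    have hne0 : W.1 ≠ ⊥ := by
      intro h
      have h2 := W.2.1
      rw [h, finrank_bot] at h2
      omega
    obtain ⟨x, hx, hx0⟩ := Submodule.exists_mem_ne_zero_of_ne_bot hne0
    by_cases hv : x.2 = 0
    · have ha : x.1 ≠ 0 := fun h => hx0 (Prod.ext h hv)
      have h2 := W.1.smul_mem (x.1)⁻¹ hx
      have h3 : (x.1)⁻¹ • x = ((1 : F), (0 : V₀)) := by
        refine Prod.ext ?_ ?_
        · show (x.1)⁻¹ * x.1 = 1
          exact inv_mul_cancel₀ ha
        · show (x.1)⁻¹ • x.2 = 0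
          rw [hv, smul_zero]
      rwa [h3] at h2
    · obtain ⟨y, hy⟩ : ∃ y, B₀ x.2 y ≠ 0 := by
        by_contra h; push Not at h; exact hv (hN _ trivial fun y _ => h y)
      have h2 := hW (Multiplicative.ofAdd y)
      have h3 : W.1.map (si B₀ y) = W.1 := congrArg Subtype.val h2
      have h4 : si B₀ y x ∈ W.1 := by
        have h9 : si B₀ y x ∈ W.1.map (si B₀ y) := ⟨x, hx, rfl⟩
        rwa [h3] at h9
      have h5 := W.1.smul_mem (B₀ x.2 y)⁻¹ (W.1.sub_mem h4 hx)
      have h6 : (B₀ x.2 y)⁻¹ • (si B₀ y x - x) = ((1 : F), (0 : V₀)) := by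
        rw [si_apply]
        refine Prod.ext ?_ ?_
        · show (B₀ x.2 y)⁻¹ * (x.1 + B₀ x.2 y - x.1) = 1
          rw [add_sub_cancel_left, inv_mul_cancel₀ hy]
        · show (B₀ x.2 y)⁻¹ • (x.2 - x.2) = 0
          rw [sub_self, smul_zero]
      rwa [h6] at h5
  have hJ : ∀ W : TIs (dB B₀) (m + 1), W ∈ MulAction.fixedPoints (Multiplicative V₀) (TIs (dB B₀) (m + 1)) →
      (⊤ : Submodule F F).prod (W.1.comap (LinearMap.inr F F V₀)) = W.1 := by
    intro W hW
    have he := hfixed W hW
    have key : ∀ x : F × V₀, x = x.1 • ((1 : F), (0 : V₀)) + LinearMap.inr F F V₀ x.2 := by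
      intro x
      refine Prod.ext ?_ ?_
      · show x.1 = x.1 * 1 + 0
        ring
      · show x.2 = x.1 • (0 : V₀) + x.2
        rw [smul_zero, zero_add]
    ext x
    rw [Submodule.mem_prod]
    constructor
    · rintro ⟨-, h2⟩
      rw [key x]
      exact W.1.add_mem (W.1.smul_mem _ he) h2
    · intro hx
      refine ⟨trivial, ?_⟩
      show LinearMap.inr F F V₀ x.2 ∈ W.1
      have h2 := key x
      have h3 : LinearMap.inr F F V₀ x.2 = x - x.1 • ((1 : F), (0 : V₀)) := by
        rw [eq_sub_iff_add_eq, add_comm]; exact h2.symm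
      rw [h3]
      exact W.1.sub_mem hx (W.1.smul_mem _ he)
  have hdimP : ∀ U : Submodule F V₀, finrank F ((⊤ : Submodule F F).prod U) = finrank F U + 1 := by
    intro U
    let e : (F × U) ≃ₗ[F] ((⊤ : Submodule F F).prod U) :=
      { toFun := fun x => ⟨(x.1, x.2), trivial, x.2.2⟩
        map_add' := fun x y => rfl
        map_smul' := fun c x => rfl
        invFun := fun x => (x.1.1, ⟨x.1.2, x.2.2⟩)
        left_inv := fun x => rfl
        right_inv := fun x => rfl }
    rw [← e.finrank_eq, finrank_prod, finrank_self, add_comm]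
  let e : MulAction.fixedPoints (Multiplicative V₀) (TIs (dB B₀) (m + 1)) ≃ TIs B₀ m :=
    { toFun := fun W => ⟨W.1.1.comap (LinearMap.inr F F V₀), by
        constructor
        · have h2 := hdimP (W.1.1.comap (LinearMap.inr F F V₀))
          rw [hJ W.1 W.2, W.1.2.1] at h2
          omega
        · intro u hu v hv
          exact W.1.2.2 _ hu _ hv⟩
      invFun := fun U => ⟨⟨(⊤ : Submodule F F).prod U.1, by
        constructor
        · rw [hdimP, U.2.1]
        · rintro x ⟨-, hx⟩ y ⟨-, hy⟩
          exact U.2.2 _ hx _ hy⟩, by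
        intro g
        apply Subtype.ext
        show ((⊤ : Submodule F F).prod U.1).map (si B₀ (Multiplicative.toAdd g)) = (⊤ : Submodule F F).prod U.1
        have hle : ∀ y, ∀ x ∈ (⊤ : Submodule F F).prod U.1, si B₀ y x ∈ (⊤ : Submodule F F).prod U.1 := by
          rintro y x ⟨-, hx2⟩
          exact ⟨trivial, hx2⟩
        apply le_antisymm
        · rintro _ ⟨x, hx, rfl⟩
          exact hle _ x hx
        · intro x hx
          refine ⟨si B₀ (-(Multiplicative.toAdd g)) x, hle _ x hx, ?_⟩
          rw [← LinearMap.comp_apply, ← si_add, add_neg_cancel, si_zero]; rfl⟩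
      left_inv := fun W => by
        apply Subtype.ext
        apply Subtype.ext
        exact hJ W.1 W.2
      right_inv := fun U => by
        apply Subtype.ext
        ext v
        show LinearMap.inr F F V₀ v ∈ (⊤ : Submodule F F).prod U.1 ↔ v ∈ U.1
        rw [Submodule.mem_prod]
        exact ⟨fun h => h.2, fun h => ⟨trivial, h⟩⟩ }
  rw [Nat.card_congr e]

end siegel

theorem tis_congr {V V' : Type u} [AddCommGroup V] [Module F V] [AddCommGroup V'] [Module F V'] {B : LinearMap.BilinForm F V} {B' : LinearMap.BilinForm F V'}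
    (e : V ≃ₗ[F] V') (he : ∀ u v, B' (e u) (e v) = B u v) (m : ℕ) : Nat.card (TIs B m) = Nat.card (TIs B' m) := by
  have h1 : ∀ v, e (e.symm v) = v := fun v => e.apply_symm_apply v
  apply Nat.card_congr
  refine
    { toFun := fun W => ⟨W.1.map e.toLinearMap, ?_⟩
      invFun := fun W => ⟨W.1.map e.symm.toLinearMap, ?_⟩
      left_inv := fun W => ?_
      right_inv := fun W => ?_ }
  · refine ⟨(LinearEquiv.finrank_map_eq e _).trans W.2.1, ?_⟩
    rintro _ ⟨u, hu, rfl⟩ _ ⟨w, hw, rfl⟩
    show B' (e u) (e w) = 0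
    rw [he]; exact W.2.2 u hu w hw
  · refine ⟨(LinearEquiv.finrank_map_eq e.symm _).trans W.2.1, ?_⟩
    rintro _ ⟨u, hu, rfl⟩ _ ⟨w, hw, rfl⟩
    show B (e.symm u) (e.symm w) = 0
    rw [← he, h1, h1]; exact W.2.2 u hu w hw
  · apply Subtype.ext
    show (W.1.map e.toLinearMap).map e.symm.toLinearMap = W.1
    rw [← Submodule.map_comp]
    have : e.symm.toLinearMap ∘ₗ e.toLinearMap = LinearMap.id := by
      apply LinearMap.ext; intro v; exact e.symm_apply_apply v
    rw [this, Submodule.map_id]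
  · apply Subtype.ext
    show (W.1.map e.symm.toLinearMap).map e.toLinearMap = W.1
    rw [← Submodule.map_comp]
    have : e.toLinearMap ∘ₗ e.symm.toLinearMap = LinearMap.id := by
      apply LinearMap.ext; intro v; exact e.apply_symm_apply v
    rw [this, Submodule.map_id]

/-- **the number of totally isotropic subspaces is one modulo `p`** -/
theorem ti_count {p : ℕ} [Fact p.Prime] [CharP F p] (m : ℕ) : ∀ (V : Type u) [AddCommGroup V] [Module F V] [FiniteDimensional F V]
    (B : LinearMap.BilinForm F V), (∀ v, B v v = 0) → ND B ⊤ → 2 * m ≤ finrank F V → Nat.card (TIs B m) ≡ 1 [MOD p] := by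
  induction m with
  | zero =>
    intro V _ _ _ B hA hN _
    have : TIs B 0 = {⊥} := by
      ext W
      rw [Set.mem_singleton_iff]
      constructor
      · intro h; exact Submodule.finrank_eq_zero.1 h.1
      · rintro rfl
        refine ⟨finrank_bot F V, ?_⟩
        intro w hw v hv
        rw [(Submodule.mem_bot F).1 hw, _root_.map_zero]; rfl
    rw [this, Nat.card_unique]
  | succ m ih =>
    intro V _ _ _ B hA hN hm
    obtain ⟨j, hj⟩ := even_of_alt (refl_alt hA) _ ⊤ rfl hN (fun x _ => hA x)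
    rw [finrank_top] at hj
    obtain ⟨A, hAd⟩ := exists_sm (F := F) (j - 1)
    obtain ⟨e, he⟩ := exists_isometry' (B := psum (hyB F) A.B) (B' := B) (fun v => by rw [psum_apply, A.alt, hyB_alt, add_zero]) hA
      (psum_nd hyB_nd A.nd) hN (by
        rw [finrank_prod, finrank_prod, finrank_self, hAd]; omega)
    rw [← tis_congr e he]
    exact ((ti_step1 A.B (m + 1)).trans (ti_step2 A.nd m)).trans (ih A.V A.B A.alt A.nd (by omega))

theorem ti_not_p {p : ℕ} [Fact p.Prime] [CharP F p] {V : Type u} [AddCommGroup V] [Module F V] [FiniteDimensional F V]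
    {B : LinearMap.BilinForm F V} (hA : ∀ v, B v v = 0) (hN : ND B ⊤) {m : ℕ} (hm : 2 * m ≤ finrank F V) : ¬ p ∣ Nat.card (TIs B m) := by
  intro h
  have h1 := ti_count (p := p) m V B hA hN hm
  have h2 := (Nat.modEq_zero_iff_dvd.2 h).symm.trans h1
  have hp : p.Prime := Fact.out
  have h3 : p ∣ 1 := Nat.modEq_zero_iff_dvd.1 h2.symm
  exact hp.one_lt.ne' (Nat.dvd_one.1 h3)

end H99.SpTi
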