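import Cfsg.Agent.Lib.H34.SpWB

/-!
S5707, lemma F: an element of Omega not normalising the Clifford space.
-/

set_option autoImplicit false
set_option linter.all false

namespace H99.SpWF

open Matrix Cfsg.Geo H34.SpW

variable {F : Type*} [Field F] {ι : Type} [Fintype ι] [DecidableEq ι] {k t : ℕ} {Q : (ι → F) → F}
  {f : (Fin k → F) → (Fin k → F) → F} {H : Subgroup (GL ι F)}

/-- the matrix of `N` -/
noncomputable def Nmat (hQ : IsNondegenerateQuadraticForm Q) (x y : ι → F) : Matrix ι ι F :=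
  LinearMap.toMatrix' ({
    toFun := fun w => N Q x y w
    map_add' := fun u v => by
      unfold N
      rw [hQ.polar_bilinear.add_left, hQ.polar_bilinear.add_left, add_smul, add_smul]
      abel
    map_smul' := fun c v => by
      unfold N
      rw [hQ.polar_bilinear.smul_left, hQ.polar_bilinear.smul_left, RingHom.id_apply, smul_add, smul_add, mul_smul,
        mul_smul] } : (ι → F) →ₗ[F] (ι → F))

lemma Nmat_mulVec (hQ : IsNondegenerateQuadraticForm Q) (x y w : ι → F) : Nmat hQ x y *ᵥ w = N Q x y w := by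
  rw [Nmat, LinearMap.toMatrix'_mulVec]
  rfl

lemma N_N (hQ : IsNondegenerateQuadraticForm Q) (h2 : (2 : F) = 0) {x y : ι → F}
    (hxy : QuadraticMap.polar Q x y = 0) (w : ι → F) : N Q x y (N Q x y w) = w := by
  have hB := hQ.polar_bilinear
  have hyx : QuadraticMap.polar Q y x = 0 := by rw [QuadraticMap.polar_comm]; exact hxy
  have hxx := B_self hQ h2 x
  have hyy := B_self hQ h2 y
  funext i
  simp only [N, hB.add_left, hB.smul_left, hxy, hyx, hxx, hyy, Pi.add_apply, Pi.smul_apply, smul_eq_mul, mul_zero, add_zero,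
    zero_add]
  linear_combination (QuadraticMap.polar Q w x * y i + QuadraticMap.polar Q w y * x i) * h2

lemma Nmat_sq (hQ : IsNondegenerateQuadraticForm Q) (h2 : (2 : F) = 0) {x y : ι → F}
    (hxy : QuadraticMap.polar Q x y = 0) : Nmat hQ x y * Nmat hQ x y = 1 := by
  apply Matrix.mulVec_injective
  funext w
  rw [← mulVec_mulVec, Nmat_mulVec, Nmat_mulVec, N_N hQ h2 hxy, one_mulVec]

noncomputable def nU (hQ : IsNondegenerateQuadraticForm Q) (h2 : (2 : F) = 0) {x y : ι → F}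
    (hxy : QuadraticMap.polar Q x y = 0) : GL ι F := unit (Nmat hQ x y) (Nmat_sq hQ h2 hxy)

lemma nU_mulVec (hQ : IsNondegenerateQuadraticForm Q) (h2 : (2 : F) = 0) {x y : ι → F}
    (hxy : QuadraticMap.polar Q x y = 0) (w : ι → F) : (nU hQ h2 hxy : Matrix ι ι F) *ᵥ w = N Q x y w :=
  Nmat_mulVec hQ x y w

lemma nU_inv (hQ : IsNondegenerateQuadraticForm Q) (h2 : (2 : F) = 0) {x y : ι → F}
    (hxy : QuadraticMap.polar Q x y = 0) : (nU hQ h2 hxy)⁻¹ = nU hQ h2 hxy := by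
  ext1; rfl

lemma nU_iso (hQ : IsNondegenerateQuadraticForm Q) (h2 : (2 : F) = 0) {x y : ι → F}
    (hxy : QuadraticMap.polar Q x y = 0) (hx : Q x = 0) (hy : Q y = 0) :
    nU hQ h2 hxy ∈ Cfsg.isometryGroup F Q := by
  have key : ∀ w, Q ((nU hQ h2 hxy : Matrix ι ι F) *ᵥ w) = Q w := by
    intro w
    rw [nU_mulVec, N_iso hQ h2 hx hy hxy]
  exact fun u v => key u

lemma comm_mem {a b : GL ι F} (ha : a ∈ Cfsg.isometryGroup F Q) (hb : b ∈ Cfsg.isometryGroup F Q) :
    a * b * a⁻¹ * b⁻¹ ∈ omegaGL Q := by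
  have key : ∀ x y : Cfsg.isometryGroup F Q, x * y * x⁻¹ * y⁻¹ ∈ Cfsg.Omega F Q := fun x y =>
    Subgroup.commutator_mem_commutator (Subgroup.mem_top x) (Subgroup.mem_top y)
  have h1 := Subgroup.mem_map_of_mem (Cfsg.isometryGroup F Q).subtype (key ⟨a, ha⟩ ⟨b, hb⟩)
  rw [map_mul, map_mul, map_mul, map_inv, map_inv] at h1
  exact h1

lemma adjT (S : TS k t Q f H) {E : Matrix (Fin k) (Fin k) F} (hE : ∀ u v, f (E *ᵥ u) v = f u (E *ᵥ v)) (i : Fin t)
    (x y : Fin t → Fin k → F) :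
    QuadraticMap.polar Q (S.T (Function.update x i (E *ᵥ x i))) (S.T y) =
      QuadraticMap.polar Q (S.T x) (S.T (Function.update y i (E *ᵥ y i))) := by
  rw [S.pol, S.pol]
  congr 1
  refine Finset.prod_congr rfl (fun j _ => ?_)
  by_cases hj : j = i
  · subst hj
    rw [Function.update_self, Function.update_self, hE]
  · rw [Function.update_of_ne hj, Function.update_of_ne hj]

theorem exF (h2 : (2 : F) = 0) (hQ : IsNondegenerateQuadraticForm Q) (hf : IsSymplecticForm f) (ht : 2 ≤ t)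
    (S : TS k t Q f H) (D : KD k t f) : ∃ u ∈ omegaGL Q, u ∉ NW S D := by
  have hB := hQ.polar_bilinear
  have c1 := fun u w : ι → F => QuadraticMap.polar_comm Q u w
  have z1 : ∀ v, QuadraticMap.polar Q 0 v = 0 := by
    intro v
    have := hB.smul_left 0 0 v
    simpa using this
  set X := S.T D.x with hX
  set Y := S.T D.y with hY
  set V := S.T D.s with hV
  set Z := S.T D.z with hZ
  set X' := S.T (Function.update D.x D.i₀ (D.E *ᵥ D.x D.i₀)) with hX'
  set Y' := S.T (Function.update D.y D.i₀ (D.E *ᵥ D.y D.i₀)) with hY'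
  set V' := S.T (Function.update D.s D.i₀ (D.E *ᵥ D.s D.i₀)) with hV'
  have bxy : QuadraticMap.polar Q X Y = 0 := by rw [hX, hY, S.pol, D.hxy, mul_zero]
  have bxv : QuadraticMap.polar Q X V = 0 := by rw [hX, hV, S.pol, D.hxs, mul_zero]
  have bxz : QuadraticMap.polar Q X Z = 0 := by rw [hX, hZ, S.pol, D.hxz, mul_zero]
  have byv : QuadraticMap.polar Q Y V = 0 := by rw [hY, hV, S.pol, D.hys, mul_zero]
  have byz : QuadraticMap.polar Q Y Z = 0 := by rw [hY, hZ, S.pol, D.hyz, mul_zero]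
  have bvz : QuadraticMap.polar Q V Z ≠ 0 := by rw [hV, hZ, S.pol]; exact mul_ne_zero S.hc D.hsz
  have bx'v : QuadraticMap.polar Q X' V = 0 := by rw [hX', hV, S.pol, D.hxs', mul_zero]
  have by'v : QuadraticMap.polar Q Y' V = 0 := by rw [hY', hV, S.pol, D.hys', mul_zero]
  have bx'y : QuadraticMap.polar Q X' Y ≠ 0 := by rw [hX', hY, S.pol]; exact mul_ne_zero S.hc D.hxy'
  have bv'x : QuadraticMap.polar Q V' X = 0 := by
    rw [hV', hX, adjT S D.adjE, ← hX', ← hV, c1]; exact bx'v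
  have bv'y : QuadraticMap.polar Q V' Y = 0 := by
    rw [hV', hY, adjT S D.adjE, ← hY', ← hV, c1]; exact by'v
  have bx'x : QuadraticMap.polar Q X' X = 0 := by
    have hex : ∃ i : Fin t, i ≠ D.i₀ := by
      have : Nontrivial (Fin t) := Fin.nontrivial_iff_two_le.mpr ht
      exact exists_ne D.i₀
    obtain ⟨i, hi⟩ := hex
    rw [hX', hX, S.pol, Finset.prod_eq_zero (Finset.mem_univ i), mul_zero]
    rw [Function.update_of_ne hi, hf.alternating]
  set m := QuadraticMap.polar Q V Z with hm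
  set u : GL ι F := nU hQ h2 byz * nU hQ h2 bxv * (nU hQ h2 byz)⁻¹ * (nU hQ h2 bxv)⁻¹ with hu
  have hu1 : ∀ w, (u : Matrix ι ι F) *ᵥ w = N Q X (m • Y) w := by
    intro w
    rw [hu, nU_inv, nU_inv, Units.val_mul, Units.val_mul, Units.val_mul, ← mulVec_mulVec, ← mulVec_mulVec,
      ← mulVec_mulVec, nU_mulVec, nU_mulVec, nU_mulVec, nU_mulVec, N_comm hQ h2 bxy bxv bxz byv byz]
  have hinv : ∀ w w', (u : Matrix ι ι F) *ᵥ w = w' → ((u⁻¹ : GL ι F) : Matrix ι ι F) *ᵥ w' = w := by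
    rintro w w' rfl
    rw [mulVec_mulVec, ← Units.val_mul, inv_mul_cancel, Units.val_one, one_mulVec]
  have huX : (u : Matrix ι ι F) *ᵥ X = X := by
    rw [hu1, N, B_self hQ h2, hB.smul_right, bxy, mul_zero, zero_smul, zero_smul, add_zero, add_zero]
  have huV : (u : Matrix ι ι F) *ᵥ V = V := by
    rw [hu1, N, c1 V X, bxv, hB.smul_right, c1 V Y, byv, mul_zero, zero_smul, zero_smul, add_zero, add_zero]
  have huX' : (u : Matrix ι ι F) *ᵥ X' = X' + (m * QuadraticMap.polar Q X' Y) • X := by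
    rw [hu1, N, bx'x, hB.smul_right, zero_smul, zero_add]
  have huV' : (u : Matrix ι ι F) *ᵥ V' = V' := by
    rw [hu1, N, bv'x, hB.smul_right, bv'y, mul_zero, zero_smul, zero_smul, add_zero, add_zero]
  refine ⟨u, comm_mem (nU_iso hQ h2 byz (S.sing _) (S.sing _)) (nU_iso hQ h2 bxv (S.sing _) (S.sing _)), ?_⟩
  intro hN
  have hA := mem_W S D D.i₀ D.hE
  have hAX : S.φ D.i₀ D.E *ᵥ X = X' := S.hφ _ _ _
  have hAV : S.φ D.i₀ D.E *ᵥ V = V' := S.hφ _ _ _
  obtain ⟨c, hc⟩ := W_sq h2 S D ((W S D).add_mem (hN.1 _ hA) hA)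
  set R := (u : Matrix ι ι F) * S.φ D.i₀ D.E * ((u⁻¹ : GL ι F) : Matrix ι ι F) + S.φ D.i₀ D.E with hR
  have hRX : R *ᵥ X = (m * QuadraticMap.polar Q X' Y) • X := by
    rw [hR, add_mulVec, ← mulVec_mulVec, ← mulVec_mulVec, hinv X X huX, hAX, huX', add_right_comm, two_v h2, zero_add]
  have hRV : R *ᵥ V = 0 := by
    rw [hR, add_mulVec, ← mulVec_mulVec, ← mulVec_mulVec, hinv V V huV, hAV, huV', two_v h2]
  have hV0 : V ≠ 0 := by
    intro h0
    apply bvz
    rw [hm, h0, z1]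
  have hX0 : X ≠ 0 := by
    intro h0
    apply bx'y
    rw [← hAX, h0, mulVec_zero, z1]
  have e1 : (R * R) *ᵥ V = 0 := by rw [← mulVec_mulVec, hRV, mulVec_zero]
  have e2 : (R * R) *ᵥ X = ((m * QuadraticMap.polar Q X' Y) * (m * QuadraticMap.polar Q X' Y)) • X := by
    rw [← mulVec_mulVec, hRX, mulVec_smul, hRX, smul_smul]
  rw [hc, smul_mulVec, one_mulVec] at e1 e2
  have hc0 : c = 0 := (smul_eq_zero.mp e1).resolve_right hV0
  rw [hc0, zero_smul] at e2
  rcases smul_eq_zero.mp e2.symm with h | h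
  · have h3 := mul_self_eq_zero.mp h
    exact (mul_ne_zero bvz bx'y) h3
  · exact hX0 h

end H99.SpWF
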