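import Mathlib
import Cfsg.Agent.Lib.H34.SpWDefs
import Cfsg.Agent.Lib.H97.AschPow

/-!
S5707, piece TS: the tensor structure.
-/

set_option autoImplicit false

namespace H99.SpWTS

open Cfsg Cfsg.Geo Matrix H97.AschForm H97.AschUnits H97.AschWreath H97.AschWreathNorm H97.AschTP H97.AschPow H97.AschTF

variable {F : Type*} [Field F]

lemma cr_act {ι κ : Type} [Fintype ι] [DecidableEq ι] [Fintype κ] [DecidableEq κ] (e : ι ≃ κ) (P : GL ι F)
    (X : Matrix κ κ F) (v : κ → F) :
    cr e P X *ᵥ ((P : Matrix ι ι F) *ᵥ (v ∘ e)) = (P : Matrix ι ι F) *ᵥ ((X *ᵥ v) ∘ e) := by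
  rw [cr_apply, Matrix.mulVec_mulVec]
  rw [Matrix.mul_assoc, ← Units.val_mul, inv_mul_cancel, Units.val_one, Matrix.mul_one, ← Matrix.mulVec_mulVec]
  congr 1
  ext a
  simp only [mulVec, dotProduct, submatrix_apply, Function.comp_apply]
  exact Fintype.sum_equiv e _ _ (fun b => rfl)

/-- one slot of the tensor power -/
noncomputable def slotHom (k t : ℕ) (F : Type*) [Field F] (i : Fin t) :
    Matrix (Fin k) (Fin k) F →ₐ[F] Matrix (Fin t → Fin k) (Fin t → Fin k) F :=
  AlgHom.ofLinearMap ((pureT t k F).toLinearMap (fun _ => 1) i)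
    (by
      change pureT t k F (Function.update (fun _ => 1) i 1) = 1
      rw [show Function.update (fun _ : Fin t => (1 : Matrix (Fin k) (Fin k) F)) i 1 = fun _ => 1 from
        Function.update_eq_self i (fun _ : Fin t => (1 : Matrix (Fin k) (Fin k) F))]
      exact pureT_one)
    (by
      intro X Y
      change pureT t k F (Function.update (fun _ => 1) i (X * Y)) =
        pureT t k F (Function.update (fun _ => 1) i X) * pureT t k F (Function.update (fun _ => 1) i Y)
      rw [pureT_mul]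
      congr 1
      funext j
      by_cases hj : j = i
      · subst hj; simp
      · rw [Function.update_of_ne hj, Function.update_of_ne hj, Function.update_of_ne hj, mul_one])

lemma slotHom_apply {k t : ℕ} (i : Fin t) (X : Matrix (Fin k) (Fin k) F) :
    slotHom k t F i X = pureT t k F (Function.update (fun _ => 1) i X) := rfl

lemma slot_pureV {k t : ℕ} (i : Fin t) (X : Matrix (Fin k) (Fin k) F) (x : Fin t → Fin k → F) :
    slotHom k t F i X *ᵥ pureV x = pureV (Function.update x i (X *ᵥ x i)) := by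
  rw [slotHom_apply, pureT_pureV]
  congr 1
  funext j
  by_cases hj : j = i
  · subst hj; rw [Function.update_self, Function.update_self]
  · rw [Function.update_of_ne hj, Function.update_of_ne hj, Matrix.one_mulVec]

lemma std_act {k t : ℕ} (h : GL (Fin t → Fin k) F) (hh : h ∈ tensorWreathStandard k t F) :
    ∃ (A : Fin t → GL (Fin k) F) (σ : Equiv.Perm (Fin t)),
      ∀ x, (h : Matrix _ _ F) *ᵥ pureV x = pureV (fun i => (A i : Matrix (Fin k) (Fin k) F) *ᵥ x (σ i)) := by
  induction hh using Subgroup.closure_induction with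
  | mem g hg =>
    rcases hg with ⟨gs, hgs⟩ | ⟨σ, hσ⟩
    · refine ⟨gs, 1, fun x => ?_⟩
      have h1 : (g : Matrix _ _ F) = pureT t k F (fun i => (gs i : Matrix (Fin k) (Fin k) F)) := by
        ext a b
        rw [hgs, pureT_apply]
      rw [h1, pureT_pureV]
      rfl
    · refine ⟨fun _ => 1, σ⁻¹, fun x => ?_⟩
      have h1 : (g : Matrix (Fin t → Fin k) (Fin t → Fin k) F) =
          ((factorPerm k t F σ : GL (Fin t → Fin k) F) : Matrix (Fin t → Fin k) (Fin t → Fin k) F) := by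
        ext a b
        rw [hσ, factorPerm_apply]
      rw [h1, factorPerm_pureV]
      simp only [Units.val_one, Matrix.one_mulVec]
      rfl
  | one =>
    refine ⟨fun _ => 1, 1, fun x => ?_⟩
    simp only [Units.val_one, Matrix.one_mulVec]
    rfl
  | mul g h _ _ ihg ihh =>
    obtain ⟨B, τ, hB⟩ := ihg
    obtain ⟨A, σ, hA⟩ := ihh
    refine ⟨fun i => B i * A (τ i), σ * τ, fun x => ?_⟩
    rw [Units.val_mul, ← Matrix.mulVec_mulVec, hA, hB]
    congr 1
    funext i
    rw [Units.val_mul, ← Matrix.mulVec_mulVec]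
    rfl
  | inv g _ ih =>
    obtain ⟨A, σ, hA⟩ := ih
    refine ⟨fun i => (A (σ⁻¹ i))⁻¹, σ⁻¹, fun y => ?_⟩
    have h1 := hA (fun i => (((A (σ⁻¹ i))⁻¹ : GL (Fin k) F) : Matrix (Fin k) (Fin k) F) *ᵥ y (σ⁻¹ i))
    have h2 : (fun i => (A i : Matrix (Fin k) (Fin k) F) *ᵥ
        ((fun i => (((A (σ⁻¹ i))⁻¹ : GL (Fin k) F) : Matrix (Fin k) (Fin k) F) *ᵥ y (σ⁻¹ i)) (σ i))) = y := by
      funext i
      have hi : σ⁻¹ (σ i) = i := σ.symm_apply_apply i
      simp only [hi]
      rw [Matrix.mulVec_mulVec, ← Units.val_mul, mul_inv_cancel, Units.val_one, Matrix.one_mulVec]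
    rw [h2] at h1
    conv_lhs => rw [← h1]
    rw [Matrix.mulVec_mulVec, ← Units.val_mul, inv_mul_cancel, Units.val_one, Matrix.one_mulVec]

lemma form_gram {k : ℕ} {f : (Fin k → F) → (Fin k → F) → F} (hf : IsBilinearForm f) (x y : Fin k → F) :
    formOfGram (RingEquiv.refl F) (gramMatrix f) x y = f x y := by
  have h := fog_gram (IsSesq.of_bilinear hf)
  exact congrFun (congrFun h x) y

theorem ts_exists {F : Type*} [Field F] [Fintype F] {n : ℕ} (Q : (Fin n → F) → F)
    (hQ : Cfsg.Geo.IsNondegenerateQuadraticForm Q) (k t : ℕ) (ht : 2 ≤ t) (e : (Fin n) ≃ (Fin t → Fin k))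
    (P : Matrix.GeneralLinearGroup (Fin n) F) (f₁ : (Fin k → F) → (Fin k → F) → F)
    (hf₁ : Cfsg.Geo.IsSymplecticForm f₁)
    (hT : Cfsg.Geo.IsTensorPowerFormStructure id (QuadraticMap.polar Q) f₁ e P)
    (hpure : (∀ xs : Fin t → (Fin k → F),
      Q (Matrix.mulVec (P : Matrix (Fin n) (Fin n) F) ((fun a : Fin t → Fin k => ∏ i, xs i (a i)) ∘ e)) = 0)) :
    Nonempty (H34.SpW.TS k t Q f₁ (Cfsg.Geo.tensorWreathSubgroup k t e P)) := by
  obtain ⟨c, hc, hpol⟩ := hT
  refine ⟨{
    T := fun x => (P : Matrix (Fin n) (Fin n) F) *ᵥ (pureV x ∘ e)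
    c := c
    hc := hc
    pol := ?_
    sing := fun x => hpure x
    φ := fun i => (cr e P : Matrix _ _ F →ₐ[F] Matrix _ _ F).comp (slotHom k t F i)
    hφ := ?_
    span := ?_
    wr := ?_ }⟩
  · intro x y
    rw [hpol]
    have h1 := powForm_pureV (RingEquiv.refl F) (gramMatrix f₁) x y
    simp only [form_gram hf₁.bilinear] at h1
    rw [← h1]
    rfl
  · intro i X x
    change cr e P (slotHom k t F i X) *ᵥ _ = _
    rw [cr_act, slot_pureV]
  · let L : ((Fin t → Fin k) → F) →ₗ[F] (Fin n → F) :=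
      (Matrix.mulVecLin (P : Matrix (Fin n) (Fin n) F)) ∘ₗ (LinearMap.funLeft F F e)
    have hL : Function.Surjective L := by
      intro v
      refine ⟨(((P⁻¹ : GL (Fin n) F) : Matrix (Fin n) (Fin n) F) *ᵥ v) ∘ e.symm, ?_⟩
      change (P : Matrix (Fin n) (Fin n) F) *ᵥ
        (((((P⁻¹ : GL (Fin n) F) : Matrix (Fin n) (Fin n) F) *ᵥ v) ∘ e.symm) ∘ e) = v
      rw [Function.comp_assoc, Equiv.symm_comp_self, Function.comp_id, Matrix.mulVec_mulVec, ← Units.val_mul,
        mul_inv_cancel, Units.val_one, Matrix.one_mulVec]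
    rw [eq_top_iff]
    intro v _
    obtain ⟨w, rfl⟩ := hL v
    have hw : w = ∑ a, w a • (Pi.single a (1 : F) : (Fin t → Fin k) → F) := by
      rw [← pi_eq_sum_univ' w]
    rw [hw, map_sum]
    refine Submodule.sum_mem _ (fun a _ => ?_)
    rw [map_smul]
    refine Submodule.smul_mem _ _ (Submodule.subset_span ⟨fun i => Pi.single (a i) 1, ?_⟩)
    rw [← pureV_single]
    rfl
  · intro g hg
    obtain ⟨g', ⟨h, hh, rfl⟩, rfl⟩ := hg
    obtain ⟨A, σ, hA⟩ := std_act h hh
    refine ⟨A, σ, fun x => ?_⟩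
    have h1 : (((MulAut.conj P).toMonoidHom ((glReindex e.symm).toMonoidHom h) : GL (Fin n) F) : Matrix (Fin n) (Fin n) F)
        = cr e P (h : Matrix _ _ F) := rfl
    rw [h1, cr_act, hA]

end H99.SpWTS
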