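import Cfsg.Agent.Lib.H99.SpWF
import Cfsg.Agent.Lib.H99.SpWTS

/-!
S5707, the main deduction from the pieces.
-/

set_option autoImplicit false
set_option linter.all false

namespace H99.SpWMain

open Matrix Cfsg.Geo H34.SpW

lemma two_zero {F : Type*} [Field F] [Fintype F] (h : ¬ Odd (Fintype.card F)) : (2 : F) = 0 := by
  by_contra h2
  apply h
  have h3 : ringChar F ≠ 2 := by
    intro h4
    apply h2
    have := (ringChar.spec F 2).mpr (by rw [h4])
    exact_mod_cast this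
  exact Nat.odd_iff.mpr (FiniteField.odd_card_of_char_ne_two h3)

lemma card_pow {n k t : ℕ} (e : (Fin n) ≃ (Fin t → Fin k)) : n = k ^ t := by
  have := Fintype.card_congr e
  simpa using this

theorem main {F : Type*} [Field F] {ι : Type} [Fintype ι] [DecidableEq ι] {k t : ℕ} {Q : (ι → F) → F}
    {f : (Fin k → F) → (Fin k → F) → F} {H : Subgroup (GL ι F)}
    (h2 : (2 : F) = 0) (hQ : IsNondegenerateQuadraticForm Q) (hf : IsSymplecticForm f) (ht : 2 ≤ t)
    (S : TS k t Q f H) (D : KD k t f) (hE : ∃ g ∈ omegaGL Q, g ∈ NW S D ∧ g ∉ H) :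
    ∃ K : Subgroup (GL ι F), H ⊓ omegaGL Q < K ∧ K < omegaGL Q := by
  have hle : omegaGL Q ≤ Cfsg.isometryGroup F Q := by
    rintro _ ⟨g, -, rfl⟩
    exact g.2
  refine ⟨NW S D ⊓ omegaGL Q, lt_of_le_of_ne ?_ ?_, lt_of_le_of_ne inf_le_right ?_⟩
  · exact fun g hg => ⟨tw_mem S D hg.1 (hle hg.2), hg.2⟩
  · intro h
    obtain ⟨g, hg, hN, hH⟩ := hE
    exact hH (h.ge (show g ∈ NW S D ⊓ omegaGL Q from ⟨hN, hg⟩)).1
  · intro h
    obtain ⟨u, hu, hN⟩ := H99.SpWF.exF h2 hQ hf ht S D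
    exact hN (h.ge hu).1

end H99.SpWMain
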