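import Mathlib
import Cfsg.Agent.Lib.H99.Cyclic2
import Cfsg.Agent.Lib.H99.Subfield
import Cfsg.Agent.Lib.H99.Imp3

set_option autoImplicit false
set_option linter.unusedSimpArgs false
set_option linter.unusedSectionVars false
set_option linter.unusedVariables false

/-! Semisimple elements of prime order and subfield subgroups. -/

namespace H99.Sub1

open Module Polynomial Matrix H99.Cyclic H99.Cyclic.Data

section cm

variable {F : Type*} [Field F]

theorem det_bd {m : ℕ} {n : Fin m → ℕ} (M : (i : Fin m) → Matrix (Fin (n i)) (Fin (n i)) F) :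
    (Matrix.blockDiagonal' M).det = ∏ i, (M i).det := by
  classical
  have h := (blockTriangular_blockDiagonal' M).det_fintype
  rw [h]
  refine Finset.prod_congr rfl fun k _ => ?_
  let e : {s : (Σ i, Fin (n i)) // s.1 = k} ≃ Fin (n k) := Equiv.sigmaSubtype k
  rw [← Matrix.det_reindex_self e]
  congr 1
  ext a c
  rw [Matrix.reindex_apply, Matrix.submatrix_apply]
  show Matrix.blockDiagonal' M ⟨k, a⟩ ⟨k, c⟩ = _
  rw [Matrix.blockDiagonal'_apply_eq]

theorem cm_eq {g : F[X]} (hg : g.Monic) (hi : Irreducible g) :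
    Algebra.leftMulMatrix (AdjoinRoot.powerBasis' hg).basis (AdjoinRoot.root g) = cm g.natDegree g := by
  have h1 := PowerBasis.leftMulMatrix (AdjoinRoot.powerBasis' hg)
  have h2 : (AdjoinRoot.powerBasis' hg).gen = AdjoinRoot.root g := AdjoinRoot.powerBasis'_gen hg
  rw [h2] at h1
  have : Fact (Irreducible g) := ⟨hi⟩
  have h3 : (AdjoinRoot.powerBasis' hg).minpolyGen = g := by
    rw [PowerBasis.minpolyGen_eq, h2, AdjoinRoot.minpoly_root hi.ne_zero, hg.leadingCoeff, inv_one, map_one, mul_one]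
  rw [h1]
  ext a c
  have hc : (c : ℕ) < g.natDegree := c.2
  simp only [cm, Matrix.of_apply, h3]
  have hd : (AdjoinRoot.powerBasis' hg).dim = g.natDegree := AdjoinRoot.powerBasis'_dim hg
  by_cases h : (c : ℕ) + 1 < g.natDegree
  · rw [if_pos h, if_neg (fun h' => absurd (h'.trans hd) (ne_of_lt h))]
  · rw [if_neg h, if_pos ((le_antisymm hc (not_lt.1 h)).trans hd.symm)]

/-- elements of the centralizer with prescribed determinant -/
theorem exists_comm_det [Finite F] {V : Type*} [AddCommGroup V] [Module F V] {T : V →ₗ[F] V} {m : ℕ} {f : Fin m → F[X]}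
    (D : Data T f) (hirr : ∀ i, Irreducible (f i)) (i0 : Fin m) (d : F) :
    ∃ c : V →ₗ[F] V, (∀ v, c (T v) = T (c v)) ∧ LinearMap.det c = d := by
  classical
  have hfact : Fact (Irreducible (f i0)) := ⟨hirr i0⟩
  have hfd : FiniteDimensional F (AdjoinRoot (f i0)) := (AdjoinRoot.powerBasis (hirr i0).ne_zero).finite
  have hfin : Finite (AdjoinRoot (f i0)) := Module.finite_of_finite F
  obtain ⟨e, he⟩ := FiniteField.norm_surjective F (AdjoinRoot (f i0)) d
  let E : (i : Fin m) → AdjoinRoot (f i) := Function.update (fun i => (1 : AdjoinRoot (f i))) i0 e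
  let M : (i : Fin m) → Matrix (Fin (f i).natDegree) (Fin (f i).natDegree) F := fun i =>
    Algebra.leftMulMatrix (AdjoinRoot.powerBasis' (D.monic i)).basis (E i)
  set C : Matrix (Σ i : Fin m, Fin (f i).natDegree) (Σ i : Fin m, Fin (f i).natDegree) F := Matrix.blockDiagonal' M with hC
  have hMd : ∀ i, (M i).det = Algebra.norm F (E i) := fun i =>
    (Algebra.norm_eq_matrix_det (AdjoinRoot.powerBasis' (D.monic i)).basis (E i)).symm
  have hCdet : C.det = d := by
    rw [hC, det_bd, Finset.prod_eq_single i0]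
    · rw [hMd]
      show Algebra.norm F (Function.update (fun i => (1 : AdjoinRoot (f i))) i0 e i0) = d
      rw [Function.update_self, he]
    · intro i _ hi
      rw [hMd]
      show Algebra.norm F (Function.update (fun i => (1 : AdjoinRoot (f i))) i0 e i) = 1
      rw [Function.update_of_ne hi, map_one]
    · intro h; exact absurd (Finset.mem_univ _) h
  have hCJ : LinearMap.toMatrix D.b D.b T * C = C * LinearMap.toMatrix D.b D.b T := by
    rw [D.toMatrix_eq, hC, ← Matrix.blockDiagonal'_mul, ← Matrix.blockDiagonal'_mul]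
    congr 1
    funext i
    show cm (f i).natDegree (f i) * M i = M i * cm (f i).natDegree (f i)
    rw [← cm_eq (D.monic i) (hirr i)]
    show Algebra.leftMulMatrix (AdjoinRoot.powerBasis' (D.monic i)).basis (AdjoinRoot.root (f i)) *
      Algebra.leftMulMatrix (AdjoinRoot.powerBasis' (D.monic i)).basis (E i) = 
      Algebra.leftMulMatrix (AdjoinRoot.powerBasis' (D.monic i)).basis (E i) *
      Algebra.leftMulMatrix (AdjoinRoot.powerBasis' (D.monic i)).basis (AdjoinRoot.root (f i))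
    rw [← _root_.map_mul, ← _root_.map_mul, mul_comm]
  refine ⟨Matrix.toLin D.b D.b C, ?_, ?_⟩
  · have h1 : Matrix.toLin D.b D.b C ∘ₗ T = T ∘ₗ Matrix.toLin D.b D.b C := by
      apply (LinearMap.toMatrix D.b D.b).injective
      rw [LinearMap.toMatrix_comp D.b D.b D.b, LinearMap.toMatrix_comp D.b D.b D.b, LinearMap.toMatrix_toLin, hCJ]
    exact fun v => LinearMap.congr_fun h1 v
  · rw [LinearMap.det_toLin, hCdet]

theorem exists_factor {F₀ : Type*} [Field F₀] (φ : F₀ →+* F) (f : F[X]) (hf : Irreducible f) (P : F₀[X]) : P ≠ 0 → f ∣ P.map φ →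
    ∃ g : F₀[X], Irreducible g ∧ g ∣ P ∧ f ∣ g.map φ := by
  induction P using WfDvdMonoid.induction_on_irreducible with
  | zero => intro h; exact absurd rfl h
  | unit u hu =>
    intro _ h
    exfalso
    apply hf.not_isUnit
    exact isUnit_of_dvd_unit h (hu.map (mapRingHom φ))
  | mul a i ha hi ih =>
    intro _ h
    rw [Polynomial.map_mul] at h
    rcases hf.prime.dvd_or_dvd h with h | h
    · exact ⟨i, hi, dvd_mul_right _ _, h⟩
    · obtain ⟨g, g1, g2, g3⟩ := ih ha h
      exact ⟨g, g1, g2.mul_left _, g3⟩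

theorem exists_lift [Fintype F] {r : ℕ} (hr : r.Prime) (hrq : ¬ r ∣ Fintype.card F) {F₀ : Type*} [Field F₀] [Fintype F₀] (hrq₀ : ¬ r ∣ Fintype.card F₀)
    (φ : F₀ →+* F) (hord : orderOf ((Fintype.card F : ℕ) : ZMod r) = orderOf ((Fintype.card F₀ : ℕ) : ZMod r)) {f : F[X]} (hf : Irreducible f)
    (hm : f.Monic) (hd : f ∣ X ^ r - 1) : ∃ g : F₀[X], g.Monic ∧ g.map φ = f := by
  classical
  have : Fact r.Prime := ⟨hr⟩
  rw [← cyclotomic_prime_mul_X_sub_one] at hd
  rcases hf.prime.dvd_or_dvd hd with h | h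
  · have h2 := h
    rw [← Polynomial.map_cyclotomic r φ] at h2
    obtain ⟨g, g1, g2, g3⟩ := exists_factor φ f hf _ (cyclotomic_ne_zero r F₀) h2
    have d1 := Iso.natDegree_irr hr hrq hf h
    have d2 := Iso.natDegree_irr hr hrq₀ g1 g2
    refine ⟨normalize g, monic_normalize g1.ne_zero, ?_⟩
    have g4 : f ∣ (normalize g).map φ := g3.trans (Polynomial.map_dvd φ (normalize_associated g).symm.dvd)
    have hmn : ((normalize g).map φ).Monic := (monic_normalize g1.ne_zero).map φ
    refine Polynomial.eq_of_monic_of_dvd_of_natDegree_le hm hmn g4 ?_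
    rw [Polynomial.natDegree_map, natDegree_eq_of_degree_eq degree_normalize, d1, d2, hord]
  · refine ⟨X - 1, monic_X_sub_C 1, ?_⟩
    rw [Polynomial.map_sub, Polynomial.map_X, Polynomial.map_one]
    have h1 : (X - 1 : F[X]) = X - C 1 := by rw [C_1]
    rw [h1] at h ⊢
    exact (eq_of_monic_of_associated hm (monic_X_sub_C 1) (hf.associated_of_dvd (irreducible_X_sub_C 1) h)).symm

end cm

section good

variable {F : Type*} [Field F] [Fintype F] {n : ℕ}

theorem cm_map {F₀ : Type*} [Field F₀] (φ : F₀ →+* F) (g : F₀[X]) (d : ℕ) : cm d (g.map φ) = (cm d g).map φ := by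
  ext a c
  simp only [cm, Matrix.map_apply, Polynomial.coeff_map]
  split_ifs <;> simp

/-- membership of conjugates in the subfield subgroup -/
theorem mem_of_conj (F₀ : Subfield F) (x P : Matrix.SpecialLinearGroup (Fin n) F) (Y : Matrix (Fin n) (Fin n) F₀) (hY : Y.det ≠ 0) {c : F} (hc : c ≠ 0)
    (h : (x : Matrix (Fin n) (Fin n) F) * (P : Matrix (Fin n) (Fin n) F) = (P : Matrix (Fin n) (Fin n) F) * (c • Y.map (F₀.subtype : F₀ →+* F))) :
    P⁻¹ * x * P ∈ ((Cfsg.Geo.subfieldSubgroup F₀ 1).comap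
      (Matrix.SpecialLinearGroup.toGL : Matrix.SpecialLinearGroup (Fin n) F →* GL (Fin n) F)) := by
  rw [Subgroup.mem_comap, H99.Subfield.mem_subfield]
  refine ⟨Matrix.GeneralLinearGroup.mkOfDetNeZero Y hY, Units.mk0 c hc, ?_⟩
  rw [mul_assoc]
  show ((P⁻¹ * (x * P) : Matrix.SpecialLinearGroup (Fin n) F) : Matrix (Fin n) (Fin n) F) = c • Y.map (F₀.subtype : F₀ →+* F)
  rw [Matrix.SpecialLinearGroup.coe_mul, Matrix.SpecialLinearGroup.coe_mul, h, ← Matrix.mul_assoc]
  have e3 : ((P⁻¹ : Matrix.SpecialLinearGroup (Fin n) F) : Matrix (Fin n) (Fin n) F) * (P : Matrix (Fin n) (Fin n) F) = 1 := by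
    rw [← Matrix.SpecialLinearGroup.coe_mul, inv_mul_cancel, Matrix.SpecialLinearGroup.coe_one]
  rw [e3, Matrix.one_mul]

theorem conj_of_mem (F₀ : Subfield F) (x P : Matrix.SpecialLinearGroup (Fin n) F)
    (h : P⁻¹ * x * P ∈ ((Cfsg.Geo.subfieldSubgroup F₀ 1).comap
      (Matrix.SpecialLinearGroup.toGL : Matrix.SpecialLinearGroup (Fin n) F →* GL (Fin n) F))) :
    ∃ (Y : Matrix (Fin n) (Fin n) F₀) (c : F), Y.det ≠ 0 ∧ c ≠ 0 ∧
      (x : Matrix (Fin n) (Fin n) F) * (P : Matrix (Fin n) (Fin n) F) = (P : Matrix (Fin n) (Fin n) F) * (c • Y.map (F₀.subtype : F₀ →+* F)) := by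
  rw [Subgroup.mem_comap, H99.Subfield.mem_subfield] at h
  obtain ⟨g0, c, hg⟩ := h
  have hg' : ((P⁻¹ * x * P : Matrix.SpecialLinearGroup (Fin n) F) : Matrix (Fin n) (Fin n) F) = (c : F) • (g0 : Matrix (Fin n) (Fin n) F₀).map (F₀.subtype : F₀ →+* F) := hg
  refine ⟨(g0 : Matrix (Fin n) (Fin n) F₀), (c : F), (Matrix.isUnits_det_units g0).ne_zero, c.ne_zero, ?_⟩
  rw [← hg', ← Matrix.SpecialLinearGroup.coe_mul, ← Matrix.SpecialLinearGroup.coe_mul]
  have e : x * P = P * (P⁻¹ * x * P) := by group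
  exact congrArg (fun g : Matrix.SpecialLinearGroup (Fin n) F => (g : Matrix (Fin n) (Fin n) F)) e

theorem good (hn : 0 < n) {r : ℕ} (hr : r.Prime) (hrq : ¬ r ∣ Fintype.card F) (F₀ : Subfield F) [Fintype F₀] (hrq₀ : ¬ r ∣ Fintype.card F₀)
    (hord : orderOf ((Fintype.card F : ℕ) : ZMod r) = orderOf ((Fintype.card F₀ : ℕ) : ZMod r))
    (x : Matrix.SpecialLinearGroup (Fin n) F) {w : F} (hw : w ≠ 0)
    (hx : (x : Matrix (Fin n) (Fin n) F) ^ r = (w ^ r) • (1 : Matrix (Fin n) (Fin n) F)) :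
    ∃ P : Matrix.SpecialLinearGroup (Fin n) F, P⁻¹ * x * P ∈ ((Cfsg.Geo.subfieldSubgroup F₀ 1).comap
      (Matrix.SpecialLinearGroup.toGL : Matrix.SpecialLinearGroup (Fin n) F →* GL (Fin n) F)) := by
  classical
  set X := (x : Matrix (Fin n) (Fin n) F) with hX
  set y : Matrix (Fin n) (Fin n) F := w⁻¹ • X with hy
  have hyr : y ^ r = 1 := by
    rw [hy, _root_.smul_pow, hx, smul_smul, inv_pow, inv_mul_cancel₀ (pow_ne_zero _ hw), one_smul]
  have hxy : X = w • y := by rw [hy, smul_smul, mul_inv_cancel₀ hw, one_smul]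
  set T := Matrix.toLin' y with hT
  have hTr : T ^ r = 1 := by
    rw [hT, ← Matrix.toLin'_pow, hyr, Matrix.toLin'_one]; rfl
  obtain ⟨m, f, D, hf⟩ := exists_cyclic_basis T
  have hdvd : ∀ i, f i ∣ Polynomial.X ^ r - 1 := fun i => by
    apply D.dvd_of_aeval
    rw [_root_.map_sub, _root_.map_pow, aeval_X, _root_.map_one, hTr, sub_self]
  have hsq : Squarefree (Polynomial.X ^ r - 1 : F[X]) := H99.Blk.squarefree_X_pow r (Iso.natCast_ne_zero hr hrq)
  have hirr : ∀ i, Irreducible (f i) := by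
    intro i
    obtain ⟨p, e, hp, hpm, he, hpe⟩ := hf i
    have he1 : e = 1 := by
      by_contra hne
      have h2 : 2 ≤ e := by omega
      have h3 : p * p ∣ Polynomial.X ^ r - 1 := by
        rw [← pow_two]
        exact (pow_dvd_pow p h2).trans (hpe ▸ hdvd i)
      exact hp.not_isUnit (hsq p h3)
    rw [hpe, he1, pow_one]; exact hp
  have hlift : ∀ i, ∃ g : F₀[X], g.Monic ∧ g.map (F₀.subtype : F₀ →+* F) = f i := fun i =>
    exists_lift hr hrq hrq₀ (F₀.subtype : F₀ →+* F) hord (hirr i) (D.monic i) (hdvd i)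
  choose g hg1 hg2 using hlift
  have hcard : Fintype.card (Σ i : Fin m, Fin (f i).natDegree) = Fintype.card (Fin n) := by
    rw [← Module.finrank_eq_card_basis D.b, Module.finrank_fintype_fun_eq_card]
  let e : (Σ i : Fin m, Fin (f i).natDegree) ≃ Fin n := Fintype.equivOfCardEq hcard
  obtain ⟨P, hP, hyP⟩ := conj_of_basis y D.b e
  rw [← hT, D.toMatrix_eq] at hyP
  have hm : 0 < m := by
    rcases Nat.eq_zero_or_pos m with h | h
    · exfalso
      subst h
      have := e.symm ⟨0, hn⟩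
      exact this.1.elim0
    · exact h
  -- adjust the determinant
  obtain ⟨c, hc1, hc2⟩ := exists_comm_det D hirr ⟨0, hm⟩ (P.det)⁻¹
  set Cm := LinearMap.toMatrix' c with hCm
  have hCdet : Cm.det = (P.det)⁻¹ := by rw [hCm, LinearMap.det_toMatrix', hc2]
  have hCy : Cm * y = y * Cm := by
    apply Matrix.toLin'.injective
    rw [Matrix.toLin'_mul, Matrix.toLin'_mul, hCm, Matrix.toLin'_toMatrix']
    exact LinearMap.ext hc1
  let P' : Matrix.SpecialLinearGroup (Fin n) F := ⟨Cm * P, by rw [Matrix.det_mul, hCdet, inv_mul_cancel₀ hP]⟩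
  let Y : Matrix (Fin n) (Fin n) F₀ := Matrix.reindex e e (Matrix.blockDiagonal' (fun i => cm (f i).natDegree (g i)))
  have hYm : Y.map (F₀.subtype : F₀ →+* F) = Matrix.reindex e e (Matrix.blockDiagonal' (fun i => cm (f i).natDegree (f i))) := by
    show (Matrix.reindex e e (Matrix.blockDiagonal' (fun i => cm (f i).natDegree (g i)))).map (F₀.subtype : F₀ →+* F) = _
    rw [Matrix.reindex_apply, Matrix.reindex_apply, ← Matrix.submatrix_map]
    congr 1
    rw [Matrix.blockDiagonal'_map _ _ (map_zero _)]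
    congr 1
    funext i
    rw [← cm_map, hg2]
  have hyP' : y * (Cm * P) = (Cm * P) * Y.map (F₀.subtype : F₀ →+* F) := by
    rw [← Matrix.mul_assoc, ← hCy, Matrix.mul_assoc, hyP, hYm, Matrix.mul_assoc]
  have hYdet : Y.det ≠ 0 := by
    intro h
    have h1 := congrArg Matrix.det hyP'
    have h2 : (Y.map (F₀.subtype : F₀ →+* F)).det = 0 := by
      have := RingHom.map_det (F₀.subtype : F₀ →+* F) Y
      rw [h, map_zero] at this
      exact this.symm
    rw [Matrix.det_mul y, Matrix.det_mul (Cm * P), h2, mul_zero] at h1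
    have h3 : y.det ^ r = 1 := by rw [← Matrix.det_pow, hyr, Matrix.det_one]
    have h4 : y.det ≠ 0 := by
      intro h0
      rw [h0, zero_pow hr.ne_zero] at h3
      exact zero_ne_one h3
    have h5 : (Cm * P).det ≠ 0 := by rw [Matrix.det_mul, hCdet, inv_mul_cancel₀ hP]; exact one_ne_zero
    exact mul_ne_zero h4 h5 h1
  refine ⟨P', mem_of_conj F₀ x P' Y hYdet hw ?_⟩
  show X * (Cm * P) = (Cm * P) * (w • Y.map (F₀.subtype : F₀ →+* F))
  rw [hxy, Matrix.smul_mul, hyP', Matrix.mul_smul]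

end good

end H99.Sub1
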