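import Mathlib
import Cfsg.Agent.Lib.H99.Sub1
import Cfsg.Agent.Lib.H99.NoForm
import Cfsg.Agent.Lib.H99.Eig

set_option autoImplicit false
set_option linter.unusedSimpArgs false
set_option linter.unusedSectionVars false
set_option linter.unusedVariables false
set_option maxHeartbeats 400000

/-! Subfield subgroups: elements of prime order not conjugate into the subgroup. -/

namespace H99.Sub2

open Module Polynomial Matrix H99.Cyclic H99.Cyclic.Data

variable {F : Type*} [Field F] [Fintype F] {n : ℕ}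

/-- powers -/
theorem exists_root_of_pow {r : ℕ} (hr : r.Prime) (hdvd : r ∣ Fintype.card F - 1) {z : F} (hz : z ≠ 0) {m : ℕ} (hm0 : m ≠ 0) (hzm : z ^ m = 1)
    (hv : padicValNat r m < padicValNat r (Fintype.card F - 1)) : ∃ w : F, w ^ r = z := by
  classical
  have : Fact r.Prime := ⟨hr⟩
  have hq1 : 1 < Fintype.card F := Fintype.one_lt_card
  have hz1 : z ^ (Fintype.card F - 1) = 1 := FiniteField.pow_card_sub_one_eq_one z hz
  obtain ⟨s, hs⟩ := hdvd
  have hzs : z ^ s = 1 := by
    have h1 : z ^ (Nat.gcd m (Fintype.card F - 1)) = 1 := pow_gcd_eq_one.2 ⟨hzm, hz1⟩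
    obtain ⟨t, ht⟩ := Nat.gcd_dvd_right m (Fintype.card F - 1)
    set d := Nat.gcd m (Fintype.card F - 1) with hd
    have hrt : r ∣ t := by
      by_contra hrt
      have hd0 : d ≠ 0 := by
        intro h
        rw [h, zero_mul] at ht
        omega
      have ht0 : t ≠ 0 := by
        rintro rfl
        omega
      have h2 : padicValNat r (Fintype.card F - 1) = padicValNat r d := by
        rw [ht, padicValNat.mul hd0 ht0, padicValNat.eq_zero_of_not_dvd hrt, add_zero]
      obtain ⟨u, hu⟩ := Nat.gcd_dvd_left m (Fintype.card F - 1)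
      rw [← hd] at hu
      have hu0 : u ≠ 0 := by
        rintro rfl
        omega
      have h3 : padicValNat r m = padicValNat r d + padicValNat r u := by
        conv_lhs => rw [hu]
        rw [padicValNat.mul hd0 hu0]
      omega
    obtain ⟨t', ht'⟩ := hrt
    have : s = d * t' := by
      have h4 : r * s = r * (d * t') := by rw [← hs, ht, ht']; ring
      exact Nat.eq_of_mul_eq_mul_left hr.pos h4
    rw [this, pow_mul, h1, one_pow]
  obtain ⟨g, hg⟩ := IsCyclic.exists_generator (α := Fˣ)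
  have ho : orderOf g = Fintype.card F - 1 := by
    rw [orderOf_eq_card_of_forall_mem_zpowers hg, Nat.card_eq_fintype_card, Fintype.card_units]
  obtain ⟨j, hj⟩ := hg (Units.mk0 z hz)
  have hj' : g ^ j = Units.mk0 z hz := hj
  have h5 : g ^ (j * (s : ℤ)) = 1 := by
    rw [_root_.zpow_mul, hj', zpow_natCast]
    apply Units.ext
    rw [Units.val_pow_eq_pow_val, Units.val_mk0, hzs]; rfl
  have h6 := orderOf_dvd_iff_zpow_eq_one.2 h5
  rw [ho, hs] at h6
  have hs0 : s ≠ 0 := by
    rintro rfl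
    omega
  have h7 : (r : ℤ) ∣ j := by
    push_cast at h6
    exact Int.dvd_of_mul_dvd_mul_right (by exact_mod_cast hs0) h6
  obtain ⟨l, hl⟩ := h7
  refine ⟨((g ^ l : Fˣ) : F), ?_⟩
  rw [← Units.val_pow_eq_pow_val, ← zpow_natCast, ← _root_.zpow_mul, mul_comm, ← hl, hj', Units.val_mk0]

theorem det_cm {g : F[X]} (hg : g.Monic) (hi : Irreducible g) : (cm g.natDegree g).det = (-1) ^ g.natDegree * g.coeff 0 := by
  have : Fact (Irreducible g) := ⟨hi⟩
  have e : (cm g.natDegree g).det = Algebra.norm F (AdjoinRoot.root g) :=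
    (congrArg Matrix.det (Sub1.cm_eq hg hi)).symm.trans
      (Algebra.norm_eq_matrix_det (AdjoinRoot.powerBasis' hg).basis (AdjoinRoot.root g)).symm
  rw [e]
  have h2 : (AdjoinRoot.powerBasis' hg).gen = AdjoinRoot.root g := AdjoinRoot.powerBasis'_gen hg
  have h1 := Algebra.PowerBasis.norm_gen_eq_coeff_zero_minpoly (AdjoinRoot.powerBasis' hg)
  rw [h2, AdjoinRoot.minpoly_root hi.ne_zero, hg.leadingCoeff, inv_one, map_one, mul_one, AdjoinRoot.powerBasis'_dim] at h1
  exact h1

theorem pow_det {r : ℕ} (hr : r.Prime) (hodd : Odd r) {X : Matrix (Fin n) (Fin n) F} {z : F}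
    (hX : X ^ r = z • (1 : Matrix (Fin n) (Fin n) F)) (hirr : Irreducible (Polynomial.X ^ r - C z : F[X])) :
    ∃ m, n = m * r ∧ X.det = z ^ m := by
  classical
  obtain ⟨m, f, D, hf⟩ := exists_cyclic_basis (Matrix.toLin' X)
  have hmon : (Polynomial.X ^ r - C z : F[X]).Monic := monic_X_pow_sub_C _ hr.ne_zero
  have hall : ∀ i, f i = Polynomial.X ^ r - C z := by
    intro i
    have hd : f i ∣ Polynomial.X ^ r - C z := by
      apply D.dvd_of_aeval
      rw [_root_.map_sub, _root_.map_pow, aeval_X, aeval_C, ← Matrix.toLin'_pow, hX, _root_.map_smul, Matrix.toLin'_one, Algebra.algebraMap_eq_smul_one]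
      exact sub_self _
    rcases hirr.dvd_iff.1 hd with h | h
    · exfalso
      have := D.pos i
      rw [natDegree_eq_zero_of_isUnit h] at this
      omega
    · exact eq_of_monic_of_associated (D.monic i) hmon h.symm
  have hdeg : (Polynomial.X ^ r - C z : F[X]).natDegree = r := natDegree_X_pow_sub_C
  refine ⟨m, ?_, ?_⟩
  · have h1 := Module.finrank_eq_card_basis D.b
    rw [Module.finrank_fintype_fun_eq_card, Fintype.card_fin, Fintype.card_sigma] at h1
    simp only [Fintype.card_fin] at h1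
    rw [h1, Finset.sum_congr rfl (fun i _ => by rw [hall i, hdeg])]
    rw [Finset.sum_const, Finset.card_univ, Fintype.card_fin, smul_eq_mul]
  · rw [← LinearMap.det_toLin', ← LinearMap.det_toMatrix D.b, D.toMatrix_eq, Sub1.det_bd]
    rw [Finset.prod_congr rfl (fun i _ => by
      rw [hall i, det_cm hmon hirr, hdeg, hodd.neg_one_pow, coeff_sub, coeff_X_pow, if_neg hr.ne_zero.symm, coeff_C_zero]
      : ∀ i ∈ Finset.univ, (cm (f i).natDegree (f i)).det = -1 * (0 - z))]
    rw [Finset.prod_const, Finset.card_univ, Fintype.card_fin]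
    congr 1
    ring

/-- scalar `r`-th powers are `r`-th powers of scalars -/
theorem exists_root {r : ℕ} (hr : r.Prime) (hodd : Odd r) (hn : 0 < n) (x : Matrix.SpecialLinearGroup (Fin n) F) {z : F} (hz : z ≠ 0)
    (hx : (x : Matrix (Fin n) (Fin n) F) ^ r = z • (1 : Matrix (Fin n) (Fin n) F))
    (hv : r ∣ Fintype.card F - 1 → padicValNat r n ≤ padicValNat r (Fintype.card F - 1)) : ∃ w : F, w ≠ 0 ∧ w ^ r = z := by
  have : Fact r.Prime := ⟨hr⟩
  by_cases hdvd : r ∣ Fintype.card F - 1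
  · have key : ∃ w : F, w ^ r = z := by
      by_contra hcon
      push Not at hcon
      obtain ⟨m, hm1, hm2⟩ := pow_det hr hodd hx (X_pow_sub_C_irreducible_of_prime hr hcon)
      rw [x.2] at hm2
      have hm0 : m ≠ 0 := by rintro rfl; omega
      have h1 : padicValNat r n = padicValNat r m + 1 := by
        rw [hm1, padicValNat.mul hm0 hr.ne_zero, padicValNat_self]
      obtain ⟨w, hw⟩ := exists_root_of_pow hr hdvd hz hm0 hm2.symm (by have := hv hdvd; omega)
      exact hcon w hw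
    obtain ⟨w, hw⟩ := key
    refine ⟨w, ?_, hw⟩
    rintro rfl
    rw [zero_pow hr.ne_zero] at hw
    exact hz hw.symm
  · exact H99.Imp.exists_root hr hdvd hz

theorem charpoly_conj (P N : Matrix (Fin n) (Fin n) F) (hP : P.det ≠ 0) : (P * N * P⁻¹).charpoly = N.charpoly := by
  have hPu : IsUnit P := (Matrix.isUnit_iff_isUnit_det _).2 (isUnit_iff_ne_zero.2 hP)
  obtain ⟨u, rfl⟩ := hPu
  exact Matrix.charpoly_units_conj u N

/-- the spectrum of a matrix conjugate into the subfield group -/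
theorem diag_conj (F₀ : Subfield F) [Fintype F₀] {D : Fin n → F} {P : Matrix (Fin n) (Fin n) F} (hP : P.det ≠ 0) {Y : Matrix (Fin n) (Fin n) F₀} {c : F}
    (hc : c ≠ 0) (h : Matrix.diagonal D * P = P * (c • Y.map (F₀.subtype : F₀ →+* F))) :
    ∃ (l : F) (σ : Equiv.Perm (Fin n)), l ≠ 0 ∧ ∀ i, D i ^ Fintype.card F₀ = l * D (σ i) := by
  classical
  set q₀ := Fintype.card F₀ with hq₀
  let φ : F →ₐ[F₀] F := FiniteField.frobeniusAlgHom F₀ F
  have hφ : ∀ a, φ a = a ^ q₀ := fun a => rfl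
  set a : Fin n → F := fun i => c⁻¹ * D i with ha
  have h1 : Matrix.diagonal a = P * Y.map (F₀.subtype : F₀ →+* F) * P⁻¹ := by
    have h2 : Matrix.diagonal a = c⁻¹ • Matrix.diagonal D := by
      rw [← Matrix.diagonal_smul]; rfl
    have hu : IsUnit P.det := isUnit_iff_ne_zero.2 hP
    have h3 : Matrix.diagonal D = c • (P * Y.map (F₀.subtype : F₀ →+* F) * P⁻¹) := by
      have : Matrix.diagonal D * P * P⁻¹ = Matrix.diagonal D := by rw [Matrix.mul_assoc, Matrix.mul_nonsing_inv _ hu, Matrix.mul_one]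
      rw [← this, h, Matrix.mul_smul, Matrix.smul_mul]
    rw [h2, h3, smul_smul, inv_mul_cancel₀ hc, one_smul]
  have hcp : (Matrix.diagonal a).charpoly = (Y.charpoly).map (F₀.subtype : F₀ →+* F) := by
    rw [← Matrix.charpoly_map, h1, charpoly_conj P _ hP]
  have hdiag : (Matrix.diagonal a).charpoly = ∏ i, (Polynomial.X - C (a i)) := by
    rw [Matrix.charpoly_diagonal]
  have hfix : ((Matrix.diagonal a).charpoly).map (φ : F →+* F) = (Matrix.diagonal a).charpoly := by
    rw [hcp, Polynomial.map_map]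
    congr 1
    ext b
    show φ (b : F) = (b : F)
    exact φ.commutes b
  have hms : Multiset.map (fun i => φ (a i)) Finset.univ.val = Multiset.map a Finset.univ.val := by
    have h5 : ((Matrix.diagonal a).charpoly).map (φ : F →+* F) = ∏ i, (Polynomial.X - C (φ (a i))) := by
      rw [hdiag, Polynomial.map_prod]
      refine Finset.prod_congr rfl fun i _ => ?_
      rw [Polynomial.map_sub, Polynomial.map_X, Polynomial.map_C]; rfl
    rw [hfix, hdiag] at h5
    have h6 := congrArg Polynomial.roots h5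
    have hr : ∀ b : Fin n → F, (∏ i, (Polynomial.X - C (b i))).roots = Multiset.map b Finset.univ.val := by
      intro b
      rw [← Polynomial.roots_multiset_prod_X_sub_C (Multiset.map b Finset.univ.val), Multiset.map_map]
      rfl
    rw [hr, hr] at h6
    exact h6.symm
  obtain ⟨σ, hσ⟩ := exists_equiv (f := fun i => φ (a i)) (f' := a) (by
    intro g
    rw [Fintype.card_subtype, Fintype.card_subtype]
    have := congrArg (Multiset.count g) hms
    rw [Multiset.count_map, Multiset.count_map] at this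
    simp only [eq_comm (a := g)] at this
    exact this)
  refine ⟨c ^ q₀ * c⁻¹, σ, mul_ne_zero (pow_ne_zero _ hc) (inv_ne_zero hc), fun i => ?_⟩
  have h7 := hσ i
  simp only [ha, hφ, mul_pow, inv_pow] at h7
  rw [mul_assoc, h7, ← mul_assoc, mul_inv_cancel₀ (pow_ne_zero _ hc), one_mul]

/-- transfer to forms, quadratic extensions -/
theorem nf_bad (hn : 0 < n) (F₀ : Subfield F) [Fintype F₀] {D : Fin n → F} (hD : ∀ i, D i ^ (Fintype.card F₀ + 1) = 1)
    (hnf : NoForm.NF (RingHom.id F) (Matrix.diagonal D)) {P : Matrix (Fin n) (Fin n) F} (hP : P.det ≠ 0) {Y : Matrix (Fin n) (Fin n) F₀} {c : F}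
    (hc : c ≠ 0) (h : Matrix.diagonal D * P = P * (c • Y.map (F₀.subtype : F₀ →+* F))) : False := by
  classical
  obtain ⟨l, σ, hl, hσ⟩ := diag_conj F₀ hP hc h
  have hD0 : ∀ i, D i ≠ 0 := by
    intro i h0
    have := hD i
    rw [h0, zero_pow (by omega)] at this
    exact zero_ne_one this
  have h1 : ∀ i, D i * D (σ i) = l⁻¹ := by
    intro i
    have h2 := hD i
    rw [pow_succ, hσ] at h2
    apply eq_inv_of_mul_eq_one_left
    linear_combination h2
  apply hnf (fun u v => ∑ i, u i * v (σ i)) l⁻¹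
  · refine ⟨?_, ?_, ?_, ?_, ?_⟩
    · intro x y v
      simp only [Pi.add_apply, add_mul, Finset.sum_add_distrib]
    · intro c x v
      simp only [Pi.smul_apply, smul_eq_mul, Finset.mul_sum, mul_assoc]
    · intro v x y
      simp only [Pi.add_apply, mul_add, Finset.sum_add_distrib]
    · intro c v x
      simp only [Pi.smul_apply, smul_eq_mul, Finset.mul_sum, RingHom.id_apply]
      exact Finset.sum_congr rfl fun i _ => by ring
    · intro u hu
      funext i
      have : ∑ j, u j * (Pi.single (σ i) (1 : F) : Fin n → F) (σ j) = 0 := hu _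
      rw [Finset.sum_eq_single i] at this
      · simpa using this
      · intro j _ hj
        rw [Pi.single_eq_of_ne (fun h => hj (σ.injective h)), mul_zero]
      · intro h; exact absurd (Finset.mem_univ _) h
  · intro u v
    simp only [Finset.mul_sum]
    refine Finset.sum_congr rfl fun i _ => ?_
    rw [Matrix.mulVec_diagonal, Matrix.mulVec_diagonal, ← h1 i]
    ring

/-- scalars in the subfield -/
theorem mem_of_pow {r : ℕ} (hr : r.Prime) (hdvd : ¬ r ∣ Fintype.card F - 1) (F₀ : Subfield F) {c : F} (hc0 : c ≠ 0) (hc : c ^ r ∈ F₀) : c ∈ F₀ := by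
  have hq1 : 1 < Fintype.card F := Fintype.one_lt_card
  have h1 : c ^ (Fintype.card F - 1) = 1 := FiniteField.pow_card_sub_one_eq_one c hc0
  generalize Fintype.card F - 1 = N at hdvd h1
  have hcop : Nat.Coprime r N := (Nat.Prime.coprime_iff_not_dvd hr).2 hdvd
  rcases (by omega : N = 0 ∨ N = 1 ∨ 1 < N) with h | h | h
  · exact absurd (h ▸ dvd_zero r) hdvd
  · rw [h, pow_one] at h1
    rw [h1]; exact F₀.one_mem
  · obtain ⟨a, -, ha⟩ := Nat.exists_mul_mod_eq_one_of_coprime hcop h
    have h2 : (c ^ r) ^ a = c := by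
      rw [← pow_mul, ← Nat.div_add_mod (r * a) N, ha, pow_succ, pow_mul, h1, one_pow, one_mul]
    rw [← h2]
    exact pow_mem hc a

/-- **the block element is bad** -/
theorem block_bad {r : ℕ} (hr : r.Prime) (hrq : ¬ r ∣ Fintype.card F) (hdvd : ¬ r ∣ Fintype.card F - 1) (F₀ : Subfield F) [Fintype F₀]
    (hrq₀ : ¬ r ∣ Fintype.card F₀) {i : ℕ} (hi : i ≤ n) (hi2 : 2 ≤ i)
    (hlt : i < orderOf ((Fintype.card F₀ : ℕ) : ZMod r)) {M : Matrix (Fin i) (Fin i) F} {G : F[X]} (hG : Irreducible G) (hGm : G.Monic)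
    (hGd : G.natDegree = i) (hCG : M.charpoly = G) (hCr : M ^ r = 1) (e : (Fin i ⊕ Fin (n - i)) ≃ Fin n)
    {P : Matrix (Fin n) (Fin n) F} (hP : P.det ≠ 0) {Y : Matrix (Fin n) (Fin n) F₀} {c : F} (hc : c ≠ 0)
    (h : Blk.emb e M * P = P * (c • Y.map (F₀.subtype : F₀ →+* F))) : False := by
  classical
  have hpos : 0 < n := by omega
  have : Nonempty (Fin n) := ⟨⟨0, hpos⟩⟩
  have hu : IsUnit P.det := isUnit_iff_ne_zero.2 hP
  have h0 : Blk.emb e M = P * (c • Y.map (F₀.subtype : F₀ →+* F)) * P⁻¹ := by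
    rw [← h, Matrix.mul_assoc, Matrix.mul_nonsing_inv _ hu, Matrix.mul_one]
  -- the scalar
  have hpow : ∀ k : ℕ, (Blk.emb e M) ^ k = P * (c • Y.map (F₀.subtype : F₀ →+* F)) ^ k * P⁻¹ := by
    intro k
    induction k with
    | zero => rw [pow_zero, pow_zero, Matrix.mul_one, Matrix.mul_nonsing_inv _ hu]
    | succ k ih =>
      rw [pow_succ, ih, h0, pow_succ]
      calc P * (c • Y.map (F₀.subtype : F₀ →+* F)) ^ k * P⁻¹ * (P * (c • Y.map (F₀.subtype : F₀ →+* F)) * P⁻¹) =
          P * (c • Y.map (F₀.subtype : F₀ →+* F)) ^ k * (P⁻¹ * P) * (c • Y.map (F₀.subtype : F₀ →+* F)) * P⁻¹ := by simp only [Matrix.mul_assoc]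
        _ = _ := by rw [Matrix.nonsing_inv_mul _ hu, Matrix.mul_one]; simp only [Matrix.mul_assoc]
  have hcr : (c • Y.map (F₀.subtype : F₀ →+* F)) ^ r = 1 := by
    have h1 := hpow r
    rw [Blk.emb_pow, hCr, Blk.emb_one] at h1
    have h2 : P⁻¹ * (P * (c • Y.map (F₀.subtype : F₀ →+* F)) ^ r * P⁻¹) * P = P⁻¹ * 1 * P := by rw [← h1]
    rw [Matrix.mul_one, Matrix.nonsing_inv_mul _ hu] at h2
    rw [← h2]
    calc (c • Y.map (F₀.subtype : F₀ →+* F)) ^ r = (P⁻¹ * P) * (c • Y.map (F₀.subtype : F₀ →+* F)) ^ r * (P⁻¹ * P) := by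
          rw [Matrix.nonsing_inv_mul _ hu, Matrix.one_mul, Matrix.mul_one]
      _ = _ := by simp only [Matrix.mul_assoc]
  have hcF : c⁻¹ ∈ F₀ := by
    apply mem_of_pow hr hdvd F₀ (inv_ne_zero hc)
    rw [_root_.smul_pow] at hcr
    have h3 : (Y.map (F₀.subtype : F₀ →+* F)) ^ r = (Y ^ r).map (F₀.subtype : F₀ →+* F) := by
      have := _root_.map_pow (RingHom.mapMatrix (m := Fin n) (F₀.subtype : F₀ →+* F)) Y r
      exact this.symm
    rw [h3] at hcr
    have h4 := congrFun (congrFun hcr ⟨0, hpos⟩) ⟨0, hpos⟩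
    rw [Matrix.smul_apply, Matrix.map_apply, Matrix.one_apply_eq, smul_eq_mul] at h4
    have h5 : c⁻¹ ^ r = (F₀.subtype : F₀ →+* F) ((Y ^ r) ⟨0, hpos⟩ ⟨0, hpos⟩) := by
      rw [inv_pow]
      exact inv_eq_of_mul_eq_one_right h4
    rw [h5]
    exact ((Y ^ r) ⟨0, hpos⟩ ⟨0, hpos⟩).2
  have hcF' : c ∈ F₀ := by
    have := F₀.inv_mem hcF
    rwa [inv_inv] at this
  let c₀ : F₀ := ⟨c, hcF'⟩
  have hY' : c • Y.map (F₀.subtype : F₀ →+* F) = (c₀ • Y).map (F₀.subtype : F₀ →+* F) := by
    ext a b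
    rfl
  have hcp : M.charpoly * (X - 1) ^ (n - i) = ((c₀ • Y).charpoly).map (F₀.subtype : F₀ →+* F) := by
    rw [← Blk.emb_charpoly e M, h0, hY', charpoly_conj P _ hP, Matrix.charpoly_map]
  -- descend
  have hmapX : ((X - 1 : F₀[X]) ^ (n - i)).map (F₀.subtype : F₀ →+* F) = (X - 1) ^ (n - i) := by
    rw [Polynomial.map_pow, Polynomial.map_sub, Polynomial.map_X, Polynomial.map_one]
  have hdv : (X - 1 : F₀[X]) ^ (n - i) ∣ (c₀ • Y).charpoly := by
    rw [← Polynomial.map_dvd_map' (F₀.subtype : F₀ →+* F), hmapX, ← hcp]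
    exact dvd_mul_left _ _
  obtain ⟨G₀, hG₀⟩ := hdv
  have hGG : G₀.map (F₀.subtype : F₀ →+* F) = G := by
    have hne : (X - 1 : F[X]) ^ (n - i) ≠ 0 := pow_ne_zero _ (by
      have h1 : (X - 1 : F[X]) = X - C 1 := by rw [C_1]
      rw [h1]; exact X_sub_C_ne_zero 1)
    apply mul_left_cancel₀ hne
    rw [← hmapX, ← Polynomial.map_mul, ← hG₀, ← hcp, hmapX, hCG]
    ring
  have hm0 : G₀.Monic := by
    apply Polynomial.monic_of_injective (F₀.subtype : F₀ →+* F).injective
    rw [hGG]; exact hGm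
  have hirr₀ : Irreducible G₀ := hm0.irreducible_of_irreducible_map (F₀.subtype : F₀ →+* F) G₀ (by rw [hGG]; exact hG)
  have hdeg₀ : G₀.natDegree = i := by rw [← hGd, ← hGG, Polynomial.natDegree_map]
  have hfr : Fact r.Prime := ⟨hr⟩
  have hGdvd : G ∣ X ^ r - 1 := by
    have hNe : Nonempty (Fin i) := ⟨⟨0, by omega⟩⟩
    have h1 : minpoly F M ∣ X ^ r - 1 := by
      apply minpoly.dvd
      rw [_root_.map_sub, _root_.map_pow, aeval_X, _root_.map_one, hCr, sub_self]
    have h2 : minpoly F M ∣ G := by rw [← hCG]; exact Matrix.minpoly_dvd_charpoly M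
    rcases hG.dvd_iff.1 h2 with h3 | h3
    · exact absurd h3 (minpoly.not_isUnit F M)
    · exact h3.dvd.trans h1
  have hG₀d : G₀ ∣ X ^ r - 1 := by
    rw [← Polynomial.map_dvd_map' (F₀.subtype : F₀ →+* F), hGG, Polynomial.map_sub, Polynomial.map_pow, Polynomial.map_X, Polynomial.map_one]
    exact hGdvd
  rw [← cyclotomic_prime_mul_X_sub_one] at hG₀d
  rcases hirr₀.prime.dvd_or_dvd hG₀d with h6 | h6
  · have := Iso.natDegree_irr hr hrq₀ hirr₀ h6
    omega
  · have h7 : (X - 1 : F₀[X]) = X - C 1 := by rw [C_1]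
    rw [h7] at h6
    have := Polynomial.natDegree_le_of_dvd h6 (X_sub_C_ne_zero 1)
    rw [natDegree_X_sub_C] at this
    omega

end H99.Sub2
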