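import Mathlib
import Cfsg.Agent.Lib.H99.Sub2
import Cfsg.Agent.Lib.H6.SL2Sylow

set_option autoImplicit false
set_option linter.unusedSimpArgs false
set_option linter.unusedSectionVars false
set_option linter.unusedVariables false
set_option maxHeartbeats 400000

/-! Subfield subgroups: indices, the exceptional case. -/

namespace H99.Sub3

open Module Matrix

variable {F : Type*} [Field F] [Fintype F] {n : ℕ}

theorem index_nd {r : ℕ} (hr : r.Prime) (F₀ : Subfield F) (k q₀ : ℕ) (hk : 0 < k) (hF₀ : Nat.card F₀ = q₀)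
    (hq : Fintype.card F = q₀ ^ k) (hrq₀ : ¬ r ∣ q₀) (hsum : ∀ m, 1 ≤ m → m ≤ n → ¬ r ∣ ∑ j ∈ Finset.range k, (q₀ ^ m) ^ j) :
    ¬ r ∣ ((Cfsg.Geo.subfieldSubgroup F₀ 1).comap
      (Matrix.SpecialLinearGroup.toGL : Matrix.SpecialLinearGroup (Fin n) F →* GL (Fin n) F)).index := by
  classical
  intro h2
  have hfin : Fintype F₀ := Fintype.ofFinite F₀
  set R := (Matrix.GeneralLinearGroup.map (F₀.subtype : F₀ →+* F) : GL (Fin n) F₀ →* GL (Fin n) F).range with hR
  have hnorm : (Matrix.SpecialLinearGroup.toGL : Matrix.SpecialLinearGroup (Fin n) F →* GL (Fin n) F).range.Normal := by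
    have : (Matrix.SpecialLinearGroup.toGL : Matrix.SpecialLinearGroup (Fin n) F →* GL (Fin n) F).range =
        (Matrix.GeneralLinearGroup.det : GL (Fin n) F →* Fˣ).ker := by
      ext g
      constructor
      · rintro ⟨s, rfl⟩
        rw [MonoidHom.mem_ker]
        apply Units.ext
        exact s.2
      · intro hg
        rw [MonoidHom.mem_ker] at hg
        refine ⟨⟨(g : Matrix (Fin n) (Fin n) F), by
          have := congrArg Units.val hg; simpa using this⟩, ?_⟩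
        apply Units.ext
        rfl
    rw [this]
    infer_instance
  rw [Subgroup.index_comap] at h2
  have h3 : r ∣ R.index :=
    (h2.trans (Subfield.relIndex_dvd_index _ _)).trans (Subgroup.index_dvd_of_le (Subfield.range_le F₀))
  have hq01 : 1 ≤ q₀ := by
    rw [← hF₀]; exact Nat.card_pos
  -- cards
  have hc1 : Nat.card (GL (Fin n) F) = ∏ i : Fin n, ((q₀ ^ k) ^ n - (q₀ ^ k) ^ (i : ℕ)) := by
    have := Matrix.card_GL_field (𝔽 := F) n
    rw [this, hq]
  have hc2 : Nat.card (GL (Fin n) F₀) = ∏ i : Fin n, (q₀ ^ n - q₀ ^ (i : ℕ)) := by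
    have := Matrix.card_GL_field (𝔽 := F₀) n
    rw [this, ← Nat.card_eq_fintype_card, hF₀]
  have hc3 : Nat.card R = Nat.card (GL (Fin n) F₀) := by
    rw [hR]
    exact (Nat.card_congr (MonoidHom.ofInjective (Subfield.map_injective F₀)).toEquiv).symm
  have hc4 : R.index * Nat.card R = Nat.card (GL (Fin n) F) := Subgroup.index_mul_card R
  have key : ∀ i : Fin n, ∃ c : ℕ, ¬ r ∣ c ∧ (q₀ ^ k) ^ n - (q₀ ^ k) ^ (i : ℕ) = c * (q₀ ^ n - q₀ ^ (i : ℕ)) := by
    intro i
    obtain ⟨m, hm⟩ : ∃ m, n = (i : ℕ) + m := ⟨n - i, by omega⟩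
    set u := q₀ ^ m with hu
    have hu1 : 1 ≤ u := Nat.one_le_pow _ _ hq01
    refine ⟨(∑ j ∈ Finset.range k, u ^ j) * (q₀ ^ (i : ℕ)) ^ (k - 1), ?_, ?_⟩
    · intro hd
      rcases hr.dvd_mul.1 hd with h | h
      · exact hsum m (by have := i.2; omega) (by omega) h
      · exact hrq₀ (hr.dvd_of_dvd_pow (hr.dvd_of_dvd_pow h))
    · have hg := geom_sum_mul_of_one_le hu1 k
      have e1 : (q₀ ^ k) ^ n = (q₀ ^ (i : ℕ)) ^ k * u ^ k := by
        rw [hu, ← pow_mul, ← pow_mul, ← pow_mul, ← pow_add]; congr 1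
        calc k * n = k * ((i : ℕ) + m) := congrArg (k * ·) hm
          _ = _ := by ring
      have e2 : (q₀ ^ k) ^ (i : ℕ) = (q₀ ^ (i : ℕ)) ^ k := by
        rw [← pow_mul, ← pow_mul, mul_comm]
      have e3 : q₀ ^ n = q₀ ^ (i : ℕ) * u := by
        rw [hu, ← pow_add]; congr 1
      rw [e1, e2, e3]
      have e4 : (q₀ ^ (i : ℕ)) ^ k = (q₀ ^ (i : ℕ)) ^ (k - 1) * q₀ ^ (i : ℕ) := by
        rw [← pow_succ]; congr 1; omega
      calc (q₀ ^ (i : ℕ)) ^ k * u ^ k - (q₀ ^ (i : ℕ)) ^ k = (q₀ ^ (i : ℕ)) ^ k * (u ^ k - 1) := by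
            rw [Nat.mul_sub, mul_one]
        _ = ((q₀ ^ (i : ℕ)) ^ (k - 1) * q₀ ^ (i : ℕ)) * ((∑ i ∈ Finset.range k, u ^ i) * (u - 1)) := by
            rw [← hg, e4]
        _ = (∑ j ∈ Finset.range k, u ^ j) * (q₀ ^ (i : ℕ)) ^ (k - 1) * (q₀ ^ (i : ℕ) * (u - 1)) := by ring
        _ = _ := by rw [Nat.mul_sub, mul_one]
  choose c hc hc' using key
  have hprod : ∏ i : Fin n, ((q₀ ^ k) ^ n - (q₀ ^ k) ^ (i : ℕ)) = (∏ i, c i) * ∏ i : Fin n, (q₀ ^ n - q₀ ^ (i : ℕ)) := by
    rw [← Finset.prod_mul_distrib]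
    exact Finset.prod_congr rfl fun i _ => hc' i
  have hpos : 0 < Nat.card (GL (Fin n) F₀) := Nat.card_pos
  have : R.index = ∏ i, c i := by
    rw [hc3, hc1, hprod, ← hc2] at hc4
    exact Nat.eq_of_mul_eq_mul_right hpos hc4
  rw [this] at h3
  obtain ⟨i, -, hi⟩ := (hr.prime.dvd_finsetProd_iff _).1 h3
  exact hc i hi

theorem geom_nd {r : ℕ} (hr : r.Prime) {k : ℕ} (hk : k.Prime) (hrk : r ≠ k) {q₀ : ℕ} (hki : ¬ k ∣ orderOf ((q₀ : ℕ) : ZMod r)) (m : ℕ) :
    ¬ r ∣ ∑ j ∈ Finset.range k, (q₀ ^ m) ^ j := by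
  have : Fact r.Prime := ⟨hr⟩
  intro h
  have h1 : (∑ j ∈ Finset.range k, ((q₀ : ZMod r) ^ m) ^ j) = 0 := by
    have := (ZMod.natCast_eq_zero_iff _ r).2 h
    push_cast at this
    exact this
  set u := (q₀ : ZMod r) ^ m with hu
  by_cases hu1 : u = 1
  · rw [hu1] at h1
    simp only [one_pow, Finset.sum_const, Finset.card_range, nsmul_eq_mul, mul_one] at h1
    exact hrk ((Nat.prime_dvd_prime_iff_eq hr hk).1 ((ZMod.natCast_eq_zero_iff _ _).1 h1))
  · have h2 := geom_sum_mul u k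
    rw [h1, zero_mul] at h2
    have h3 : u ^ k = 1 := (sub_eq_zero.1 h2.symm)
    have h4 := orderOf_dvd_of_pow_eq_one h3
    rcases (Nat.dvd_prime hk).1 h4 with h5 | h5
    · exact hu1 (orderOf_eq_one_iff.1 h5)
    · exact hki (h5 ▸ orderOf_pow_dvd m)

theorem index_two {r : ℕ} (hr : r.Prime) (hr2 : r ≠ 2) (F₀ : Subfield F) (q₀ : ℕ) (hF₀ : Nat.card F₀ = q₀)
    (hq : Fintype.card F = q₀ ^ 2) (hrq₀ : r ∣ q₀ + 1) :
    ¬ r ∣ ((Cfsg.Geo.subfieldSubgroup F₀ 1).comap
      (Matrix.SpecialLinearGroup.toGL : Matrix.SpecialLinearGroup (Fin 2) F →* GL (Fin 2) F)).index := by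
  classical
  intro h
  have hfin : Fintype F₀ := Fintype.ofFinite F₀
  let φ : Matrix.SpecialLinearGroup (Fin 2) F₀ →* Matrix.SpecialLinearGroup (Fin 2) F := Matrix.SpecialLinearGroup.map (F₀.subtype : F₀ →+* F)
  have hφ : Function.Injective φ := by
    intro a b hab
    apply Subtype.ext
    ext i j
    have := congrArg (fun g : Matrix.SpecialLinearGroup (Fin 2) F => (g : Matrix (Fin 2) (Fin 2) F) i j) hab
    exact this
  have hle : φ.range ≤ (Cfsg.Geo.subfieldSubgroup F₀ 1).comap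
      (Matrix.SpecialLinearGroup.toGL : Matrix.SpecialLinearGroup (Fin 2) F →* GL (Fin 2) F) := by
    rintro _ ⟨g, rfl⟩
    rw [Subgroup.mem_comap, Subfield.mem_subfield]
    exact ⟨Matrix.SpecialLinearGroup.toGL g, 1, by rw [Units.val_one, one_smul]; rfl⟩
  have h1 := h.trans (Subgroup.index_dvd_of_le hle)
  have h2 : φ.range.index * Nat.card φ.range = Nat.card (Matrix.SpecialLinearGroup (Fin 2) F) := Subgroup.index_mul_card _
  have h3 : Nat.card φ.range = Nat.card (Matrix.SpecialLinearGroup (Fin 2) F₀) :=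
    (Nat.card_congr (MonoidHom.ofInjective hφ).toEquiv).symm
  rw [h3, H6.SL2Sylow.card_sl2, H6.SL2Sylow.card_sl2, ← Nat.card_eq_fintype_card (α := F₀), hF₀, hq] at h2
  have hq01 : 1 < q₀ := by
    rw [← hF₀]; exact Finite.one_lt_card
  have h4 : q₀ ^ 2 * ((q₀ ^ 2) ^ 2 - 1) = (q₀ * (q₀ ^ 2 + 1)) * (q₀ * (q₀ ^ 2 - 1)) := by
    obtain ⟨b, hb⟩ : ∃ b, q₀ ^ 2 = b + 1 := ⟨q₀ ^ 2 - 1, by have := Nat.one_le_pow 2 q₀ (by omega); omega⟩
    have e : (b + 1) ^ 2 - 1 = b * (b + 2) := by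
      have : (b + 1) ^ 2 = b * (b + 2) + 1 := by ring
      rw [this, Nat.add_sub_cancel]
    have e2 : q₀ * (b + 1 + 1) * (q₀ * b) = q₀ ^ 2 * (b * (b + 2)) := by ring
    rw [hb, e, Nat.add_sub_cancel, e2, hb]
  rw [h4] at h2
  have hpos : 0 < q₀ * (q₀ ^ 2 - 1) := by
    have : 1 < q₀ ^ 2 := Nat.one_lt_pow (by norm_num) hq01
    exact Nat.mul_pos (by omega) (by omega)
  have h5 := Nat.eq_of_mul_eq_mul_right hpos h2
  rw [h5] at h1
  have : Fact r.Prime := ⟨hr⟩
  have h6 : (q₀ : ZMod r) = -1 := by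
    have := (ZMod.natCast_eq_zero_iff _ r).2 hrq₀
    push_cast at this
    exact eq_neg_of_add_eq_zero_left this
  have h7 := (ZMod.natCast_eq_zero_iff _ r).2 h1
  push_cast at h7
  rw [h6] at h7
  have h8 : (2 : ZMod r) = 0 := by linear_combination -h7
  have h9 : ((2 : ℕ) : ZMod r) = 0 := by exact_mod_cast h8
  exact hr2 ((Nat.prime_dvd_prime_iff_eq hr Nat.prime_two).1 ((ZMod.natCast_eq_zero_iff _ _).1 h9))

/-- fixed points of the Frobenius -/
theorem mem_of_fix (F₀ : Subfield F) [Fintype F₀] {a : F} (ha : a ^ Fintype.card F₀ = a) : a ∈ F₀ := by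
  classical
  open Polynomial in
  have hq : 1 < Fintype.card F₀ := Fintype.one_lt_card
  have hne : (Polynomial.X ^ Fintype.card F₀ - Polynomial.X : Polynomial F) ≠ 0 := FiniteField.X_pow_card_sub_X_ne_zero F hq
  have hdeg : (Polynomial.X ^ Fintype.card F₀ - Polynomial.X : Polynomial F).natDegree = Fintype.card F₀ :=
    FiniteField.X_pow_card_sub_X_natDegree_eq F hq
  let S : Finset F := (Polynomial.X ^ Fintype.card F₀ - Polynomial.X : Polynomial F).roots.toFinset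
  let T : Finset F := Finset.univ.image (fun b : F₀ => (b : F))
  have hTS : T ⊆ S := by
    intro b hb
    obtain ⟨b', -, rfl⟩ := Finset.mem_image.1 hb
    rw [Multiset.mem_toFinset, Polynomial.mem_roots hne, Polynomial.IsRoot.def]
    simp only [Polynomial.eval_sub, Polynomial.eval_pow, Polynomial.eval_X]
    rw [sub_eq_zero, ← SubmonoidClass.coe_pow, FiniteField.pow_card]
  have hT : T.card = Fintype.card F₀ := by
    rw [Finset.card_image_of_injective _ Subtype.val_injective, Finset.card_univ]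
  have hS : S.card ≤ Fintype.card F₀ := by
    refine (Multiset.toFinset_card_le _).trans ((Polynomial.card_roots' _).trans ?_)
    rw [hdeg]
  have hST : T = S := Finset.eq_of_subset_of_card_le hTS (by rw [hT]; exact hS)
  have haS : a ∈ S := by
    rw [Multiset.mem_toFinset, Polynomial.mem_roots hne, Polynomial.IsRoot.def]
    simp only [Polynomial.eval_sub, Polynomial.eval_pow, Polynomial.eval_X]
    rw [ha, sub_self]
  rw [← hST] at haS
  obtain ⟨b', -, rfl⟩ := Finset.mem_image.1 haS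
  exact b'.2

/-- cubic and higher extensions, diagonal elements -/
def d2 (n : ℕ) (w : F) (j : Fin n) : F := if (j : ℕ) = 0 then w else if (j : ℕ) = 1 then w⁻¹ else 1

theorem prod_d2 {w : F} (hw : w ≠ 0) (hn : 2 ≤ n) : ∏ j, d2 n w j = 1 := by
  obtain ⟨m, rfl⟩ : ∃ m, n = m + 2 := ⟨n - 2, by omega⟩
  rw [Fin.prod_univ_succ, Fin.prod_univ_succ]
  have h1 : d2 (m + 2) w 0 = w := rfl
  have h2 : d2 (m + 2) w (Fin.succ 0) = w⁻¹ := rfl
  have h3 : ∀ i : Fin m, d2 (m + 2) w i.succ.succ = 1 := by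
    intro i
    have e : ((i.succ.succ : Fin (m + 2)) : ℕ) = (i : ℕ) + 2 := rfl
    rw [d2, e, if_neg (by omega), if_neg (by omega)]
  rw [h1, h2, Finset.prod_congr rfl (fun i _ => h3 i), Finset.prod_const_one, mul_one, mul_inv_cancel₀ hw]

theorem d2_bad {r : ℕ} (hr : r.Prime) {q₀ k : ℕ} (hk : k.Prime) (hk2 : k ≠ 2) (hord : orderOf ((q₀ : ℕ) : ZMod r) = k) (hn : 2 ≤ n)
    {w : F} (hw : IsPrimitiveRoot w r) (l : F) (σ : Equiv.Perm (Fin n)) (hl : l ≠ 0) (h : ∀ i, d2 n w i ^ q₀ = l * d2 n w (σ i)) : False := by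
  have : Fact r.Prime := ⟨hr⟩
  have hw0 : w ≠ 0 := hw.ne_zero hr.ne_zero
  have hwr : w ^ r = 1 := hw.pow_eq_one
  have hk3 : 3 ≤ k := by have := hk.two_le; omega
  have hkr : k ∣ r - 1 := by
    rw [← hord]
    apply orderOf_dvd_of_pow_eq_one
    apply ZMod.pow_card_sub_one_eq_one
    intro h0
    rw [h0] at hord
    have h1 : orderOf (0 : ZMod r) = 0 := by
      rw [orderOf_eq_zero_iff']
      intro m hm
      rw [zero_pow (by omega)]; exact zero_ne_one
    omega
  have hr5 : 5 ≤ r := by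
    have h1 := hr.two_le
    have h2 := Nat.le_of_dvd (by omega) hkr
    have h3 : r ≠ 4 := by rintro rfl; exact absurd hr (by norm_num)
    omega
  have hne : ∀ j : ℕ, 0 < j → j < r → w ^ j ≠ 1 := fun j h1 h2 => hw.pow_ne_one_of_pos_of_lt h1.ne' h2
  have w1 : w ≠ 1 := by have := hne 1 (by norm_num) (by omega); simpa using this
  have w2 : w ≠ w⁻¹ := by
    intro h2
    apply hne 2 (by norm_num) (by omega)
    rw [pow_two]; nth_rewrite 1 [h2]; exact inv_mul_cancel₀ hw0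
  have w3 : w⁻¹ ≠ 1 := fun h2 => w1 (inv_eq_one.1 h2)
  have hvals : ∀ j : Fin n, d2 n w j = w ∨ d2 n w j = w⁻¹ ∨ d2 n w j = 1 := by
    intro j
    rw [d2]
    split_ifs
    · exact Or.inl rfl
    · exact Or.inr (Or.inl rfl)
    · exact Or.inr (Or.inr rfl)
  have hDr : ∀ j, d2 n w j ^ r = 1 := by
    intro j
    rcases hvals j with h1 | h1 | h1
    · rw [h1, hwr]
    · rw [h1, inv_pow, hwr, inv_one]
    · rw [h1, one_pow]
  have hl1 : l = 1 := by
    rcases Nat.lt_or_ge n 4 with hn4 | hn4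
    · have h1 : l ^ n = 1 := by
        have h2 : ∏ i, d2 n w i ^ q₀ = ∏ i, l * d2 n w (σ i) := Finset.prod_congr rfl fun i _ => h i
        rw [Finset.prod_pow, prod_d2 hw0 hn, one_pow, Finset.prod_mul_distrib, Equiv.prod_comp σ (d2 n w), prod_d2 hw0 hn, mul_one,
          Finset.prod_const, Finset.card_univ, Fintype.card_fin] at h2
        exact h2.symm
      have h2 : l ^ r = 1 := by
        have h3 := h ⟨0, by omega⟩
        have h4 := congrArg (fun t => t ^ r) h3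
        simp only [mul_pow, hDr, mul_one] at h4
        rw [← h4, ← pow_mul, mul_comm, pow_mul, hDr, one_pow]
      have h3 : Nat.Coprime n r := by
        rw [Nat.coprime_comm, Nat.Prime.coprime_iff_not_dvd hr]
        intro h4
        have := Nat.le_of_dvd (by omega) h4
        omega
      have h4 : l ^ (Nat.gcd n r) = 1 := pow_gcd_eq_one.2 ⟨h1, h2⟩
      rwa [h3, pow_one] at h4
    · have e2 : d2 n w ⟨2, by omega⟩ = 1 := rfl
      have e3 : d2 n w ⟨3, by omega⟩ = 1 := rfl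
      have h2 := h ⟨2, by omega⟩
      have h3 := h ⟨3, by omega⟩
      rw [e2, one_pow] at h2
      rw [e3, one_pow] at h3
      have h4 : d2 n w (σ ⟨2, by omega⟩) = d2 n w (σ ⟨3, by omega⟩) := mul_left_cancel₀ hl (h2.symm.trans h3)
      have h5 : σ ⟨2, by omega⟩ ≠ σ ⟨3, by omega⟩ := by
        intro h6
        have := σ.injective h6
        rw [Fin.mk.injEq] at this
        omega
      have h6 : d2 n w (σ ⟨2, by omega⟩) = 1 := by
        have hv : ∀ j : Fin n, d2 n w j ≠ 1 → (j : ℕ) = 0 ∧ d2 n w j = w ∨ (j : ℕ) = 1 ∧ d2 n w j = w⁻¹ := by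
          intro j hj
          rw [d2] at hj ⊢
          split_ifs at hj ⊢ with g1 g2
          · exact Or.inl ⟨g1, rfl⟩
          · exact Or.inr ⟨g2, rfl⟩
          · exact absurd rfl hj
        by_contra h7
        rcases hv _ h7 with ⟨g1, g2⟩ | ⟨g1, g2⟩
        · rcases hv _ (h4 ▸ h7) with ⟨g3, g4⟩ | ⟨g3, g4⟩
          · exact h5 (Fin.ext (g1.trans g3.symm))
          · exact w2 (g2.symm.trans (h4.trans g4))
        · rcases hv _ (h4 ▸ h7) with ⟨g3, g4⟩ | ⟨g3, g4⟩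
          · exact w2 (g4.symm.trans (h4.symm.trans g2))
          · exact h5 (Fin.ext (g1.trans g3.symm))
      rw [h6, mul_one] at h2
      exact h2.symm
  have h0 := h ⟨0, by omega⟩
  have e0 : d2 n w ⟨0, by omega⟩ = w := rfl
  rw [hl1, one_mul, e0] at h0
  have hdv : ∀ a : ℕ, w ^ a = 1 → r ∣ a := fun a ha => hw.dvd_of_pow_eq_one a ha
  rcases hvals (σ ⟨0, by omega⟩) with h1 | h1 | h1
  · rw [h1] at h0
    have h2 : 1 ≤ q₀ := by
      rcases Nat.eq_zero_or_pos q₀ with h3 | h3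
      · rw [h3, pow_zero] at h0
        exact absurd h0.symm w1
      · exact h3
    have h3 : w ^ (q₀ - 1) = 1 := by
      have h4 : w ^ (q₀ - 1) * w = 1 * w := by
        rw [← pow_succ, Nat.sub_add_cancel h2, h0, one_mul]
      exact mul_right_cancel₀ hw0 h4
    have h4 := (ZMod.natCast_eq_zero_iff _ r).2 (hdv _ h3)
    rw [Nat.cast_sub h2, Nat.cast_one, sub_eq_zero] at h4
    rw [h4, orderOf_one] at hord
    omega
  · rw [h1] at h0
    have h3 : w ^ (q₀ + 1) = 1 := by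
      rw [pow_succ, h0, inv_mul_cancel₀ hw0]
    have h4 := (ZMod.natCast_eq_zero_iff _ r).2 (hdv _ h3)
    push_cast at h4
    have h5 : ((q₀ : ℕ) : ZMod r) ^ 2 = 1 := by
      rw [eq_neg_of_add_eq_zero_left h4]; ring
    have h6 := orderOf_dvd_of_pow_eq_one h5
    rw [hord] at h6
    have := Nat.le_of_dvd (by norm_num) h6
    omega
  · rw [h1] at h0
    have h4 := (ZMod.natCast_eq_zero_iff _ r).2 (hdv _ h0)
    rw [h4] at hord
    have h5 : orderOf (0 : ZMod r) = 0 := by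
      rw [orderOf_eq_zero_iff']
      intro m hm
      rw [zero_pow (by omega)]; exact zero_ne_one
    omega

end H99.Sub3
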