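import Mathlib
import Cfsg.Agent.Lib.H99.Tens

set_option autoImplicit false
set_option linter.unusedSimpArgs false
set_option linter.unusedSectionVars false
set_option linter.unusedVariables false

/-! Tensor products of a symplectic plane and an orthogonal space: involutions. -/

namespace H99.Tens

open Matrix Module H99.RElt

universe u

variable {F : Type u} [Field F]

theorem plane_form {f₁ : (Fin 2 → F) → (Fin 2 → F) → F} (hf₁ : Cfsg.Geo.IsSymplecticForm f₁) :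
    f₁ (Pi.single 0 1) (Pi.single 0 1) = 0 ∧ f₁ (Pi.single 1 1) (Pi.single 1 1) = 0 ∧
      f₁ (Pi.single 1 1) (Pi.single 0 1) = - f₁ (Pi.single 0 1) (Pi.single 1 1) ∧ f₁ (Pi.single 0 1) (Pi.single 1 1) ≠ 0 := by
  have h00 := hf₁.alternating (Pi.single 0 1)
  have h11 := hf₁.alternating (Pi.single 1 1)
  have h10 := hf₁.skew (Pi.single 1 1) (Pi.single 0 1)
  refine ⟨h00, h11, h10, ?_⟩
  intro h01
  have hz : ∀ u v, f₁ u v = 0 := by
    intro u v
    rw [form_eq_gram hf₁.bilinear]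
    simp only [Fin.sum_univ_two, Cfsg.Geo.gramMatrix, h00, h11, h10, h01]
    ring
  obtain ⟨⟨x, hx⟩, -⟩ := hf₁.nondegenerate (Pi.single 0 1) (by
    intro h
    have := congrFun h 0
    simp at this)
  exact hx (hz _ _)

theorem exists_frame [Fintype F] (h2 : (2 : F) ≠ 0) {d : ℕ} (hd : 0 < d) (e : (Fin d ⊕ Fin d) ≃ Fin 2 × Fin d) (P : GL (Fin d ⊕ Fin d) F)
    {f₁ : (Fin 2 → F) → (Fin 2 → F) → F} {B₂ : LinearMap.BilinForm F (Fin d → F)} {κ : F} (hκ : κ ≠ 0)
    (hform : ∀ u u' w w', sympB d F (tau e P u w) (tau e P u' w') = κ * f₁ u u' * B₂ w w')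
    (hf₁ : Cfsg.Geo.IsSymplecticForm f₁) (hS : ∀ u v, B₂ u v = B₂ v u) (hN : ∀ u, (∀ v, B₂ u v = 0) → u = 0) :
    ∃ (β : Basis (Fin d) F (Fin d → F)) (k : Fin d → F) (bs : Basis (Fin 2 × Fin d) F (Fin d ⊕ Fin d → F)), (∀ j, k j ≠ 0) ∧
      (∀ i j, sympB d F (bs (0, i)) (bs (0, j)) = 0) ∧ (∀ i j, sympB d F (bs (1, i)) (bs (1, j)) = 0) ∧
      (∀ i j, sympB d F (bs (0, i)) (bs (1, j)) = if i = j then 1 else 0) ∧
      (∀ j, bs (0, j) = tau e P (Pi.single 0 1) (β j)) ∧ (∀ j, tau e P (Pi.single 1 1) (β j) = k j • bs (1, j)) := by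
  have hA := sympB_alt (F := F) d
  obtain ⟨h00, h11, h10, h01⟩ := plane_form hf₁
  set ν := f₁ (Pi.single 0 1) (Pi.single 1 1) with hν
  have : Invertible (2 : F) := invertibleOfNonzero h2
  have hsymm : LinearMap.IsSymm B₂ := ⟨fun x y => hS x y⟩
  obtain ⟨v, hv⟩ := LinearMap.BilinForm.exists_orthogonal_basis hsymm
  let β : Basis (Fin d) F (Fin d → F) := v.reindex (finCongr (Module.finrank_fin_fun F))
  have hβ : ∀ i j, i ≠ j → B₂ (β i) (β j) = 0 := by
    intro i j hij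
    rw [Basis.reindex_apply, Basis.reindex_apply]
    exact hv (fun h => hij ((finCongr (Module.finrank_fin_fun F)).symm.injective h))
  have hn : ∀ j, B₂ (β j) (β j) ≠ 0 := by
    intro j hj
    have h0 : β j = 0 := by
      apply hN
      intro w
      have : B₂ (β j) = 0 := by
        apply β.ext
        intro i
        by_cases hij : j = i
        · rw [← hij, hj]; rfl
        · rw [hβ j i hij]; rfl
      rw [this]; rfl
    exact β.ne_zero j h0
  let k : Fin d → F := fun j => κ * ν * B₂ (β j) (β j)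
  have hk : ∀ j, k j ≠ 0 := fun j => mul_ne_zero (mul_ne_zero hκ h01) (hn j)
  let b : Fin 2 × Fin d → (Fin d ⊕ Fin d → F) := fun x =>
    if x.1 = 0 then tau e P (Pi.single 0 1) (β x.2) else (k x.2)⁻¹ • tau e P (Pi.single 1 1) (β x.2)
  have b0 : ∀ j, b (0, j) = tau e P (Pi.single 0 1) (β j) := fun j => if_pos rfl
  have b1 : ∀ j, b (1, j) = (k j)⁻¹ • tau e P (Pi.single 1 1) (β j) := fun j => if_neg (by simp)
  have g00 : ∀ i j, sympB d F (b (0, i)) (b (0, j)) = 0 := by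
    intro i j
    rw [b0, b0, hform, h00, mul_zero, zero_mul]
  have g11 : ∀ i j, sympB d F (b (1, i)) (b (1, j)) = 0 := by
    intro i j
    rw [b1, b1, map_smul, map_smul, LinearMap.smul_apply, hform, h11, mul_zero, zero_mul, smul_zero, smul_zero]
  have g01 : ∀ i j, sympB d F (b (0, i)) (b (1, j)) = if i = j then 1 else 0 := by
    intro i j
    rw [b0, b1, map_smul, hform, smul_eq_mul]
    by_cases hij : i = j
    · subst hij
      rw [if_pos rfl]
      exact inv_mul_cancel₀ (hk i)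
    · rw [if_neg hij, hβ i j hij, mul_zero, mul_zero]
  have hne : Nonempty (Fin d) := ⟨⟨0, hd⟩⟩
  obtain ⟨bs, hbs⟩ := SelfAdj.basis_of_gram (B := sympB d F) hA b (by
    rw [Module.finrank_fintype_fun_eq_card, Fintype.card_sum, Fintype.card_fin]; ring) g00 g11 g01
  refine ⟨β, k, bs, hk, ?_, ?_, ?_, ?_, ?_⟩
  · intro i j; rw [hbs, hbs, g00]
  · intro i j; rw [hbs, hbs, g11]
  · intro i j; rw [hbs, hbs, g01]
  · intro j; rw [hbs, b0]
  · intro j; rw [hbs, b1, smul_smul, mul_inv_cancel₀ (hk j), one_smul]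

theorem ext_frame {d : ℕ} {e : (Fin d ⊕ Fin d) ≃ Fin 2 × Fin d} {P : GL (Fin d ⊕ Fin d) F} (β : Basis (Fin d) F (Fin d → F))
    {y : GL (Fin d ⊕ Fin d) F} {A : Matrix (Fin 2) (Fin 2) F} {B : Matrix (Fin d) (Fin d) F}
    (h : ∀ i j, (y : Matrix (Fin d ⊕ Fin d) (Fin d ⊕ Fin d) F) *ᵥ (tau e P (Pi.single i 1) (β j)) = tau e P (A *ᵥ (Pi.single i 1)) (B *ᵥ β j))
    (u : Fin 2 → F) (w : Fin d → F) :
    (y : Matrix (Fin d ⊕ Fin d) (Fin d ⊕ Fin d) F) *ᵥ (tau e P u w) = tau e P (A *ᵥ u) (B *ᵥ w) := by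
  have key : (tau e P).compr₂ (Matrix.toLin' (y : Matrix (Fin d ⊕ Fin d) (Fin d ⊕ Fin d) F)) = (tau e P).compl₁₂ (Matrix.toLin' A) (Matrix.toLin' B) := by
    apply (Pi.basisFun F (Fin 2)).ext
    intro i
    apply β.ext
    intro j
    rw [Pi.basisFun_apply]
    exact h i j
  exact LinearMap.congr_fun (LinearMap.congr_fun key u) w

theorem two_pos [Fintype F] (h2 : (2 : F) ≠ 0) {d : ℕ} (hd : 0 < d) (e : (Fin d ⊕ Fin d) ≃ Fin 2 × Fin d) (P : GL (Fin d ⊕ Fin d) F)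
    {f₁ : (Fin 2 → F) → (Fin 2 → F) → F} {B₂ : LinearMap.BilinForm F (Fin d → F)} {κ : F} (hκ : κ ≠ 0)
    (hform : ∀ u u' w w', sympB d F (tau e P u w) (tau e P u' w') = κ * f₁ u u' * B₂ w w')
    (hf₁ : Cfsg.Geo.IsSymplecticForm f₁) (hS : ∀ u v, B₂ u v = B₂ v u) (hN' : ∀ u, (∀ v, B₂ u v = 0) → u = 0)
    (x : GL (Fin d ⊕ Fin d) F) (hx : x ∈ Cfsg.spGL d F)
    (hx2 : ∀ v, (x : Matrix (Fin d ⊕ Fin d) (Fin d ⊕ Fin d) F) *ᵥ ((x : Matrix (Fin d ⊕ Fin d) (Fin d ⊕ Fin d) F) *ᵥ v) = v) :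
    ∃ g ∈ Cfsg.spGL d F, g⁻¹ * x * g ∈ Cfsg.Geo.tensorProductSubgroup 2 d e P := by
  classical
  have hA := sympB_alt (F := F) d
  have hN := sympB_nd (F := F) d
  obtain ⟨β, k, bs, hk, h1, h2', h3, hb0, hb1⟩ := exists_frame h2 hd e P hκ hform hf₁ hS hN'
  obtain ⟨ι₂, f₂, d₂, bx, k1, k2, k3, k4⟩ := Alt.exists_symp_basis_pos h2 _ (sympB d F) hA hN
    (Matrix.toLin' (x : Matrix (Fin d ⊕ Fin d) (Fin d ⊕ Fin d) F)) (SpInv.gl_isom hx) hx2
  choose s hs hs0 hs1 using k4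
  have ha : ∀ a : Fin 2, a = 0 ∨ a = 1 := by decide
  let e' : Fin d ≃ ι₂ := Fintype.equivOfCardEq (by rw [SpInv.card_idx bx, Fintype.card_fin])
  obtain ⟨G, hG, hGb⟩ := SpInv.match_isom hA bs bx h1 h2' h3 k1 k2 k3 e'
  obtain ⟨g, hg, hgv⟩ := SpInv.exists_gl G.toLinearMap hG
  have hgv' : ∀ v, (g : Matrix (Fin d ⊕ Fin d) (Fin d ⊕ Fin d) F) *ᵥ v = G v := hgv
  refine ⟨g, hg, ?_⟩
  set y := g⁻¹ * x * g with hy
  have hgy : g * y = x * g := by rw [hy]; group
  have hyv : ∀ v, G ((y : Matrix (Fin d ⊕ Fin d) (Fin d ⊕ Fin d) F) *ᵥ v) = (x : Matrix (Fin d ⊕ Fin d) (Fin d ⊕ Fin d) F) *ᵥ (G v) := by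
    intro v
    rw [← hgv', ← hgv', Matrix.mulVec_mulVec, Matrix.mulVec_mulVec, ← Units.val_mul, hgy, Units.val_mul]
  have hyb : ∀ i a, (y : Matrix (Fin d ⊕ Fin d) (Fin d ⊕ Fin d) F) *ᵥ (bs (a, i)) = s (e' i) • bs (a, i) := by
    intro i a
    apply G.injective
    rw [hyv, hGb, map_smul, hGb]
    rcases ha a with rfl | rfl
    · exact hs0 _
    · exact hs1 _
  have hss : ∀ i, s i * s i = 1 := by
    intro i
    rcases hs i with h | h <;> rw [h] <;> ring
  -- the second factor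
  let Bl : (Fin d → F) →ₗ[F] (Fin d → F) := β.constr F (fun j => s (e' j) • β j)
  have hBl : ∀ j, Bl (β j) = s (e' j) • β j := by
    intro j
    show β.constr F _ (β j) = _
    rw [Basis.constr_basis]
  have hBB : Bl ∘ₗ Bl = LinearMap.id := by
    apply β.ext
    intro j
    rw [LinearMap.comp_apply, hBl, map_smul, hBl, smul_smul, hss, one_smul]; rfl
  have hBM : LinearMap.toMatrix' Bl * LinearMap.toMatrix' Bl = 1 := by
    rw [← LinearMap.toMatrix'_comp, hBB, LinearMap.toMatrix'_id]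
  let B : GL (Fin d) F := ⟨LinearMap.toMatrix' Bl, LinearMap.toMatrix' Bl, hBM, hBM⟩
  apply mem_of e P 1 B
  apply ext_frame β
  intro i j
  have hBj : (B : Matrix (Fin d) (Fin d) F) *ᵥ β j = s (e' j) • β j := by
    show LinearMap.toMatrix' Bl *ᵥ β j = _
    rw [← hBl, LinearMap.toMatrix'_mulVec]
  rw [Units.val_one, Matrix.one_mulVec, hBj, map_smul]
  rcases ha i with rfl | rfl
  · rw [← hb0, hyb]
  · rw [hb1, Matrix.mulVec_smul, hyb, smul_comm]

theorem two_neg [Fintype F] (h2 : (2 : F) ≠ 0) {d : ℕ} (hd : 0 < d) (e : (Fin d ⊕ Fin d) ≃ Fin 2 × Fin d) (P : GL (Fin d ⊕ Fin d) F)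
    {f₁ : (Fin 2 → F) → (Fin 2 → F) → F} {B₂ : LinearMap.BilinForm F (Fin d → F)} {κ : F} (hκ : κ ≠ 0)
    (hform : ∀ u u' w w', sympB d F (tau e P u w) (tau e P u' w') = κ * f₁ u u' * B₂ w w')
    (hf₁ : Cfsg.Geo.IsSymplecticForm f₁) (hS : ∀ u v, B₂ u v = B₂ v u) (hN' : ∀ u, (∀ v, B₂ u v = 0) → u = 0)
    (x : GL (Fin d ⊕ Fin d) F) (hx : x ∈ Cfsg.spGL d F)
    (hx2 : ∀ v, (x : Matrix (Fin d ⊕ Fin d) (Fin d ⊕ Fin d) F) *ᵥ ((x : Matrix (Fin d ⊕ Fin d) (Fin d ⊕ Fin d) F) *ᵥ v) = -v) :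
    ∃ g ∈ Cfsg.spGL d F, g⁻¹ * x * g ∈ Cfsg.Geo.tensorProductSubgroup 2 d e P := by
  classical
  have hA := sympB_alt (F := F) d
  have hN := sympB_nd (F := F) d
  obtain ⟨β, k, bs, hk, h1, h2', h3, hb0, hb1⟩ := exists_frame h2 hd e P hκ hform hf₁ hS hN'
  have ha : ∀ a : Fin 2, a = 0 ∨ a = 1 := by decide
  let im : Fin 2 × Fin d → (Fin d ⊕ Fin d → F) := fun x => if x.1 = 0 then k x.2 • bs (1, x.2) else -((k x.2)⁻¹ • bs (0, x.2))
  let Y : (Fin d ⊕ Fin d → F) →ₗ[F] (Fin d ⊕ Fin d → F) := bs.constr F im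
  have y0 : ∀ j, Y (bs (0, j)) = k j • bs (1, j) := by
    intro j
    show bs.constr F _ _ = _
    rw [Basis.constr_basis]
    exact if_pos rfl
  have y1 : ∀ j, Y (bs (1, j)) = -((k j)⁻¹ • bs (0, j)) := by
    intro j
    show bs.constr F _ _ = _
    rw [Basis.constr_basis]
    exact if_neg (by simp)
  have h4 : ∀ i j, sympB d F (bs (1, i)) (bs (0, j)) = if i = j then -1 else 0 := by
    intro i j
    rw [Alt.swap hA, h3]
    by_cases h : i = j
    · rw [if_pos h, if_pos h.symm]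
    · rw [if_neg h, if_neg (Ne.symm h), neg_zero]
  have hYY : ∀ v, Y (Y v) = - v := by
    intro v
    have key : Y ∘ₗ Y = - LinearMap.id := by
      apply bs.ext
      rintro ⟨a, i⟩
      rcases ha a with rfl | rfl
      · show Y (Y (bs (0, i))) = - bs (0, i)
        rw [y0, map_smul, y1, smul_neg, smul_smul, mul_inv_cancel₀ (hk i), one_smul]
      · show Y (Y (bs (1, i))) = - bs (1, i)
        rw [y1, map_neg, map_smul, y0, smul_smul, inv_mul_cancel₀ (hk i), one_smul]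
    exact LinearMap.congr_fun key v
  have hYB : ∀ u v, sympB d F (Y u) (Y v) = sympB d F u v := by
    have key : (sympB d F).compl₁₂ Y Y = sympB d F := by
      apply bs.ext
      rintro ⟨a, i⟩
      apply bs.ext
      rintro ⟨b, j⟩
      show sympB d F (Y (bs (a, i))) (Y (bs (b, j))) = sympB d F (bs (a, i)) (bs (b, j))
      rcases ha a with rfl | rfl <;> rcases ha b with rfl | rfl
      · rw [y0, y0, map_smul, map_smul, LinearMap.smul_apply, h2', h1]; simp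
      · rw [y0, y1, map_neg, map_smul, map_smul, LinearMap.smul_apply, h4, h3]
        by_cases hij : i = j
        · subst hij
          have := hk i
          simp [this]
        · simp [hij]
      · rw [y0, y1, map_neg, map_smul, map_smul, LinearMap.neg_apply, LinearMap.smul_apply, h3, h4]
        by_cases hij : i = j
        · subst hij
          have := hk i
          simp [this]
        · simp [hij]
      · rw [y1, y1, map_neg, map_neg, map_smul, map_smul, LinearMap.neg_apply, LinearMap.smul_apply, h1, h2']; simp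
    intro u v
    exact LinearMap.congr_fun (LinearMap.congr_fun key u) v
  obtain ⟨ι₂, f₂, d₂, by', l1, l2, l3, l4⟩ := Alt.exists_symp_basis_neg h2 _ (sympB d F) hA hN Y hYB hYY
  obtain ⟨ι₃, f₃, d₃, bx, k1, k2, k3, k4⟩ := Alt.exists_symp_basis_neg h2 _ (sympB d F) hA hN
    (Matrix.toLin' (x : Matrix (Fin d ⊕ Fin d) (Fin d ⊕ Fin d) F)) (SpInv.gl_isom hx) hx2
  let e' : ι₂ ≃ ι₃ := Fintype.equivOfCardEq (by rw [SpInv.card_idx by', SpInv.card_idx bx])
  obtain ⟨G, hG, hGb⟩ := SpInv.match_isom hA by' bx l1 l2 l3 k1 k2 k3 e'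
  obtain ⟨y, -, hyv⟩ := SpInv.exists_gl Y hYB
  obtain ⟨g, hg, hgy⟩ := SpInv.conj_of_isom x y G hG (by
    intro v
    rw [hyv]
    have key : (Matrix.toLin' (x : Matrix (Fin d ⊕ Fin d) (Fin d ⊕ Fin d) F)) ∘ₗ G.toLinearMap = G.toLinearMap ∘ₗ Y := by
      apply by'.ext
      rintro ⟨a, i⟩
      show Matrix.toLin' (x : Matrix (Fin d ⊕ Fin d) (Fin d ⊕ Fin d) F) (G (by' (a, i))) = G (Y (by' (a, i)))
      rcases ha a with rfl | rfl
      · rw [hGb, (k4 _).1, (l4 _).1, hGb]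
      · rw [hGb, (k4 _).2, (l4 _).2, map_neg, hGb]
    exact LinearMap.congr_fun key v)
  refine ⟨g, hg, ?_⟩
  rw [hgy]
  have hM1 : (!![0, -1; 1, 0] : Matrix (Fin 2) (Fin 2) F) * !![0, 1; -1, 0] = 1 := by
    ext i j; fin_cases i <;> fin_cases j <;> simp
  have hM2 : (!![0, 1; -1, 0] : Matrix (Fin 2) (Fin 2) F) * !![0, -1; 1, 0] = 1 := by
    ext i j; fin_cases i <;> fin_cases j <;> simp
  let A : GL (Fin 2) F := ⟨!![0, -1; 1, 0], !![0, 1; -1, 0], hM1, hM2⟩
  have hA0 : (A : Matrix (Fin 2) (Fin 2) F) *ᵥ (Pi.single 0 1) = Pi.single 1 1 := by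
    show (!![0, -1; 1, 0] : Matrix (Fin 2) (Fin 2) F) *ᵥ (Pi.single 0 1) = Pi.single 1 1
    funext i; fin_cases i <;> simp
  have hA1 : (A : Matrix (Fin 2) (Fin 2) F) *ᵥ (Pi.single 1 1) = - Pi.single 0 1 := by
    show (!![0, -1; 1, 0] : Matrix (Fin 2) (Fin 2) F) *ᵥ (Pi.single 1 1) = - Pi.single 0 1
    funext i; fin_cases i <;> simp
  apply mem_of e P A 1
  apply ext_frame β
  intro i j
  rw [Units.val_one, Matrix.one_mulVec]
  rcases ha i with rfl | rfl
  · rw [hA0, ← hb0, hyv, y0, hb1]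
  · rw [hA1, hb1, Matrix.mulVec_smul, hyv, y1, smul_neg, smul_smul, mul_inv_cancel₀ (hk j), one_smul, hb0, map_neg, LinearMap.neg_apply]

/-- an involution with a nondegenerate plane as its commutator space -/
theorem exists_plane_inv [Fintype F] (h2 : (2 : F) ≠ 0) {d : ℕ} (hd : 2 ≤ d) :
    ∃ x ∈ Cfsg.spGL d F, x ^ 2 = 1 ∧ (∀ z : F, (x : Matrix (Fin d ⊕ Fin d) (Fin d ⊕ Fin d) F) ≠ z • (1 : Matrix (Fin d ⊕ Fin d) (Fin d ⊕ Fin d) F)) ∧
      finrank F (LinearMap.range (Matrix.toLin' (x : Matrix (Fin d ⊕ Fin d) (Fin d ⊕ Fin d) F) - 1)) ≤ 2 ∧ x ≠ 1 := by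
  classical
  have hA := sympB_alt (F := F) d
  have hN := sympB_nd (F := F) d
  have hne : Nonempty (Fin d ⊕ Fin d) := ⟨.inl ⟨0, by omega⟩⟩
  obtain ⟨a, ha0⟩ := exists_ne (0 : Fin d ⊕ Fin d → F)
  obtain ⟨w, hw⟩ : ∃ w, sympB d F a w ≠ 0 := by
    by_contra h
    push Not at h
    exact ha0 (hN _ h)
  obtain ⟨b, hab⟩ : ∃ b, sympB d F a b = 1 := ⟨(sympB d F a w)⁻¹ • w, by rw [map_smul, smul_eq_mul, inv_mul_cancel₀ hw]⟩
  have hba : sympB d F b a = -1 := by rw [Alt.swap hA, hab]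
  have haa : sympB d F a a = 0 := hA a
  have hbb : sympB d F b b = 0 := hA b
  let T : (Fin d ⊕ Fin d → F) →ₗ[F] (Fin d ⊕ Fin d → F) :=
    { toFun := fun v => v - (2 : F) • (sympB d F v b • a - sympB d F v a • b)
      map_add' := fun u v => by simp only [map_add, LinearMap.add_apply]; module
      map_smul' := fun c v => by simp only [map_smul, LinearMap.smul_apply, smul_eq_mul, RingHom.id_apply]; module }
  have hT : ∀ v, T v = v - (2 : F) • (sympB d F v b • a - sympB d F v a • b) := fun v => rfl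
  have hTB : ∀ u v, sympB d F (T u) (T v) = sympB d F u v := by
    intro u v
    rw [hT, hT]
    simp only [map_sub, map_smul, LinearMap.sub_apply, LinearMap.smul_apply, smul_eq_mul, hab, hba, haa, hbb]
    rw [Alt.swap hA a v, Alt.swap hA b v]
    ring
  have hTT : ∀ v, T (T v) = v := by
    intro v
    have e1 : sympB d F (T v) b = - sympB d F v b := by
      rw [hT]
      simp only [map_sub, map_smul, LinearMap.sub_apply, LinearMap.smul_apply, smul_eq_mul, hab, hba, haa, hbb]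
      ring
    have e2 : sympB d F (T v) a = - sympB d F v a := by
      rw [hT]
      simp only [map_sub, map_smul, LinearMap.sub_apply, LinearMap.smul_apply, smul_eq_mul, hab, hba, haa, hbb]
      ring
    rw [hT (T v), e1, e2, hT]
    module
  obtain ⟨x, hx, hxv⟩ := SpInv.exists_gl T hTB
  have hrkx : finrank F (LinearMap.range (Matrix.toLin' (x : Matrix (Fin d ⊕ Fin d) (Fin d ⊕ Fin d) F) - 1)) ≤ 2 := by
    have : LinearMap.range (Matrix.toLin' (x : Matrix (Fin d ⊕ Fin d) (Fin d ⊕ Fin d) F) - 1) ≤ Submodule.span F {a, b} := by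
      rintro _ ⟨v, rfl⟩
      have h1 : (Matrix.toLin' (x : Matrix (Fin d ⊕ Fin d) (Fin d ⊕ Fin d) F) - 1) v = (-(2 : F) * sympB d F v b) • a + ((2 : F) * sympB d F v a) • b := by
        show (x : Matrix (Fin d ⊕ Fin d) (Fin d ⊕ Fin d) F) *ᵥ v - v = _
        rw [hxv, hT]
        module
      rw [h1]
      exact Submodule.mem_span_pair.2 ⟨_, _, rfl⟩
    refine (Submodule.finrank_mono this).trans ?_
    have h3 := finrank_span_finset_le_card (R := F) ({a, b} : Finset (Fin d ⊕ Fin d → F))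
    rw [Finset.coe_insert, Finset.coe_singleton] at h3
    exact h3.trans Finset.card_le_two
  have hxa : (x : Matrix (Fin d ⊕ Fin d) (Fin d ⊕ Fin d) F) *ᵥ a = - a := by
    rw [hxv, hT, hab, haa]; module
  have hxx : x ^ 2 = 1 := by
    apply Units.ext
    apply Skew.matrix_ext
    intro v
    rw [Units.val_pow_eq_pow_val, Units.val_one, Matrix.one_mulVec, pow_two, ← Matrix.mulVec_mulVec, hxv, hxv, hTT]
  have hx1 : x ≠ 1 := by
    rintro rfl
    rw [Units.val_one, Matrix.one_mulVec] at hxa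
    have : (2 : F) • a = 0 := by rw [two_smul]; nth_rewrite 1 [hxa]; exact neg_add_cancel a
    rcases smul_eq_zero.1 this with h | h
    · exact h2 h
    · exact ha0 h
  refine ⟨x, hx, hxx, ?_, hrkx, hx1⟩
  intro z hz
  have hz1 : z = -1 := by
    rw [hz, Matrix.smul_mulVec, Matrix.one_mulVec] at hxa
    have h3 : (z + 1) • a = 0 := by rw [add_smul, one_smul, hxa, neg_add_cancel]
    rcases smul_eq_zero.1 h3 with h | h
    · linear_combination h
    · exact absurd h ha0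
  have htop : LinearMap.range (Matrix.toLin' (x : Matrix (Fin d ⊕ Fin d) (Fin d ⊕ Fin d) F) - 1) = ⊤ := by
    rw [eq_top_iff]
    intro v _
    refine ⟨(-(2 : F)⁻¹) • v, ?_⟩
    show (x : Matrix (Fin d ⊕ Fin d) (Fin d ⊕ Fin d) F) *ᵥ ((-(2 : F)⁻¹) • v) - (-(2 : F)⁻¹) • v = v
    rw [hz, hz1, Matrix.smul_mulVec, Matrix.one_mulVec, smul_smul, ← sub_smul]
    have : (-1 * -(2 : F)⁻¹ - -(2 : F)⁻¹) = 1 := by field_simp; ring
    rw [this, one_smul]
  rw [htop, finrank_top, Module.finrank_fintype_fun_eq_card, Fintype.card_sum, Fintype.card_fin] at hrkx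
  omega

end H99.Tens
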