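import Mathlib
import Cfsg.Agent.Lib.H99.OrthTi2

set_option autoImplicit false
set_option linter.unusedSimpArgs false
set_option linter.unusedSectionVars false
set_option linter.unusedVariables false

/-! The number of totally singular subspaces modulo the characteristic. -/

namespace H99.OrthTi

open Module QuadraticMap H48.QuadSplit H48.QuadStd H96.OeType H99.OrthSS

universe u

variable {F : Type u} [Field F] [Fintype F]

section siegel

variable {V₀ : Type u} [AddCommGroup V₀] [Module F V₀] [FiniteDimensional F V₀]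

/-- Siegel transformations -/
def sE (Q₀ : QuadraticForm F V₀) (y : V₀) : ((F × F) × V₀) →ₗ[F] ((F × F) × V₀) where
  toFun x := ((x.1.1 - polar Q₀ x.2 y - Q₀ y * x.1.2, x.1.2), x.2 + x.1.2 • y)
  map_add' x x' := by
    refine Prod.ext (Prod.ext ?_ rfl) ?_
    · show (x.1.1 + x'.1.1) - polar Q₀ (x.2 + x'.2) y - Q₀ y * (x.1.2 + x'.1.2) =
        (x.1.1 - polar Q₀ x.2 y - Q₀ y * x.1.2) + (x'.1.1 - polar Q₀ x'.2 y - Q₀ y * x'.1.2)
      rw [polar_add_left]; ring
    · show (x.2 + x'.2) + (x.1.2 + x'.1.2) • y = (x.2 + x.1.2 • y) + (x'.2 + x'.1.2 • y)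
      rw [add_smul]; abel
  map_smul' c x := by
    refine Prod.ext (Prod.ext ?_ rfl) ?_
    · show c * x.1.1 - polar Q₀ (c • x.2) y - Q₀ y * (c * x.1.2) = c * (x.1.1 - polar Q₀ x.2 y - Q₀ y * x.1.2)
      rw [polar_smul_left, smul_eq_mul]; ring
    · show c • x.2 + (c * x.1.2) • y = c • (x.2 + x.1.2 • y)
      rw [smul_add, smul_smul]

theorem sE_apply (Q₀ : QuadraticForm F V₀) (y : V₀) (x : (F × F) × V₀) :
    sE Q₀ y x = ((x.1.1 - polar Q₀ x.2 y - Q₀ y * x.1.2, x.1.2), x.2 + x.1.2 • y) := rfl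

theorem sE_Q (Q₀ : QuadraticForm F V₀) (y : V₀) (x : (F × F) × V₀) : ((hyp F).prod Q₀) (sE Q₀ y x) = ((hyp F).prod Q₀) x := by
  rw [sE_apply]
  show (x.1.1 - polar Q₀ x.2 y - Q₀ y * x.1.2) * x.1.2 + Q₀ (x.2 + x.1.2 • y) = x.1.1 * x.1.2 + Q₀ x.2
  rw [QuadraticMap.map_add Q₀, QuadraticMap.map_smul, polar_smul_right, smul_eq_mul, smul_eq_mul]; ring

theorem sE_zero (Q₀ : QuadraticForm F V₀) : sE Q₀ 0 = LinearMap.id := by
  apply LinearMap.ext
  intro x
  rw [sE_apply, polar_zero_right, QuadraticMap.map_zero, zero_mul, sub_zero, sub_zero, smul_zero, add_zero]; rfl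

theorem sE_add (Q₀ : QuadraticForm F V₀) (y y' : V₀) : sE Q₀ (y + y') = sE Q₀ y ∘ₗ sE Q₀ y' := by
  apply LinearMap.ext
  intro x
  rw [LinearMap.comp_apply, sE_apply, sE_apply, sE_apply]
  refine Prod.ext (Prod.ext ?_ rfl) ?_
  · show x.1.1 - polar Q₀ x.2 (y + y') - Q₀ (y + y') * x.1.2 =
      (x.1.1 - polar Q₀ x.2 y' - Q₀ y' * x.1.2) - polar Q₀ (x.2 + x.1.2 • y') y - Q₀ y * x.1.2
    rw [polar_add_right, polar_add_left, polar_smul_left, QuadraticMap.map_add Q₀, smul_eq_mul, polar_comm Q₀ y' y]; ring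
  · show x.2 + x.1.2 • (y + y') = (x.2 + x.1.2 • y') + x.1.2 • y
    rw [smul_add]; abel

theorem sE_inj (Q₀ : QuadraticForm F V₀) (y : V₀) : Function.Injective (sE Q₀ y) := by
  intro a b hab
  have h1 : ∀ x, sE Q₀ (-y) (sE Q₀ y x) = x := by
    intro x
    rw [← LinearMap.comp_apply, ← sE_add, neg_add_cancel, sE_zero]; rfl
  rw [← h1 a, hab, h1]

/-- the subspaces containing the distinguished vector -/
def sJ (W₀ : Submodule F V₀) : Submodule F ((F × F) × V₀) where
  carrier := {x | x.1.2 = 0 ∧ x.2 ∈ W₀}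
  add_mem' := by
    rintro x x' ⟨h1, h2⟩ ⟨h3, h4⟩
    exact ⟨by show x.1.2 + x'.1.2 = 0; rw [h1, h3, add_zero], W₀.add_mem h2 h4⟩
  zero_mem' := ⟨rfl, W₀.zero_mem⟩
  smul_mem' := by
    rintro c x ⟨h1, h2⟩
    exact ⟨by show c * x.1.2 = 0; rw [h1, mul_zero], W₀.smul_mem c h2⟩

theorem mem_sJ {W₀ : Submodule F V₀} {x : (F × F) × V₀} : x ∈ sJ W₀ ↔ x.1.2 = 0 ∧ x.2 ∈ W₀ := Iff.rfl

theorem sJ_dim (W₀ : Submodule F V₀) : finrank F (sJ W₀) = finrank F W₀ + 1 := by
  let e : (F × W₀) ≃ₗ[F] sJ W₀ :=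
    { toFun := fun x => ⟨((x.1, 0), x.2), rfl, x.2.2⟩
      map_add' := fun x y => by
        apply Subtype.ext
        refine Prod.ext (Prod.ext rfl ?_) rfl
        show (0 : F) = 0 + 0
        rw [add_zero]
      map_smul' := fun c x => by
        apply Subtype.ext
        refine Prod.ext (Prod.ext rfl ?_) rfl
        show (0 : F) = c * 0
        rw [mul_zero]
      invFun := fun x => (x.1.1.1, ⟨x.1.2, x.2.2⟩)
      left_inv := fun x => rfl
      right_inv := fun x => by
        apply Subtype.ext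
        refine Prod.ext (Prod.ext rfl ?_) rfl
        exact x.2.1.symm }
  rw [← e.finrank_eq, finrank_prod, finrank_self, add_comm]

/-- **recursion modulo `p`** -/
theorem ts_step {p : ℕ} [Fact p.Prime] [CharP F p] {Q₀ : QuadraticForm F V₀} (hQ : ND Q₀) (hne : ∃ v, Q₀ v ≠ 0) (m : ℕ) :
    Nat.card (TS ((hyp F).prod Q₀) (m + 1)) ≡ Nat.card (TS Q₀ m) [MOD p] := by
  classical
  have hfinV : Finite V₀ := Module.finite_of_finite F
  have hfin : Finite (Submodule F ((F × F) × V₀)) :=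
    Finite.of_injective (fun W : Submodule F ((F × F) × V₀) => (W : Set ((F × F) × V₀))) SetLike.coe_injective
  let act : MulAction (Multiplicative V₀) (TS ((hyp F).prod Q₀) (m + 1)) :=
    { smul := fun g W => ⟨W.1.map (sE Q₀ (Multiplicative.toAdd g)), TS.map W.2 _ (sE_Q Q₀ _) (sE_inj Q₀ _)⟩
      one_smul := fun W => Subtype.ext (by
        show W.1.map (sE Q₀ 0) = W.1
        rw [sE_zero]; exact Submodule.map_id W.1)
      mul_smul := fun g h W => Subtype.ext (by
        show W.1.map (sE Q₀ (Multiplicative.toAdd g + Multiplicative.toAdd h)) = (W.1.map (sE Q₀ (Multiplicative.toAdd h))).map (sE Q₀ (Multiplicative.toAdd g))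
        rw [sE_add, Submodule.map_comp]) }
  have hp : IsPGroup p (Multiplicative V₀) := by
    intro g
    refine ⟨1, ?_⟩
    rw [pow_one]
    apply Multiplicative.toAdd.injective
    show p • (Multiplicative.toAdd g) = 0
    rw [← Nat.cast_smul_eq_nsmul F, CharP.cast_eq_zero, zero_smul]
  have h1 := hp.card_modEq_card_fixedPoints (TS ((hyp F).prod Q₀) (m + 1))
  refine h1.trans ?_
  have hfixed : ∀ W : TS ((hyp F).prod Q₀) (m + 1), W ∈ MulAction.fixedPoints (Multiplicative V₀) (TS ((hyp F).prod Q₀) (m + 1)) →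
      (∀ x ∈ W.1, x.1.2 = 0) ∧ (((1 : F), (0 : F)), (0 : V₀)) ∈ W.1 := by
    intro W hW
    have hW' : ∀ y, ∀ x ∈ W.1, sE Q₀ y x ∈ W.1 := by
      intro y x hx
      have h2 := hW (Multiplicative.ofAdd y)
      have h3 : W.1.map (sE Q₀ y) = W.1 := congrArg Subtype.val h2
      rw [← h3]; exact ⟨x, hx, rfl⟩
    have hdiff : ∀ y, ∀ x ∈ W.1, (((- polar Q₀ x.2 y - Q₀ y * x.1.2 : F), (0 : F)), x.1.2 • y) ∈ W.1 := by
      intro y x hx
      have h2 := W.1.sub_mem (hW' y x hx) hx
      have h3 : sE Q₀ y x - x = (((- polar Q₀ x.2 y - Q₀ y * x.1.2 : F), (0 : F)), x.1.2 • y) := by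
        rw [sE_apply]
        refine Prod.ext (Prod.ext ?_ ?_) ?_
        · show x.1.1 - polar Q₀ x.2 y - Q₀ y * x.1.2 - x.1.1 = _
          ring
        · show x.1.2 - x.1.2 = 0
          exact sub_self _
        · show x.2 + x.1.2 • y - x.2 = _
          abel
      rwa [h3] at h2
    have hb : ∀ x ∈ W.1, x.1.2 = 0 := by
      intro x hx
      obtain ⟨y, hy⟩ := hne
      have h2 := W.2.2 _ (hdiff y x hx)
      have h3 : (- polar Q₀ x.2 y - Q₀ y * x.1.2) * 0 + Q₀ (x.1.2 • y) = 0 := h2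
      rw [mul_zero, zero_add, QuadraticMap.map_smul, smul_eq_mul, mul_eq_zero] at h3
      exact mul_self_eq_zero.1 (h3.resolve_right hy)
    refine ⟨hb, ?_⟩
    have hne0 : W.1 ≠ ⊥ := by
      intro h
      have h2 := W.2.1
      rw [h, finrank_bot] at h2
      omega
    obtain ⟨x, hx, hx0⟩ := Submodule.exists_mem_ne_zero_of_ne_bot hne0
    have hbx := hb x hx
    by_cases hv : x.2 = 0
    · have ha : x.1.1 ≠ 0 := by
        intro h
        exact hx0 (Prod.ext (Prod.ext h hbx) hv)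
      have h2 := W.1.smul_mem (x.1.1)⁻¹ hx
      have h3 : (x.1.1)⁻¹ • x = (((1 : F), (0 : F)), (0 : V₀)) := by
        refine Prod.ext (Prod.ext ?_ ?_) ?_
        · show (x.1.1)⁻¹ * x.1.1 = 1
          exact inv_mul_cancel₀ ha
        · show (x.1.1)⁻¹ * x.1.2 = 0
          rw [hbx, mul_zero]
        · show (x.1.1)⁻¹ • x.2 = 0
          rw [hv, smul_zero]
      rwa [h3] at h2
    · obtain ⟨y, hy⟩ : ∃ y, polar Q₀ x.2 y ≠ 0 := by
        by_contra h; push Not at h; exact hv (hQ _ h)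
      have h2 := W.1.smul_mem (-(polar Q₀ x.2 y)⁻¹) (hdiff y x hx)
      have h3 : (-(polar Q₀ x.2 y)⁻¹) • (((- polar Q₀ x.2 y - Q₀ y * x.1.2 : F), (0 : F)), x.1.2 • y) = (((1 : F), (0 : F)), (0 : V₀)) := by
        rw [hbx]
        refine Prod.ext (Prod.ext ?_ ?_) ?_
        · show (-(polar Q₀ x.2 y)⁻¹) * (- polar Q₀ x.2 y - Q₀ y * 0) = 1
          rw [mul_zero, sub_zero, neg_mul_neg, inv_mul_cancel₀ hy]
        · show (-(polar Q₀ x.2 y)⁻¹) * 0 = 0
          rw [mul_zero]
        · show (-(polar Q₀ x.2 y)⁻¹) • ((0 : F) • y) = 0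
          rw [zero_smul, smul_zero]
      rwa [h3] at h2
  have hJ : ∀ W : TS ((hyp F).prod Q₀) (m + 1), W ∈ MulAction.fixedPoints (Multiplicative V₀) (TS ((hyp F).prod Q₀) (m + 1)) →
      sJ (W.1.comap (LinearMap.inr F (F × F) V₀)) = W.1 := by
    intro W hW
    obtain ⟨hb, he⟩ := hfixed W hW
    have key : ∀ x : (F × F) × V₀, x.1.2 = 0 → x = x.1.1 • (((1 : F), (0 : F)), (0 : V₀)) + LinearMap.inr F (F × F) V₀ x.2 := by
      intro x hx
      refine Prod.ext (Prod.ext ?_ ?_) ?_
      · show x.1.1 = x.1.1 * 1 + 0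
        ring
      · show x.1.2 = x.1.1 * 0 + 0
        rw [hx]; ring
      · show x.2 = x.1.1 • (0 : V₀) + x.2
        rw [smul_zero, zero_add]
    ext x
    rw [mem_sJ]
    constructor
    · rintro ⟨h1, h2⟩
      rw [key x h1]
      exact W.1.add_mem (W.1.smul_mem _ he) h2
    · intro hx
      refine ⟨hb x hx, ?_⟩
      show LinearMap.inr F (F × F) V₀ x.2 ∈ W.1
      have h2 := key x (hb x hx)
      have h3 : LinearMap.inr F (F × F) V₀ x.2 = x - x.1.1 • (((1 : F), (0 : F)), (0 : V₀)) := by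
        rw [eq_sub_iff_add_eq, add_comm]; exact h2.symm
      rw [h3]
      exact W.1.sub_mem hx (W.1.smul_mem _ he)
  let e : MulAction.fixedPoints (Multiplicative V₀) (TS ((hyp F).prod Q₀) (m + 1)) ≃ TS Q₀ m :=
    { toFun := fun W => ⟨W.1.1.comap (LinearMap.inr F (F × F) V₀), by
        constructor
        · have h2 := sJ_dim (W.1.1.comap (LinearMap.inr F (F × F) V₀))
          rw [hJ W.1 W.2, W.1.2.1] at h2
          omega
        · intro w hw
          have h2 := W.1.2.2 _ hw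
          have h3 : (0 : F) * 0 + Q₀ w = 0 := h2
          rw [mul_zero, zero_add] at h3
          exact h3⟩
      invFun := fun W₀ => ⟨⟨sJ W₀.1, by
        constructor
        · rw [sJ_dim, W₀.2.1]
        · rintro x ⟨hx1, hx2⟩
          show x.1.1 * x.1.2 + Q₀ x.2 = 0
          rw [hx1, mul_zero, zero_add]
          exact W₀.2.2 _ hx2⟩, by
        intro g
        apply Subtype.ext
        show (sJ W₀.1).map (sE Q₀ (Multiplicative.toAdd g)) = sJ W₀.1
        have hle : ∀ y, ∀ x ∈ sJ W₀.1, sE Q₀ y x ∈ sJ W₀.1 := by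
          rintro y x ⟨hx1, hx2⟩
          refine ⟨hx1, ?_⟩
          show x.2 + x.1.2 • y ∈ W₀.1
          rw [hx1, zero_smul, add_zero]; exact hx2
        apply le_antisymm
        · rintro _ ⟨x, hx, rfl⟩
          exact hle _ x hx
        · intro x hx
          refine ⟨sE Q₀ (-(Multiplicative.toAdd g)) x, hle _ x hx, ?_⟩
          rw [← LinearMap.comp_apply, ← sE_add, add_neg_cancel, sE_zero]; rfl⟩
      left_inv := fun W => by
        apply Subtype.ext
        apply Subtype.ext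
        exact hJ W.1 W.2
      right_inv := fun W₀ => by
        apply Subtype.ext
        ext v
        show LinearMap.inr F (F × F) V₀ v ∈ sJ W₀.1 ↔ v ∈ W₀.1
        rw [mem_sJ]
        exact ⟨fun h => h.2, fun h => ⟨rfl, h⟩⟩ }
  rw [Nat.card_congr e]

end siegel

theorem ts_congr {V V' : Type u} [AddCommGroup V] [Module F V] [AddCommGroup V'] [Module F V'] {Q : QuadraticForm F V} {Q' : QuadraticForm F V'}
    (h : Q.Equivalent Q') (m : ℕ) : Nat.card (TS Q m) = Nat.card (TS Q' m) := by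
  obtain ⟨e⟩ := h
  have h1 : ∀ v, e (e.toLinearEquiv.symm v) = v := fun v => e.toLinearEquiv.apply_symm_apply v
  apply Nat.card_congr
  refine
    { toFun := fun W => ⟨W.1.map e.toLinearEquiv.toLinearMap, ?_⟩
      invFun := fun W => ⟨W.1.map e.toLinearEquiv.symm.toLinearMap, ?_⟩
      left_inv := fun W => ?_
      right_inv := fun W => ?_ }
  · refine ⟨(LinearEquiv.finrank_map_eq e.toLinearEquiv _).trans W.2.1, ?_⟩
    rintro _ ⟨w, hw, rfl⟩
    show Q' (e w) = 0
    rw [e.map_app]; exact W.2.2 w hw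
  · refine ⟨(LinearEquiv.finrank_map_eq e.toLinearEquiv.symm _).trans W.2.1, ?_⟩
    rintro _ ⟨w, hw, rfl⟩
    show Q (e.toLinearEquiv.symm w) = 0
    rw [← e.map_app, h1]; exact W.2.2 w hw
  · apply Subtype.ext
    show (W.1.map e.toLinearEquiv.toLinearMap).map e.toLinearEquiv.symm.toLinearMap = W.1
    rw [← Submodule.map_comp]
    have : e.toLinearEquiv.symm.toLinearMap ∘ₗ e.toLinearEquiv.toLinearMap = LinearMap.id := by
      apply LinearMap.ext; intro v; exact e.toLinearEquiv.symm_apply_apply v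
    rw [this, Submodule.map_id]
  · apply Subtype.ext
    show (W.1.map e.toLinearEquiv.symm.toLinearMap).map e.toLinearEquiv.toLinearMap = W.1
    rw [← Submodule.map_comp]
    have : e.toLinearEquiv.toLinearMap ∘ₗ e.toLinearEquiv.symm.toLinearMap = LinearMap.id := by
      apply LinearMap.ext; intro v; exact e.toLinearEquiv.apply_symm_apply v
    rw [this, Submodule.map_id]

/-- **the number of totally singular subspaces is one modulo `p`** -/
theorem ts_count {p : ℕ} [Fact p.Prime] [CharP F p] (m : ℕ) : ∀ (V : Type u) [AddCommGroup V] [Module F V] [FiniteDimensional F V]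
    (Q : QuadraticForm F V), ND Q → 2 * m < finrank F V → Nat.card (TS Q m) ≡ 1 [MOD p] := by
  induction m with
  | zero =>
    intro V _ _ _ Q hQ _
    have : TS Q 0 = {⊥} := by
      ext W
      rw [Set.mem_singleton_iff]
      constructor
      · intro h; exact Submodule.finrank_eq_zero.1 h.1
      · rintro rfl
        refine ⟨finrank_bot F V, ?_⟩
        intro w hw
        rw [(Submodule.mem_bot F).1 hw]; exact QuadraticMap.map_zero Q
    rw [this, Nat.card_unique]
  | succ m ih =>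
    intro V _ _ _ Q hQ hm
    obtain ⟨U, hU, hUd⟩ := ts_exists hQ (j := m + 1) hm.le (fun h => by omega)
    have hne0 : U ≠ ⊥ := by
      intro h
      rw [h, finrank_bot] at hUd
      omega
    obtain ⟨v, hv, hv0⟩ := Submodule.exists_mem_ne_zero_of_ne_bot hne0
    obtain ⟨X, x1, x2, x3⟩ := hyp_split hQ hv0 (hU v hv)
    have hne : ∃ v, (Q.restrict X) v ≠ 0 := by
      by_contra hcon
      push Not at hcon
      have : finrank F X = 0 := by
        have : Subsingleton X := ⟨fun a b => by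
          have h1 : ∀ c : X, c = 0 := fun c => x1 c (fun y => by rw [polar, hcon, hcon, hcon]; ring)
          rw [h1 a, h1 b]⟩
        exact finrank_zero_of_subsingleton
      omega
    rw [ts_congr x3 (m + 1)]
    exact (ts_step x1 hne m).trans (ih X (Q.restrict X) x1 (by omega))

theorem ts_not_p {p : ℕ} [Fact p.Prime] [CharP F p] {V : Type u} [AddCommGroup V] [Module F V] [FiniteDimensional F V]
    {Q : QuadraticForm F V} (hQ : ND Q) {m : ℕ} (hm : 2 * m < finrank F V) : ¬ p ∣ Nat.card (TS Q m) := by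
  intro h
  have h1 := ts_count (p := p) m V Q hQ hm
  have h2 := (Nat.modEq_zero_iff_dvd.2 h).symm.trans h1
  have hp : p.Prime := Fact.out
  have h3 : p ∣ 1 := Nat.modEq_zero_iff_dvd.1 h2.symm
  exact hp.one_lt.ne' (Nat.dvd_one.1 h3)

end H99.OrthTi
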