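import Mathlib
import Cfsg.Prelude.Def_GeometricClasses
import Cfsg.Prelude.Def_LieClassical
import Cfsg.Agent.Lib.H49.Unitary
import Cfsg.Agent.Lib.H7.UnitOrd
import Cfsg.Agent.Lib.H7.UnitSU
import Cfsg.Agent.Lib.H41.FieldQ
import Cfsg.Agent.Lib.H99.HermPair
import Cfsg.Agent.Lib.H99.Skew

set_option autoImplicit false
set_option linter.unusedSimpArgs false
set_option linter.unusedSectionVars false
set_option linter.unusedVariables false

/-! Unitary groups: centralizer elements of prescribed determinant. -/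

namespace H99.U4

open Matrix Module H49.Unitary

variable {F : Type*} [Field F] [Finite F] {q : ℕ} {n : ℕ}

theorem conj_mv (hK : Nat.card F = q ^ 2) (M : Matrix (Fin n) (Fin n) F) (v : Fin n → F) :
    (fun i => frob hK ((M *ᵥ v) i)) = M.map (frob hK) *ᵥ (fun i => frob hK (v i)) := by
  ext i
  simp only [mulVec, dotProduct, map_sum, map_mul, Matrix.map_apply]

theorem adj (hK : Nat.card F = q ^ 2) (M : Matrix (Fin n) (Fin n) F) (u v : Fin n → F) :
    Cfsg.hermForm n F q (M *ᵥ u) v = Cfsg.hermForm n F q u (ct hK M *ᵥ v) := by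
  have hform : ∀ u v : Fin n → F, Cfsg.hermForm n F q u v = u ⬝ᵥ (fun i => frob hK (v i)) := fun u v => rfl
  rw [hform, hform, conj_mv hK]
  have : (ct hK M).map (frob hK) = Mᵀ := by
    ext i j
    rw [Matrix.map_apply, ct_apply, ← frob_apply hK, frob_frob]; rfl
  rw [this, Matrix.mulVec_transpose, dotProduct_comm (M *ᵥ u), dotProduct_mulVec, dotProduct_comm u]

/-- outer products -/
def outer (hK : Nat.card F = q ^ 2) (u w : Fin n → F) : Matrix (Fin n) (Fin n) F := Matrix.vecMulVec u (fun i => frob hK (w i))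

theorem outer_mulVec (hK : Nat.card F = q ^ 2) (u w x : Fin n → F) : outer hK u w *ᵥ x = Cfsg.hermForm n F q x w • u := by
  have hform : ∀ u v : Fin n → F, Cfsg.hermForm n F q u v = u ⬝ᵥ (fun i => frob hK (v i)) := fun u v => rfl
  ext i
  rw [hform, outer, Matrix.mulVec, dotProduct, Pi.smul_apply, dotProduct, smul_eq_mul, Finset.sum_mul]
  refine Finset.sum_congr rfl fun j _ => ?_
  rw [Matrix.vecMulVec_apply]; ring

theorem mul_outer (hK : Nat.card F = q ^ 2) (M : Matrix (Fin n) (Fin n) F) (u w : Fin n → F) :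
    M * outer hK u w = outer hK (M *ᵥ u) w := by
  rw [outer, outer, Matrix.mul_vecMulVec]

theorem outer_mul (hK : Nat.card F = q ^ 2) (M : Matrix (Fin n) (Fin n) F) (u w : Fin n → F) :
    outer hK u w * M = outer hK u (ct hK M *ᵥ w) := by
  apply Skew.matrix_ext
  intro x
  rw [← Matrix.mulVec_mulVec, outer_mulVec, outer_mulVec, adj hK]

theorem ct_outer (hK : Nat.card F = q ^ 2) (u w : Fin n → F) : ct hK (outer hK u w) = outer hK w u := by
  ext i j
  rw [ct_apply, outer, outer, Matrix.vecMulVec_apply, Matrix.vecMulVec_apply, ← frob_apply hK, map_mul, frob_frob, mul_comm]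

theorem outer_smul_left (hK : Nat.card F = q ^ 2) (a : F) (u w : Fin n → F) : outer hK (a • u) w = a • outer hK u w := by
  rw [outer, outer, Matrix.smul_vecMulVec]

theorem outer_smul_right (hK : Nat.card F = q ^ 2) (a : F) (u w : Fin n → F) : outer hK u (a • w) = frob hK a • outer hK u w := by
  ext i j
  rw [outer, outer, Matrix.smul_apply, Matrix.vecMulVec_apply, Matrix.vecMulVec_apply, Pi.smul_apply, smul_eq_mul, map_mul, smul_eq_mul]
  ring

theorem outer_outer (hK : Nat.card F = q ^ 2) (u w u' w' : Fin n → F) :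
    outer hK u w * outer hK u' w' = Cfsg.hermForm n F q u' w • outer hK u w' := by
  rw [mul_outer, outer_mulVec, outer_smul_left]

theorem det_outer (hK : Nat.card F = q ^ 2) (a : F) (u w : Fin n → F) :
    (1 + a • outer hK u w).det = 1 + a * Cfsg.hermForm n F q u w := by
  have hform : ∀ u v : Fin n → F, Cfsg.hermForm n F q u v = u ⬝ᵥ (fun i => frob hK (v i)) := fun u v => rfl
  rw [← outer_smul_left, outer, Matrix.vecMulVec_eq Unit, Matrix.det_one_add_replicateCol_mul_replicateRow, hform,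
    dotProduct_comm, smul_dotProduct, smul_eq_mul]

theorem self_real (hK : Nat.card F = q ^ 2) (v : Fin n → F) : frob hK (Cfsg.hermForm n F q v v) = Cfsg.hermForm n F q v v :=
  (HermPair.swap_std hK v v).symm

/-- quasi-reflections commuting with `x` -/
theorem exists_quasi (hK : Nat.card F = q ^ 2) {x : Matrix (Fin n) (Fin n) F} (hx : ct hK x * x = 1) {v : Fin n → F} {α : F}
    (hv : x *ᵥ v = α • v) (hvv : Cfsg.hermForm n F q v v ≠ 0) {δ : F} (hδ : frob hK δ * δ = 1) :
    ∃ c : Matrix (Fin n) (Fin n) F, ct hK c * c = 1 ∧ c * x = x * c ∧ c.det = δ := by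
  set h := Cfsg.hermForm n F q v v with hh
  have hr : frob hK h = h := self_real hK v
  have hα : frob hK α * α = 1 := by
    have h1 := adj hK x v (x *ᵥ v)
    rw [Matrix.mulVec_mulVec, hx, Matrix.one_mulVec, hv] at h1
    have ses := HermPair.ses_std (F := F) hK n
    rw [ses.smul_left, ses.smul_right, ← hh] at h1
    have h2 : (α * frob hK α) * h = 1 * h := by rw [one_mul, mul_assoc]; exact h1
    have := mul_right_cancel₀ hvv h2
    rw [mul_comm]; exact this
  have hα0 : α ≠ 0 := by rintro rfl; simp at hα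
  have hxi : ct hK x *ᵥ v = α⁻¹ • v := by
    have h1 : ct hK x *ᵥ (x *ᵥ v) = v := by rw [Matrix.mulVec_mulVec, hx, Matrix.one_mulVec]
    rw [hv, Matrix.mulVec_smul] at h1
    rw [← h1, smul_smul, inv_mul_cancel₀ hα0, one_smul, h1]
  set a := (δ - 1) / h with ha
  have hfa : frob hK a = (frob hK δ - 1) / h := by rw [ha, map_div₀, map_sub, map_one, hr]
  refine ⟨1 + a • outer hK v v, ?_, ?_, ?_⟩
  · have : a + (frob hK a + frob hK a * (a * h)) = 0 := by
      rw [hfa, ha]
      field_simp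
      linear_combination hδ
    calc ct hK (1 + a • outer hK v v) * (1 + a • outer hK v v) = 1 + (a + (frob hK a + frob hK a * (a * h))) • outer hK v v := by
          rw [ct_add, ct_one, ct_smul, ct_outer]
          simp only [add_mul, mul_add, one_mul, mul_one, Matrix.smul_mul, Matrix.mul_smul, outer_outer, ← hh, smul_smul]
          module
      _ = 1 := by rw [this, zero_smul, add_zero]
  · rw [add_mul, mul_add, one_mul, mul_one, Matrix.smul_mul, Matrix.mul_smul, mul_outer, outer_mul, hv, hxi, outer_smul_left, outer_smul_right]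
    congr 3
    rw [map_inv₀]
    exact inv_eq_of_mul_eq_one_right hα
  · rw [det_outer, ← hh, ha, div_mul_cancel₀ _ hvv]; ring

/-- unitary elements commuting with `x`, from a hyperbolic pair of eigenvectors -/
theorem exists_pair (hK : Nat.card F = q ^ 2) {x : Matrix (Fin n) (Fin n) F} (hx : ct hK x * x = 1) {u w : Fin n → F} {α β : F}
    (hu : x *ᵥ u = α • u) (hw : x *ᵥ w = β • w) (huu : Cfsg.hermForm n F q u u = 0) (hww : Cfsg.hermForm n F q w w = 0)
    (huw : Cfsg.hermForm n F q u w = 1) {δ : F} (hδ : frob hK δ * δ = 1) :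
    ∃ c : Matrix (Fin n) (Fin n) F, ct hK c * c = 1 ∧ c * x = x * c ∧ c.det = δ := by
  have ses := HermPair.ses_std (F := F) hK n
  have hwu : Cfsg.hermForm n F q w u = 1 := by rw [HermPair.swap_std hK, huw, map_one]
  have hαβ : frob hK β * α = 1 := by
    have h1 := adj hK x u (x *ᵥ w)
    rw [Matrix.mulVec_mulVec, hx, Matrix.one_mulVec, hu, hw, ses.smul_left, ses.smul_right, huw, mul_one] at h1
    rw [mul_comm]; exact h1
  have hα0 : α ≠ 0 := by rintro rfl; simp at hαβ
  have hβ0 : β ≠ 0 := by rintro rfl; simp at hαβ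
  have hβα : frob hK α * β = 1 := by
    have := congrArg (frob hK) hαβ
    rw [map_mul, frob_frob, map_one, mul_comm] at this
    exact this
  have hxi : ∀ (v : Fin n → F) (a : F), a ≠ 0 → x *ᵥ v = a • v → ct hK x *ᵥ v = a⁻¹ • v := by
    intro v a ha hv
    have h1 : ct hK x *ᵥ (x *ᵥ v) = v := by rw [Matrix.mulVec_mulVec, hx, Matrix.one_mulVec]
    rw [hv, Matrix.mulVec_smul] at h1
    rw [← h1, smul_smul, inv_mul_cancel₀ ha, one_smul, h1]
  -- Hilbert 90
  have hδ0 : δ ≠ 0 := by rintro rfl; simp at hδ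
  obtain ⟨l, hl0, hl⟩ : ∃ l : F, l ≠ 0 ∧ δ = l * (frob hK l)⁻¹ := by
    obtain ⟨y, hy⟩ : ∃ y : F, y + δ * frob hK y ≠ 0 := by
      by_contra hcon
      push Not at hcon
      obtain ⟨θ, hθ⟩ := exists_theta hK
      have h2 := hcon 1
      rw [map_one, mul_one] at h2
      have h4 : δ = -1 := by linear_combination h2
      have h3 := hcon θ
      rw [h4] at h3
      apply hθ
      linear_combination h3
    refine ⟨y + δ * frob hK y, hy, ?_⟩
    have h5 : δ * frob hK (y + δ * frob hK y) = y + δ * frob hK y := by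
      rw [map_add, map_mul, frob_frob]
      linear_combination y * hδ
    rw [eq_mul_inv_iff_mul_eq₀]
    · exact h5
    · intro h6
      rw [h6, mul_zero] at h5
      exact hy h5.symm
  have hfl0 : frob hK l ≠ 0 := by rw [Ne, map_eq_zero]; exact hl0
  set m := (frob hK l)⁻¹ with hm
  have hfm : frob hK m = l⁻¹ := by rw [hm, map_inv₀, frob_frob]
  have hfm' : frob hK m * l = 1 := by rw [hfm, inv_mul_cancel₀ hl0]
  have hlm : frob hK l * m = 1 := by rw [hm, mul_inv_cancel₀ hfl0]
  refine ⟨(1 + (l - 1) • outer hK u w) * (1 + (m - 1) • outer hK w u), ?_, ?_, ?_⟩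
  · have e1 : (1 + (l - 1) • outer hK u w) * (1 + (m - 1) • outer hK w u) = 1 + (l - 1) • outer hK u w + (m - 1) • outer hK w u := by
      simp only [add_mul, mul_add, one_mul, mul_one, Matrix.smul_mul, Matrix.mul_smul, outer_outer, hww, zero_smul, smul_zero, add_zero]
    rw [e1]
    calc _ = 1 + (frob hK l * m - 1) • outer hK w u + (frob hK m * l - 1) • outer hK u w := by
          rw [ct_add, ct_add, ct_one, ct_smul, ct_smul, ct_outer, ct_outer, map_sub, map_sub, map_one]
          simp only [add_mul, mul_add, one_mul, mul_one, Matrix.smul_mul, Matrix.mul_smul, outer_outer, huu, hww, huw, hwu, zero_smul, smul_zero, add_zero,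
            one_smul, zero_add, smul_smul]
          module
      _ = 1 := by rw [hlm, hfm', sub_self, zero_smul, zero_smul, add_zero, add_zero]
  · have c1 : outer hK u w * x = x * outer hK u w := by
      rw [mul_outer, outer_mul, hu, hxi w β hβ0 hw, outer_smul_left, outer_smul_right, map_inv₀]
      congr 1
      exact inv_eq_of_mul_eq_one_right hαβ
    have c2 : outer hK w u * x = x * outer hK w u := by
      rw [mul_outer, outer_mul, hw, hxi u α hα0 hu, outer_smul_left, outer_smul_right, map_inv₀]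
      congr 1
      exact inv_eq_of_mul_eq_one_right hβα
    have d1 : (1 + (l - 1) • outer hK u w) * x = x * (1 + (l - 1) • outer hK u w) := by
      rw [add_mul, mul_add, one_mul, mul_one, Matrix.smul_mul, Matrix.mul_smul, c1]
    have d2 : (1 + (m - 1) • outer hK w u) * x = x * (1 + (m - 1) • outer hK w u) := by
      rw [add_mul, mul_add, one_mul, mul_one, Matrix.smul_mul, Matrix.mul_smul, c2]
    rw [mul_assoc, d2, ← mul_assoc, d1, mul_assoc]
  · rw [Matrix.det_mul, det_outer, det_outer, huw, hwu, hl]; ring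

/-- anisotropic vectors in the range of a self-adjoint idempotent -/
theorem exists_aniso (hK : Nat.card F = q ^ 2) {P : Matrix (Fin n) (Fin n) F} (hP : ct hK P = P) (hPP : P * P = P) (hP0 : P ≠ 0) :
    ∃ v : Fin n → F, Cfsg.hermForm n F q v v ≠ 0 ∧ P *ᵥ v = v := by
  by_contra hcon
  push Not at hcon
  have ses := HermPair.ses_std (F := F) hK n
  apply hP0
  have h1 : ∀ u, Cfsg.hermForm n F q u (P *ᵥ u) = 0 := by
    intro u
    by_contra h
    apply hcon (P *ᵥ u)
    · rw [adj hK, hP, Matrix.mulVec_mulVec, hPP]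
      exact h
    · rw [Matrix.mulVec_mulVec, hPP]
  obtain ⟨θ, hθ⟩ := exists_theta hK
  have h2 : ∀ u w, Cfsg.hermForm n F q u (P *ᵥ w) + Cfsg.hermForm n F q w (P *ᵥ u) = 0 := by
    intro u w
    have := h1 (u + w)
    rw [Matrix.mulVec_add, ses.add_left, ses.add_right, ses.add_right, h1, h1, zero_add, add_zero] at this
    exact this
  have h3 : ∀ u w, Cfsg.hermForm n F q u (P *ᵥ w) = 0 := by
    intro u w
    have e1 := h2 u w
    have e2 := h2 (θ • u) w
    rw [Matrix.mulVec_smul, ses.smul_left, ses.smul_right] at e2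
    have e3 : (θ - frob hK θ) * Cfsg.hermForm n F q u (P *ᵥ w) = 0 := by linear_combination e2 - frob hK θ * e1
    exact (mul_eq_zero.1 e3).resolve_left hθ
  apply Skew.matrix_ext
  intro w
  rw [Matrix.zero_mulVec]
  apply ses.nd
  intro u
  rw [HermPair.swap_std hK, h3, map_zero]

/-- conjugacy in the special unitary group -/
theorem exists_SU_conj (hK : Nat.card F = q ^ 2) {n : ℕ} {x y : GL (Fin n) F} (hx : x ∈ Cfsg.GU n F q) (hy : y ∈ Cfsg.GU n F q)
    {X : Matrix (Fin n) (Fin n) F} (hX : X.det ≠ 0) (h : X * x = y * X)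
    (hc : ∀ δ : F, frob hK δ * δ = 1 → ∃ c : Matrix (Fin n) (Fin n) F, ct hK c * c = 1 ∧ c * x = x * c ∧ c.det = δ) :
    ∃ g ∈ Cfsg.GU n F q ⊓ Cfsg.Geo.specialLinear (Fin n) F, g⁻¹ * x * g = y := by
  obtain ⟨Z, hZ, hZx⟩ := conj_unitary_matrix hK (x : Matrix (Fin n) (Fin n) F) (y : Matrix (Fin n) (Fin n) F) X
    ((Matrix.isUnit_iff_isUnit_det _).2 (isUnit_iff_ne_zero.2 hX)) h ((mem_GU hK _).1 hx) ((mem_GU hK _).1 hy)
  have hdct : (ct hK Z).det = frob hK Z.det := by
    rw [ct, Matrix.det_transpose]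
    exact (RingHom.map_det (frob hK) Z).symm
  have hd : frob hK Z.det * Z.det = 1 := by
    rw [← hdct, ← Matrix.det_mul, hZ, Matrix.det_one]
  have hd0 : Z.det ≠ 0 := by intro h0; rw [h0, mul_zero] at hd; exact zero_ne_one hd
  obtain ⟨c, hc1, hc2, hc3⟩ := hc (Z.det)⁻¹ (by
    rw [map_inv₀, ← mul_inv, hd, inv_one])
  have hW : ct hK (Z * c) * (Z * c) = 1 := by
    rw [ct_mul, mul_assoc, ← mul_assoc (ct hK Z), hZ, one_mul, hc1]
  have hW' : (Z * c) * ct hK (Z * c) = 1 := mul_eq_one_comm.1 hW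
  have hWx : Z * c * x = y * (Z * c) := by
    rw [mul_assoc, hc2, ← mul_assoc, hZx, mul_assoc]
  have hWdet : (Z * c).det = 1 := by rw [Matrix.det_mul, hc3, mul_inv_cancel₀ hd0]
  let g : GL (Fin n) F := ⟨ct hK (Z * c), Z * c, hW, hW'⟩
  refine ⟨g, Subgroup.mem_inf.2 ⟨?_, ?_⟩, ?_⟩
  · rw [mem_GU hK]
    show ct hK (ct hK (Z * c)) * ct hK (Z * c) = 1
    rw [ct_ct]; exact hW'
  · unfold Cfsg.Geo.specialLinear
    rw [MonoidHom.mem_ker]
    apply Units.ext
    show (ct hK (Z * c)).det = 1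
    have := congrArg Matrix.det hW
    rw [Matrix.det_mul, hWdet, mul_one, Matrix.det_one] at this
    exact this
  · apply Units.ext
    show Z * c * x * ct hK (Z * c) = y
    rw [hWx, mul_assoc, hW', mul_one]

theorem trace_ct (hK : Nat.card F = q ^ 2) (M : Matrix (Fin n) (Fin n) F) : (ct hK M).trace = frob hK M.trace := by
  rw [ct, Matrix.trace_transpose, Matrix.trace, Matrix.trace, map_sum]
  rfl

/-- conjugacy from matching idempotents -/
theorem conj_of_idem {ι κ : Type} [Fintype ι] [DecidableEq ι] [Fintype κ] [DecidableEq κ] {P Q : κ → Matrix ι ι F}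
    (hP : ∀ i j, P i * P j = if i = j then P i else 0) (hPs : ∑ i, P i = 1)
    (hQ : ∀ i j, Q i * Q j = if i = j then Q i else 0) (hQs : ∑ i, Q i = 1)
    (hr : ∀ i, finrank F (LinearMap.range (Matrix.toLin' (P i))) = finrank F (LinearMap.range (Matrix.toLin' (Q i)))) :
    ∃ X : Matrix ι ι F, X.det ≠ 0 ∧ ∀ i, X * P i = Q i * X := by
  classical
  let φ : ∀ i, LinearMap.range (Matrix.toLin' (P i)) ≃ₗ[F] LinearMap.range (Matrix.toLin' (Q i)) := fun i => LinearEquiv.ofFinrankEq _ _ (hr i)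
  let A : ∀ i, (ι → F) →ₗ[F] (ι → F) := fun i => (LinearMap.range (Matrix.toLin' (Q i))).subtype ∘ₗ (φ i).toLinearMap ∘ₗ (Matrix.toLin' (P i)).rangeRestrict
  let B : ∀ i, (ι → F) →ₗ[F] (ι → F) := fun i => (LinearMap.range (Matrix.toLin' (P i))).subtype ∘ₗ (φ i).symm.toLinearMap ∘ₗ (Matrix.toLin' (Q i)).rangeRestrict
  have hA : ∀ i v, A i v = (φ i ⟨P i *ᵥ v, ⟨v, rfl⟩⟩ : LinearMap.range (Matrix.toLin' (Q i))) := fun i v => rfl
  have hB : ∀ i v, B i v = ((φ i).symm ⟨Q i *ᵥ v, ⟨v, rfl⟩⟩ : LinearMap.range (Matrix.toLin' (P i))) := fun i v => rfl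
  -- elements of ranges
  have hQr : ∀ i j (w : LinearMap.range (Matrix.toLin' (Q i))), Q j *ᵥ (w : ι → F) = if i = j then (w : ι → F) else 0 := by
    intro i j w
    obtain ⟨v, hv⟩ := w.2
    rw [← hv, Matrix.toLin'_apply, Matrix.mulVec_mulVec, hQ]
    by_cases h : i = j
    · subst h; rw [if_pos rfl, if_pos rfl]
    · rw [if_neg (Ne.symm h), if_neg h, Matrix.zero_mulVec]
  have hPr : ∀ i j (w : LinearMap.range (Matrix.toLin' (P i))), P j *ᵥ (w : ι → F) = if i = j then (w : ι → F) else 0 := by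
    intro i j w
    obtain ⟨v, hv⟩ := w.2
    rw [← hv, Matrix.toLin'_apply, Matrix.mulVec_mulVec, hP]
    by_cases h : i = j
    · subst h; rw [if_pos rfl, if_pos rfl]
    · rw [if_neg (Ne.symm h), if_neg h, Matrix.zero_mulVec]
  have hBA : ∀ j i v, B j (A i v) = if i = j then P i *ᵥ v else 0 := by
    intro j i v
    rw [hB]
    by_cases h : i = j
    · subst h
      rw [if_pos rfl]
      have e : (⟨Q i *ᵥ (A i v), ⟨A i v, rfl⟩⟩ : LinearMap.range (Matrix.toLin' (Q i))) = φ i ⟨P i *ᵥ v, ⟨v, rfl⟩⟩ := by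
        apply Subtype.ext
        show Q i *ᵥ (A i v) = _
        rw [hA, hQr, if_pos rfl]
      rw [e, LinearEquiv.symm_apply_apply]
    · rw [if_neg h]
      have e : (⟨Q j *ᵥ (A i v), ⟨A i v, rfl⟩⟩ : LinearMap.range (Matrix.toLin' (Q j))) = 0 := by
        apply Subtype.ext
        show Q j *ᵥ (A i v) = 0
        rw [hA, hQr, if_neg h]
      rw [e, map_zero]; rfl
  let X : (ι → F) →ₗ[F] (ι → F) := ∑ i, A i
  let Y : (ι → F) →ₗ[F] (ι → F) := ∑ i, B i
  have hX : ∀ v, X v = ∑ i, A i v := fun v => LinearMap.sum_apply _ _ _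
  have hY : ∀ v, Y v = ∑ i, B i v := fun v => LinearMap.sum_apply _ _ _
  have hYX : ∀ v, Y (X v) = v := by
    intro v
    rw [hX, map_sum]
    have : ∀ i, Y (A i v) = P i *ᵥ v := by
      intro i
      rw [hY, Finset.sum_congr rfl (fun j _ => hBA j i v), Finset.sum_ite_eq]
      simp
    rw [Finset.sum_congr rfl (fun i _ => this i), ← Matrix.sum_mulVec, hPs, Matrix.one_mulVec]
  refine ⟨LinearMap.toMatrix' X, ?_, ?_⟩
  · intro h
    obtain ⟨v, hv, hv0⟩ := Matrix.exists_mulVec_eq_zero_iff.2 h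
    rw [← Matrix.toLin'_apply, Matrix.toLin'_toMatrix'] at hv0
    apply hv
    rw [← hYX v, hv0, map_zero]
  · intro i
    apply Skew.matrix_ext
    intro v
    rw [← Matrix.mulVec_mulVec, ← Matrix.mulVec_mulVec, ← Matrix.toLin'_apply (LinearMap.toMatrix' X), ← Matrix.toLin'_apply (LinearMap.toMatrix' X),
      Matrix.toLin'_toMatrix', hX, hX]
    have e1 : ∀ j, A j (P i *ᵥ v) = if i = j then A j v else 0 := by
      intro j
      rw [hA]
      by_cases h : i = j
      · subst h
        rw [if_pos rfl, hA]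
        congr 2
        apply Subtype.ext
        show P i *ᵥ (P i *ᵥ v) = P i *ᵥ v
        rw [Matrix.mulVec_mulVec, hP, if_pos rfl]
      · rw [if_neg h]
        have e : (⟨P j *ᵥ (P i *ᵥ v), ⟨P i *ᵥ v, rfl⟩⟩ : LinearMap.range (Matrix.toLin' (P j))) = 0 := by
          apply Subtype.ext
          show P j *ᵥ (P i *ᵥ v) = 0
          rw [Matrix.mulVec_mulVec, hP, if_neg (Ne.symm h), Matrix.zero_mulVec]
        rw [e, map_zero]; rfl
    rw [Finset.sum_congr rfl (fun j _ => e1 j), Finset.sum_ite_eq, if_pos (Finset.mem_univ _), Matrix.mulVec_sum]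
    have e2 : ∀ j, Q i *ᵥ (A j v) = if j = i then A j v else 0 := by
      intro j
      rw [hA, hQr]
    rw [Finset.sum_congr rfl (fun j _ => e2 j), Finset.sum_ite_eq', if_pos (Finset.mem_univ _)]

end H99.U4
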