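import Mathlib
import Cfsg.Agent.Lib.H99.U4

set_option autoImplicit false
set_option linter.unusedSimpArgs false
set_option linter.unusedSectionVars false
set_option linter.unusedVariables false

/-! Elements of prime order in unitary groups without fixed vectors. -/

namespace H99.U5

open Matrix Module H49.Unitary H7.UnitOrd H99.U4

variable {F : Type*} [Field F] {q : ℕ} {n : ℕ}

theorem no_fix [Fintype F] (hK : Fintype.card F = q ^ 2) {r : ℕ} (hr : r.Prime) (hcard : ¬ r ∣ Nat.card (U (Cfsg.hermForm n F q)))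
    {T : (Fin (n + 1) → F) ≃ₗ[F] (Fin (n + 1) → F)} (hT : T ∈ U (Cfsg.hermForm (n + 1) F q)) (hTr : T ^ r = 1)
    {v : Fin (n + 1) → F} (hTv : T v = v) (hvv : Cfsg.hermForm (n + 1) F q v v ≠ 0) : T = 1 := by
  classical
  have herm := herm_std (K := F) hK (n + 1)
  have hK' : Nat.card F = q ^ 2 := by rw [Nat.card_eq_fintype_card]; exact hK
  obtain ⟨b, hb⟩ := H41.FieldQ.norm_surj hK (Cfsg.hermForm (n + 1) F q v v)⁻¹ (by rw [inv_pow, herm.swap])
  have hv1 : Cfsg.hermForm (n + 1) F q (b • v) (b • v) = 1 := by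
    rw [herm.smul_left, herm.smul_right, ← mul_assoc, ← pow_succ', hb, inv_mul_cancel₀ hvv]
  set e : Fin (n + 1) → F := (split n F).symm (1, 0) with he
  have h0 : Cfsg.hermForm n F q 0 0 = 0 := (herm_std (K := F) hK n).zero_left 0
  have hee : Cfsg.hermForm (n + 1) F q e e = 1 := by
    rw [← split_herm, he, LinearEquiv.apply_symm_apply]
    simp [H7.UnitOrd.ext, h0]
  obtain ⟨g, hg, hge⟩ := exists_move hK herm hee hv1
  set S := g⁻¹ * T * g with hS
  have hSU : S ∈ U (Cfsg.hermForm (n + 1) F q) := (U _).mul_mem ((U _).mul_mem ((U _).inv_mem hg) hT) hg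
  have hSe : S e = e := by
    have h1 : S e = g⁻¹ (T (g e)) := rfl
    rw [h1, hge, map_smul, hTv, inv_apply_eq, hge]
  have hSr : S ^ r = 1 := by
    have := conj_pow (i := r) (a := g⁻¹) (b := T)
    rw [inv_inv] at this
    rw [hS, this, hTr]; group
  let S' := congrU (split n F) (split_herm (q := q) n) ⟨S, hSU⟩
  have hS'1 : (S' : (F × (Fin n → F)) ≃ₗ[F] (F × (Fin n → F))) (1, 0) = (1, 0) := by
    show split n F (S ((split n F).symm (1, 0))) = (1, 0)
    rw [← he, hSe, he, LinearEquiv.apply_symm_apply]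
  obtain ⟨g', hg', hgg⟩ := exists_emb hK (herm_std hK n) S'.2 hS'1
  have hS'r : S' ^ r = 1 := by
    rw [← map_pow]
    have : (⟨S, hSU⟩ : U (Cfsg.hermForm (n + 1) F q)) ^ r = 1 := Subtype.ext hSr
    rw [this, map_one]
  have hg'r : g' ^ r = 1 := by
    apply emb_injective
    rw [map_pow, map_one, ← hgg]
    exact congrArg Subtype.val hS'r
  have hfin : Finite (U (Cfsg.hermForm n F q)) := by
    have : Finite ((Fin n → F) ≃ₗ[F] (Fin n → F)) := Finite.of_injective (fun g => (g : (Fin n → F) → (Fin n → F))) DFunLike.coe_injective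
    infer_instance
  have hg'1 : (⟨g', hg'⟩ : U (Cfsg.hermForm n F q)) = 1 := by
    by_contra h1
    have h2 : orderOf (⟨g', hg'⟩ : U (Cfsg.hermForm n F q)) = r := by
      haveI : Fact r.Prime := ⟨hr⟩
      exact orderOf_eq_prime (Subtype.ext hg'r) h1
    apply hcard
    rw [← h2]
    exact orderOf_dvd_natCard _
  have hS'one : S' = 1 := by
    apply Subtype.ext
    rw [hgg, show g' = 1 from congrArg Subtype.val hg'1, map_one]
    rfl
  have hSone : S = 1 := by
    have : (⟨S, hSU⟩ : U (Cfsg.hermForm (n + 1) F q)) = 1 := by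
      apply (congrU (split n F) (split_herm (q := q) n)).injective
      rw [map_one]; exact hS'one
    exact congrArg Subtype.val this
  have : T = g * S * g⁻¹ := by rw [hS]; group
  rw [this, hSone]; group

theorem card_U_eq (q : ℕ) : Nat.card (U (Cfsg.hermForm n F q)) = Nat.card (Cfsg.GU n F q) :=
  (Nat.card_congr (matEquivGU n F q).toEquiv).symm

theorem fpf [Fintype F] (hK : Fintype.card F = q ^ 2) {r : ℕ} (hr : r.Prime) (hr0 : (r : F) ≠ 0) (hcard : ¬ r ∣ Nat.card (Cfsg.GU n F q))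
    {X : GL (Fin (n + 1)) F} (hX : X ∈ Cfsg.GU (n + 1) F q) (hXr : X ^ r = 1) (hX1 : X ≠ 1) :
    ∑ k ∈ Finset.range r, (X : Matrix (Fin (n + 1)) (Fin (n + 1)) F) ^ k = 0 := by
  have hK' : Nat.card F = q ^ 2 := by rw [Nat.card_eq_fintype_card]; exact hK
  set M := (X : Matrix (Fin (n + 1)) (Fin (n + 1)) F) with hM
  set S := ∑ k ∈ Finset.range r, M ^ k with hS
  have hMr : M ^ r = 1 := congrArg Units.val hXr
  have hr1 : 0 < r := hr.pos
  have hMS : M * S = S := by
    have h1 : M * S + 1 = S + M ^ r := by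
      rw [hS, Finset.mul_sum]
      have h2 : ∑ k ∈ Finset.range r, M * M ^ k = ∑ k ∈ Finset.range r, M ^ (k + 1) := Finset.sum_congr rfl fun k _ => by rw [pow_succ']
      rw [h2, ← Finset.sum_range_succ, Finset.sum_range_succ', pow_zero]
    rw [hMr] at h1
    exact add_right_cancel h1
  have hMkS : ∀ k : ℕ, M ^ k * S = S := by
    intro k
    induction k with
    | zero => rw [pow_zero, one_mul]
    | succ k ih => rw [pow_succ, mul_assoc, hMS, ih]
  have hSS : S * S = (r : F) • S := by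
    nth_rewrite 1 [hS]
    rw [Finset.sum_mul, Finset.sum_congr rfl fun k _ => hMkS k, Finset.sum_const, Finset.card_range, Nat.cast_smul_eq_nsmul]
  have hctM : ct hK' M = M ^ (r - 1) := by
    have h1 := (mem_GU hK' X).1 hX
    have h2 : M * M ^ (r - 1) = 1 := by rw [← pow_succ', Nat.sub_add_cancel hr1, hMr]
    calc ct hK' M = ct hK' M * (M * M ^ (r - 1)) := by rw [h2, mul_one]
      _ = M ^ (r - 1) := by rw [← mul_assoc, h1, one_mul]
  have hctpow : ∀ k : ℕ, ct hK' (M ^ k) = (ct hK' M) ^ k := by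
    intro k
    induction k with
    | zero => rw [pow_zero, pow_zero, ct_one]
    | succ k ih => rw [pow_succ, ct_mul, ih, pow_succ']
  have hctsum : ∀ s : Finset ℕ, ct hK' (∑ k ∈ s, M ^ k) = ∑ k ∈ s, ct hK' (M ^ k) := by
    classical
    intro s
    induction s using Finset.induction_on with
    | empty =>
      rw [Finset.sum_empty, Finset.sum_empty]
      ext i j
      rw [ct_apply, ← frob_apply hK', Matrix.zero_apply, map_zero]
      rfl
    | insert a s ha ih => rw [Finset.sum_insert ha, Finset.sum_insert ha, ct_add, ih]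
  have hctS : ct hK' S = S := by
    rw [hS, hctsum]
    have h1 : ∀ k ∈ Finset.range r, ct hK' (M ^ k) = M * M ^ (r - 1 - k) := by
      intro k hk
      rw [Finset.mem_range] at hk
      have h2 : M ^ k * (M * M ^ (r - 1 - k)) = 1 := by
        rw [← pow_succ', ← pow_add, show k + (r - 1 - k + 1) = r by omega, hMr]
      have h3 : ct hK' (M ^ k) * M ^ k = 1 := by
        rw [hctpow, hctM, ← pow_mul, ← pow_add, show (r - 1) * k + k = r * k by
          rw [← Nat.succ_mul, Nat.succ_eq_add_one, Nat.sub_add_cancel hr1], pow_mul, hMr, one_pow]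
      calc ct hK' (M ^ k) = ct hK' (M ^ k) * (M ^ k * (M * M ^ (r - 1 - k))) := by rw [h2, mul_one]
        _ = M * M ^ (r - 1 - k) := by rw [← mul_assoc, h3, one_mul]
    rw [Finset.sum_congr rfl h1, ← Finset.mul_sum, Finset.sum_range_reflect (fun k => M ^ k) r, ← hS, hMS]
  by_contra hS0
  set P := (r : F)⁻¹ • S with hP
  have hfr : frob hK' (r : F)⁻¹ = (r : F)⁻¹ := by rw [map_inv₀, map_natCast]
  have hPP : P * P = P := by
    rw [hP, Matrix.smul_mul, Matrix.mul_smul, hSS, smul_smul, smul_smul, mul_assoc, inv_mul_cancel₀ hr0, mul_one]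
  have hctP : ct hK' P = P := by rw [hP, ct_smul, hctS, hfr]
  have hP0 : P ≠ 0 := by
    intro h
    rcases smul_eq_zero.1 h with h | h
    · exact (inv_ne_zero hr0) h
    · exact hS0 h
  obtain ⟨v, hv, hPv⟩ := exists_aniso hK' hctP hPP hP0
  have hMP : M * P = P := by rw [hP, Matrix.mul_smul, hMS]
  have hMv : M *ᵥ v = v := by
    rw [← hPv, Matrix.mulVec_mulVec, hMP]
  let T := matEquivGU (n + 1) F q ⟨X, hX⟩
  have hTr : T ^ r = 1 := by
    rw [← map_pow]
    have : (⟨X, hX⟩ : Cfsg.GU (n + 1) F q) ^ r = 1 := Subtype.ext hXr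
    rw [this, map_one]
  have hT1 := no_fix hK hr (by rw [card_U_eq]; exact hcard) T.2 (congrArg Subtype.val hTr) (v := v) hMv hv
  have hT2 : T = 1 := Subtype.ext hT1
  have hX2 : (⟨X, hX⟩ : Cfsg.GU (n + 1) F q) = 1 := by
    apply (matEquivGU (n + 1) F q).injective
    rw [map_one]; exact hT2
  exact hX1 (congrArg Subtype.val hX2)

/-- commuting elements of order `r` generate a cyclic group when all elements of order `r` are fixed point free -/
theorem comm_cyclic {ι : Type} [Fintype ι] [DecidableEq ι] [Nonempty ι] {r : ℕ} (hr : r.Prime) (hr0 : (r : F) ≠ 0) (G : Subgroup (GL ι F))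
    (hG : ∀ y ∈ G, y ^ r = 1 → y ≠ 1 → ∑ k ∈ Finset.range r, (y : Matrix ι ι F) ^ k = 0) {z x : GL ι F} (hz : z ∈ G) (hx : x ∈ G)
    (hzr : z ^ r = 1) (hz1 : z ≠ 1) (hxr : x ^ r = 1) (hzx : z * x = x * z) : x ∈ Subgroup.zpowers z := by
  by_contra hcon
  have hc : Commute z x := hzx
  have hord : orderOf z = r := by
    haveI : Fact r.Prime := ⟨hr⟩
    exact orderOf_eq_prime hzr hz1
  have h1 : ∀ j : ℕ, ∑ k ∈ Finset.range r, ((x * z ^ j : GL ι F) : Matrix ι ι F) ^ k = 0 := by
    intro j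
    apply hG
    · exact G.mul_mem hx (G.pow_mem hz j)
    · rw [(hc.symm.pow_right j).mul_pow, hxr, ← pow_mul, mul_comm j r, pow_mul, hzr, one_pow, one_mul]
    · intro h
      apply hcon
      have : x = (z ^ j)⁻¹ := eq_inv_of_mul_eq_one_left h
      rw [this]
      exact Subgroup.inv_mem _ (Subgroup.pow_mem _ (Subgroup.mem_zpowers z) j)
  have h2 : ∀ k : ℕ, 0 < k → k < r → ∑ j ∈ Finset.range r, ((z ^ k : GL ι F) : Matrix ι ι F) ^ j = 0 := by
    intro k hk0 hkr
    apply hG
    · exact G.pow_mem hz k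
    · rw [← pow_mul, mul_comm, pow_mul, hzr, one_pow]
    · intro h
      have := orderOf_dvd_of_pow_eq_one h
      rw [hord] at this
      exact absurd (Nat.le_of_dvd hk0 this) (by omega)
  have h3 : ∑ j ∈ Finset.range r, ∑ k ∈ Finset.range r, ((x * z ^ j : GL ι F) : Matrix ι ι F) ^ k = 0 :=
    Finset.sum_eq_zero fun j _ => h1 j
  rw [Finset.sum_comm] at h3
  have h4 : ∀ k ∈ Finset.range r, ∑ j ∈ Finset.range r, ((x * z ^ j : GL ι F) : Matrix ι ι F) ^ k =
      if k = 0 then (r : F) • (1 : Matrix ι ι F) else 0 := by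
    intro k hk
    rw [Finset.mem_range] at hk
    have h5 : ∀ j, ((x * z ^ j : GL ι F) : Matrix ι ι F) ^ k = (x : Matrix ι ι F) ^ k * ((z ^ k : GL ι F) : Matrix ι ι F) ^ j := by
      intro j
      have : (x * z ^ j) ^ k = x ^ k * (z ^ k) ^ j := by
        rw [(hc.symm.pow_right j).mul_pow, ← pow_mul, ← pow_mul, mul_comm]
      have := congrArg Units.val this
      rw [Units.val_pow_eq_pow_val, Units.val_mul (x ^ k), Units.val_pow_eq_pow_val, Units.val_pow_eq_pow_val (z ^ k)] at this
      exact this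
    rw [Finset.sum_congr rfl fun j _ => h5 j, ← Finset.mul_sum]
    by_cases hk0 : k = 0
    · subst hk0
      rw [if_pos rfl]
      simp [Nat.cast_smul_eq_nsmul]
    · rw [if_neg hk0, h2 k (Nat.pos_of_ne_zero hk0) hk, mul_zero]
  rw [Finset.sum_congr rfl h4, Finset.sum_ite_eq' (Finset.range r) 0, if_pos (Finset.mem_range.2 hr.pos)] at h3
  obtain ⟨i⟩ := (inferInstance : Nonempty ι)
  have := congrFun (congrFun h3 i) i
  rw [Matrix.smul_apply, Matrix.one_apply_eq, smul_eq_mul, mul_one] at this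
  exact hr0 this

end H99.U5
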