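import Mathlib
import Cfsg.Agent.Lib.H99.U5
import Cfsg.Agent.Lib.H99.ST5
import Cfsg.Agent.Lib.H99.SL4
import Cfsg.Agent.Lib.H99.Lin4

set_option autoImplicit false
set_option linter.unusedSimpArgs false
set_option linter.unusedSectionVars false
set_option linter.unusedVariables false

/-! Elements of `SU_4`. -/

namespace H99.U6

open Matrix Module H49.Unitary H99.U4 H99.SL4

variable {F : Type*} [Field F] {q : ℕ}

section hur

variable [Finite F] {ι : Type*} [Fintype ι] [DecidableEq ι]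

theorem ct_neg (hK : Nat.card F = q ^ 2) (M : Matrix ι ι F) : ct hK (-M) = - ct hK M := by
  ext i j
  rw [ct_apply, ← frob_apply hK, Matrix.neg_apply, Matrix.neg_apply, map_neg, ct_apply, ← frob_apply hK]

theorem ct_sub (hK : Nat.card F = q ^ 2) (M N : Matrix ι ι F) : ct hK (M - N) = ct hK M - ct hK N := by
  rw [sub_eq_add_neg, ct_add, ct_neg, ← sub_eq_add_neg]

theorem frob_half (hK : Nat.card F = q ^ 2) : frob hK (2 : F)⁻¹ = (2 : F)⁻¹ := by rw [map_inv₀, map_ofNat]

theorem ct_of_sq (hK : Nat.card F = q ^ 2) {a : Matrix ι ι F} (ha : ct hK a * a = 1) {ε : F} (h : a * a = ε • 1) (hε : ε * ε = 1) :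
    ct hK a = ε • a := by
  have h1 : a * (ε • a) = 1 := by rw [Matrix.mul_smul, h, smul_smul, hε, one_smul]
  calc ct hK a = ct hK a * (a * (ε • a)) := by rw [h1, mul_one]
    _ = ε • a := by rw [← mul_assoc, ha, one_mul]

theorem hurwitz_unitary (hK : Nat.card F = q ^ 2) (h2 : (2 : F) ≠ 0) {a b h : Matrix ι ι F} (ha : ct hK a * a = 1) (hb : ct hK b * b = 1)
    (haa : a * a = -1) (hbb : b * b = -1) (hab : a * b = -(b * a)) (hh : h = (2 : F)⁻¹ • (-1 + a + b + a * b)) (hp : h * h + h + 1 = 0) :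
    ct hK h * h = 1 := by
  have e1 : ct hK a = -a := by
    rw [ct_of_sq hK ha (ε := -1) (by rw [haa, neg_smul, one_smul]) (by norm_num), neg_smul, one_smul]
  have e2 : ct hK b = -b := by
    rw [ct_of_sq hK hb (ε := -1) (by rw [hbb, neg_smul, one_smul]) (by norm_num), neg_smul, one_smul]
  have e3 : ct hK (a * b) = -(a * b) := by
    rw [ct_mul, e1, e2, neg_mul_neg, hab, neg_neg]
  have e4 : ct hK h = -1 - h := by
    rw [hh, ct_smul, frob_half, ct_add, ct_add, ct_add, ct_neg, ct_one, e1, e2, e3]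
    have h4 : (2 : F)⁻¹ * 2 = 1 := inv_mul_cancel₀ h2
    have h5 : (-1 : Matrix ι ι F) = ((2 : F)⁻¹ * 2) • (-1) := by rw [h4, one_smul]
    have : (-1 : Matrix ι ι F) - (2 : F)⁻¹ • (-1 + a + b + a * b) = ((2 : F)⁻¹ * 2) • (-1) - (2 : F)⁻¹ • (-1 + a + b + a * b) := by rw [← h5]
    rw [this]
    module
  rw [e4, sub_mul, neg_mul, one_mul]
  rw [← sub_eq_zero]
  have : -h - h * h - 1 = -(h * h + h + 1) := by abel
  rw [this, hp, neg_zero]

theorem refl_unitary (hK : Nat.card F = q ^ 2) {a c w : Matrix ι ι F} (ha : ct hK a * a = 1) (hc : ct hK c * c = 1)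
    (haa : a * a = 1) (hcc : c * c = 1) (hac : a * c = c * a) (hw : w = (2 : F)⁻¹ • (1 + a + c - a * c)) (hww : w * w = 1) :
    ct hK w * w = 1 := by
  have e1 : ct hK a = a := by rw [ct_of_sq hK ha (ε := 1) (by rw [haa, one_smul]) (by norm_num), one_smul]
  have e2 : ct hK c = c := by rw [ct_of_sq hK hc (ε := 1) (by rw [hcc, one_smul]) (by norm_num), one_smul]
  have e3 : ct hK w = w := by
    rw [hw, ct_smul, frob_half, ct_sub, ct_add, ct_add, ct_one, ct_mul, e1, e2, ← hac]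
  rw [e3, hww]

end hur

theorem mem_su4 [Finite F] (hK : Nat.card F = q ^ 2) {x : GL (Fin 4) F} : x ∈ Cfsg.GU 4 F q ⊓ Cfsg.Geo.specialLinear (Fin 4) F ↔
    ct hK (x : Matrix (Fin 4) (Fin 4) F) * x = 1 ∧ (x : Matrix (Fin 4) (Fin 4) F).det = 1 := by
  rw [Subgroup.mem_inf, mem_GU hK, mem_sl]

theorem exists_utrans [Fintype F] (hK : Fintype.card F = q ^ 2) {p : ℕ} [Fact p.Prime] [CharP F p] :
    ∃ x ∈ Cfsg.GU 4 F q ⊓ Cfsg.Geo.specialLinear (Fin 4) F, x ^ p = 1 ∧ (∀ z : F, (x : Matrix (Fin 4) (Fin 4) F) ≠ z • 1) ∧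
      finrank F (LinearMap.range (Matrix.toLin' (x : Matrix (Fin 4) (Fin 4) F) - 1)) ≤ 1 := by
  have hK' : Nat.card F = q ^ 2 := by rw [Nat.card_eq_fintype_card]; exact hK
  have ses := HermPair.ses_std (F := F) hK' 4
  obtain ⟨β, hβ⟩ := H41.FieldQ.norm_surj hK (-1 : F) (by rw [← frob_apply hK', map_neg, map_one])
  set v : Fin 4 → F := ![1, β, 0, 0] with hv
  have hvv : Cfsg.hermForm 4 F q v v = 0 := by
    have hq : q ≠ 0 := by have := two_le hK'; omega
    unfold Cfsg.hermForm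
    rw [Fin.sum_univ_four]
    simp [hv, hq, ← pow_succ', hβ]
  have hv0 : v ≠ 0 := by
    intro h
    have := congrFun h 0
    simp [hv] at this
  obtain ⟨θ, hθ⟩ := exists_theta hK'
  set a := θ - frob hK' θ with ha
  have hfa : frob hK' a = -a := by rw [ha, map_sub, frob_frob]; ring
  set O := outer hK' v v with hO
  have hOO : O * O = 0 := by rw [hO, outer_outer, hvv, zero_smul]
  have hOv : ∀ w, O *ᵥ w = Cfsg.hermForm 4 F q w v • v := outer_mulVec hK' v v
  have hmul : (1 + a • O) * (1 - a • O) = 1 := by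
    simp only [add_mul, mul_sub, one_mul, mul_one, Matrix.smul_mul, Matrix.mul_smul, hOO, smul_zero, sub_zero]
    abel
  let x : GL (Fin 4) F := ⟨1 + a • O, 1 - a • O, hmul, mul_eq_one_comm.1 hmul⟩
  have hx : (x : Matrix (Fin 4) (Fin 4) F) = 1 + a • O := rfl
  refine ⟨x, ?_, ?_, ?_, ?_⟩
  · rw [mem_su4 hK']
    constructor
    · rw [hx, ct_add, ct_one, ct_smul, hO, ct_outer, ← hO, hfa]
      have : (1 + (-a) • O) * (1 + a • O) = 1 := by
        simp only [add_mul, mul_add, one_mul, mul_one, Matrix.smul_mul, Matrix.mul_smul, hOO, smul_zero, add_zero]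
        module
      exact this
    · rw [hx, hO, det_outer, hvv, mul_zero, add_zero]
  · apply Units.ext
    rw [Units.val_pow_eq_pow_val, hx, Units.val_one]
    have hk : ∀ k : ℕ, (1 + a • O) ^ k = 1 + ((k : F) * a) • O := by
      intro k
      induction k with
      | zero => simp
      | succ k ih =>
        rw [pow_succ, ih]
        simp only [add_mul, mul_add, one_mul, mul_one, Matrix.smul_mul, Matrix.mul_smul, hOO, smul_zero, add_zero]
        push_cast
        module
    rw [hk, CharP.cast_eq_zero, zero_mul, zero_smul, add_zero]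
  · intro z hz
    rw [hx] at hz
    have h1 : z = 1 := by
      have h2 := congrArg (fun M => M *ᵥ v) hz
      simp only [Matrix.add_mulVec, Matrix.one_mulVec, Matrix.smul_mulVec, hOv, hvv, zero_smul, smul_zero, add_zero] at h2
      have h3 : (1 - z) • v = 0 := by rw [sub_smul, one_smul, ← h2, sub_self]
      rcases smul_eq_zero.1 h3 with h | h
      · exact (sub_eq_zero.1 h).symm
      · exact absurd h hv0
    have h2 : a • O = 0 := by
      rw [h1, one_smul] at hz
      exact add_eq_left.1 hz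
    have h3 : O = 0 := (smul_eq_zero.1 h2).resolve_left hθ
    apply hv0
    apply ses.nd
    intro w
    have h4 := hOv w
    rw [h3, Matrix.zero_mulVec] at h4
    have h5 := (smul_eq_zero.1 h4.symm).resolve_right hv0
    rw [HermPair.swap_std hK', h5, map_zero]
  · have : LinearMap.range (Matrix.toLin' (x : Matrix (Fin 4) (Fin 4) F) - 1) ≤ Submodule.span F {v} := by
      rintro _ ⟨w, rfl⟩
      have h1 : (Matrix.toLin' (x : Matrix (Fin 4) (Fin 4) F) - 1) w = (a * Cfsg.hermForm 4 F q w v) • v := by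
        show (x : Matrix (Fin 4) (Fin 4) F) *ᵥ w - w = _
        rw [hx, Matrix.add_mulVec, Matrix.one_mulVec, add_sub_cancel_left, Matrix.smul_mulVec, hOv, smul_smul]
      rw [h1]
      exact Submodule.smul_mem _ _ (Submodule.mem_span_singleton_self _)
    exact (Submodule.finrank_mono this).trans (finrank_span_singleton hv0).le

theorem diag_unitary [Finite F] (hK : Nat.card F = q ^ 2) {ω : F} (hω : ω ^ (q + 1) = 1) :
    ct hK (Matrix.diagonal ![ω, ω, ω, 1]) * Matrix.diagonal ![ω, ω, ω, 1] = 1 := by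
  have hω' : ω ^ q * ω = 1 := by rw [← pow_succ]; exact hω
  have e : ct hK (Matrix.diagonal ![ω, ω, ω, 1]) = Matrix.diagonal ![ω ^ q, ω ^ q, ω ^ q, 1] := by
    ext i j
    rw [ct_apply, Matrix.diagonal_apply, Matrix.diagonal_apply]
    have hq : (0 : F) ^ q = 0 := by rw [← frob_apply hK, map_zero]
    by_cases h : j = i
    · subst h
      rw [if_pos rfl, if_pos rfl]
      fin_cases j <;> simp
    · rw [if_neg h, if_neg (Ne.symm h), hq]
  rw [e, Matrix.diagonal_mul_diagonal, ← Matrix.diagonal_one]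
  congr 1
  ext i
  fin_cases i <;> simp [hω']

theorem emb4_unitary [Finite F] (hK : Nat.card F = q ^ 2) {w : Matrix (Fin 2) (Fin 2) F} (hw : ct hK w * w = 1) :
    ct hK (emb4 w) * emb4 w = 1 := by
  have e : ct hK (emb4 w) = emb4 (ct hK w) := by
    have h0 : (0 : F) ^ q = 0 := by rw [← frob_apply hK, map_zero]
    ext i j
    obtain ⟨i, rfl⟩ := e4.surjective i
    obtain ⟨j, rfl⟩ := e4.surjective j
    rw [ct_apply]
    unfold emb4
    simp only [Matrix.reindex_apply, Matrix.submatrix_apply, Equiv.symm_apply_apply]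
    rcases i with i | i <;> rcases j with j | j
    · rw [Matrix.fromBlocks_apply₁₁, Matrix.fromBlocks_apply₁₁, ct_apply]
    · rw [Matrix.fromBlocks_apply₁₂, Matrix.fromBlocks_apply₂₁, Matrix.zero_apply, Matrix.zero_apply, h0]
    · rw [Matrix.fromBlocks_apply₁₂, Matrix.fromBlocks_apply₂₁, Matrix.zero_apply, Matrix.zero_apply, h0]
    · rw [Matrix.fromBlocks_apply₂₂, Matrix.fromBlocks_apply₂₂, Matrix.one_apply, Matrix.one_apply]
      by_cases h : j = i
      · subst h; simp
      · rw [if_neg h, if_neg (Ne.symm h), h0]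
  rw [e, ← emb4_mul, hw, emb4_one]

theorem exists_w [Fintype F] (hK : Fintype.card F = q ^ 2) {r : ℕ} (hr : r.Prime) (hr2 : r ≠ 2) (hdvd : r ∣ q ^ 2 - 1) :
    ∃ w : Matrix.SpecialLinearGroup (Fin 2) F, w ^ r = 1 ∧ w ≠ 1 ∧ w ∈ Cfsg.SU 2 F q := by
  have hcard := H7.UnitSU.card_SU hK 2 (by norm_num)
  simp only [Finset.prod_range_succ, Finset.prod_range_zero] at hcard
  have hcard' : (q + 1) * Nat.card (Cfsg.SU 2 F q) = (q + 1) * (q * (q ^ 2 - 1)) := by
    rw [hcard]; norm_num; ring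
  have hc : Nat.card (Cfsg.SU 2 F q) = q * (q ^ 2 - 1) := Nat.eq_of_mul_eq_mul_left (by omega) hcard'
  have hdvd' : r ∣ Nat.card (Cfsg.SU 2 F q) := by rw [hc]; exact hdvd.mul_left _
  have : Fact r.Prime := ⟨hr⟩
  have hfin : Finite (Cfsg.SU 2 F q) := by
    have : Finite (Matrix.SpecialLinearGroup (Fin 2) F) := inferInstance
    infer_instance
  obtain ⟨w, hw⟩ := exists_prime_orderOf_dvd_card' r hdvd'
  refine ⟨w, ?_, ?_, w.2⟩
  · have := pow_orderOf_eq_one w
    rw [hw] at this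
    exact congrArg Subtype.val this
  · intro h
    have h1 : w = 1 := Subtype.ext h
    rw [h1, orderOf_one] at hw
    exact hr.one_lt.ne hw

theorem su2_ct [Fintype F] (hK : Fintype.card F = q ^ 2) (hK' : Nat.card F = q ^ 2) {w : Matrix.SpecialLinearGroup (Fin 2) F} (hw : w ∈ Cfsg.SU 2 F q) :
    ct hK' (w : Matrix (Fin 2) (Fin 2) F) * (w : Matrix (Fin 2) (Fin 2) F) = 1 := by
  have h1 := (H7.UnitSU.mem_SU_iff hK w).1 hw
  have h2 := congrArg Matrix.transpose h1
  rw [Matrix.transpose_mul, Matrix.transpose_transpose, Matrix.transpose_one] at h2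
  exact h2

/-- roots of norm-one elements -/
theorem root_norm {n m : ℕ} (hcop : Nat.Coprime n m) {ζ : F} (hζ : ζ ^ m = 1) : ∃ ν : F, ν ^ m = 1 ∧ ν ^ n = ζ := by
  have h1 : n.Coprime (orderOf ζ) := Nat.Coprime.coprime_dvd_right (orderOf_dvd_of_pow_eq_one hζ) hcop
  obtain ⟨k, hk⟩ := exists_pow_eq_self_of_coprime h1
  refine ⟨ζ ^ k, ?_, ?_⟩
  · rw [← pow_mul, mul_comm, pow_mul, hζ, one_pow]
  · rw [← pow_mul, mul_comm, pow_mul]; exact hk

theorem one_of_coprime {n m : ℕ} (hcop : Nat.Coprime n m) {ζ : F} (h1 : ζ ^ n = 1) (h2 : ζ ^ m = 1) : ζ = 1 := by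
  have h3 : orderOf ζ ∣ n := orderOf_dvd_of_pow_eq_one h1
  have h4 : orderOf ζ ∣ m := orderOf_dvd_of_pow_eq_one h2
  have h5 := Nat.dvd_gcd h3 h4
  rw [hcop] at h5
  exact orderOf_eq_one_iff.1 (Nat.dvd_one.1 h5)

end H99.U6
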