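import Mathlib
import Cfsg.Agent.Lib.H99.U6

set_option autoImplicit false
set_option linter.unusedSimpArgs false
set_option linter.unusedSectionVars false
set_option linter.unusedVariables false

/-! Elements of order three of `SU_4` when the cube roots of unity are in the prime field. -/

namespace H99.U7

open Matrix Module H49.Unitary H99.U4 H99.SL4 H99.U6

universe u

variable {F : Type u} [Field F] {q : ℕ} {n : ℕ}

theorem pair_case [Finite F] (hK : Nat.card F = q ^ 2) (h3 : (3 : F) ≠ 0) {x : Matrix (Fin n) (Fin n) F} (hx : ct hK x * x = 1)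
    (hp : x * x + x + 1 = 0) {ω : F} (hω : ω ^ 2 + ω + 1 = 0) (hfω : frob hK ω = ω) (hxs : ∀ c : F, x ≠ c • 1) {δ : F} (hδ : frob hK δ * δ = 1) :
    ∃ c : Matrix (Fin n) (Fin n) F, ct hK c * c = 1 ∧ c * x = x * c ∧ c.det = δ := by
  have ses := HermPair.ses_std (F := F) hK n
  have hxx : x * x = -x - 1 := by
    rw [eq_sub_iff_add_eq, eq_neg_iff_add_eq_zero]
    rw [← hp]; abel
  have hx3 : x * (x * x) = 1 := by
    rw [hxx, mul_sub, mul_neg, hxx, mul_one]; abel
  have hct : ct hK x = -x - 1 := by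
    calc ct hK x = ct hK x * (x * (x * x)) := by rw [hx3, mul_one]
      _ = x * x := by rw [← mul_assoc, hx, one_mul]
      _ = _ := hxx
  set d := ω - ω ^ 2 with hd
  have hd0 : d ≠ 0 := by
    intro h
    have : (3 : F) = 0 := by
      have e : d * d = -3 := by rw [hd]; linear_combination (ω ^ 2 - 3 * ω + 3) * hω
      rw [h] at e
      linear_combination e
    exact h3 this
  have hfd : frob hK d = d := by rw [hd, map_sub, map_pow, hfω]
  set P := d⁻¹ • (x - (ω ^ 2) • (1 : Matrix (Fin n) (Fin n) F)) with hP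
  set Q := d⁻¹ • ((ω : F) • (1 : Matrix (Fin n) (Fin n) F) - x) with hQ
  have hctP : ct hK P = Q := by
    rw [hP, ct_smul, map_inv₀, hfd, ct_sub, ct_smul, ct_one, map_pow, hfω, hct, hQ]
    congr 1
    have : (ω : F) • (1 : Matrix (Fin n) (Fin n) F) = (-1 - ω ^ 2) • (1 : Matrix (Fin n) (Fin n) F) := by
      congr 1; linear_combination hω
    rw [this]; module
  have hctQ : ct hK Q = P := by rw [← hctP, ct_ct]
  have hxP : x * P = ω • P := by
    rw [hP, Matrix.mul_smul, mul_sub, Matrix.mul_smul, mul_one, hxx, smul_smul, mul_comm ω, ← smul_smul]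
    congr 1
    have e1 : (-1 - ω ^ 2 - ω : F) = 0 := by linear_combination -hω
    have e2 : (-1 + ω ^ 3 : F) = 0 := by linear_combination (ω - 1) * hω
    have : (-x - 1 - ω ^ 2 • x) - ω • (x - ω ^ 2 • (1 : Matrix (Fin n) (Fin n) F)) = (-1 - ω ^ 2 - ω) • x + (-1 + ω ^ 3) • (1 : Matrix (Fin n) (Fin n) F) := by module
    rw [e1, e2, zero_smul, zero_smul, add_zero] at this
    exact sub_eq_zero.1 this
  have hxQ : x * Q = (ω ^ 2) • Q := by
    rw [hQ, Matrix.mul_smul, mul_sub, Matrix.mul_smul, mul_one, hxx, smul_smul, mul_comm (ω ^ 2), ← smul_smul]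
    congr 1
    have e1 : (1 + ω + ω ^ 2 : F) = 0 := by linear_combination hω
    have e2 : (1 - ω ^ 3 : F) = 0 := by linear_combination (1 - ω) * hω
    have : (ω • x - (-x - 1)) - ω ^ 2 • (ω • (1 : Matrix (Fin n) (Fin n) F) - x) = (1 + ω + ω ^ 2) • x + (1 - ω ^ 3) • (1 : Matrix (Fin n) (Fin n) F) := by module
    rw [e1, e2, zero_smul, zero_smul, add_zero] at this
    exact sub_eq_zero.1 this
  have hQP : Q * P = 0 := by
    rw [hQ, Matrix.smul_mul, sub_mul, Matrix.smul_mul, one_mul, hxP, sub_self, smul_zero]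
  have hPQ : P * Q = 0 := by
    rw [hP, Matrix.smul_mul, sub_mul, Matrix.smul_mul, one_mul, hxQ, sub_self, smul_zero]
  have hPP : P * P = P := by
    rw [hP]
    rw [Matrix.smul_mul, sub_mul, Matrix.smul_mul, one_mul, ← hP, hxP, ← sub_smul, smul_smul, ← hd, inv_mul_cancel₀ hd0, one_smul]
  have hP0 : P ≠ 0 := by
    intro h
    apply hxs (ω ^ 2)
    have h1 := (smul_eq_zero.1 (hP ▸ h : d⁻¹ • (x - (ω ^ 2) • (1 : Matrix (Fin n) (Fin n) F)) = 0)).resolve_left (inv_ne_zero hd0)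
    exact sub_eq_zero.1 h1
  obtain ⟨u0, hu0⟩ : ∃ u0, P *ᵥ u0 ≠ 0 := by
    by_contra h
    push Not at h
    exact hP0 (Skew.matrix_ext fun v => by rw [h v, Matrix.zero_mulVec])
  set u := P *ᵥ u0 with hu
  have hPu : P *ᵥ u = u := by rw [hu, Matrix.mulVec_mulVec, hPP]
  obtain ⟨w0, hw0⟩ : ∃ w0, Cfsg.hermForm n F q u w0 ≠ 0 := by
    by_contra h
    push Not at h
    apply hu0
    apply ses.nd
    intro w
    exact h w
  have h1 : Cfsg.hermForm n F q u w0 = Cfsg.hermForm n F q u (Q *ᵥ w0) := by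
    nth_rewrite 1 [← hPu]
    rw [adj hK, hctP]
  set k := Cfsg.hermForm n F q u (Q *ᵥ w0) with hk
  have hk0 : k ≠ 0 := by rw [← h1]; exact hw0
  set w := (frob hK k⁻¹) • (Q *ᵥ w0) with hw
  refine exists_pair hK hx (u := u) (w := w) (α := ω) (β := ω ^ 2) ?_ ?_ ?_ ?_ ?_ hδ
  · rw [hu, Matrix.mulVec_mulVec, hxP, Matrix.smul_mulVec]
  · rw [hw, Matrix.mulVec_smul, Matrix.mulVec_mulVec, hxQ, Matrix.smul_mulVec, smul_comm]
  · nth_rewrite 1 [hu]
    rw [adj hK, hctP, hu, Matrix.mulVec_mulVec, hQP, Matrix.zero_mulVec, ses.zero_right]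
  · rw [hw, ses.smul_left, ses.smul_right, adj hK, hctQ, Matrix.mulVec_mulVec, hPQ, Matrix.zero_mulVec, ses.zero_right, mul_zero, mul_zero]
  · rw [hw, ses.smul_right, frob_frob, ← hk, inv_mul_cancel₀ hk0]

theorem typeA_conj [Fintype F] (hK : Nat.card F = q ^ 2) (h2 : (2 : F) ≠ 0) (h3 : (3 : F) ≠ 0) {x y : Matrix (Fin 4) (Fin 4) F} (hx : ct hK x * x = 1)
    (hy : ct hK y * y = 1) (hpx : x * x + x + 1 = 0) (hpy : y * y + y + 1 = 0) (hfω : ∀ ω : F, ω ^ 2 + ω + 1 = 0 → frob hK ω = ω)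
    (hxs : ∀ c : F, x ≠ c • 1) (hys : ∀ c : F, y ≠ c • 1) :
    ∃ P : Matrix (Fin 4) (Fin 4) F, P.det = 1 ∧ x * P = P * y := by
  have tosq : ∀ X : Matrix (Fin 4) (Fin 4) F, X * X + X + 1 = 0 → ((2 : F) • X + 1) * ((2 : F) • X + 1) = (-3 : F) • (1 : Matrix (Fin 4) (Fin 4) F) := by
    intro X hX
    have e : X * X = -X - 1 := by
      rw [eq_sub_iff_add_eq, eq_neg_iff_add_eq_zero]
      rw [← hX]; abel
    simp only [add_mul, mul_add, Matrix.smul_mul, Matrix.mul_smul, one_mul, mul_one, e]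
    module
  have tons : ∀ X : Matrix (Fin 4) (Fin 4) F, (∀ c : F, X ≠ c • (1 : Matrix (Fin 4) (Fin 4) F)) → ∀ c : F, (2 : F) • X + 1 ≠ c • (1 : Matrix (Fin 4) (Fin 4) F) := by
    intro X hX c hc
    apply hX ((2 : F)⁻¹ * (c - 1))
    rw [← smul_smul, sub_smul, ← hc, one_smul, add_sub_cancel_right, smul_smul, inv_mul_cancel₀ h2, one_smul]
  have h30 : (-3 : F) ≠ 0 := neg_ne_zero.2 h3
  have inv : ∀ X : Matrix (Fin 4) (Fin 4) F, ct hK X * X = 1 → X * X + X + 1 = 0 → (∀ c : F, X ≠ c • (1 : Matrix (Fin 4) (Fin 4) F)) →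
      ((2 : F) • X + 1).trace = 0 ∧ ((2 : F) • X + 1).det = 9 := by
    intro X hXu hX hXs
    obtain ⟨s', m', μ', l1, l2, l3, l4, -⟩ := H99.Lin4.types h2 h30 (tosq X hX) (tons X hXs)
    rcases l4 with ⟨rfl, rfl, l5⟩ | ⟨rfl, rfl, l5⟩
    · refine ⟨by rw [l3]; simp, by rw [l5]; norm_num⟩
    · exfalso
      have hμ := l2 (by norm_num)
      have hXX : X * X = -X - 1 := by
        rw [eq_sub_iff_add_eq, eq_neg_iff_add_eq_zero]
        rw [← hX]; abel
      have hX3 : X * (X * X) = 1 := by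
        rw [hXX, mul_sub, mul_neg, hXX, mul_one]; abel
      have hct : ct hK X = -X - 1 := by
        calc ct hK X = ct hK X * (X * (X * X)) := by rw [hX3, mul_one]
          _ = X * X := by rw [← mul_assoc, hXu, one_mul]
          _ = _ := hXX
      have hcs : ct hK ((2 : F) • X + 1) = -((2 : F) • X + 1) := by
        rw [ct_add, ct_smul, ct_one, map_ofNat, hct]; module
      have htr := trace_ct hK ((2 : F) • X + 1)
      rw [hcs, Matrix.trace_neg, l3] at htr
      have hω : ((-1 + μ') / 2) ^ 2 + (-1 + μ') / 2 + 1 = 0 := by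
        field_simp
        linear_combination hμ
      have hf := hfω _ hω
      have hfμ : frob hK μ' = μ' := by
        have e : μ' = 2 * ((-1 + μ') / 2) + 1 := by field_simp; ring
        nth_rewrite 1 [e]
        rw [map_add, map_mul, map_ofNat, map_one, hf]
        field_simp; ring
      rw [map_mul, map_natCast, hfμ] at htr
      push_cast at htr
      have e3 : (2 : F) * (2 * μ') = 0 := by linear_combination -htr
      have hμ0 : μ' = 0 := by
        rcases mul_eq_zero.1 e3 with h | h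
        · exact absurd h h2
        · exact (mul_eq_zero.1 h).resolve_left h2
      rw [hμ0] at hμ
      apply h3
      linear_combination hμ
  obtain ⟨i1, i2⟩ := inv _ hx hpx hxs
  obtain ⟨j1, j2⟩ := inv _ hy hpy hys
  obtain ⟨P, hP, hxP⟩ := H99.Lin4.conj_sq h2 h30 (tosq _ hpx) (tosq _ hpy) (tons _ hxs) (tons _ hys) (by rw [i1, j1]) (by rw [i2, j2])
  refine ⟨P, hP, ?_⟩
  rw [add_mul, mul_add, Matrix.smul_mul, Matrix.mul_smul, one_mul, mul_one] at hxP
  have h5 := add_right_cancel hxP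
  have h6 := congrArg (fun M => (2 : F)⁻¹ • M) h5
  simp only [smul_smul, inv_mul_cancel₀ h2, one_smul] at h6
  exact h6

/-- ranks of orthogonal idempotents -/
theorem rank_sum {ι κ : Type} [Fintype ι] [DecidableEq ι] [Fintype κ] [DecidableEq κ] {P : κ → Matrix ι ι F}
    (hP : ∀ i j, P i * P j = if i = j then P i else 0) (hPs : ∑ i, P i = 1) :
    ∑ i, finrank F (LinearMap.range (Matrix.toLin' (P i))) = Fintype.card ι := by
  have hPr : ∀ i j (w : LinearMap.range (Matrix.toLin' (P i))), P j *ᵥ (w : ι → F) = if i = j then (w : ι → F) else 0 := by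
    intro i j w
    obtain ⟨v, hv⟩ := w.2
    rw [← hv, Matrix.toLin'_apply, Matrix.mulVec_mulVec, hP]
    by_cases h : i = j
    · subst h; rw [if_pos rfl, if_pos rfl]
    · rw [if_neg (Ne.symm h), if_neg h, Matrix.zero_mulVec]
  let e : (ι → F) ≃ₗ[F] (∀ i, LinearMap.range (Matrix.toLin' (P i))) :=
    { toFun := fun v i => ⟨P i *ᵥ v, ⟨v, rfl⟩⟩
      map_add' := fun u v => by
        funext i
        apply Subtype.ext
        exact Matrix.mulVec_add _ _ _
      map_smul' := fun c v => by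
        funext i
        apply Subtype.ext
        exact Matrix.mulVec_smul _ _ _
      invFun := fun w => ∑ i, (w i : ι → F)
      left_inv := fun v => by
        show ∑ i, P i *ᵥ v = v
        rw [← Matrix.sum_mulVec, hPs, Matrix.one_mulVec]
      right_inv := fun w => by
        funext i
        apply Subtype.ext
        show P i *ᵥ (∑ j, (w j : ι → F)) = w i
        rw [Matrix.mulVec_sum, Finset.sum_congr rfl (fun j _ => hPr j i (w j)), Finset.sum_ite_eq', if_pos (Finset.mem_univ _)] }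
  have h1 := e.finrank_eq
  rw [Module.finrank_fintype_fun_eq_card, Module.finrank_pi_fintype] at h1
  exact h1.symm

theorem ct_rank [Finite F] (hK : Nat.card F = q ^ 2) {ι : Type} [Fintype ι] [DecidableEq ι] (M : Matrix ι ι F) :
    finrank F (LinearMap.range (Matrix.toLin' (ct hK M))) = finrank F (LinearMap.range (Matrix.toLin' M)) := by
  classical
  have : Fintype F := Fintype.ofFinite F
  have h1 : (ct hK M).rank = (M.map (frob hK)).rank := by rw [ct, Matrix.rank_transpose]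
  have h2 : (M.map (frob hK)).rank = M.rank := by
    have hbij : Function.Bijective (fun v : LinearMap.range (Matrix.toLin' M) =>
        (⟨fun i => frob hK ((v : ι → F) i), by
          obtain ⟨w, hw⟩ := v.2
          refine ⟨fun i => frob hK (w i), ?_⟩
          rw [← hw, Matrix.toLin'_apply, Matrix.toLin'_apply]
          ext i
          simp only [mulVec, dotProduct, map_sum, map_mul, Matrix.map_apply]⟩ : LinearMap.range (Matrix.toLin' (M.map (frob hK))))) := by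
      constructor
      · intro v w h
        apply Subtype.ext
        funext i
        have := congrFun (congrArg Subtype.val h) i
        exact (frob hK).injective this
      · intro v
        obtain ⟨w, hw⟩ := v.2
        refine ⟨⟨fun i => frob hK ((v : ι → F) i), ⟨fun i => frob hK (w i), ?_⟩⟩, ?_⟩
        · rw [← hw, Matrix.toLin'_apply, Matrix.toLin'_apply]
          ext i
          simp only [mulVec, dotProduct, map_sum, map_mul, Matrix.map_apply, frob_frob]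
        · apply Subtype.ext
          funext i
          exact frob_frob hK _
    have h3 := Nat.card_congr (Equiv.ofBijective _ hbij)
    have h4 := Module.natCard_eq_pow_finrank (K := F) (V := LinearMap.range (Matrix.toLin' M))
    have h5 := Module.natCard_eq_pow_finrank (K := F) (V := LinearMap.range (Matrix.toLin' (M.map (frob hK))))
    rw [h4, h5] at h3
    have h6 : 1 < Nat.card F := Finite.one_lt_card
    have h7 := Nat.pow_right_injective h6 h3
    exact h7.symm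
  have h3 : ∀ N : Matrix ι ι F, finrank F (LinearMap.range (Matrix.toLin' N)) = N.rank := fun N => rfl
  rw [h3, h3, h1, h2]

/-- the spectral idempotents of an element of order three -/
def Ei (ω : F) {ι : Type} [Fintype ι] [DecidableEq ι] (t : Matrix ι ι F) : Fin 3 → Matrix ι ι F :=
  ![(3 : F)⁻¹ • (1 + t + t * t), (3 : F)⁻¹ • (1 + ω ^ 2 • t + ω • (t * t)), (3 : F)⁻¹ • (1 + ω • t + ω ^ 2 • (t * t))]

section
variable {ι : Type} [Fintype ι] [DecidableEq ι] {t : Matrix ι ι F} {ω : F}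

theorem Ei_eig (h3 : (3 : F) ≠ 0) (hω : ω ^ 2 + ω + 1 = 0) (ht : t * (t * t) = 1) (i : Fin 3) : t * Ei ω t i = ω ^ (i : ℕ) • Ei ω t i := by
  have hω3 : ω ^ 3 = 1 := by linear_combination (ω - 1) * hω
  fin_cases i
  · show t * ((3 : F)⁻¹ • (1 + t + t * t)) = ω ^ 0 • ((3 : F)⁻¹ • (1 + t + t * t))
    simp only [Matrix.mul_smul, mul_add, mul_one, ht, pow_zero, one_smul]
    congr 1; abel
  · show t * ((3 : F)⁻¹ • (1 + ω ^ 2 • t + ω • (t * t))) = ω ^ 1 • ((3 : F)⁻¹ • (1 + ω ^ 2 • t + ω • (t * t)))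
    simp only [Matrix.mul_smul, mul_add, mul_one, ht, pow_one]
    rw [smul_comm ω]
    congr 1
    have : ω • (1 + ω ^ 2 • t + ω • (t * t)) = ω • 1 + ω ^ 3 • t + ω ^ 2 • (t * t) := by module
    rw [this, hω3, one_smul]; abel
  · show t * ((3 : F)⁻¹ • (1 + ω • t + ω ^ 2 • (t * t))) = ω ^ 2 • ((3 : F)⁻¹ • (1 + ω • t + ω ^ 2 • (t * t)))
    simp only [Matrix.mul_smul, mul_add, mul_one, ht]
    rw [smul_comm (ω ^ 2)]
    congr 1
    have : ω ^ 2 • (1 + ω • t + ω ^ 2 • (t * t)) = ω ^ 2 • 1 + ω ^ 3 • t + (ω ^ 3 * ω) • (t * t) := by module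
    rw [this, hω3, one_smul, one_mul]; abel

theorem Ei_mul (h3 : (3 : F) ≠ 0) (hω : ω ^ 2 + ω + 1 = 0) {E : Matrix ι ι F} {l : F} (hE : t * E = l • E) (i : Fin 3) :
    Ei ω t i * E = ((3 : F)⁻¹ * (1 + (ω ^ 2) ^ (i : ℕ) * l + ω ^ (i : ℕ) * (l * l))) • E := by
  have hω3 : ω ^ 3 = 1 := by linear_combination (ω - 1) * hω
  have e2 : t * t * E = (l * l) • E := by rw [mul_assoc, hE, Matrix.mul_smul, hE, smul_smul]
  have h4 : (ω ^ 2) ^ 2 = ω := by
    calc (ω ^ 2) ^ 2 = ω ^ 3 * ω := by ring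
      _ = ω := by rw [hω3, one_mul]
  fin_cases i
  · show ((3 : F)⁻¹ • (1 + t + t * t)) * E = ((3 : F)⁻¹ * (1 + (ω ^ 2) ^ 0 * l + ω ^ 0 * (l * l))) • E
    rw [Matrix.smul_mul, add_mul, add_mul, one_mul, hE, e2]; module
  · show ((3 : F)⁻¹ • (1 + ω ^ 2 • t + ω • (t * t))) * E = ((3 : F)⁻¹ * (1 + (ω ^ 2) ^ 1 * l + ω ^ 1 * (l * l))) • E
    rw [Matrix.smul_mul, add_mul, add_mul, one_mul, Matrix.smul_mul, Matrix.smul_mul, hE, e2]; module
  · show ((3 : F)⁻¹ • (1 + ω • t + ω ^ 2 • (t * t))) * E = ((3 : F)⁻¹ * (1 + (ω ^ 2) ^ 2 * l + ω ^ 2 * (l * l))) • E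
    rw [h4, Matrix.smul_mul, add_mul, add_mul, one_mul, Matrix.smul_mul, Matrix.smul_mul, hE, e2]; module

theorem Ei_orth (h3 : (3 : F) ≠ 0) (hω : ω ^ 2 + ω + 1 = 0) (ht : t * (t * t) = 1) (i j : Fin 3) :
    Ei ω t i * Ei ω t j = if i = j then Ei ω t i else 0 := by
  have hω3 : ω ^ 3 = 1 := by linear_combination (ω - 1) * hω
  rw [Ei_mul h3 hω (Ei_eig h3 hω ht j) i]
  have h33 : (3 : F)⁻¹ * 3 = 1 := inv_mul_cancel₀ h3
  by_cases h : i = j
  · subst h
    rw [if_pos rfl]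
    have : (3 : F)⁻¹ * (1 + (ω ^ 2) ^ (i : ℕ) * ω ^ (i : ℕ) + ω ^ (i : ℕ) * (ω ^ (i : ℕ) * ω ^ (i : ℕ))) = 1 := by
      have e1 : (ω ^ 2) ^ (i : ℕ) * ω ^ (i : ℕ) = 1 := by rw [← mul_pow, ← pow_succ, hω3, one_pow]
      have e2 : ω ^ (i : ℕ) * (ω ^ (i : ℕ) * ω ^ (i : ℕ)) = 1 := by
        rw [← mul_pow, ← mul_pow, show ω * (ω * ω) = ω ^ 3 by ring, hω3, one_pow]
      rw [e1, e2]
      linear_combination h33
    rw [this, one_smul]
  · rw [if_neg h]
    have : (1 + (ω ^ 2) ^ (i : ℕ) * ω ^ (j : ℕ) + ω ^ (i : ℕ) * (ω ^ (j : ℕ) * ω ^ (j : ℕ))) = 0 := by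
      fin_cases i <;> fin_cases j <;> simp at h ⊢
      · linear_combination hω
      · linear_combination hω + ω * (ω - 1) * hω
      · linear_combination hω
      · linear_combination hω + (ω ^ 2 + ω) * (ω - 1) * hω
      · linear_combination hω + ω * (ω - 1) * hω
      · linear_combination hω + (ω ^ 2 + ω) * (ω - 1) * hω
    rw [this, mul_zero, zero_smul]

theorem Ei_sum (h3 : (3 : F) ≠ 0) (hω : ω ^ 2 + ω + 1 = 0) : ∑ i, Ei ω t i = 1 := by
  rw [Fin.sum_univ_three]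
  show (3 : F)⁻¹ • (1 + t + t * t) + (3 : F)⁻¹ • (1 + ω ^ 2 • t + ω • (t * t)) + (3 : F)⁻¹ • (1 + ω • t + ω ^ 2 • (t * t)) = 1
  have h33 : (3 : F)⁻¹ * 3 = 1 := inv_mul_cancel₀ h3
  have : (3 : F)⁻¹ • (1 + t + t * t) + (3 : F)⁻¹ • (1 + ω ^ 2 • t + ω • (t * t)) + (3 : F)⁻¹ • (1 + ω • t + ω ^ 2 • (t * t)) =
      ((3 : F)⁻¹ * 3) • (1 : Matrix ι ι F) + ((3 : F)⁻¹ * (ω ^ 2 + ω + 1)) • t + ((3 : F)⁻¹ * (ω ^ 2 + ω + 1)) • (t * t) := by module
  rw [this, h33, hω, mul_zero, zero_smul, zero_smul, one_smul, add_zero, add_zero]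

theorem Ei_rec (h3 : (3 : F) ≠ 0) (hω : ω ^ 2 + ω + 1 = 0) (ht : t * (t * t) = 1) : t = ∑ i : Fin 3, ω ^ (i : ℕ) • Ei ω t i := by
  calc t = t * ∑ i, Ei ω t i := by rw [Ei_sum h3 hω, mul_one]
    _ = ∑ i : Fin 3, ω ^ (i : ℕ) • Ei ω t i := by
      rw [Finset.mul_sum]
      exact Finset.sum_congr rfl fun i _ => Ei_eig h3 hω ht i

end

theorem ranks [Fintype F] (hK : Nat.card F = q ^ 2) (h3 : (3 : F) ≠ 0) {ω : F} (hω : ω ^ 2 + ω + 1 = 0) (hfω : frob hK ω = ω)
    {t : Matrix (Fin 4) (Fin 4) F} (htu : ct hK t * t = 1) (ht : t * (t * t) = 1) (ht1 : t ≠ 1) (ht2 : t * t + t + 1 ≠ 0) :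
    ct hK (Ei ω t 0) = Ei ω t 0 ∧ Ei ω t 0 ≠ 0 ∧
    ∀ i, finrank F (LinearMap.range (Matrix.toLin' (Ei ω t i))) = ![2, 1, 1] i := by
  have hct : ct hK t = t * t := by
    calc ct hK t = ct hK t * (t * (t * t)) := by rw [ht, mul_one]
      _ = t * t := by rw [← mul_assoc, htu, one_mul]
  have hct2 : ct hK (t * t) = t := by
    rw [ct_mul, hct]
    calc t * t * (t * t) = t * (t * (t * t)) := by simp only [mul_assoc]
      _ = t := by rw [ht, mul_one]
  have hf3 : frob hK (3 : F)⁻¹ = (3 : F)⁻¹ := by rw [map_inv₀, map_ofNat]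
  have e0 : ct hK (Ei ω t 0) = Ei ω t 0 := by
    show ct hK ((3 : F)⁻¹ • (1 + t + t * t)) = (3 : F)⁻¹ • (1 + t + t * t)
    rw [ct_smul, ct_add, ct_add, ct_one, hct2, hct, hf3]
    congr 1; abel
  have e1 : ct hK (Ei ω t 1) = Ei ω t 2 := by
    show ct hK ((3 : F)⁻¹ • (1 + ω ^ 2 • t + ω • (t * t))) = (3 : F)⁻¹ • (1 + ω • t + ω ^ 2 • (t * t))
    rw [ct_smul, ct_add, ct_add, ct_one, ct_smul, ct_smul, hct2, hct, hf3, map_pow, hfω]
    congr 1; abel
  have h0 : Ei ω t 0 ≠ 0 := by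
    intro h
    apply ht2
    have : (3 : F)⁻¹ • (1 + t + t * t) = 0 := h
    have h4 := (smul_eq_zero.1 this).resolve_left (inv_ne_zero h3)
    rw [← h4]; abel
  have hrk0 : ∀ M : Matrix (Fin 4) (Fin 4) F, finrank F (LinearMap.range (Matrix.toLin' M)) = 0 → M = 0 := by
    intro M hM
    rw [Submodule.finrank_eq_zero, LinearMap.range_eq_bot] at hM
    exact (map_eq_zero_iff _ Matrix.toLin'.injective).1 hM
  have hsum := rank_sum (Ei_orth h3 hω ht) (Ei_sum (t := t) h3 hω)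
  rw [Fin.sum_univ_three, Fintype.card_fin] at hsum
  have h12 : finrank F (LinearMap.range (Matrix.toLin' (Ei ω t 2))) = finrank F (LinearMap.range (Matrix.toLin' (Ei ω t 1))) := by
    rw [← e1, ct_rank]
  have hr0 : finrank F (LinearMap.range (Matrix.toLin' (Ei ω t 0))) ≠ 0 := fun h => h0 (hrk0 _ h)
  have hr1 : finrank F (LinearMap.range (Matrix.toLin' (Ei ω t 1))) ≠ 0 := by
    intro h
    have a1 := hrk0 _ h
    have a2 := hrk0 _ (h12.trans h)
    have a3 := Ei_sum (t := t) h3 hω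
    rw [Fin.sum_univ_three, a1, a2, add_zero, add_zero] at a3
    have a4 := Ei_eig h3 hω ht 0
    rw [a3, mul_one] at a4
    apply ht1
    rw [a4]
    simp
  refine ⟨e0, h0, ?_⟩
  intro i
  fin_cases i
  · show finrank F (LinearMap.range (Matrix.toLin' (Ei ω t 0))) = 2; omega
  · show finrank F (LinearMap.range (Matrix.toLin' (Ei ω t 1))) = 1; omega
  · show finrank F (LinearMap.range (Matrix.toLin' (Ei ω t 2))) = 1; omega

theorem typeB_conj [Fintype F] (hK : Nat.card F = q ^ 2) (h3 : (3 : F) ≠ 0) {ω : F} (hω : ω ^ 2 + ω + 1 = 0) (hfω : frob hK ω = ω)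
    {x y : Matrix (Fin 4) (Fin 4) F} (hxu : ct hK x * x = 1) (hyu : ct hK y * y = 1) (hx : x * (x * x) = 1) (hy : y * (y * y) = 1)
    (hx1 : x ≠ 1) (hy1 : y ≠ 1) (hx2 : x * x + x + 1 ≠ 0) (hy2 : y * y + y + 1 ≠ 0) :
    ∃ X : Matrix (Fin 4) (Fin 4) F, X.det ≠ 0 ∧ X * x = y * X := by
  obtain ⟨-, -, rx⟩ := ranks hK h3 hω hfω hxu hx hx1 hx2
  obtain ⟨-, -, ry⟩ := ranks hK h3 hω hfω hyu hy hy1 hy2
  obtain ⟨X, hX, hXP⟩ := conj_of_idem (Ei_orth h3 hω hx) (Ei_sum (t := x) h3 hω) (Ei_orth h3 hω hy) (Ei_sum (t := y) h3 hω)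
    (fun i => by rw [rx, ry])
  refine ⟨X, hX, ?_⟩
  calc X * x = X * ∑ i : Fin 3, ω ^ (i : ℕ) • Ei ω x i := by rw [← Ei_rec h3 hω hx]
    _ = ∑ i : Fin 3, ω ^ (i : ℕ) • (Ei ω y i * X) := by
      rw [Finset.mul_sum]
      refine Finset.sum_congr rfl fun i _ => ?_
      rw [Matrix.mul_smul, hXP]
    _ = (∑ i : Fin 3, ω ^ (i : ℕ) • Ei ω y i) * X := by
      rw [Finset.sum_mul]
      refine Finset.sum_congr rfl fun i _ => ?_
      rw [Matrix.smul_mul]
    _ = y * X := by rw [← Ei_rec h3 hω hy]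

end H99.U7
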