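import Mathlib
import Cfsg.Agent.Lib.H99.Un3

set_option autoImplicit false
set_option linter.unusedSimpArgs false
set_option linter.unusedSectionVars false
set_option linter.unusedVariables false
set_option maxHeartbeats 400000

/-! Hermitian forms: blocks of isometries. -/

namespace H99.Un

open Module Submodule Polynomial H99.Iso
open H99.Ti (Inv inv_sup compl_in inv_bot)

section blk

variable {F : Type*} [Field F] [Fintype F] {V : Type*} [AddCommGroup V] [Module F V] [FiniteDimensional F V] {σ : F →+* F} {B : V → V → F}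

theorem inf_ker_inv {T : V →ₗ[F] V} {X : Submodule F V} (hX : Inv T X) (g : F[X]) : Inv T (X ⊓ LinearMap.ker (aeval T g)) := by
  intro v hv
  refine ⟨hX v hv.1, ?_⟩
  have h2 : aeval T g (aeval T (Polynomial.X : F[X]) v) = aeval T (Polynomial.X : F[X]) (aeval T g v) := by
    rw [← Module.End.mul_apply, ← Module.End.mul_apply, ← _root_.map_mul, ← _root_.map_mul, mul_comm]
  rw [aeval_X] at h2
  rw [SetLike.mem_coe, LinearMap.mem_ker, h2, LinearMap.mem_ker.1 hv.2, _root_.map_zero]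

/-- the homogeneous components are nondegenerate -/
theorem comp_nd (h : He σ B) {T : V →ₗ[F] V} {N : ℕ} (hN0 : N ≠ 0) (hadj : ∀ (p : F[X]) (u v : V), B (aeval T p u) v = B u (((aeval T p) ^ N) v))
    {X : Submodule F V} (hX : Inv T X) (hXn : NDg B X) {Φ : F[X]} (hΦ : Squarefree Φ) (hk : ∀ v ∈ X, aeval T Φ v = 0)
    {g : F[X]} (hg : Irreducible g) (hgd : g ∣ Φ) :
    NDg B (X ⊓ LinearMap.ker (aeval T g)) ∧ ∀ u v, aeval T g v = 0 → B (aeval T g u) v = 0 := by
  have hker : ∀ u v, aeval T g v = 0 → B (aeval T g u) v = 0 := by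
    intro u v hv
    rw [hadj]
    obtain ⟨N', hN'⟩ : ∃ N', N = N' + 1 := ⟨N - 1, by omega⟩
    rw [hN', pow_succ, Module.End.mul_apply, hv, _root_.map_zero, h.zero_right]
  refine ⟨?_, hker⟩
  obtain ⟨g', hg'⟩ := hgd
  have hcop : IsCoprime g g' := by
    rw [hg.coprime_iff_not_dvd]
    rintro ⟨c, rfl⟩
    exact hg.not_isUnit (hΦ g ⟨c, by rw [hg']; ring⟩)
  obtain ⟨a, b, hab⟩ := hcop
  rintro v ⟨hv, hgv⟩ hh
  have hgv' : aeval T g v = 0 := hgv
  apply hXn v hv
  intro y hy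
  have hy1 : y = aeval T (b * g') y + aeval T g (aeval T a y) := by
    rw [← Module.End.mul_apply, ← _root_.map_mul, ← LinearMap.add_apply, ← _root_.map_add, show b * g' + g * a = a * g + b * g' by ring, hab,
      _root_.map_one, Module.End.one_apply]
  rw [hy1, h.add_right, h.symm0 (hker (aeval T a y) v hgv'), add_zero]
  apply hh
  refine ⟨aeval_mem T X hX _ y hy, ?_⟩
  rw [SetLike.mem_coe, LinearMap.mem_ker, ← Module.End.mul_apply, ← _root_.map_mul, show g * (b * g') = b * (g * g') by ring, ← hg',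
    _root_.map_mul, Module.End.mul_apply, hk y hy, _root_.map_zero]

/-- an anisotropic vector -/
theorem exists_aniso_vec (hσ1 : ∃ a, σ a ≠ a) (h : He σ B) {X : Submodule F V} (hXn : NDg B X) (hX0 : X ≠ ⊥) : ∃ v ∈ X, B v v ≠ 0 := by
  by_contra hcon
  push Not at hcon
  obtain ⟨a, ha⟩ := hσ1
  obtain ⟨x, hx, hx0⟩ := Submodule.exists_mem_ne_zero_of_ne_bot hX0
  apply hx0
  apply hXn x hx
  intro y hy
  have e1 : B x y + B y x = 0 := by
    have := hcon (x + y) (X.add_mem hx hy)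
    rw [h.add_left, h.add_right, h.add_right, hcon x hx, hcon y hy] at this
    linear_combination this
  have e2 : a * B x y + σ a * B y x = 0 := by
    have := hcon (a • x + y) (X.add_mem (X.smul_mem a hx) hy)
    rw [h.add_left, h.add_right, h.add_right, hcon (a • x) (X.smul_mem a hx), hcon y hy, h.smul_left, h.smul_right] at this
    linear_combination this
  have e3 : (a - σ a) * B x y = 0 := by linear_combination e2 - σ a * e1
  exact (mul_eq_zero.1 e3).resolve_left (sub_ne_zero.2 (fun h => ha h.symm))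

/-- nondegenerate irreducible blocks in a homogeneous component -/
theorem exists_block_g (hσ1 : ∃ a, σ a ≠ a) (h : He σ B) {T : V →ₗ[F] V} {k : ℕ} (hk0 : 0 < k) (hT : T ^ k = 1)
    (hiso : ∀ u v, B (T u) (T v) = B u v) {X : Submodule F V} (hX : Inv T X)
    {g : F[X]} (hg : Irreducible g) (hXg : NDg B (X ⊓ LinearMap.ker (aeval T g))) (hne : X ⊓ LinearMap.ker (aeval T g) ≠ ⊥) :
    ∃ Y ≤ X ⊓ LinearMap.ker (aeval T g), Inv T Y ∧ NDg B Y ∧ finrank F Y = g.natDegree ∧ ∀ Z ≤ Y, Inv T Z → Z ≠ ⊥ → Z = Y := by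
  obtain ⟨v, hv, hvv⟩ := exists_aniso_vec hσ1 h hXg hne
  have hv0 : v ≠ 0 := by
    rintro rfl
    exact hvv (h.zero_left _)
  obtain ⟨Y, y1, y2, y3, y4, y5, -⟩ := exists_cyc (inf_ker_inv hX g) hg hv hv0 (LinearMap.mem_ker.1 hv.2)
  refine ⟨Y, y1, y2, ?_, y4, y5⟩
  apply h.nd_of_disjoint
  by_contra hd
  rw [disjoint_iff] at hd
  have h1 := y5 (Y ⊓ h.orth Y) inf_le_left (h.inf_orth_inv hk0 hT hiso y2 y2) hd
  have h2 : Y ≤ h.orth Y := fun z hz => by rw [← h1] at hz; exact hz.2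
  exact hvv (h2 y3 v y3)

/-- nondegenerate irreducible blocks -/
theorem exists_block_sd (hσ1 : ∃ a, σ a ≠ a) (h : He σ B) {T : V →ₗ[F] V} {k : ℕ} (hk0 : 0 < k) (hT : T ^ k = 1)
    (hiso : ∀ u v, B (T u) (T v) = B u v) {N : ℕ} (hN0 : N ≠ 0) (hadj : ∀ (p : F[X]) (u v : V), B (aeval T p u) v = B u (((aeval T p) ^ N) v))
    {X : Submodule F V} (hX : Inv T X) (hXn : NDg B X) {Φ : F[X]} (hΦ : Squarefree Φ) (hk : ∀ v ∈ X, aeval T Φ v = 0) (hX0 : X ≠ ⊥) :
    ∃ g : F[X], Irreducible g ∧ g ∣ Φ ∧ ∃ Y ≤ X, Inv T Y ∧ NDg B Y ∧ finrank F Y = g.natDegree := by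
  obtain ⟨w0, hw0X, hw00⟩ := Submodule.exists_mem_ne_zero_of_ne_bot hX0
  obtain ⟨g, p, hg, hgd, hgw, hgw'⟩ := exists_irr T ⊥ Φ hΦ w0 (hk w0 hw0X) (by rw [Submodule.mem_bot]; exact hw00)
  obtain ⟨n1, -⟩ := comp_nd h hN0 hadj hX hXn hΦ hk hg hgd
  obtain ⟨Y, y1, y2, y3, y4, -⟩ := exists_block_g hσ1 h hk0 hT hiso hX hg n1 (by
    intro h0
    have h1 : aeval T p w0 ∈ X ⊓ LinearMap.ker (aeval T g) := ⟨aeval_mem T X hX p w0 hw0X, hgw'⟩
    rw [h0] at h1
    exact hgw h1)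
  exact ⟨g, hg, hgd, Y, y1.trans inf_le_left, y2, y3, y4⟩

/-- dimensions of invariant subspaces -/
theorem dims_gen {T : V →ₗ[F] V} (hs : Module.End.IsSemisimple T) {Φ : F[X]} (hΦ : Squarefree Φ) {d : ℕ}
    (hd : ∀ g : F[X], Irreducible g → g ∣ Φ → g.natDegree = d) : ∀ n : ℕ, ∀ L : Submodule F V, finrank F L = n → Inv T L →
    (∀ v ∈ L, aeval T Φ v = 0) → ∃ s, n = d * s ∧ ∀ k ≤ s, ∃ L' ≤ L, Inv T L' ∧ finrank F L' = d * k := by
  intro n
  induction n using Nat.strong_induction_on with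
  | _ n ih =>
    intro L hn hL hk
    by_cases hL0 : L = ⊥
    · refine ⟨0, by rw [← hn, hL0, finrank_bot, mul_zero], fun k hk => ⟨⊥, bot_le, inv_bot T, ?_⟩⟩
      rw [finrank_bot, Nat.le_zero.1 hk, mul_zero]
    · obtain ⟨w0, hw0X, hw00⟩ := Submodule.exists_mem_ne_zero_of_ne_bot hL0
      obtain ⟨g, p, hg, hgd, hgw, hgw'⟩ := exists_irr T ⊥ Φ hΦ w0 (hk w0 hw0X) (by rw [Submodule.mem_bot]; exact hw00)
      obtain ⟨Y, y1, y2, -, y3, -, -⟩ := exists_cyc hL hg (aeval_mem T L hL p w0 hw0X) hgw hgw'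
      rw [hd g hg hgd] at y3
      have hd0 : 0 < d := by rw [← hd g hg hgd]; exact hg.natDegree_pos
      obtain ⟨Z, z1, z2, z3, z4, z5⟩ := compl_in hs hL y2 y1
      obtain ⟨s, s1, s2⟩ := ih (finrank F Z) (by omega) Z rfl z2 (fun v hv => hk v (z1 hv))
      refine ⟨s + 1, by rw [mul_add, mul_one]; omega, fun k hk => ?_⟩
      rcases Nat.eq_zero_or_pos k with h0 | h0
      · exact ⟨⊥, bot_le, inv_bot T, by rw [finrank_bot, h0, mul_zero]⟩
      · obtain ⟨k', rfl⟩ : ∃ k', k = k' + 1 := ⟨k - 1, by omega⟩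
        obtain ⟨L', g1, g2, g3⟩ := s2 k' (by omega)
        refine ⟨Y ⊔ L', sup_le y1 (g1.trans z1), inv_sup y2 g2, ?_⟩
        have h1 : Y ⊓ L' = ⊥ := (z3.mono_right g1).eq_bot
        have := Submodule.finrank_sup_add_finrank_inf_eq Y L'
        rw [h1, finrank_bot, add_zero] at this
        rw [this, y3, g3]; ring

/-- chains of nondegenerate blocks -/
theorem nd_chain (h : He σ B) {T : V →ₗ[F] V} {k : ℕ} (hk0 : 0 < k) (hT : T ^ k = 1) (hiso : ∀ u v, B (T u) (T v) = B u v) {c : ℕ}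
    {P : Submodule F V → Prop} (hP : ∀ X Y, Y ≤ X → P X → P Y)
    (hblk : ∀ X, Inv T X → NDg B X → P X → X ≠ ⊥ → ∃ Y ≤ X, Inv T Y ∧ NDg B Y ∧ finrank F Y = c) (hc : 0 < c) :
    ∀ n : ℕ, ∀ X : Submodule F V, finrank F X = n → Inv T X → NDg B X → P X → ∃ s, n = c * s ∧
      ∀ k ≤ s, ∃ Y ≤ X, Inv T Y ∧ NDg B Y ∧ finrank F Y = c * k := by
  intro n
  induction n using Nat.strong_induction_on with
  | _ n ih =>
    intro X hn hX hXn hPX
    by_cases hX0 : X = ⊥
    · refine ⟨0, by rw [← hn, hX0, finrank_bot, mul_zero], fun k hk => ⟨⊥, bot_le, inv_bot T, ?_, ?_⟩⟩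
      · intro x hx _; exact (Submodule.mem_bot F).1 hx
      · rw [finrank_bot, Nat.le_zero.1 hk, mul_zero]
    · obtain ⟨Y, y1, y2, y3, y4⟩ := hblk X hX hXn hPX hX0
      obtain ⟨s1, s2, s3, s4⟩ := h.split hXn y3 y1
      obtain ⟨s, t1, t2⟩ := ih (finrank F (X ⊓ h.orth Y : Submodule F V)) (by omega) _ rfl (h.inf_orth_inv hk0 hT hiso hX y2) s1 (hP _ _ inf_le_left hPX)
      refine ⟨s + 1, by rw [mul_add, mul_one]; omega, fun k hk => ?_⟩
      rcases Nat.eq_zero_or_pos k with h0 | h0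
      · exact ⟨⊥, bot_le, inv_bot T, fun x hx _ => (Submodule.mem_bot F).1 hx, by rw [finrank_bot, h0, mul_zero]⟩
      · obtain ⟨k', rfl⟩ : ∃ k', k = k' + 1 := ⟨k - 1, by omega⟩
        obtain ⟨L', g1, g2, g3, g4⟩ := t2 k' (by omega)
        obtain ⟨u1, u2⟩ := h.nd_sup y3 g3 (fun y hy z hz => h.symm0 ((g1 hz).2 y hy))
        refine ⟨Y ⊔ L', sup_le y1 (g1.trans inf_le_left), inv_sup y2 g2, u1, ?_⟩
        rw [u2, y4, g4]; ring

end blk

section frb

open H49.Unitary

theorem exists_sub {F : Type*} [Field F] {V : Type*} [AddCommGroup V] [Module F V] [FiniteDimensional F V] (U : Submodule F V) {j : ℕ} (hj : j ≤ finrank F U) :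
    ∃ W ≤ U, finrank F W = j := by
  have hli : LinearIndependent F (fun i : Fin j => ((finBasis F U (Fin.castLE hj i) : U) : V)) := by
    have h1 := (finBasis F U).linearIndependent
    have h2 := h1.map' U.subtype (Submodule.ker_subtype U)
    exact h2.comp _ (Fin.castLE_injective hj)
  refine ⟨Submodule.span F (Set.range (fun i : Fin j => ((finBasis F U (Fin.castLE hj i) : U) : V))), ?_, ?_⟩
  · rw [Submodule.span_le]
    rintro _ ⟨i, rfl⟩
    exact (finBasis F U (Fin.castLE hj i)).2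
  · rw [finrank_span_eq_card hli, Fintype.card_fin]

variable {F : Type*} [Field F] [Fintype F] {q : ℕ} {V : Type*} [AddCommGroup V] [Module F V] [FiniteDimensional F V] {B : V → V → F}

theorem frob_pow (hK : Nat.card F = q ^ 2) {b : ℕ} (hb : Odd b) (a : F) : frob hK a = a ^ (q ^ b) := by
  obtain ⟨k, rfl⟩ := hb
  have h1 : ∀ k : ℕ, a ^ ((q ^ 2) ^ k) = a := by
    intro k
    rw [← hK, Nat.card_eq_fintype_card, FiniteField.pow_card_pow]
  rw [frob_apply, pow_succ, pow_mul, pow_mul, h1]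

theorem frob_ne (hK : Nat.card F = q ^ 2) : ∃ a, frob hK a ≠ a := by
  by_contra hcon
  push Not at hcon
  have h2 := two_le hK
  have hcard : Fintype.card F ≤ q := by
    classical
    have hroots : ((Polynomial.X ^ q - Polynomial.X : Polynomial F)).roots.toFinset = Finset.univ := by
      ext a
      simp only [Multiset.mem_toFinset, Finset.mem_univ, iff_true]
      rw [Polynomial.mem_roots (FiniteField.X_pow_card_sub_X_ne_zero F (by omega))]
      have := hcon a
      rw [frob_apply] at this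
      simp [this]
    have h3 := Multiset.toFinset_card_le ((Polynomial.X ^ q - Polynomial.X : Polynomial F)).roots
    rw [hroots, Finset.card_univ] at h3
    refine h3.trans ((Polynomial.card_roots' _).trans ?_)
    rw [FiniteField.X_pow_card_sub_X_natDegree_eq F (by omega)]
  rw [← Nat.card_eq_fintype_card, hK, pow_two] at hcard
  nlinarith

theorem exists_l (hK : Nat.card F = q ^ 2) : ∃ ℓ k : ℕ, ∃ _ : Fact ℓ.Prime, ∃ _ : CharP F ℓ, q = ℓ ^ k := by
  obtain ⟨p, h1, h2, f, -, rfl⟩ := exists_char_pow hK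
  exact ⟨p, f, h1, h2, rfl⟩

theorem adjq (hK : Nat.card F = q ^ 2) (h : He (frob hK) B) {T : V →ₗ[F] V} {b : ℕ} (hb : Odd b) (hTN : T ^ (q ^ b + 1) = 1)
    (hiso : ∀ u v, B (T u) (T v) = B u v) (p : F[X]) (u v : V) : B (aeval T p u) v = B u (((aeval T p) ^ (q ^ b)) v) := by
  obtain ⟨ℓ, k, h1, h2, h3⟩ := exists_l hK
  exact adj_frob (ℓ := ℓ) (k := k * b) (frob_frob hK) h (by rw [h3, ← pow_mul]) (frob_pow hK hb) hTN hiso p u v

theorem comp_leq (hK : Nat.card F = q ^ 2) (h : He (frob hK) B) {T : V →ₗ[F] V} {b : ℕ} (hb : Odd b) (hTN : T ^ (q ^ b + 1) = 1)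
    (hiso : ∀ u v, B (T u) (T v) = B u v) {X : Submodule F V} (hX : Inv T X)
    (han : ∀ Y ≤ X, Inv T Y → TIg B Y → Y = ⊥) {g : F[X]} (hg : Irreducible g) (hNg : g.natDegree = b) :
    finrank F (X ⊓ LinearMap.ker (aeval T g) : Submodule F V) ≤ b := by
  obtain ⟨ℓ, k, h1, h2, h3⟩ := exists_l hK
  have hq := two_le hK
  have := comp_le (ℓ := ℓ) (k := k * b) (frob_frob hK) h (N := q ^ b) (by rw [h3, ← pow_mul]) (Nat.one_lt_pow hb.pos.ne' (by omega)) (frob_pow hK hb) hTN hiso hX han hg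
    (by rw [hNg, ← Nat.card_eq_fintype_card, hK, ← pow_add, ← pow_mul]; congr 1; ring)
  rwa [hNg] at this

/-- nondegenerate subspaces of a nondegenerate space -/
theorem exists_nd (hK : Nat.card F = q ^ 2) (h : He (frob hK) B) {X : Submodule F V} (hX : NDg B X) {t : ℕ} (ht : t ≤ finrank F X) :
    ∃ W ≤ X, NDg B W ∧ finrank F W = t := by
  obtain ⟨s, s1, s2⟩ := nd_chain h (T := (1 : V →ₗ[F] V)) (k := 1) one_pos (one_pow 1) (fun u v => rfl) (c := 1) (P := fun _ => True) (fun _ _ _ _ => trivial)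
    (by
      intro X hXi hXn _ hX0
      obtain ⟨v, hv, hvv⟩ := exists_aniso_vec (frob_ne hK) h hXn hX0
      have hv0 : v ≠ 0 := by
        rintro rfl
        exact hvv (h.zero_left _)
      refine ⟨F ∙ v, (Submodule.span_singleton_le_iff_mem v X).2 hv, fun w hw => hw, ?_, finrank_span_singleton hv0⟩
      intro x hx hh
      obtain ⟨a, rfl⟩ := Submodule.mem_span_singleton.1 hx
      have := hh v (Submodule.mem_span_singleton_self v)
      rw [h.smul_left] at this
      rw [(mul_eq_zero.1 this).resolve_right hvv, zero_smul]) one_pos _ X rfl (fun v hv => hv) hX trivial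
  obtain ⟨Y, y1, -, y3, y4⟩ := s2 t (by omega)
  exact ⟨Y, y1, y3, by rw [y4, one_mul]⟩

/-- totally isotropic subspaces of a nondegenerate space -/
theorem exists_ti (hK : Nat.card F = q ^ 2) (h : He (frob hK) B) {X : Submodule F V} (hX : NDg B X) {t : ℕ} (ht : 2 * t ≤ finrank F X) :
    ∃ W ≤ X, TIg B W ∧ finrank F W = t := by
  have hss : Module.End.IsSemisimple (1 : V →ₗ[F] V) := by
    apply Module.End.isSemisimple_of_squarefree_aeval_eq_zero (p := (Polynomial.X - C 1 : F[X]))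
    · exact (irreducible_X_sub_C 1).squarefree
    · rw [_root_.map_sub, aeval_X, aeval_C, _root_.map_one, sub_self]
  obtain ⟨L, H, A, h1, h2, h3, h4, h5, h6, h7, h8, h9, h10, h11, h12, h13, -⟩ := h.exists_hyp one_pos (one_pow 1) hss (fun u v => rfl) (X := X) (fun v hv => hv) hX
  have h14 := comp_leq hK h (b := 1) odd_one (one_pow _) (fun u v => rfl) h9 h13 (irreducible_X_sub_C (1 : F)) (natDegree_X_sub_C 1)
  have h15 : A ⊓ LinearMap.ker (aeval (1 : V →ₗ[F] V) (Polynomial.X - C 1 : F[X])) = A := by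
    apply inf_eq_left.2
    intro v _
    rw [LinearMap.mem_ker, _root_.map_sub, aeval_X, aeval_C, _root_.map_one, sub_self]; rfl
  rw [h15] at h14
  obtain ⟨W, w1, w2⟩ := exists_sub L (show t ≤ finrank F L by omega)
  exact ⟨W, w1.trans (h1.trans h2), fun u hu v hv => h5 u (w1 hu) v (w1 hv), w2⟩

end frb

end H99.Un
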