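import Mathlib
import Cfsg.Agent.Lib.H99.Un4

set_option autoImplicit false
set_option linter.unusedSimpArgs false
set_option linter.unusedSectionVars false
set_option linter.unusedVariables false
set_option maxHeartbeats 400000

/-! Hermitian forms: isometries of odd prime order. -/

namespace H99.Un

open Module Submodule Polynomial H99.Iso H49.Unitary
open H99.Ti (Inv inv_sup compl_in inv_bot)

section arith

variable {F : Type*} [Field F] [Fintype F] {q r : ℕ}

theorem not_dvd_card (hK : Nat.card F = q ^ 2) (hr : r.Prime) (hrq : ¬ r ∣ q) : ¬ r ∣ Fintype.card F := by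
  rw [← Nat.card_eq_fintype_card, hK]
  intro h
  exact hrq (hr.dvd_of_dvd_pow h)

theorem ord_bc (hK : Nat.card F = q ^ 2) (hr : r.Prime) (hrq : ¬ r ∣ q) :
    (Odd (orderOf (-((q : ℕ) : ZMod r))) → orderOf ((Fintype.card F : ℕ) : ZMod r) = orderOf (-((q : ℕ) : ZMod r))) ∧
    (Even (orderOf (-((q : ℕ) : ZMod r))) → orderOf (-((q : ℕ) : ZMod r)) = 2 * orderOf ((Fintype.card F : ℕ) : ZMod r)) := by
  have h1 : ((Fintype.card F : ℕ) : ZMod r) = (-((q : ℕ) : ZMod r)) ^ 2 := by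
    rw [← Nat.card_eq_fintype_card, hK]
    push_cast; ring
  have h2 := orderOf_pow' (-((q : ℕ) : ZMod r)) (n := 2) two_ne_zero
  rw [h1, h2]
  constructor
  · intro ho
    have : Nat.gcd (orderOf (-((q : ℕ) : ZMod r))) 2 = 1 := by
      rw [← Nat.coprime_iff_gcd_eq_one, Nat.coprime_comm]
      exact (Nat.coprime_two_left).2 ho
    rw [this, Nat.div_one]
  · intro he
    have : Nat.gcd (orderOf (-((q : ℕ) : ZMod r))) 2 = 2 := Nat.gcd_eq_right (even_iff_two_dvd.1 he)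
    rw [this]
    obtain ⟨k, hk⟩ := he
    omega

theorem ord_b_pos (hK : Nat.card F = q ^ 2) (hr : r.Prime) (hrq : ¬ r ∣ q) : 0 < orderOf ((Fintype.card F : ℕ) : ZMod r) := by
  obtain ⟨h1, h2⟩ := ord_bc hK hr hrq
  have h3 := ord_pos hr hrq
  rcases Nat.even_or_odd (orderOf (-((q : ℕ) : ZMod r))) with he | ho
  · have := h2 he; omega
  · rw [h1 ho]; exact h3

theorem pow_N (hr : r.Prime) {b : ℕ} (hb : Odd b) (hb1 : (-((q : ℕ) : ZMod r)) ^ b = 1) {M : Type*} [Monoid M] {T : M} (hT : T ^ r = 1) : T ^ (q ^ b + 1) = 1 := by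
  have : Fact r.Prime := ⟨hr⟩
  have h1 : r ∣ q ^ b + 1 := by
    rw [← ZMod.natCast_eq_zero_iff]
    push_cast
    rw [hb.neg_pow] at hb1
    linear_combination -hb1
  obtain ⟨t, ht⟩ := h1
  rw [ht, pow_mul, hT, one_pow]

end arith

section elt

variable {F : Type*} [Field F] [Fintype F] {q r : ℕ} {V : Type*} [AddCommGroup V] [Module F V] [FiniteDimensional F V] {B : V → V → F}

/-- the hyperbolic hull of a totally isotropic invariant subspace -/
theorem He.hull {σ : F →+* F} (h : He σ B) {k : ℕ} (hk : 0 < k) {T : V →ₗ[F] V} (hT : T ^ k = 1) (hs : Module.End.IsSemisimple T)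
    (hiso : ∀ u v, B (T u) (T v) = B u v) {X : Submodule F V} (hX : Inv T X) (hXn : NDg B X) {L : Submodule F V} (l1 : L ≤ X)
    (l2 : Inv T L) (l3 : TIg B L) : ∃ H ≤ X, L ≤ H ∧ Inv T H ∧ NDg B H ∧ finrank F H = 2 * finrank F L := by
  have hK : Inv T (X ⊓ h.orth L) := h.inf_orth_inv hk hT hiso hX l2
  have hLK : L ≤ X ⊓ h.orth L := fun v hv => ⟨l1 hv, fun n hn => l3 v hv n hn⟩
  obtain ⟨M, m1, m2, m3, m4, m5⟩ := compl_in hs hX hK inf_le_left
  have hM0 : ∀ m ∈ M, (∀ l ∈ L, B m l = 0) → m = 0 := fun m hm hh =>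
    (Submodule.disjoint_def.1 m3) m ⟨m1 hm, hh⟩ hm
  have hL0 : ∀ l ∈ L, (∀ m ∈ M, B l m = 0) → l = 0 := by
    intro l hl hh
    apply hXn l (l1 hl)
    intro y hy
    rw [← m4] at hy
    obtain ⟨a, ha, b, hb, rfl⟩ := Submodule.mem_sup.1 hy
    rw [h.add_right, h.symm0 (ha.2 l hl), hh b hb, add_zero]
  have hdimle1 : finrank F M ≤ finrank F L := h.le_of_pair hM0
  have hdimle2 : finrank F L ≤ finrank F M := h.le_of_pair hL0
  have hLM : Disjoint L M := m3.mono_left hLK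
  have hHn : NDg B (L ⊔ M) := by
    intro x hx hh
    obtain ⟨l, hl, m, hm, rfl⟩ := Submodule.mem_sup.1 hx
    have hm0 : m = 0 := by
      apply hM0 m hm
      intro l' hl'
      have := hh l' (Submodule.mem_sup_left hl')
      rwa [h.add_left, l3 l hl l' hl', zero_add] at this
    have hl0 : l = 0 := by
      apply hL0 l hl
      intro m' hm'
      have := hh m' (Submodule.mem_sup_right hm')
      rwa [hm0, add_zero] at this
    rw [hl0, hm0, add_zero]
  have hHd : finrank F (L ⊔ M : Submodule F V) = 2 * finrank F L := by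
    have := Submodule.finrank_sup_add_finrank_inf_eq L M
    rw [hLM.eq_bot, finrank_bot, add_zero] at this
    omega
  exact ⟨L ⊔ M, sup_le l1 m1, le_sup_left, inv_sup l2 m2, hHn, hHd⟩

theorem nd_or_ti (hr : r.Prime) (hrq : ¬ r ∣ Fintype.card F) {σ : F →+* F} (h : He σ B) {T : V →ₗ[F] V} (hT : T ^ r = 1)
    (hiso : ∀ u v, B (T u) (T v) = B u v) {Z : Submodule F V} (hZ : Inv T Z) (hfix : ∀ v ∈ Z, T v = v → v = 0)
    (hZd : finrank F Z = orderOf ((Fintype.card F : ℕ) : ZMod r)) : NDg B Z ∨ TIg B Z := by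
  obtain ⟨s, s1, -⟩ := Ti.dims hr hrq hT _ (Z ⊓ h.orth Z) rfl (h.inf_orth_inv hr.pos hT hiso hZ hZ) (fun v hv => hfix v hv.1)
  rcases Nat.eq_zero_or_pos s with h0 | h0
  · left
    apply h.nd_of_disjoint
    rw [disjoint_iff, ← Submodule.finrank_eq_zero (R := F), s1, h0, mul_zero]
  · right
    have h1 : Z ⊓ h.orth Z = Z := by
      apply Submodule.eq_of_le_of_finrank_le inf_le_left
      rw [s1, hZd]
      exact Nat.le_mul_of_pos_right _ h0
    intro u hu v hv
    rw [← h1] at hu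
    exact hu.2 v hv

/-- **nondegenerate blocks** -/
theorem exists_blk (hK : Nat.card F = q ^ 2) (h : He (frob hK) B) (hr : r.Prime) (hrq : ¬ r ∣ q) {T : V →ₗ[F] V} (hT : T ^ r = 1)
    (hiso : ∀ u v, B (T u) (T v) = B u v) {X : Submodule F V} (hX : Inv T X) (hXn : NDg B X) (hfix : ∀ v ∈ X, T v = v → v = 0) (hX0 : X ≠ ⊥) :
    ∃ Y ≤ X, Inv T Y ∧ NDg B Y ∧ finrank F Y = orderOf (-((q : ℕ) : ZMod r)) := by
  have hrF := not_dvd_card hK hr hrq
  obtain ⟨o1, o2⟩ := ord_bc hK hr hrq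
  rcases Nat.even_or_odd (orderOf (-((q : ℕ) : ZMod r))) with he | ho
  · obtain ⟨Y, y1, y2, y3⟩ := Ti.exists_irrsub hr hrF hT hX hfix hX0
    have hb := ord_b_pos hK hr hrq
    rcases nd_or_ti hr hrF h hT hiso y2 (fun v hv => hfix v (y1 hv)) y3 with hn | ht
    · exfalso
      have := ord_le_sub hK h hr hrq hn hiso hT y2 (by
        intro hle
        have h0 : Y = ⊥ := by
          rw [eq_bot_iff]
          intro v hv
          exact hfix v (y1 hv) (sub_eq_zero.1 (LinearMap.mem_ker.1 (hle hv)))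
        rw [h0, finrank_bot] at y3
        omega)
      rw [y3, o2 he] at this
      omega
    · obtain ⟨H, h1, h2, h3, h4, h5⟩ := h.hull hr.pos hT (Ti.ss_of_pow hr hrF hT) hiso hX hXn y1 y2 ht
      exact ⟨H, h1, h3, h4, by rw [h5, y3, o2 he]⟩
  · have hTN := pow_N hr ho (pow_orderOf_eq_one _) hT
    obtain ⟨g, hg, hgd, Y, y1, y2, y3, y4⟩ := exists_block_sd (frob_ne hK) h hr.pos hT hiso (N := q ^ orderOf (-((q : ℕ) : ZMod r)))
      (by have := two_le hK; positivity) (adjq hK h ho hTN hiso) hX hXn (squarefree_cyclotomic (F := F) hr hrF)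
      (fun v hv => cyclotomic_kills hr hT hX hfix v hv) hX0
    exact ⟨Y, y1, y2, y3, by rw [y4, natDegree_irr hr hrF hg hgd, o1 ho]⟩

theorem nd_dims (hK : Nat.card F = q ^ 2) (h : He (frob hK) B) (hr : r.Prime) (hrq : ¬ r ∣ q) {T : V →ₗ[F] V} (hT : T ^ r = 1)
    (hiso : ∀ u v, B (T u) (T v) = B u v) {X : Submodule F V} (hX : Inv T X) (hXn : NDg B X) (hfix : ∀ v ∈ X, T v = v → v = 0) :
    ∃ s, finrank F X = orderOf (-((q : ℕ) : ZMod r)) * s ∧ ∀ k ≤ s, ∃ Y ≤ X, Inv T Y ∧ NDg B Y ∧ finrank F Y = orderOf (-((q : ℕ) : ZMod r)) * k :=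
  nd_chain h hr.pos hT hiso (P := fun X => ∀ v ∈ X, T v = v → v = 0) (fun X Y hYX hh v hv => hh v (hYX hv))
    (fun X hX hXn hfix hX0 => exists_blk hK h hr hrq hT hiso hX hXn hfix hX0) (ord_pos hr hrq) _ X rfl hX hXn hfix

/-- anisotropic isometries are small -/
theorem aniso_le (hK : Nat.card F = q ^ 2) (h : He (frob hK) B) (hr : r.Prime) (hrq : ¬ r ∣ q) {T : V →ₗ[F] V} (hT : T ^ r = 1)
    (hiso : ∀ u v, B (T u) (T v) = B u v) {X : Submodule F V} (hX : Inv T X) (hfix : ∀ v ∈ X, T v = v → v = 0)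
    (ho : Odd (orderOf (-((q : ℕ) : ZMod r)))) (han : ∀ Y ≤ X, Inv T Y → TIg B Y → Y = ⊥) : finrank F X ≤ r - 1 := by
  have hrF := not_dvd_card hK hr hrq
  obtain ⟨o1, o2⟩ := ord_bc hK hr hrq
  have hTN := pow_N hr ho (pow_orderOf_eq_one _) hT
  have h1 := Ti.ker_bound (squarefree_cyclotomic (F := F) hr hrF) (fun g hg hgd => by
    have := comp_leq hK h ho hTN hiso hX han hg (by rw [natDegree_irr hr hrF hg hgd, o1 ho])
    rwa [natDegree_irr hr hrF hg hgd, o1 ho]) hX (cyclotomic r F) dvd_rfl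
  rw [Ti.natDegree_cyc hr] at h1
  have h2 : X ⊓ LinearMap.ker (aeval T (cyclotomic r F)) = X := by
    apply inf_eq_left.2
    intro v hv
    exact LinearMap.mem_ker.2 (cyclotomic_kills hr hT hX hfix v hv)
  rwa [h2] at h1

/-- **structure theorem** -/
theorem ti_struct (hK : Nat.card F = q ^ 2) (h : He (frob hK) B) (hr : r.Prime) (hrq : ¬ r ∣ q) {T : V →ₗ[F] V} (hT : T ^ r = 1)
    (hiso : ∀ u v, B (T u) (T v) = B u v) {X : Submodule F V} (hX : Inv T X) (hXn : NDg B X) (hfix : ∀ v ∈ X, T v = v → v = 0) :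
    ∃ s o : ℕ, finrank F X = orderOf ((Fintype.card F : ℕ) : ZMod r) * (2 * s + o) ∧ orderOf ((Fintype.card F : ℕ) : ZMod r) * o ≤ r - 1 ∧
      (Even (orderOf (-((q : ℕ) : ZMod r))) → o = 0) ∧
      ∀ k ≤ s, ∃ L ≤ X, Inv T L ∧ TIg B L ∧ finrank F L = orderOf ((Fintype.card F : ℕ) : ZMod r) * k := by
  have hrF := not_dvd_card hK hr hrq
  obtain ⟨L, H, A, h1, h2, h3, h4, h5, h6, h7, h8, h9, h10, h11, h12, h13, h14⟩ := h.exists_hyp hr.pos hT (Ti.ss_of_pow hr hrF hT) hiso hX hXn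
  obtain ⟨s, s1, s2⟩ := Ti.dims hr hrF hT _ L rfl h4 (fun v hv => hfix v (h2 (h1 hv)))
  obtain ⟨o, o1, -⟩ := Ti.dims hr hrF hT _ A rfl h9 (fun v hv => hfix v (h3 hv))
  have hdim : finrank F X = orderOf ((Fintype.card F : ℕ) : ZMod r) * (2 * s + o) := by rw [← h11, h8, s1, o1]; ring
  have hb := ord_b_pos hK hr hrq
  have heven0 : Even (orderOf (-((q : ℕ) : ZMod r))) → A = ⊥ := by
    intro he
    by_contra hA
    obtain ⟨Y, y1, y2, y3⟩ := Ti.exists_irrsub hr hrF hT h9 (fun v hv => hfix v (h3 hv)) hA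
    rcases nd_or_ti hr hrF h hT hiso y2 (fun v hv => hfix v (h3 (y1 hv))) y3 with hn | ht
    · have := ord_le_sub hK h hr hrq hn hiso hT y2 (by
        intro hle
        have h0 : Y = ⊥ := by
          rw [eq_bot_iff]
          intro v hv
          exact hfix v (h3 (y1 hv)) (sub_eq_zero.1 (LinearMap.mem_ker.1 (hle hv)))
        rw [h0, finrank_bot] at y3
        omega)
      rw [y3, (ord_bc hK hr hrq).2 he] at this
      omega
    · have := h13 Y y1 y2 ht
      rw [this, finrank_bot] at y3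
      omega
  refine ⟨s, o, hdim, ?_, ?_, fun k hk => ?_⟩
  · rw [← o1]
    rcases Nat.even_or_odd (orderOf (-((q : ℕ) : ZMod r))) with he | ho
    · rw [heven0 he, finrank_bot]; exact Nat.zero_le _
    · exact aniso_le hK h hr hrq hT hiso h9 (fun v hv => hfix v (h3 hv)) ho h13
  · intro he
    rw [heven0 he, finrank_bot] at o1
    rcases Nat.mul_eq_zero.1 o1.symm with h | h
    · omega
    · exact h
  · obtain ⟨L', g1, g2, g3⟩ := s2 k hk
    exact ⟨L', g1.trans (h1.trans h2), g2, fun u hu v hv => h5 u (g1 hu) v (g1 hv), g3⟩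

/-- the fixed and moved parts of the whole space -/
theorem mov_top (hK : Nat.card F = q ^ 2) (h : He (frob hK) B) (hN : ∀ u, (∀ v, B u v = 0) → u = 0) (hr : r.Prime) (hrq : ¬ r ∣ q) {T : V →ₗ[F] V} (hT : T ^ r = 1)
    (hiso : ∀ u v, B (T u) (T v) = B u v) :
    NDg B (LinearMap.range (T - 1)) ∧ NDg B (LinearMap.ker (T - 1)) ∧ Inv T (LinearMap.range (T - 1)) ∧ Inv T (LinearMap.ker (T - 1)) ∧
      (∀ v ∈ LinearMap.range (T - 1), T v = v → v = 0) ∧
      finrank F (LinearMap.range (T - 1)) + finrank F (LinearMap.ker (T - 1)) = finrank F V ∧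
      (∀ u ∈ LinearMap.range (T - 1), ∀ v ∈ LinearMap.ker (T - 1), B u v = 0) := by
  have hrF := not_dvd_card hK hr hrq
  obtain ⟨n1, n2, n3, n4, n5⟩ := nd_mov hr hrF h hT hiso (X := ⊤) (fun v _ => trivial) (fun x _ hh => hN x fun y => hh y trivial)
  rw [top_inf_eq] at n1 n2
  rw [top_inf_eq, top_inf_eq, finrank_top] at n3
  refine ⟨n1, n2, ?_, ?_, ?_, n3, n4⟩
  · intro v hv
    have := Iso.mov_inv (T := T) (X := (⊤ : Submodule F V)) (fun v _ => trivial) v ⟨trivial, hv⟩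
    exact this.2
  · intro v hv
    have h1 : T v = v := sub_eq_zero.1 (LinearMap.mem_ker.1 hv)
    rw [h1]; exact hv
  · intro v hv h1
    exact Iso.mov_fpf hr hrF hT (X := (⊤ : Submodule F V)) v ⟨trivial, hv⟩ h1

end elt

end H99.Un
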