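import Mathlib
import Cfsg.Agent.Lib.H99.Un5

set_option autoImplicit false
set_option linter.unusedSimpArgs false
set_option linter.unusedSectionVars false
set_option linter.unusedVariables false
set_option maxHeartbeats 400000

/-! Hermitian forms: counting, gluing, elements of prime order with a small fixed space. -/

namespace H99.Un

open Module Submodule Polynomial H99.Iso H49.Unitary
open H99.Ti (Inv inv_sup compl_in inv_bot)

section sets

variable {F : Type*} [Field F] [Fintype F] {q r : ℕ} {V : Type*} [AddCommGroup V] [Module F V] [FiniteDimensional F V] {B : V → V → F}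

/-- totally isotropic subspaces of dimension `m` -/
def TIset (B : V → V → F) (m : ℕ) : Set (Submodule F V) := {W | finrank F W = m ∧ TIg B W}

/-- nondegenerate subspaces of dimension `m` -/
def NDset (B : V → V → F) (m : ℕ) : Set (Submodule F V) := {W | finrank F W = m ∧ NDg B W}

theorem TIset.map {V' : Type*} [AddCommGroup V'] [Module F V'] {B' : V' → V' → F} {m : ℕ} {W : Submodule F V'}
    (g : V' →ₗ[F] V) (hinj : Function.Injective g) (hg : ∀ u v, B (g u) (g v) = B' u v) : W.map g ∈ TIset B m ↔ W ∈ TIset B' m := by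
  have hd : finrank F (W.map g : Submodule F V) = finrank F W := (Submodule.equivMapOfInjective g hinj W).finrank_eq.symm
  constructor
  · rintro ⟨h1, h2⟩
    refine ⟨by rw [← hd]; exact h1, fun u hu v hv => ?_⟩
    rw [← hg]; exact h2 _ ⟨u, hu, rfl⟩ _ ⟨v, hv, rfl⟩
  · rintro ⟨h1, h2⟩
    refine ⟨by rw [hd]; exact h1, ?_⟩
    rintro _ ⟨u, hu, rfl⟩ _ ⟨v, hv, rfl⟩
    rw [hg]; exact h2 u hu v hv

theorem NDset.map {V' : Type*} [AddCommGroup V'] [Module F V'] {B' : V' → V' → F} {m : ℕ} {W : Submodule F V'}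
    (g : V' →ₗ[F] V) (hinj : Function.Injective g) (hg : ∀ u v, B (g u) (g v) = B' u v) : W.map g ∈ NDset B m ↔ W ∈ NDset B' m := by
  have hd : finrank F (W.map g : Submodule F V) = finrank F W := (Submodule.equivMapOfInjective g hinj W).finrank_eq.symm
  constructor
  · rintro ⟨h1, h2⟩
    refine ⟨by rw [← hd]; exact h1, fun u hu hh => ?_⟩
    apply hinj
    rw [_root_.map_zero]
    apply h2 _ ⟨u, hu, rfl⟩
    rintro _ ⟨v, hv, rfl⟩
    rw [hg]; exact hh v hv
  · rintro ⟨h1, h2⟩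
    refine ⟨by rw [hd]; exact h1, ?_⟩
    rintro _ ⟨u, hu, rfl⟩ hh
    rw [h2 u hu (fun v hv => by rw [← hg]; exact hh _ ⟨v, hv, rfl⟩), _root_.map_zero]

theorem map_eq_of {X Y : Submodule F V} (φ : X ≃ₗ[F] Y) (g : V ≃ₗ[F] V) (hg : ∀ x : X, g (x : V) = (φ x : V)) : X.map (g : V →ₗ[F] V) = Y := by
  apply Submodule.eq_of_le_of_finrank_eq
  · rintro _ ⟨x, hx, rfl⟩
    have := hg ⟨x, hx⟩
    show g x ∈ Y
    rw [this]
    exact (φ ⟨x, hx⟩).2
  · rw [LinearEquiv.finrank_map_eq g X, φ.finrank_eq]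

theorem TIset.trans (hK : Nat.card F = q ^ 2) (h : He (frob hK) B) (hN : ∀ u, (∀ v, B u v = 0) → u = 0) {m : ℕ} {X Y : Submodule F V}
    (hX : X ∈ TIset B m) (hY : Y ∈ TIset B m) : ∃ g ∈ H7.UnitOrd.U B, X.map (g : V →ₗ[F] V) = Y := by
  let φ : X ≃ₗ[F] Y := LinearEquiv.ofFinrankEq _ _ (by rw [hX.1, hY.1])
  obtain ⟨g, g1, g2⟩ := witt hK h hN X Y φ (fun x x' => by
    rw [hY.2 _ (φ x).2 _ (φ x').2, hX.2 _ x.2 _ x'.2])
  exact ⟨g, g1, map_eq_of φ g g2⟩

theorem NDset.trans (hK : Nat.card F = q ^ 2) (h : He (frob hK) B) (hN : ∀ u, (∀ v, B u v = 0) → u = 0) {m : ℕ} {X Y : Submodule F V}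
    (hX : X ∈ NDset B m) (hY : Y ∈ NDset B m) : ∃ g ∈ H7.UnitOrd.U B, X.map (g : V →ₗ[F] V) = Y := by
  obtain ⟨e1, h1⟩ := exists_std hK (rB_he h X) (rB_nd hX.2) hX.1
  obtain ⟨e2, h2⟩ := exists_std hK (rB_he h Y) (rB_nd hY.2) hY.1
  let φ : X ≃ₗ[F] Y := e1.trans e2.symm
  obtain ⟨g, g1, g2⟩ := witt hK h hN X Y φ (fun x x' => by
    have e3 : rB B Y (φ x) (φ x') = rB B X x x' := by
      rw [← h2, ← h1]
      show Cfsg.hermForm m F q (e2 (e2.symm (e1 x))) (e2 (e2.symm (e1 x'))) = _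
      rw [LinearEquiv.apply_symm_apply, LinearEquiv.apply_symm_apply]
    exact e3)
  exact ⟨g, g1, map_eq_of φ g g2⟩

theorem ti_count (hK : Nat.card F = q ^ 2) (h : He (frob hK) B) (hN : ∀ u, (∀ v, B u v = 0) → u = 0) (hr : r.Prime) (hrq : ¬ r ∣ q) {f : V →ₗ[F] V}
    (hf : ∀ u v, B (f u) (f v) = B u v) (hfr : f ^ r = 1) {m : ℕ} (hle : ∀ W ∈ TIset B m, Inv f W → W ≤ LinearMap.ker (f - 1))
    (hC : finrank F (LinearMap.ker (f - 1)) < orderOf (-((q : ℕ) : ZMod r))) (hex : ∃ W ∈ TIset B m, Inv f W) : ¬ r ∣ Nat.card (TIset B m) := by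
  obtain ⟨-, n2, -⟩ := mov_top hK h hN hr hrq hfr hf
  exact not_dvd hr hf hfr (TIset B m) (fun g hg W hW => (TIset.map _ (LinearEquiv.injective g) hg).2 hW) hle (TIset (rB B (LinearMap.ker (f - 1))) m)
    (fun W => (TIset.map (LinearMap.ker (f - 1)).subtype (LinearMap.ker (f - 1)).injective_subtype (fun u v => rfl)).symm)
    (fun g hg W hW => (TIset.map _ (LinearEquiv.injective g) hg).2 hW)
    (fun X hX Y hY => TIset.trans hK (rB_he h _) (rB_nd n2) hX hY) (no_r hK (rB_he h _) (rB_nd n2) hr hrq hC) hex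

theorem nd_count (hK : Nat.card F = q ^ 2) (h : He (frob hK) B) (hN : ∀ u, (∀ v, B u v = 0) → u = 0) (hr : r.Prime) (hrq : ¬ r ∣ q) {f : V →ₗ[F] V}
    (hf : ∀ u v, B (f u) (f v) = B u v) (hfr : f ^ r = 1) {m : ℕ} (hle : ∀ W ∈ NDset B m, Inv f W → W ≤ LinearMap.ker (f - 1))
    (hC : finrank F (LinearMap.ker (f - 1)) < orderOf (-((q : ℕ) : ZMod r))) (hex : ∃ W ∈ NDset B m, Inv f W) : ¬ r ∣ Nat.card (NDset B m) := by
  obtain ⟨-, n2, -⟩ := mov_top hK h hN hr hrq hfr hf
  exact not_dvd hr hf hfr (NDset B m) (fun g hg W hW => (NDset.map _ (LinearEquiv.injective g) hg).2 hW) hle (NDset (rB B (LinearMap.ker (f - 1))) m)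
    (fun W => (NDset.map (LinearMap.ker (f - 1)).subtype (LinearMap.ker (f - 1)).injective_subtype (fun u v => rfl)).symm)
    (fun g hg W hW => (NDset.map _ (LinearEquiv.injective g) hg).2 hW)
    (fun X hX Y hY => NDset.trans hK (rB_he h _) (rB_nd n2) hX hY) (no_r hK (rB_he h _) (rB_nd n2) hr hrq hC) hex

theorem c_le_of_ti (hK : Nat.card F = q ^ 2) (h : He (frob hK) B) (hN : ∀ u, (∀ v, B u v = 0) → u = 0) (hr : r.Prime) (hrq : ¬ r ∣ q) {m : ℕ}
    (hm : 2 * m ≤ finrank F V) (hd : r ∣ Nat.card (TIset B m)) : orderOf (-((q : ℕ) : ZMod r)) ≤ finrank F V := by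
  by_contra hlt
  push Not at hlt
  apply no_r hK h hN hr hrq hlt
  refine hd.trans (card_dvd_of_trans (D := B) (TIset B m) (fun g hg W hW => (TIset.map _ (LinearEquiv.injective g) hg).2 hW)
    (fun X hX Y hY => TIset.trans hK h hN hX hY) ?_)
  obtain ⟨W, -, w2, w3⟩ := exists_ti hK h (X := ⊤) (fun x _ hh => hN x fun y => hh y trivial) (t := m) (by rw [finrank_top]; exact hm)
  exact ⟨W, w3, w2⟩

theorem c_le_of_nd (hK : Nat.card F = q ^ 2) (h : He (frob hK) B) (hN : ∀ u, (∀ v, B u v = 0) → u = 0) (hr : r.Prime) (hrq : ¬ r ∣ q) {m : ℕ}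
    (hm : m ≤ finrank F V) (hd : r ∣ Nat.card (NDset B m)) : orderOf (-((q : ℕ) : ZMod r)) ≤ finrank F V := by
  by_contra hlt
  push Not at hlt
  apply no_r hK h hN hr hrq hlt
  refine hd.trans (card_dvd_of_trans (D := B) (NDset B m) (fun g hg W hW => (NDset.map _ (LinearEquiv.injective g) hg).2 hW)
    (fun X hX Y hY => NDset.trans hK h hN hX hY) ?_)
  obtain ⟨W, -, w2, w3⟩ := exists_nd hK h (X := ⊤) (fun x _ hh => hN x fun y => hh y trivial) (t := m) (by rw [finrank_top]; exact hm)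
  exact ⟨W, w3, w2⟩

end sets

section glue

variable {F : Type*} [Field F] {V : Type*} [AddCommGroup V] [Module F V] {σ : F →+* F} {B : V → V → F}

/-- gluing endomorphisms of complementary subspaces -/
noncomputable def glue {X Y : Submodule F V} (hXY : IsCompl X Y) (f : X →ₗ[F] X) (g : Y →ₗ[F] Y) : V →ₗ[F] V :=
  LinearMap.ofIsCompl hXY (X.subtype ∘ₗ f) (Y.subtype ∘ₗ g)

variable {X Y : Submodule F V} (hXY : IsCompl X Y) (f : X →ₗ[F] X) (g : Y →ₗ[F] Y)

theorem glue_left (x : X) : glue hXY f g (x : V) = f x := LinearMap.ofIsCompl_left_apply hXY x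

theorem glue_right (y : Y) : glue hXY f g (y : V) = g y := LinearMap.ofIsCompl_right_apply hXY y

theorem glue_decomp (hXY : IsCompl X Y) (v : V) : ∃ (x : X) (y : Y), v = (x : V) + (y : V) := by
  obtain ⟨a, b, ha, hb, h⟩ := (Submodule.codisjoint_iff_exists_add_eq.1 hXY.codisjoint) v
  exact ⟨⟨a, ha⟩, ⟨b, hb⟩, h.symm⟩

theorem glue_add (x : X) (y : Y) : glue hXY f g ((x : V) + (y : V)) = (f x : V) + (g y : V) := by
  rw [_root_.map_add, glue_left, glue_right]

theorem glue_iso (h : He σ B) (ho : ∀ x ∈ X, ∀ y ∈ Y, B x y = 0) (hf : ∀ u v : X, B (f u) (f v) = B u v) (hg : ∀ u v : Y, B (g u) (g v) = B u v)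
    (u v : V) : B (glue hXY f g u) (glue hXY f g v) = B u v := by
  obtain ⟨x, y, rfl⟩ := glue_decomp hXY u
  obtain ⟨x', y', rfl⟩ := glue_decomp hXY v
  rw [glue_add, glue_add, h.add_left, h.add_left, h.add_right, h.add_right, h.add_right, h.add_right, hf, hg,
    ho _ (f x).2 _ (g y').2, h.symm0 (ho _ (f x').2 _ (g y).2), ho _ x.2 _ y'.2, h.symm0 (ho _ x'.2 _ y.2)]

theorem glue_pow (k : ℕ) : (glue hXY f g) ^ k = glue hXY (f ^ k) (g ^ k) := by
  induction k with
  | zero =>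
    apply LinearMap.ext
    intro v
    obtain ⟨x, y, rfl⟩ := glue_decomp hXY v
    rw [glue_add]; rfl
  | succ k ih =>
    apply LinearMap.ext
    intro v
    obtain ⟨x, y, rfl⟩ := glue_decomp hXY v
    rw [pow_succ', Module.End.mul_apply, ih, glue_add, glue_add, glue_add, pow_succ', pow_succ']; rfl

theorem glue_one : glue hXY 1 1 = 1 := by
  have := glue_pow hXY (1 : X →ₗ[F] X) (1 : Y →ₗ[F] Y) 0
  rw [pow_zero, pow_zero, pow_zero] at this
  exact this.symm

theorem glue_fix (v : V) (hv : glue hXY f g v = v) : ∃ (x : X) (y : Y), v = (x : V) + (y : V) ∧ f x = x ∧ g y = y := by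
  obtain ⟨x, y, rfl⟩ := glue_decomp hXY v
  rw [glue_add] at hv
  have h1 : ((f x : V) - x) = (y : V) - g y := by
    rw [sub_eq_sub_iff_add_eq_add, hv, add_comm]
  have h2 : ((f x : V) - x) = 0 := by
    apply (Submodule.disjoint_def.1 hXY.disjoint) _ (X.sub_mem (f x).2 x.2)
    rw [h1]; exact Y.sub_mem y.2 (g y).2
  refine ⟨x, y, rfl, Subtype.ext (sub_eq_zero.1 h2), Subtype.ext ?_⟩
  rw [h2] at h1
  exact (sub_eq_zero.1 h1.symm).symm

end glue

section full

variable {F : Type*} [Field F] [Fintype F] {q r : ℕ} {V : Type*} [AddCommGroup V] [Module F V] [FiniteDimensional F V] {B : V → V → F}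

theorem mem_ker_sub {T : V →ₗ[F] V} {v : V} : v ∈ LinearMap.ker (T - 1) ↔ T v = v := by
  rw [LinearMap.mem_ker]; exact sub_eq_zero

/-- elements of order `r` with a small fixed space -/
theorem exists_full (hK : Nat.card F = q ^ 2) (h : He (frob hK) B) (hN : ∀ u, (∀ v, B u v = 0) → u = 0) (hr : r.Prime) (hrq : ¬ r ∣ q) :
    ∃ T : V →ₗ[F] V, (∀ u v, B (T u) (T v) = B u v) ∧ T ^ r = 1 ∧ finrank F (LinearMap.ker (T - 1)) < orderOf (-((q : ℕ) : ZMod r)) := by
  have key : ∀ n : ℕ, ∀ T : V →ₗ[F] V, (∀ u v, B (T u) (T v) = B u v) → T ^ r = 1 → finrank F (LinearMap.ker (T - 1)) = n →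
      ∃ T : V →ₗ[F] V, (∀ u v, B (T u) (T v) = B u v) ∧ T ^ r = 1 ∧ finrank F (LinearMap.ker (T - 1)) < orderOf (-((q : ℕ) : ZMod r)) := by
    intro n
    induction n using Nat.strong_induction_on with
    | _ n ih =>
      intro T hiso hT hn
      by_cases hlt : finrank F (LinearMap.ker (T - 1)) < orderOf (-((q : ℕ) : ZMod r))
      · exact ⟨T, hiso, hT, hlt⟩
      push Not at hlt
      obtain ⟨n1, n2, n3, n4, n5, n6, n7⟩ := mov_top hK h hN hr hrq hT hiso
      obtain ⟨S, s1, s2, s3⟩ := exists_r hK (rB_he h _) (rB_nd n2) hr hrq hlt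
      have hc : IsCompl (LinearMap.range (T - 1)) (LinearMap.ker (T - 1)) := RElt.isCompl (natCast_ne_zero hr (not_dvd_card hK hr hrq)) T hT
      have hfr : (T.restrict n3) ^ r = 1 := by
        have hp : ∀ (k : ℕ) (v : LinearMap.range (T - 1)), (((T.restrict n3) ^ k) v : V) = (T ^ k) v := by
          intro k
          induction k with
          | zero => intro v; rfl
          | succ k ih => intro v; rw [pow_succ', pow_succ', Module.End.mul_apply, Module.End.mul_apply, ← ih]; rfl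
        apply LinearMap.ext
        intro v
        apply Subtype.ext
        rw [hp, hT]; rfl
      refine ih (finrank F (LinearMap.ker (glue hc (T.restrict n3) S - 1))) ?_ _ (glue_iso hc _ _ h n7 (fun u v => hiso u v) s1)
        (by rw [glue_pow, hfr, s2, glue_one]) rfl
      rw [← hn]
      apply Submodule.finrank_lt_finrank_of_lt
      rw [lt_iff_le_and_ne]
      have hle : ∀ v ∈ LinearMap.ker (glue hc (T.restrict n3) S - 1), ∃ y : LinearMap.ker (T - 1), v = (y : V) ∧ S y = y := by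
        intro v hv
        obtain ⟨x, y, h1, h2, h3⟩ := glue_fix hc _ _ v (mem_ker_sub.1 hv)
        have hx : (x : V) = 0 := n5 x x.2 (congrArg Subtype.val h2)
        exact ⟨y, by rw [h1, hx, zero_add], h3⟩
      refine ⟨fun v hv => ?_, fun heq => s3 ?_⟩
      · obtain ⟨y, rfl, -⟩ := hle v hv
        exact y.2
      · apply LinearMap.ext
        intro y
        have hy : (y : V) ∈ LinearMap.ker (glue hc (T.restrict n3) S - 1) := by rw [heq]; exact y.2
        obtain ⟨y', h1, h2⟩ := hle _ hy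
        have : y = y' := Subtype.ext h1
        rw [this]; exact h2
  exact key _ 1 (fun u v => rfl) (one_pow r) rfl

theorem full_dim (hK : Nat.card F = q ^ 2) (h : He (frob hK) B) (hN : ∀ u, (∀ v, B u v = 0) → u = 0) (hr : r.Prime) (hrq : ¬ r ∣ q) {T : V →ₗ[F] V}
    (hiso : ∀ u v, B (T u) (T v) = B u v) (hT : T ^ r = 1) (hlt : finrank F (LinearMap.ker (T - 1)) < orderOf (-((q : ℕ) : ZMod r))) :
    finrank F (LinearMap.ker (T - 1)) = finrank F V % orderOf (-((q : ℕ) : ZMod r)) := by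
  obtain ⟨n1, n2, n3, n4, n5, n6, n7⟩ := mov_top hK h hN hr hrq hT hiso
  obtain ⟨s, s1, -⟩ := nd_dims hK h hr hrq hT hiso n3 n1 n5
  rw [← n6, s1, Nat.mul_add_mod, Nat.mod_eq_of_lt hlt]

/-- splitting of an invariant subspace -/
theorem inv_split (hK : Nat.card F = q ^ 2) (hr : r.Prime) (hrq : ¬ r ∣ q) {T : V →ₗ[F] V} (hT : T ^ r = 1) {W : Submodule F V} (hW : Inv T W) :
    finrank F (W ⊓ LinearMap.range (T - 1) : Submodule F V) + finrank F (W ⊓ LinearMap.ker (T - 1) : Submodule F V) = finrank F W := by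
  have hrF := not_dvd_card hK hr hrq
  have h2 : (W ⊓ LinearMap.range (T - 1)) ⊓ (W ⊓ LinearMap.ker (T - 1)) = ⊥ := by
    rw [eq_bot_iff]
    rintro x ⟨⟨-, h1⟩, -, h2⟩
    exact (Submodule.mem_bot F).2 ((Submodule.disjoint_def.1 (RElt.disjoint (natCast_ne_zero hr hrF) T hT)) x h1 h2)
  have h1 : (W ⊓ LinearMap.range (T - 1)) ⊔ (W ⊓ LinearMap.ker (T - 1)) = W := by
    apply le_antisymm (sup_le inf_le_left inf_le_left)
    intro x hx
    obtain ⟨a, ha, b, hb, rfl⟩ := fix_mov hr hrF hT hW x hx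
    exact Submodule.add_mem_sup ha hb
  have := Submodule.finrank_sup_add_finrank_inf_eq (W ⊓ LinearMap.range (T - 1)) (W ⊓ LinearMap.ker (T - 1))
  rw [h1, h2, finrank_bot, add_zero] at this
  exact this.symm

/-- sufficiency -/
theorem ti_suf (hK : Nat.card F = q ^ 2) (h : He (frob hK) B) (hN : ∀ u, (∀ v, B u v = 0) → u = 0) (hr : r.Prime) (hrq : ¬ r ∣ q) {T : V →ₗ[F] V}
    (hiso : ∀ u v, B (T u) (T v) = B u v) (hT : T ^ r = 1) {m : ℕ} (hm : 2 * m ≤ finrank F V)
    (h2 : 2 * (m % orderOf ((Fintype.card F : ℕ) : ZMod r)) ≤ finrank F V % orderOf (-((q : ℕ) : ZMod r)))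
    (h3 : Odd (orderOf (-((q : ℕ) : ZMod r))) → (r - 1) / orderOf ((Fintype.card F : ℕ) : ZMod r) + 2 * (m / orderOf ((Fintype.card F : ℕ) : ZMod r)) ≤
      finrank F V / orderOf ((Fintype.card F : ℕ) : ZMod r)) : ∃ W ∈ TIset B m, Inv T W := by
  obtain ⟨n1, n2, n3, n4, n5, n6, n7⟩ := mov_top hK h hN hr hrq hT hiso
  obtain ⟨s, o, s1, s2, s3, s4⟩ := ti_struct hK h hr hrq hT hiso n3 n1 n5
  obtain ⟨e1, e2⟩ := ord_bc hK hr hrq
  have hb := ord_b_pos hK hr hrq
  set b := orderOf ((Fintype.card F : ℕ) : ZMod r) with hbdef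
  set c := orderOf (-((q : ℕ) : ZMod r)) with hcdef
  set n := finrank F V with hn
  set d := finrank F (LinearMap.ker (T - 1)) with hd
  rw [s1] at n6
  have hmb := Nat.div_add_mod m b
  have hnb := Nat.div_add_mod n b
  have hmodb := Nat.mod_lt m hb
  -- the key inequality
  have key : 2 * (m - b * min s (m / b)) ≤ d := by
    rcases le_total (m / b) s with hle | hle
    · rw [min_eq_right hle]
      have h4 : m - b * (m / b) = m % b := by omega
      rw [h4]
      refine h2.trans ?_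
      rcases Nat.even_or_odd c with he | ho
      · have h5 := s3 he
        have h6 : n = c * s + d := by rw [← n6, h5, e2 he]; ring
        rw [h6, Nat.mul_add_mod]; exact Nat.mod_le _ _
      · have h6 : n = c * (2 * s + o) + d := by rw [← n6, e1 ho]
        rw [h6, Nat.mul_add_mod]; exact Nat.mod_le _ _
    · rw [min_eq_left hle]
      have h5 : b * s ≤ b * (m / b) := Nat.mul_le_mul_left b hle
      have h6 : b * (2 * s + o) = 2 * (b * s) + b * o := by ring
      rcases Nat.even_or_odd c with he | ho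
      · have h7 := s3 he
        have h8 : b * o = 0 := by rw [h7, mul_zero]
        omega
      · have h7 : o ≤ (r - 1) / b := (Nat.le_div_iff_mul_le hb).2 (by rw [mul_comm]; exact s2)
        have h8 := h3 ho
        have h9 : b * (o + 2 * (m / b)) ≤ b * (n / b) := Nat.mul_le_mul_left b (le_trans (Nat.add_le_add_right h7 _) h8)
        have h10 : b * (o + 2 * (m / b)) = b * o + 2 * (b * (m / b)) := by ring
        rw [← e1 ho] at h2
        omega
  obtain ⟨L, l1, l2, l3, l4⟩ := s4 (min s (m / b)) (min_le_left _ _)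
  obtain ⟨W, w1, w2, w3⟩ := exists_ti hK h n2 key
  have hdis : L ⊓ W = ⊥ := by
    rw [eq_bot_iff]
    rintro x ⟨hx, hx'⟩
    rw [Submodule.mem_bot]
    exact n5 x (l1 hx) (mem_ker_sub.1 (w1 hx'))
  refine ⟨L ⊔ W, ⟨?_, h.ti_sup l3 w2 fun y hy z hz => n7 y (l1 hy) z (w1 hz)⟩, inv_sup l2 fun v hv => ?_⟩
  · have := Submodule.finrank_sup_add_finrank_inf_eq L W
    rw [hdis, finrank_bot, add_zero, l4, w3] at this
    rw [this]
    have h5 : b * min s (m / b) ≤ b * (m / b) := Nat.mul_le_mul_left b (min_le_right _ _)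
    omega
  · have := mem_ker_sub.1 (w1 hv)
    rw [this]; exact hv

end full

end H99.Un
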