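import Mathlib
import Cfsg.Agent.Lib.H99.Un6

set_option autoImplicit false
set_option linter.unusedSimpArgs false
set_option linter.unusedSectionVars false
set_option linter.unusedVariables false
set_option maxHeartbeats 400000

/-! Hermitian forms: anisotropic isometries, necessity. -/

namespace H99.Un

open Module Submodule Polynomial H99.Iso H49.Unitary
open H99.Ti (Inv inv_sup compl_in inv_bot)

universe u

section an

variable {F : Type u} [Field F] [Fintype F] {q r : ℕ} {V : Type u} [AddCommGroup V] [Module F V] [FiniteDimensional F V] {B : V → V → F}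

/-- **anisotropic invariant subspaces** -/
theorem exists_aniso (hK : Nat.card F = q ^ 2) (h : He (frob hK) B) (hr : r.Prime) (hrq : ¬ r ∣ q) {T : V →ₗ[F] V} (hT : T ^ r = 1)
    (hiso : ∀ u v, B (T u) (T v) = B u v) {X : Submodule F V} (hX : Inv T X) (hXn : NDg B X) (hfix : ∀ v ∈ X, T v = v → v = 0)
    (hoc : Odd (orderOf (-((q : ℕ) : ZMod r))))
    (hall : ∀ g : F[X], Irreducible g → g ∣ cyclotomic r F → ∃ v ∈ X, v ≠ 0 ∧ aeval T g v = 0) :
    ∀ o : ℕ, orderOf ((Fintype.card F : ℕ) : ZMod r) * o ≤ r - 1 → ∃ P : F[X], P ∣ cyclotomic r F ∧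
      P.natDegree = orderOf ((Fintype.card F : ℕ) : ZMod r) * o ∧ ∃ Y ≤ X, Inv T Y ∧ NDg B Y ∧ (∀ y ∈ Y, aeval T P y = 0) ∧
      finrank F Y = orderOf ((Fintype.card F : ℕ) : ZMod r) * o ∧ ∀ Z ≤ Y, Inv T Z → TIg B Z → Z = ⊥ := by
  have hrF := not_dvd_card hK hr hrq
  have hi0 := ord_b_pos hK hr hrq
  have hsq := squarefree_cyclotomic (F := F) hr hrF
  have hΦ0 : cyclotomic r F ≠ 0 := cyclotomic_ne_zero r F
  have hTN := pow_N hr hoc (pow_orderOf_eq_one _) hT
  have hN0 : q ^ orderOf (-((q : ℕ) : ZMod r)) ≠ 0 := by have := two_le hK; positivity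
  have hadj := adjq hK h hoc hTN hiso
  set i := orderOf ((Fintype.card F : ℕ) : ZMod r) with hi
  intro o
  induction o with
  | zero =>
    intro _
    refine ⟨1, one_dvd _, by rw [natDegree_one, mul_zero], ⊥, bot_le, inv_bot T, fun x hx _ => (Submodule.mem_bot F).1 hx, ?_, by rw [finrank_bot, mul_zero], ?_⟩
    · intro y hy; rw [(Submodule.mem_bot F).1 hy, _root_.map_zero]
    · intro Z hZ _ _; exact le_bot_iff.1 hZ
  | succ o ih =>
    intro ho
    have ho' : i * o ≤ r - 1 := le_trans (Nat.mul_le_mul_left i (Nat.le_succ o)) ho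
    obtain ⟨P, ⟨P', hP'⟩, p2, Y, y1, y2, y3, y4, y5, y6⟩ := ih ho'
    have hP0 : P ≠ 0 := by rintro rfl; rw [zero_mul] at hP'; exact hΦ0 hP'
    have hP'0 : P' ≠ 0 := by rintro rfl; rw [mul_zero] at hP'; exact hΦ0 hP'
    have hdeg : P'.natDegree = r - 1 - i * o := by
      have h1 := Ti.natDegree_cyc (F := F) hr
      rw [hP', natDegree_mul hP0 hP'0, p2] at h1
      omega
    have hnu : ¬ IsUnit P' := by
      intro hu
      have := natDegree_eq_zero_of_isUnit hu
      rw [mul_add, mul_one] at ho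
      omega
    obtain ⟨g, hg, g'', hg''⟩ := WfDvdMonoid.exists_irreducible_factor hnu hP'0
    have hgd : g ∣ cyclotomic r F := ⟨P * g'', by rw [hP', hg'']; ring⟩
    have hcop : IsCoprime g P := by
      rw [hg.coprime_iff_not_dvd]
      rintro ⟨c, rfl⟩
      exact hg.not_isUnit (hsq g ⟨c * g'', by rw [hP', hg'']; ring⟩)
    have hdg := natDegree_irr hr hrF hg hgd
    obtain ⟨x2, x3⟩ := comp_nd h hN0 hadj hX hXn hsq (fun v hv => cyclotomic_kills hr hT hX hfix v hv) hg hgd
    have hne : (X ⊓ LinearMap.ker (aeval T g) : Submodule F V) ≠ ⊥ := by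
      obtain ⟨v, hv, hv0, hgv⟩ := hall g hg hgd
      intro h
      have : v ∈ (X ⊓ LinearMap.ker (aeval T g) : Submodule F V) := ⟨hv, hgv⟩
      rw [h] at this
      exact hv0 ((Submodule.mem_bot F).1 this)
    obtain ⟨Z, z1, z2, z3, z4, z5⟩ := exists_block_g (frob_ne hK) h hr.pos hT hiso hX hg x2 hne
    rw [hdg, ← hi] at z4
    obtain ⟨a, b, hab⟩ := hcop
    have hsplit : ∀ z : V, z = aeval T a (aeval T g z) + aeval T b (aeval T P z) := by
      intro z
      rw [← Module.End.mul_apply, ← Module.End.mul_apply, ← _root_.map_mul, ← _root_.map_mul, ← LinearMap.add_apply, ← _root_.map_add, hab,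
        _root_.map_one, Module.End.one_apply]
    have hort : ∀ y ∈ Y, ∀ z ∈ Z, B y z = 0 := by
      intro y hy z hz
      have h1 : y = aeval T g (aeval T a y) := by
        conv_lhs => rw [hsplit y, y4 y hy, _root_.map_zero, add_zero, ← Module.End.mul_apply, ← _root_.map_mul, mul_comm, _root_.map_mul, Module.End.mul_apply]
      rw [h1]
      exact x3 _ _ (z1 hz).2
    obtain ⟨s1, s2⟩ := h.nd_sup y3 z3 hort
    have hcomm : ∀ (p q : F[X]) (v : V), aeval T p (aeval T q v) = aeval T q (aeval T p v) := by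
      intro p q v
      rw [← Module.End.mul_apply, ← Module.End.mul_apply, ← _root_.map_mul, ← _root_.map_mul, mul_comm]
    refine ⟨P * g, ⟨g'', by rw [hP', hg'']; ring⟩, by rw [natDegree_mul hP0 hg.ne_zero, p2, hdg, mul_add, mul_one], Y ⊔ Z,
      sup_le y1 (z1.trans inf_le_left), inv_sup y2 z2, s1, ?_, by rw [s2, y5, z4, mul_add, mul_one], ?_⟩
    · intro v hv
      obtain ⟨y, hy, z, hz, rfl⟩ := Submodule.mem_sup.1 hv
      have hz' : aeval T g z = 0 := (z1 hz).2
      rw [_root_.map_mul, Module.End.mul_apply, _root_.map_add, hz', add_zero, hcomm, y4 y hy, _root_.map_zero]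
    · intro W hW hWi hWt
      have hWZ : W ⊓ Z = ⊥ := by
        by_contra hne
        have h1 := z5 (W ⊓ Z) inf_le_right (fun v hv => ⟨hWi v hv.1, z2 v hv.2⟩) hne
        have h2 : Z ≤ W := fun v hv => by rw [← h1] at hv; exact hv.1
        have h3 : Z = ⊥ := by
          rw [eq_bot_iff]
          intro v hv
          exact z3 v hv fun y hy => hWt v (h2 hv) y (h2 hy)
        rw [h3, finrank_bot] at z4
        omega
      have hWY : W ⊓ Y = ⊥ := y6 (W ⊓ Y) inf_le_right (fun v hv => ⟨hWi v hv.1, y2 v hv.2⟩) (fun u hu v hv => hWt u hu.1 v hv.1)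
      rw [eq_bot_iff]
      intro w hw
      obtain ⟨y, hy, z, hz, rfl⟩ := Submodule.mem_sup.1 (hW hw)
      have hz' : aeval T g z = 0 := (z1 hz).2
      have h1 : aeval T g (y + z) = 0 := by
        have : aeval T g (y + z) ∈ W ⊓ Y := by
          refine ⟨aeval_mem T W hWi g _ hw, ?_⟩
          rw [_root_.map_add, hz', add_zero]
          exact aeval_mem T Y y2 g y hy
        rw [hWY] at this
        exact (Submodule.mem_bot F).1 this
      have h2 : aeval T P (y + z) = 0 := by
        have : aeval T P (y + z) ∈ W ⊓ Z := by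
          refine ⟨aeval_mem T W hWi P _ hw, ?_⟩
          rw [_root_.map_add, y4 y hy, zero_add]
          exact aeval_mem T Z z2 P z hz
        rw [hWZ] at this
        exact (Submodule.mem_bot F).1 this
      rw [Submodule.mem_bot, hsplit (y + z), h1, h2, _root_.map_zero, _root_.map_zero, add_zero]

end an

section reg

variable {F : Type u} [Field F] [Fintype F] {q r : ℕ} [Fact r.Prime]

/-- the standard form on the regular module -/
def regB (F : Type u) [Field F] (q r : ℕ) [Fact r.Prime] (u v : ZMod r → F) : F := ∑ i, u i * (v i) ^ q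

/-- the cyclic shift -/
def regT (F : Type u) [Field F] (r : ℕ) : (ZMod r → F) →ₗ[F] (ZMod r → F) where
  toFun v := fun i => v (i + 1)
  map_add' u v := rfl
  map_smul' c v := rfl

theorem regB_he (hK : Nat.card F = q ^ 2) : He (frob hK) (regB F q r) := by
  refine ⟨fun u v w => ?_, fun c u w => ?_, fun u v => ?_⟩
  · simp only [regB, Pi.add_apply, add_mul, Finset.sum_add_distrib]
  · simp only [regB, Pi.smul_apply, smul_eq_mul, mul_assoc, Finset.mul_sum]
  · rw [regB, regB, _root_.map_sum]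
    refine Finset.sum_congr rfl fun i _ => ?_
    rw [_root_.map_mul, ← frob_apply hK, ← frob_apply hK, frob_frob, mul_comm]

theorem regB_nd (hK : Nat.card F = q ^ 2) (u : ZMod r → F) (hu : ∀ v, regB F q r u v = 0) : u = 0 := by
  funext i
  have h := hu (Pi.single i 1)
  rw [regB, Finset.sum_eq_single i] at h
  · rwa [Pi.single_eq_same, one_pow, mul_one] at h
  · intro j _ hj
    have h0 : (0 : F) ^ q = 0 := by rw [← frob_apply hK, _root_.map_zero]
    rw [Pi.single_eq_of_ne hj, h0, mul_zero]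
  · intro hi; exact absurd (Finset.mem_univ i) hi

theorem regT_iso (u v : ZMod r → F) : regB F q r (regT F r u) (regT F r v) = regB F q r u v :=
  Equiv.sum_comp (Equiv.addRight (1 : ZMod r)) (fun i => u i * (v i) ^ q)

theorem regT_pow (k : ℕ) (v : ZMod r → F) (i : ZMod r) : ((regT F r) ^ k) v i = v (i + (k : ZMod r)) := by
  induction k generalizing i with
  | zero => rw [Nat.cast_zero, add_zero]; rfl
  | succ k ih =>
    rw [pow_succ', Module.End.mul_apply]
    show ((regT F r) ^ k) v (i + 1) = _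
    rw [ih, Nat.cast_succ]
    congr 1; ring

theorem regT_one : (regT F r) ^ r = 1 := by
  apply LinearMap.ext
  intro v
  funext i
  rw [regT_pow, CharP.cast_eq_zero, add_zero]; rfl

theorem regT_ne {p : F[X]} (hp : p ≠ 0) (hd : p.natDegree < r) : aeval (regT F r) p (Pi.single 0 1) ≠ 0 := by
  intro h0
  apply hp
  ext j
  rw [coeff_zero]
  by_cases hj : p.natDegree < j
  · exact coeff_eq_zero_of_natDegree_lt hj
  push Not at hj
  have h1 := congrFun h0 (-(j : ZMod r))
  rw [aeval_eq_sum_range, LinearMap.sum_apply, Finset.sum_apply, Finset.sum_eq_single j] at h1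
  · rw [LinearMap.smul_apply, Pi.smul_apply, regT_pow, neg_add_cancel, Pi.single_eq_same, smul_eq_mul, mul_one] at h1
    exact h1
  · intro k hk hkj
    rw [Finset.mem_range] at hk
    rw [LinearMap.smul_apply, Pi.smul_apply, regT_pow, Pi.single_eq_of_ne, smul_zero]
    intro h2
    apply hkj
    have h3 : ((k : ℕ) : ZMod r) = (j : ZMod r) := by linear_combination h2
    have h4 := (ZMod.natCast_eq_natCast_iff' k j r).1 h3
    rwa [Nat.mod_eq_of_lt (by omega), Nat.mod_eq_of_lt (by omega)] at h4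
  · intro h
    rw [Finset.mem_range] at h
    omega

theorem regT_all (hr : r.Prime) {g : F[X]} (hg : Irreducible g) (hgd : g ∣ cyclotomic r F) :
    ∃ v ∈ LinearMap.range (regT F r - 1), v ≠ 0 ∧ aeval (regT F r) g v = 0 := by
  obtain ⟨g', hg'⟩ := hgd
  have hg'0 : g' ≠ 0 := by
    rintro rfl
    rw [mul_zero] at hg'
    exact cyclotomic_ne_zero r F hg'
  have hdeg : g.natDegree + g'.natDegree = r - 1 := by
    rw [← natDegree_mul hg.ne_zero hg'0, ← hg', natDegree_cyclotomic, Nat.totient_prime hr]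
  have hgp := hg.natDegree_pos
  have hX1 : (Polynomial.X - 1 : F[X]) ≠ 0 := X_sub_C_ne_zero (1 : F)
  have hX1d : (Polynomial.X - 1 : F[X]).natDegree = 1 := natDegree_X_sub_C (1 : F)
  refine ⟨aeval (regT F r) ((Polynomial.X - 1) * g') (Pi.single 0 1), ?_, regT_ne (mul_ne_zero hX1 hg'0) ?_, ?_⟩
  · rw [_root_.map_mul, Module.End.mul_apply, _root_.map_sub, aeval_X, _root_.map_one]
    exact ⟨_, rfl⟩
  · rw [natDegree_mul hX1 hg'0, hX1d]; omega
  · rw [← Module.End.mul_apply, ← _root_.map_mul, show g * ((Polynomial.X - 1) * g') = (g * g') * (Polynomial.X - 1) by ring, ← hg',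
      cyclotomic_prime_mul_X_sub_one, _root_.map_sub, _root_.map_pow, aeval_X, _root_.map_one, regT_one, sub_self]; rfl

end reg

section elt

variable {F : Type u} [Field F] [Fintype F] {q r : ℕ} {V : Type u} [AddCommGroup V] [Module F V] [FiniteDimensional F V] {B : V → V → F}

theorem exists_an_elt (hK : Nat.card F = q ^ 2) (h : He (frob hK) B) (hN : ∀ u, (∀ v, B u v = 0) → u = 0) (hr : r.Prime) (hrq : ¬ r ∣ q)
    (hoc : Odd (orderOf (-((q : ℕ) : ZMod r)))) {o : ℕ} (h1 : orderOf ((Fintype.card F : ℕ) : ZMod r) * o ≤ r - 1)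
    (h2 : orderOf ((Fintype.card F : ℕ) : ZMod r) * o ≤ finrank F V) :
    ∃ T : V →ₗ[F] V, (∀ u v, B (T u) (T v) = B u v) ∧ T ^ r = 1 ∧
      finrank F (LinearMap.ker (T - 1)) + orderOf ((Fintype.card F : ℕ) : ZMod r) * o = finrank F V ∧
      ∀ W, Inv T W → TIg B W → W ≤ LinearMap.ker (T - 1) := by
  have : Fact r.Prime := ⟨hr⟩
  have hrF := not_dvd_card hK hr hrq
  have h₀ := regB_he (r := r) hK
  obtain ⟨n1, -, n3, -, n5, -, -⟩ := mov_top hK h₀ (regB_nd hK) hr hrq regT_one regT_iso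
  obtain ⟨P, -, -, Y, y1, y2, y3, -, y5, y6⟩ := exists_aniso hK h₀ hr hrq regT_one regT_iso n3 n1 n5 hoc (fun g hg hgd => regT_all hr hg hgd) o h1
  obtain ⟨X, -, x1, x2⟩ := exists_nd hK h (X := ⊤) (fun x _ hh => hN x fun y => hh y trivial) (t := orderOf ((Fintype.card F : ℕ) : ZMod r) * o)
    (by rw [finrank_top]; exact h2)
  obtain ⟨e1, he1⟩ := exists_std hK (rB_he h₀ Y) (rB_nd y3) y5
  obtain ⟨e2, he2⟩ := exists_std hK (rB_he h X) (rB_nd x1) x2
  let e : Y ≃ₗ[F] X := e1.trans e2.symm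
  have he : ∀ u v : Y, B (e u : V) (e v : V) = regB F q r (u : ZMod r → F) (v : ZMod r → F) := by
    intro u v
    have e3 : rB B X (e u) (e v) = rB (regB F q r) Y u v := by
      rw [← he2, ← he1]
      show Cfsg.hermForm _ F q (e2 (e2.symm (e1 u))) (e2 (e2.symm (e1 v))) = _
      rw [LinearEquiv.apply_symm_apply, LinearEquiv.apply_symm_apply]
    exact e3
  let S : Y →ₗ[F] Y := (regT F r).restrict y2
  have hS : S ^ r = 1 := by
    have hp : ∀ (k : ℕ) (v : Y), ((S ^ k) v : ZMod r → F) = ((regT F r) ^ k) v := by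
      intro k
      induction k with
      | zero => intro v; rfl
      | succ k ih => intro v; rw [pow_succ', pow_succ', Module.End.mul_apply, Module.End.mul_apply, ← ih]; rfl
    apply LinearMap.ext
    intro v
    apply Subtype.ext
    rw [hp, regT_one]; rfl
  let f : X →ₗ[F] X := e.toLinearMap ∘ₗ S ∘ₗ e.symm.toLinearMap
  have hf : ∀ y : Y, f (e y) = e (S y) := by
    intro y
    show e (S (e.symm (e y))) = _
    rw [LinearEquiv.symm_apply_apply]
  have hfk : ∀ (k : ℕ) (y : Y), (f ^ k) (e y) = e ((S ^ k) y) := by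
    intro k
    induction k with
    | zero => intro y; rfl
    | succ k ih => intro y; rw [pow_succ', pow_succ', Module.End.mul_apply, Module.End.mul_apply, ih, hf]
  have hfr : f ^ r = 1 := by
    apply LinearMap.ext
    intro x
    obtain ⟨y, rfl⟩ := e.surjective x
    rw [hfk, hS]; rfl
  have hfiso : ∀ u v : X, B (f u) (f v) = B u v := by
    intro u v
    obtain ⟨y, rfl⟩ := e.surjective u
    obtain ⟨y', rfl⟩ := e.surjective v
    rw [hf, hf, he, he]
    exact regT_iso _ _
  have hc := h.isCompl x1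
  have hTr : (glue hc f 1) ^ r = 1 := by rw [glue_pow, hfr, one_pow, glue_one]
  have hker : LinearMap.ker (glue hc f 1 - 1) = h.orth X := by
    ext v
    rw [mem_ker_sub]
    constructor
    · intro hv
      obtain ⟨x, y, g1, g2, g3⟩ := glue_fix hc _ _ v hv
      obtain ⟨z, rfl⟩ := e.surjective x
      rw [hf] at g2
      have g4 : S z = z := e.injective g2
      have g5 : (z : ZMod r → F) = 0 := n5 z (y1 z.2) (congrArg Subtype.val g4)
      have g6 : z = 0 := Subtype.ext g5
      rw [g1, g6, _root_.map_zero]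
      simp
    · intro hv
      exact glue_right hc f 1 ⟨v, hv⟩
  refine ⟨glue hc f 1, glue_iso hc f 1 h (fun x hx y hy => h.symm0 (hy x hx)) hfiso (fun _ _ => rfl), hTr, ?_, ?_⟩
  · rw [hker, ← x2, add_comm]
    exact Submodule.finrank_add_eq_of_isCompl hc
  · intro W hW hWt
    have hrange : LinearMap.range (glue hc f 1 - 1) ≤ X := by
      rintro _ ⟨v, rfl⟩
      obtain ⟨x, y, rfl⟩ := glue_decomp hc v
      rw [LinearMap.sub_apply, glue_add]
      have : ((f x : V) + (((1 : h.orth X →ₗ[F] h.orth X) y : h.orth X) : V)) - (1 : V →ₗ[F] V) ((x : V) + (y : V)) = (f x : V) - x := by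
        show ((f x : V) + (y : V)) - ((x : V) + (y : V)) = _
        abel
      rw [this]
      exact X.sub_mem (f x).2 x.2
    let Z' : Submodule F (ZMod r → F) := (Submodule.comap (X.subtype ∘ₗ e.toLinearMap) W).map Y.subtype
    have hZ' : Z' = ⊥ := by
      apply y6 Z'
      · rintro _ ⟨y, -, rfl⟩
        exact y.2
      · rintro _ ⟨y, hy, rfl⟩
        refine ⟨S y, ?_, rfl⟩
        have hy' : (e y : V) ∈ W := hy
        show (e (S y) : V) ∈ W
        rw [← hf, ← glue_left hc f 1]
        exact hW _ hy'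
      · rintro _ ⟨y, hy, rfl⟩ _ ⟨y', hy', rfl⟩
        show regB F q r (y : ZMod r → F) (y' : ZMod r → F) = 0
        rw [← he]
        exact hWt _ hy _ hy'
    intro v hv
    obtain ⟨a, ha, b, hb, rfl⟩ := fix_mov hr hrF hTr hW v hv
    have ha0 : a = 0 := by
      obtain ⟨z, hz⟩ := e.surjective ⟨a, hrange ha.2⟩
      have hz' : (e z : V) = a := congrArg Subtype.val hz
      have : (z : ZMod r → F) ∈ Z' := ⟨z, by show (e z : V) ∈ W; rw [hz']; exact ha.1, rfl⟩
      rw [hZ', Submodule.mem_bot] at this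
      rw [← hz', show z = 0 from Subtype.ext this, _root_.map_zero]; rfl
    rw [ha0, zero_add]
    exact hb.2

/-- **necessity** -/
theorem ti_nec (hK : Nat.card F = q ^ 2) (h : He (frob hK) B) (hN : ∀ u, (∀ v, B u v = 0) → u = 0) (hr : r.Prime) (hrq : ¬ r ∣ q)
    {m : ℕ} (hm : 1 ≤ m) (hmn : 2 * m ≤ finrank F V) (hΩ : r ∣ Nat.card (TIset B m))
    (H : ∀ T : V →ₗ[F] V, (∀ u v, B (T u) (T v) = B u v) → T ^ r = 1 → T ≠ 1 → ∃ W ∈ TIset B m, Inv T W) :
    orderOf ((Fintype.card F : ℕ) : ZMod r) ≤ m ∧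
    2 * (m % orderOf ((Fintype.card F : ℕ) : ZMod r)) ≤ finrank F V % orderOf (-((q : ℕ) : ZMod r)) ∧
    (Odd (orderOf (-((q : ℕ) : ZMod r))) → (r - 1) / orderOf ((Fintype.card F : ℕ) : ZMod r) + 2 * (m / orderOf ((Fintype.card F : ℕ) : ZMod r)) ≤
      finrank F V / orderOf ((Fintype.card F : ℕ) : ZMod r)) := by
  have hrF := not_dvd_card hK hr hrq
  have hcn := c_le_of_ti hK h hN hr hrq hmn hΩ
  obtain ⟨e1, e2⟩ := ord_bc hK hr hrq
  have hb := ord_b_pos hK hr hrq
  obtain ⟨T, t1, t2, t3⟩ := exists_full hK h hN hr hrq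
  have hT1 : T ≠ 1 := by
    rintro rfl
    rw [sub_self, LinearMap.ker_zero, finrank_top] at t3
    omega
  have hdim := full_dim hK h hN hr hrq t1 t2 t3
  obtain ⟨n1, n2, n3, n4, n5, n6, n7⟩ := mov_top hK h hN hr hrq t2 t1
  obtain ⟨W, w1, w2⟩ := H T t1 t2 hT1
  have hpart : ∀ W ∈ TIset B m, Inv T W → ∃ s, finrank F (W ⊓ LinearMap.range (T - 1) : Submodule F V) = orderOf ((Fintype.card F : ℕ) : ZMod r) * s := by
    intro W hW hWi
    obtain ⟨s, s1, -⟩ := Ti.dims hr hrF t2 _ (W ⊓ LinearMap.range (T - 1)) rfl (fun v hv => ⟨hWi v hv.1, n3 v hv.2⟩) (fun v hv => n5 v hv.2)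
    exact ⟨s, s1⟩
  have hbm : orderOf ((Fintype.card F : ℕ) : ZMod r) ≤ m := by
    by_contra hlt
    push Not at hlt
    refine ti_count hK h hN hr hrq t1 t2 ?_ t3 ⟨W, w1, w2⟩ hΩ
    intro W hW hWi
    obtain ⟨s, s1⟩ := hpart W hW hWi
    have h3 := inv_split hK hr hrq t2 hWi
    have hs : s = 0 := by
      by_contra hs
      have : orderOf ((Fintype.card F : ℕ) : ZMod r) ≤ orderOf ((Fintype.card F : ℕ) : ZMod r) * s := Nat.le_mul_of_pos_right _ (by omega)
      rw [hW.1] at h3
      omega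
    rw [s1, hs, mul_zero, zero_add] at h3
    have h4 : W ⊓ LinearMap.ker (T - 1) = W := Submodule.eq_of_le_of_finrank_eq inf_le_left h3
    exact inf_eq_left.1 h4
  refine ⟨hbm, ?_, ?_⟩
  · obtain ⟨s, s1⟩ := hpart W w1 w2
    have h3 := inv_split hK hr hrq t2 w2
    have h4 := h.ti_le n2 (W := W ⊓ LinearMap.ker (T - 1)) (fun u hu v hv => w1.2 u hu.1 v hv.1) inf_le_right
    rw [s1, w1.1] at h3
    rw [← hdim]
    refine le_trans ?_ h4
    apply Nat.mul_le_mul_left
    rw [← h3, Nat.mul_add_mod]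
    exact Nat.mod_le _ _
  · intro ho
    by_contra hlt
    push Not at hlt
    obtain ⟨o, ho'⟩ : ∃ o, o = min ((r - 1) / orderOf ((Fintype.card F : ℕ) : ZMod r)) (finrank F V / orderOf ((Fintype.card F : ℕ) : ZMod r)) := ⟨_, rfl⟩
    have hbr : orderOf ((Fintype.card F : ℕ) : ZMod r) ≤ r - 1 := by
      have : Fact r.Prime := ⟨hr⟩
      have h0 : ((Fintype.card F : ℕ) : ZMod r) ≠ 0 := by
        intro h; exact hrF ((ZMod.natCast_eq_zero_iff _ _).1 h)
      exact orderOf_le_of_pow_eq_one (by have := hr.two_le; omega) (ZMod.pow_card_sub_one_eq_one h0)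
    have ho1 : 1 ≤ o := by
      rw [ho', le_min_iff]
      exact ⟨(Nat.le_div_iff_mul_le hb).2 (by omega), (Nat.le_div_iff_mul_le hb).2 (by omega)⟩
    have hle1 : orderOf ((Fintype.card F : ℕ) : ZMod r) * o ≤ r - 1 := by
      have : o ≤ (r - 1) / orderOf ((Fintype.card F : ℕ) : ZMod r) := by rw [ho']; exact min_le_left _ _
      have := (Nat.le_div_iff_mul_le hb).1 this
      rwa [mul_comm] at this
    have hle2 : orderOf ((Fintype.card F : ℕ) : ZMod r) * o ≤ finrank F V := by
      have : o ≤ finrank F V / orderOf ((Fintype.card F : ℕ) : ZMod r) := by rw [ho']; exact min_le_right _ _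
      have := (Nat.le_div_iff_mul_le hb).1 this
      rwa [mul_comm] at this
    obtain ⟨S, S1, S2, S3, S4⟩ := exists_an_elt hK h hN hr hrq ho hle1 hle2
    have hS1 : S ≠ 1 := by
      rintro rfl
      rw [sub_self, LinearMap.ker_zero, finrank_top] at S3
      have : 0 < orderOf ((Fintype.card F : ℕ) : ZMod r) * o := Nat.mul_pos hb ho1
      omega
    obtain ⟨U, u1, u2⟩ := H S S1 S2 hS1
    have hUk := S4 U u2 u1.2
    obtain ⟨-, k2, -⟩ := mov_top hK h hN hr hrq S2 S1
    have h5 := h.ti_le k2 u1.2 hUk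
    rw [u1.1] at h5
    rcases le_total ((r - 1) / orderOf ((Fintype.card F : ℕ) : ZMod r)) (finrank F V / orderOf ((Fintype.card F : ℕ) : ZMod r)) with hle | hle
    · rw [min_eq_left hle] at ho'
      rw [← ho'] at hlt
      have h6 : finrank F V < orderOf ((Fintype.card F : ℕ) : ZMod r) * (o + 2 * (m / orderOf ((Fintype.card F : ℕ) : ZMod r))) := by
        have := (Nat.div_lt_iff_lt_mul hb).1 hlt
        rwa [mul_comm] at this
      have h7 : orderOf ((Fintype.card F : ℕ) : ZMod r) * (m / orderOf ((Fintype.card F : ℕ) : ZMod r)) ≤ m := Nat.mul_div_le _ _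
      rw [mul_add, show orderOf ((Fintype.card F : ℕ) : ZMod r) * (2 * (m / orderOf ((Fintype.card F : ℕ) : ZMod r))) =
        2 * (orderOf ((Fintype.card F : ℕ) : ZMod r) * (m / orderOf ((Fintype.card F : ℕ) : ZMod r))) by ring] at h6
      omega
    · rw [min_eq_right hle] at ho'
      have h6 := Nat.div_add_mod (finrank F V) (orderOf ((Fintype.card F : ℕ) : ZMod r))
      have h7 := Nat.mod_lt (finrank F V) hb
      rw [← ho'] at h6
      omega

end elt

end H99.Un
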