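import Mathlib
import Cfsg.Agent.Lib.H99.Un7
import Cfsg.Agent.Lib.H49.RootGroup
import Cfsg.Prelude.Def_Classical

set_option autoImplicit false
set_option linter.unusedSimpArgs false
set_option linter.unusedSectionVars false
set_option linter.unusedVariables false
set_option maxHeartbeats 400000

/-! Special unitary groups: reduction modulo scalars. -/

namespace H99.Un

open Module Submodule Polynomial H99.Iso H49.Unitary
open H99.Ti (Inv inv_sup compl_in inv_bot)

universe u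

section ord

theorem ord_c {q r : ℕ} (hr : r.Prime) (hr2 : r ≠ 2) (hrq : ¬ r ∣ q) :
    orderOf (-((q : ℕ) : ZMod r)) = if orderOf ((q : ℕ) : ZMod r) % 4 = 0 then orderOf ((q : ℕ) : ZMod r) else
      if orderOf ((q : ℕ) : ZMod r) % 4 = 2 then orderOf ((q : ℕ) : ZMod r) / 2 else 2 * orderOf ((q : ℕ) : ZMod r) := by
  have : Fact r.Prime := ⟨hr⟩
  have h0 : ((q : ℕ) : ZMod r) ≠ 0 := fun h => hrq ((ZMod.natCast_eq_zero_iff _ _).1 h)
  have h1 := H49.RootGroup.orderOf_neg (r := r) (by omega) (Units.mk0 _ h0)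
  have h2 : orderOf (-(Units.mk0 ((q : ℕ) : ZMod r) h0)) = orderOf (-((q : ℕ) : ZMod r)) := by
    rw [← orderOf_units]; rfl
  have h3 : orderOf (Units.mk0 ((q : ℕ) : ZMod r) h0) = orderOf ((q : ℕ) : ZMod r) := by
    rw [← orderOf_units]; rfl
  rw [h2, h3] at h1
  rw [h1]
  split_ifs with a1 a2 a3 a4 a5 a6 <;> first | rfl | (exfalso; rw [Nat.odd_iff] at *; omega)

theorem ord_b {F : Type*} [Field F] [Fintype F] {q r : ℕ} (hK : Nat.card F = q ^ 2) (hr : r.Prime) (hrq : ¬ r ∣ q) :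
    orderOf ((Fintype.card F : ℕ) : ZMod r) = if Even (orderOf ((q : ℕ) : ZMod r)) then orderOf ((q : ℕ) : ZMod r) / 2 else orderOf ((q : ℕ) : ZMod r) := by
  have h1 : ((Fintype.card F : ℕ) : ZMod r) = ((q : ℕ) : ZMod r) ^ 2 := by
    rw [← Nat.card_eq_fintype_card, hK]
    push_cast; ring
  rw [h1, orderOf_pow' _ (n := 2) two_ne_zero]
  split_ifs with he
  · rw [Nat.gcd_eq_right (even_iff_two_dvd.1 he)]
  · have : Nat.gcd (orderOf ((q : ℕ) : ZMod r)) 2 = 1 := by
      rw [← Nat.coprime_iff_gcd_eq_one, Nat.coprime_comm]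
      exact (Nat.coprime_two_left).2 (Nat.not_even_iff_odd.1 he)
    rw [this, Nat.div_one]

end ord

section su

variable {F : Type u} [Field F] [Fintype F] {n q : ℕ}

theorem std_he (hK : Nat.card F = q ^ 2) (n : ℕ) : He (frob hK) (Cfsg.hermForm n F q) :=
  ⟨(HermPair.ses_std hK n).add_left, (HermPair.ses_std hK n).smul_left, fun u v => HermPair.swap_std hK u v⟩

theorem std_nd (hK : Nat.card F = q ^ 2) (n : ℕ) (u : Fin n → F) (hu : ∀ v, Cfsg.hermForm n F q u v = 0) : u = 0 :=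
  (HermPair.ses_std hK n).nd u hu

theorem std_top (hK : Nat.card F = q ^ 2) (n : ℕ) : NDg (Cfsg.hermForm n F q) ⊤ := fun x _ hh => std_nd hK n x fun y => hh y trivial

theorem mem_SU {x : Matrix.SpecialLinearGroup (Fin n) F} : x ∈ Cfsg.SU n F q ↔
    ∀ u v, Cfsg.hermForm n F q (Matrix.toLin' (x : Matrix (Fin n) (Fin n) F) u) (Matrix.toLin' (x : Matrix (Fin n) (Fin n) F) v) = Cfsg.hermForm n F q u v := Iff.rfl

theorem det_iso (hK : Nat.card F = q ^ 2) {M : Matrix (Fin n) (Fin n) F}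
    (h : ∀ u v, Cfsg.hermForm n F q (Matrix.toLin' M u) (Matrix.toLin' M v) = Cfsg.hermForm n F q u v) : M.det ^ (q + 1) = 1 := by
  have h1 := (Herm.sim_iff hK (HermPair.ses_std hK n) M 1).1 (fun u v => by rw [one_mul]; exact h u v)
  rw [gram_std hK, one_smul, Matrix.mul_one] at h1
  have h2 : (ct hK M).det = M.det ^ q := by
    rw [ct, Matrix.det_transpose]
    have := (frob hK).map_det M
    rw [frob_apply] at this
    rw [this]; rfl
  have h3 := congrArg Matrix.det h1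
  rw [Matrix.det_mul, Matrix.det_one, h2] at h3
  rw [pow_succ, h3]

theorem inv_map {M : Matrix (Fin n) (Fin n) F} {W : Submodule F (Fin n → F)} : W.map (Matrix.toLin' M) ≤ W ↔ Inv (Matrix.toLin' M) W := by
  constructor
  · intro h v hv; exact h ⟨v, hv, rfl⟩
  · rintro h _ ⟨v, hv, rfl⟩; exact h v hv

theorem smul_mat {M : Matrix (Fin n) (Fin n) F} {z : F} (h : M = z • (1 : Matrix (Fin n) (Fin n) F)) (v : Fin n → F) :
    Matrix.toLin' M v = z • v := by
  rw [h, _root_.map_smul, Matrix.toLin'_one]; rfl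

theorem mat_smul {M : Matrix (Fin n) (Fin n) F} {z : F} (h : ∀ v, Matrix.toLin' M v = z • v) : M = z • (1 : Matrix (Fin n) (Fin n) F) := by
  apply Matrix.toLin'.injective
  rw [_root_.map_smul, Matrix.toLin'_one]
  apply LinearMap.ext
  intro v
  exact h v

/-- scalar isometries -/
theorem sc_norm (hK : Nat.card F = q ^ 2) (hn : 0 < n) {f : (Fin n → F) →ₗ[F] (Fin n → F)}
    (hf : ∀ u v, Cfsg.hermForm n F q (f u) (f v) = Cfsg.hermForm n F q u v) {z : F} (hz : ∀ v, f v = z • v) : z ^ (q + 1) = 1 := by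
  have : Nonempty (Fin n) := ⟨⟨0, hn⟩⟩
  obtain ⟨v, hv⟩ := exists_ne (0 : Fin n → F)
  obtain ⟨w, hw⟩ : ∃ w, Cfsg.hermForm n F q v w ≠ 0 := by
    by_contra hcon
    push Not at hcon
    exact hv (std_nd hK n v hcon)
  have h1 := hf v w
  rw [hz, hz, (std_he hK n).smul_left, (std_he hK n).smul_right, frob_apply] at h1
  apply mul_right_cancel₀ hw
  rw [one_mul, pow_succ]
  linear_combination h1

theorem isom_pow {V : Type*} [AddCommGroup V] [Module F V] {B : V → V → F} {f : V →ₗ[F] V}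
    (hf : ∀ u v, B (f u) (f v) = B u v) (k : ℕ) (u v : V) : B ((f ^ k) u) ((f ^ k) v) = B u v := by
  induction k with
  | zero => rfl
  | succ k ih => rw [pow_succ', Module.End.mul_apply, Module.End.mul_apply, hf, ih]

theorem toLin_pow' (x : Matrix.SpecialLinearGroup (Fin n) F) (k : ℕ) :
    (Matrix.toLin' (x : Matrix (Fin n) (Fin n) F)) ^ k = Matrix.toLin' (((x ^ k : Matrix.SpecialLinearGroup (Fin n) F) : Matrix (Fin n) (Fin n) F)) := by
  rw [Matrix.SpecialLinearGroup.coe_pow, Matrix.toLin'_pow]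

/-- data of an element of order `r` modulo scalars -/
theorem su_data (hK : Nat.card F = q ^ 2) (hn : 0 < n) {x : Matrix.SpecialLinearGroup (Fin n) F} (hx : x ∈ Cfsg.SU n F q) {r : ℕ} {z : F}
    (hz : ((x ^ r : Matrix.SpecialLinearGroup (Fin n) F) : Matrix (Fin n) (Fin n) F) = z • (1 : Matrix (Fin n) (Fin n) F)) :
    z ^ (q + 1) = 1 ∧ z ^ n = 1 ∧ ∀ v, ((Matrix.toLin' (x : Matrix (Fin n) (Fin n) F)) ^ r) v = z • v := by
  have h1 : ∀ v, ((Matrix.toLin' (x : Matrix (Fin n) (Fin n) F)) ^ r) v = z • v := by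
    intro v
    rw [toLin_pow']
    exact smul_mat hz v
  refine ⟨sc_norm hK hn (isom_pow (mem_SU.1 hx) r) h1, ?_, h1⟩
  have h2 := congrArg Matrix.det hz
  rw [Matrix.det_smul, Matrix.det_one, mul_one, Fintype.card_fin, (x ^ r).2] at h2
  exact h2.symm

/-- removing a scalar -/
theorem su_scale (hK : Nat.card F = q ^ 2) {x : Matrix.SpecialLinearGroup (Fin n) F} (hx : x ∈ Cfsg.SU n F q) {r : ℕ} {z w : F} (hw : w ≠ 0)
    (hwr : w ^ r = z) (hz : ∀ v, ((Matrix.toLin' (x : Matrix (Fin n) (Fin n) F)) ^ r) v = z • v)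
    (hns : ∀ z : F, (x : Matrix (Fin n) (Fin n) F) ≠ z • (1 : Matrix (Fin n) (Fin n) F)) :
    ∃ T : (Fin n → F) →ₗ[F] (Fin n → F), T ^ r = 1 ∧ (∀ a : F, T ≠ a • 1) ∧
      (∀ u v, Cfsg.hermForm n F q (T u) (T v) = (w ^ (q + 1))⁻¹ * Cfsg.hermForm n F q u v) ∧
      (∀ v, Matrix.toLin' (x : Matrix (Fin n) (Fin n) F) v = w • T v) ∧
      ∀ W, Inv T W → W.map (Matrix.toLin' (x : Matrix (Fin n) (Fin n) F)) ≤ W := by
  have hxT : ∀ v, Matrix.toLin' (x : Matrix (Fin n) (Fin n) F) v = w • (w⁻¹ • Matrix.toLin' (x : Matrix (Fin n) (Fin n) F)) v := by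
    intro v
    rw [LinearMap.smul_apply, smul_smul, mul_inv_cancel₀ hw, one_smul]
  refine ⟨w⁻¹ • Matrix.toLin' (x : Matrix (Fin n) (Fin n) F), ?_, ?_, ?_, hxT, ?_⟩
  · apply LinearMap.ext
    intro v
    rw [_root_.smul_pow, LinearMap.smul_apply, hz, smul_smul, ← hwr, ← mul_pow, inv_mul_cancel₀ hw, one_pow, one_smul]; rfl
  · intro a ha
    apply hns (w * a)
    apply mat_smul
    intro v
    rw [hxT, ha, LinearMap.smul_apply, smul_smul]; rfl
  · intro u v
    rw [LinearMap.smul_apply, LinearMap.smul_apply, (std_he hK n).smul_left, (std_he hK n).smul_right, frob_apply, mem_SU.1 hx, pow_succ]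
    rw [mul_inv, inv_pow]; ring
  · intro W hW
    rw [inv_map]
    intro v hv
    rw [hxT]
    exact W.smul_mem _ (hW v hv)

/-- realizing an isometry of determinant one -/
theorem exists_su {f : (Fin n → F) →ₗ[F] (Fin n → F)} (hf : ∀ u v, Cfsg.hermForm n F q (f u) (f v) = Cfsg.hermForm n F q u v)
    (hd : (LinearMap.toMatrix' f).det = 1) : ∃ x : Matrix.SpecialLinearGroup (Fin n) F, x ∈ Cfsg.SU n F q ∧
      Matrix.toLin' (x : Matrix (Fin n) (Fin n) F) = f := by
  refine ⟨(⟨LinearMap.toMatrix' f, hd⟩ : Matrix.SpecialLinearGroup (Fin n) F), mem_SU.2 (fun u v => ?_), Matrix.toLin'_toMatrix' f⟩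
  show Cfsg.hermForm n F q (Matrix.toLin' (LinearMap.toMatrix' f) u) (Matrix.toLin' (LinearMap.toMatrix' f) v) = _
  rw [Matrix.toLin'_toMatrix', hf]

/-- **reduction modulo scalars** -/
theorem su_iff (hK : Nat.card F = q ^ 2) (hn : 0 < n) {r : ℕ} (hr : r.Prime) (hrq : ¬ r ∣ q + 1) (P : Submodule F (Fin n → F) → Prop) :
    (∀ x : Matrix.SpecialLinearGroup (Fin n) F, x ∈ Cfsg.SU n F q →
      (∃ z : F, ((x ^ r : Matrix.SpecialLinearGroup (Fin n) F) : Matrix (Fin n) (Fin n) F) = z • (1 : Matrix (Fin n) (Fin n) F)) →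
      (∀ z : F, (x : Matrix (Fin n) (Fin n) F) ≠ z • (1 : Matrix (Fin n) (Fin n) F)) →
      ∃ W : Submodule F (Fin n → F), P W ∧ W.map (Matrix.toLin' (x : Matrix (Fin n) (Fin n) F)) ≤ W) ↔
    (∀ f : (Fin n → F) →ₗ[F] (Fin n → F), (∀ u v, Cfsg.hermForm n F q (f u) (f v) = Cfsg.hermForm n F q u v) → f ^ r = 1 → f ≠ 1 →
      ∃ W, P W ∧ Inv f W) := by
  have hcop : Nat.Coprime r (q + 1) := (Nat.Prime.coprime_iff_not_dvd hr).2 hrq
  have hone : ∀ a : F, a ^ r = 1 → a ^ (q + 1) = 1 → a = 1 := by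
    intro a h1 h2
    have := pow_gcd_eq_one.2 ⟨h1, h2⟩
    rwa [hcop, pow_one] at this
  have : Nonempty (Fin n) := ⟨⟨0, hn⟩⟩
  constructor
  · intro H f hf hfr hf1
    have hM : Matrix.toLin' (LinearMap.toMatrix' f) = f := Matrix.toLin'_toMatrix' f
    have hd : (LinearMap.toMatrix' f).det = 1 := by
      apply hone
      · rw [← Matrix.det_pow]
        have : (LinearMap.toMatrix' f) ^ r = 1 := by
          apply Matrix.toLin'.injective
          rw [Matrix.toLin'_pow, hM, hfr, Matrix.toLin'_one]; rfl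
        rw [this, Matrix.det_one]
      · apply det_iso hK
        rw [hM]; exact hf
    obtain ⟨x, hx, hxf⟩ := exists_su hf hd
    obtain ⟨W, W1, W2⟩ := H x hx ⟨1, by
      rw [one_smul]
      apply Matrix.toLin'.injective
      rw [← toLin_pow', hxf, hfr, Matrix.toLin'_one]; rfl⟩ (by
      intro z hz
      have h1 : ∀ v, f v = z • v := fun v => by rw [← hxf]; exact smul_mat hz v
      have h2 := sc_norm hK hn hf h1
      have h3 : ∀ k : ℕ, ∀ v, (f ^ k) v = z ^ k • v := by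
        intro k
        induction k with
        | zero => intro v; rw [pow_zero, pow_zero, one_smul]; rfl
        | succ k ih => intro v; rw [pow_succ', Module.End.mul_apply, ih, h1, smul_smul, pow_succ']
      obtain ⟨v, hv⟩ := exists_ne (0 : Fin n → F)
      have h4 := h3 r v
      rw [hfr] at h4
      have h5 : z ^ r = 1 := by
        by_contra hne
        have h6 : (z ^ r - 1) • v = 0 := by
          rw [sub_smul, ← h4, one_smul]
          exact sub_self v
        rcases smul_eq_zero.1 h6 with h | h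
        · exact hne (sub_eq_zero.1 h)
        · exact hv h
      apply hf1
      apply LinearMap.ext
      intro v
      rw [h1, hone z h5 h2, one_smul]; rfl)
    refine ⟨W, W1, ?_⟩
    rw [inv_map, hxf] at W2
    exact W2
  · intro H x hx ⟨z, hz⟩ hns
    obtain ⟨d1, -, d3⟩ := su_data hK hn hx hz
    obtain ⟨a, ha⟩ : ∃ a : ℕ, (z ^ a) ^ r = z := by
      obtain ⟨a, ha⟩ := Nat.exists_mul_mod_eq_one_of_coprime hcop (by have := two_le hK; omega)
      refine ⟨a, ?_⟩
      rw [← pow_mul, mul_comm a r, ← Nat.div_add_mod (r * a) (q + 1), ha.2, pow_add, pow_mul, d1, one_pow, one_mul, pow_one]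
    have hz0 : z ≠ 0 := by
      rintro rfl
      rw [zero_pow (by omega)] at d1
      exact zero_ne_one d1
    obtain ⟨T, T1, T2, T3, T4, T5⟩ := su_scale hK hx (pow_ne_zero a hz0) ha d3 hns
    obtain ⟨W, W1, W2⟩ := H T (fun u v => by
      rw [T3, ← pow_mul, mul_comm a, pow_mul, d1, one_pow, inv_one, one_mul]) T1 (by
      intro h; exact T2 1 (by rw [one_smul]; exact h))
    exact ⟨W, W1, T5 W W2⟩

end su

end H99.Un
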