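import Mathlib
import Cfsg.Agent.Lib.H99.Un8

set_option autoImplicit false
set_option linter.unusedSimpArgs false
set_option linter.unusedSectionVars false
set_option linter.unusedVariables false
set_option maxHeartbeats 400000

/-! The number of totally isotropic subspaces of a hermitian space modulo the characteristic. -/

namespace H99.Un

open Module Submodule Polynomial H99.Iso H49.Unitary
open H99.Ti (Inv inv_sup compl_in inv_bot)

universe u

section siegel

variable {F : Type u} [Field F] [Fintype F] {σ : F →+* F} {V₀ : Type u} [AddCommGroup V₀] [Module F V₀] [FiniteDimensional F V₀]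

/-- the orthogonal sum of a hyperbolic plane and a hermitian space -/
def hpl (σ : F →+* F) (B₀ : V₀ → V₀ → F) (x y : (F × F) × V₀) : F := x.1.1 * σ y.1.2 + x.1.2 * σ y.1.1 + B₀ x.2 y.2

theorem hpl_he (hσ : ∀ a, σ (σ a) = a) {B₀ : V₀ → V₀ → F} (h : He σ B₀) : He σ (hpl σ B₀) := by
  refine ⟨fun u v w => ?_, fun c u w => ?_, fun u v => ?_⟩
  · simp only [hpl, Prod.fst_add, Prod.snd_add, h.add_left]; ring
  · simp only [hpl, Prod.smul_fst, Prod.smul_snd, h.smul_left, smul_eq_mul]; ring
  · simp only [hpl, _root_.map_add, _root_.map_mul, hσ]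
    rw [h.herm u.2 v.2]; ring

theorem hpl_nd {B₀ : V₀ → V₀ → F} (h : He σ B₀) (hN : ∀ u, (∀ v, B₀ u v = 0) → u = 0) (x : (F × F) × V₀) (hx : ∀ y, hpl σ B₀ x y = 0) : x = 0 := by
  have h1 := hx ((0, 1), 0)
  have h2 := hx ((1, 0), 0)
  simp only [hpl, h.zero_right, _root_.map_zero, _root_.map_one, mul_one, mul_zero, add_zero, zero_add] at h1 h2
  refine Prod.ext (Prod.ext h1 h2) (hN _ fun y => ?_)
  have h3 := hx ((0, 0), y)
  simpa only [hpl, _root_.map_zero, mul_zero, add_zero, zero_add] using h3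

/-- the degenerate form -/
def dBf (B₀ : V₀ → V₀ → F) (x y : F × V₀) : F := B₀ x.2 y.2

/-- transvections -/
def trh (V₀ : Type u) [AddCommGroup V₀] [Module F V₀] (c : F) : ((F × F) × V₀) →ₗ[F] ((F × F) × V₀) where
  toFun x := ((x.1.1 + c * x.1.2, x.1.2), x.2)
  map_add' x x' := by
    refine Prod.ext (Prod.ext ?_ rfl) rfl
    show (x.1.1 + x'.1.1) + c * (x.1.2 + x'.1.2) = (x.1.1 + c * x.1.2) + (x'.1.1 + c * x'.1.2)
    ring
  map_smul' a x := by
    refine Prod.ext (Prod.ext ?_ rfl) rfl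
    show a * x.1.1 + c * (a * x.1.2) = a * (x.1.1 + c * x.1.2)
    ring

theorem trh_apply (c : F) (x : (F × F) × V₀) : trh V₀ c x = ((x.1.1 + c * x.1.2, x.1.2), x.2) := rfl

theorem trh_iso (B₀ : V₀ → V₀ → F) {c : F} (hc : c + σ c = 0) (x y : (F × F) × V₀) : hpl σ B₀ (trh V₀ c x) (trh V₀ c y) = hpl σ B₀ x y := by
  rw [hpl, hpl, trh_apply, trh_apply]
  show (x.1.1 + c * x.1.2) * σ y.1.2 + x.1.2 * σ (y.1.1 + c * y.1.2) + B₀ x.2 y.2 = _
  rw [_root_.map_add, _root_.map_mul]
  linear_combination x.1.2 * σ y.1.2 * hc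

theorem trh_zero : trh (F := F) V₀ 0 = LinearMap.id := by
  apply LinearMap.ext
  intro x
  rw [trh_apply, zero_mul, add_zero]; rfl

theorem trh_add (c c' : F) : trh V₀ (c + c') = trh V₀ c ∘ₗ trh V₀ c' := by
  apply LinearMap.ext
  intro x
  rw [LinearMap.comp_apply, trh_apply, trh_apply, trh_apply]
  refine Prod.ext (Prod.ext ?_ rfl) rfl
  show x.1.1 + (c + c') * x.1.2 = (x.1.1 + c' * x.1.2) + c * x.1.2
  ring

theorem trh_inj (c : F) : Function.Injective (trh (F := F) V₀ c) := by
  intro a b hab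
  have h1 : ∀ x, trh V₀ (-c) (trh V₀ c x) = x := by
    intro x
    rw [← LinearMap.comp_apply, ← trh_add, neg_add_cancel, trh_zero]; rfl
  rw [← h1 a, hab, h1]

/-- the inclusion of the perpendicular space -/
def ioh (F : Type u) [Field F] (V₀ : Type u) [AddCommGroup V₀] [Module F V₀] : (F × V₀) →ₗ[F] ((F × F) × V₀) := (LinearMap.inl F F F).prodMap LinearMap.id

theorem ioh_apply (x : F × V₀) : ioh F V₀ x = ((x.1, 0), x.2) := rfl

theorem ioh_inj : Function.Injective (ioh F V₀) := by
  intro x y h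
  exact Prod.ext (congrArg (fun z : (F × F) × V₀ => z.1.1) h) (congrArg (fun z : (F × F) × V₀ => z.2) h)

theorem pgrph (p : ℕ) [CharP F p] (M : Type*) [AddCommGroup M] [Module F M] : IsPGroup p (Multiplicative M) := by
  intro g
  refine ⟨1, ?_⟩
  rw [pow_one]
  apply Multiplicative.toAdd.injective
  show p • (Multiplicative.toAdd g) = 0
  rw [← Nat.cast_smul_eq_nsmul F, CharP.cast_eq_zero, zero_smul]

/-- trace zero elements -/
def tz (σ : F →+* F) : AddSubgroup F where
  carrier := {c | c + σ c = 0}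
  add_mem' := by
    intro a b ha hb
    show a + b + σ (a + b) = 0
    rw [_root_.map_add]
    have ha' : a + σ a = 0 := ha
    have hb' : b + σ b = 0 := hb
    linear_combination ha' + hb'
  zero_mem' := by show (0 : F) + σ 0 = 0; rw [_root_.map_zero, add_zero]
  neg_mem' := by
    intro a ha
    show -a + σ (-a) = 0
    rw [_root_.map_neg]
    have ha' : a + σ a = 0 := ha
    linear_combination -ha'

theorem pgrp_tz (p : ℕ) [CharP F p] : IsPGroup p (Multiplicative (tz σ)) := by
  intro g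
  refine ⟨1, ?_⟩
  rw [pow_one]
  apply Multiplicative.toAdd.injective
  apply Subtype.ext
  show p • ((Multiplicative.toAdd g : tz σ) : F) = 0
  rw [nsmul_eq_mul, CharP.cast_eq_zero, zero_mul]

/-- **first step** -/
theorem ti_step1 {p : ℕ} [Fact p.Prime] [CharP F p] (hσ : ∀ a, σ (σ a) = a) (hσ1 : ∃ a, σ a ≠ a) (B₀ : V₀ → V₀ → F) (m : ℕ) :
    Nat.card (TIset (hpl σ B₀) m) ≡ Nat.card (TIset (dBf B₀) m) [MOD p] := by
  classical
  have hfinV : Finite V₀ := Module.finite_of_finite F
  have hfin : Finite (Submodule F ((F × F) × V₀)) :=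
    Finite.of_injective (fun W : Submodule F ((F × F) × V₀) => (W : Set ((F × F) × V₀))) SetLike.coe_injective
  obtain ⟨a₀, ha₀⟩ := hσ1
  have hc0 : (a₀ - σ a₀) + σ (a₀ - σ a₀) = 0 := by rw [_root_.map_sub, hσ]; ring
  have hc1 : a₀ - σ a₀ ≠ 0 := sub_ne_zero.2 (fun h => ha₀ h.symm)
  let act : MulAction (Multiplicative (tz σ)) (TIset (hpl σ B₀) m) :=
    { smul := fun g W => ⟨W.1.map (trh V₀ ((Multiplicative.toAdd g : tz σ) : F)), (TIset.map _ (trh_inj _) (trh_iso B₀ (Multiplicative.toAdd g).2)).2 W.2⟩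
      one_smul := fun W => Subtype.ext (by
        show W.1.map (trh V₀ 0) = W.1
        rw [trh_zero]; exact Submodule.map_id W.1)
      mul_smul := fun g h W => Subtype.ext (by
        show W.1.map (trh V₀ (((Multiplicative.toAdd g : tz σ) : F) + ((Multiplicative.toAdd h : tz σ) : F))) =
          (W.1.map (trh V₀ ((Multiplicative.toAdd h : tz σ) : F))).map (trh V₀ ((Multiplicative.toAdd g : tz σ) : F))
        rw [trh_add, Submodule.map_comp]) }
  have h1 := (pgrp_tz (σ := σ) p).card_modEq_card_fixedPoints (TIset (hpl σ B₀) m)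
  refine h1.trans ?_
  have hfixed : ∀ W : TIset (hpl σ B₀) m, W ∈ MulAction.fixedPoints (Multiplicative (tz σ)) (TIset (hpl σ B₀) m) →
      ∀ x ∈ W.1, x.1.2 = 0 := by
    intro W hW x hx
    have h2 := hW (Multiplicative.ofAdd (⟨a₀ - σ a₀, hc0⟩ : tz σ))
    have h3 : W.1.map (trh V₀ (a₀ - σ a₀)) = W.1 := congrArg Subtype.val h2
    have h4 : trh V₀ (a₀ - σ a₀) x ∈ W.1 := by
      have h9 : trh V₀ (a₀ - σ a₀) x ∈ W.1.map (trh V₀ (a₀ - σ a₀)) := ⟨x, hx, rfl⟩
      rwa [h3] at h9
    have h5 := W.2.2 _ h4 _ hx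
    rw [hpl, trh_apply] at h5
    have h6 := W.2.2 _ hx _ hx
    rw [hpl] at h6
    have h7 : (a₀ - σ a₀) * (x.1.2 * σ x.1.2) = 0 := by
      have h8 : (x.1.1 + (a₀ - σ a₀) * x.1.2) * σ x.1.2 + x.1.2 * σ x.1.1 + B₀ x.2 x.2 = 0 := h5
      linear_combination h8 - h6
    rcases mul_eq_zero.1 ((mul_eq_zero.1 h7).resolve_left hc1) with h | h
    · exact h
    · rw [← hσ x.1.2, h, _root_.map_zero]
  have hmc : ∀ W : TIset (hpl σ B₀) m, W ∈ MulAction.fixedPoints (Multiplicative (tz σ)) (TIset (hpl σ B₀) m) →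
      (W.1.comap (ioh F V₀)).map (ioh F V₀) = W.1 := by
    intro W hW
    apply le_antisymm (Submodule.map_comap_le _ _)
    intro x hx
    have h2 := hfixed W hW x hx
    have h3 : ioh F V₀ (x.1.1, x.2) = x := by
      rw [ioh_apply]
      exact Prod.ext (Prod.ext rfl h2.symm) rfl
    exact ⟨(x.1.1, x.2), by
      show ioh F V₀ (x.1.1, x.2) ∈ W.1
      rw [h3]; exact hx, h3⟩
  have hBio : ∀ x y, hpl σ B₀ (ioh F V₀ x) (ioh F V₀ y) = dBf B₀ x y := by
    intro x y
    rw [hpl, dBf, ioh_apply, ioh_apply]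
    show x.1 * σ 0 + 0 * σ y.1 + B₀ x.2 y.2 = _
    rw [_root_.map_zero]; ring
  let e : MulAction.fixedPoints (Multiplicative (tz σ)) (TIset (hpl σ B₀) m) ≃ TIset (dBf B₀) m :=
    { toFun := fun W => ⟨W.1.1.comap (ioh F V₀), by
        rw [← TIset.map (ioh F V₀) ioh_inj hBio, hmc W.1 W.2]
        exact W.1.2⟩
      invFun := fun U => ⟨⟨U.1.map (ioh F V₀), (TIset.map (ioh F V₀) ioh_inj hBio).2 U.2⟩, by
        intro g
        apply Subtype.ext
        show (U.1.map (ioh F V₀)).map (trh V₀ ((Multiplicative.toAdd g : tz σ) : F)) = U.1.map (ioh F V₀)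
        rw [← Submodule.map_comp]
        congr 1
        apply LinearMap.ext
        intro x
        rw [LinearMap.comp_apply, ioh_apply, trh_apply]
        refine Prod.ext (Prod.ext ?_ rfl) rfl
        show x.1 + ((Multiplicative.toAdd g : tz σ) : F) * 0 = x.1
        rw [mul_zero, add_zero]⟩
      left_inv := fun W => by
        apply Subtype.ext
        apply Subtype.ext
        exact hmc W.1 W.2
      right_inv := fun U => by
        apply Subtype.ext
        exact Submodule.comap_map_eq_of_injective ioh_inj U.1 }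
  rw [Nat.card_congr e]

/-- second family -/
def sih {B₀ : V₀ → V₀ → F} (h : He σ B₀) (y : V₀) : (F × V₀) →ₗ[F] (F × V₀) where
  toFun x := (x.1 + B₀ x.2 y, x.2)
  map_add' x x' := by
    refine Prod.ext ?_ rfl
    show (x.1 + x'.1) + B₀ (x.2 + x'.2) y = (x.1 + B₀ x.2 y) + (x'.1 + B₀ x'.2 y)
    rw [h.add_left]; ring
  map_smul' a x := by
    refine Prod.ext ?_ rfl
    show a * x.1 + B₀ (a • x.2) y = a * (x.1 + B₀ x.2 y)
    rw [h.smul_left]; ring

theorem sih_apply {B₀ : V₀ → V₀ → F} (h : He σ B₀) (y : V₀) (x : F × V₀) : sih h y x = (x.1 + B₀ x.2 y, x.2) := rfl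

theorem sih_zero {B₀ : V₀ → V₀ → F} (h : He σ B₀) : sih h 0 = LinearMap.id := by
  apply LinearMap.ext
  intro x
  rw [sih_apply, h.zero_right, add_zero]; rfl

theorem sih_add {B₀ : V₀ → V₀ → F} (h : He σ B₀) (y y' : V₀) : sih h (y + y') = sih h y ∘ₗ sih h y' := by
  apply LinearMap.ext
  intro x
  rw [LinearMap.comp_apply, sih_apply, sih_apply, sih_apply]
  refine Prod.ext ?_ rfl
  show x.1 + B₀ x.2 (y + y') = (x.1 + B₀ x.2 y') + B₀ x.2 y
  rw [h.add_right]; ring

theorem sih_inj {B₀ : V₀ → V₀ → F} (h : He σ B₀) (y : V₀) : Function.Injective (sih h y) := by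
  intro a b hab
  have h1 : ∀ x, sih h (-y) (sih h y x) = x := by
    intro x
    rw [← LinearMap.comp_apply, ← sih_add, neg_add_cancel, sih_zero]; rfl
  rw [← h1 a, hab, h1]

/-- **second step** -/
theorem ti_step2 {p : ℕ} [Fact p.Prime] [CharP F p] {B₀ : V₀ → V₀ → F} (h : He σ B₀) (hN : ∀ u, (∀ v, B₀ u v = 0) → u = 0) (m : ℕ) :
    Nat.card (TIset (dBf B₀) (m + 1)) ≡ Nat.card (TIset B₀ m) [MOD p] := by
  classical
  have hfinV : Finite V₀ := Module.finite_of_finite F
  have hfin : Finite (Submodule F (F × V₀)) :=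
    Finite.of_injective (fun W : Submodule F (F × V₀) => (W : Set (F × V₀))) SetLike.coe_injective
  let act : MulAction (Multiplicative V₀) (TIset (dBf B₀) (m + 1)) :=
    { smul := fun g W => ⟨W.1.map (sih h (Multiplicative.toAdd g)), (TIset.map _ (sih_inj h _) (fun _ _ => rfl)).2 W.2⟩
      one_smul := fun W => Subtype.ext (by
        show W.1.map (sih h 0) = W.1
        rw [sih_zero]; exact Submodule.map_id W.1)
      mul_smul := fun g g' W => Subtype.ext (by
        show W.1.map (sih h (Multiplicative.toAdd g + Multiplicative.toAdd g')) = (W.1.map (sih h (Multiplicative.toAdd g'))).map (sih h (Multiplicative.toAdd g))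
        rw [sih_add, Submodule.map_comp]) }
  have h1 := (pgrph (F := F) p V₀).card_modEq_card_fixedPoints (TIset (dBf B₀) (m + 1))
  refine h1.trans ?_
  have hfixed : ∀ W : TIset (dBf B₀) (m + 1), W ∈ MulAction.fixedPoints (Multiplicative V₀) (TIset (dBf B₀) (m + 1)) →
      ((1 : F), (0 : V₀)) ∈ W.1 := by
    intro W hW
    have hne0 : W.1 ≠ ⊥ := by
      intro h
      have h2 := W.2.1
      rw [h, finrank_bot] at h2
      omega
    obtain ⟨x, hx, hx0⟩ := Submodule.exists_mem_ne_zero_of_ne_bot hne0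
    by_cases hv : x.2 = 0
    · have ha : x.1 ≠ 0 := fun h => hx0 (Prod.ext h hv)
      have h2 := W.1.smul_mem (x.1)⁻¹ hx
      have h3 : (x.1)⁻¹ • x = ((1 : F), (0 : V₀)) := by
        refine Prod.ext ?_ ?_
        · show (x.1)⁻¹ * x.1 = 1
          exact inv_mul_cancel₀ ha
        · show (x.1)⁻¹ • x.2 = 0
          rw [hv, smul_zero]
      rwa [h3] at h2
    · obtain ⟨y, hy⟩ : ∃ y, B₀ x.2 y ≠ 0 := by
        by_contra h; push Not at h; exact hv (hN _ h)
      have h2 := hW (Multiplicative.ofAdd y)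
      have h3 : W.1.map (sih h y) = W.1 := congrArg Subtype.val h2
      have h4 : sih h y x ∈ W.1 := by
        have h9 : sih h y x ∈ W.1.map (sih h y) := ⟨x, hx, rfl⟩
        rwa [h3] at h9
      have h5 := W.1.smul_mem (B₀ x.2 y)⁻¹ (W.1.sub_mem h4 hx)
      have h6 : (B₀ x.2 y)⁻¹ • (sih h y x - x) = ((1 : F), (0 : V₀)) := by
        rw [sih_apply]
        refine Prod.ext ?_ ?_
        · show (B₀ x.2 y)⁻¹ * (x.1 + B₀ x.2 y - x.1) = 1
          rw [add_sub_cancel_left, inv_mul_cancel₀ hy]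
        · show (B₀ x.2 y)⁻¹ • (x.2 - x.2) = 0
          rw [sub_self, smul_zero]
      rwa [h6] at h5
  have hJ : ∀ W : TIset (dBf B₀) (m + 1), W ∈ MulAction.fixedPoints (Multiplicative V₀) (TIset (dBf B₀) (m + 1)) →
      (⊤ : Submodule F F).prod (W.1.comap (LinearMap.inr F F V₀)) = W.1 := by
    intro W hW
    have he := hfixed W hW
    have key : ∀ x : F × V₀, x = x.1 • ((1 : F), (0 : V₀)) + LinearMap.inr F F V₀ x.2 := by
      intro x
      refine Prod.ext ?_ ?_
      · show x.1 = x.1 * 1 + 0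
        ring
      · show x.2 = x.1 • (0 : V₀) + x.2
        rw [smul_zero, zero_add]
    ext x
    rw [Submodule.mem_prod]
    constructor
    · rintro ⟨-, h2⟩
      rw [key x]
      exact W.1.add_mem (W.1.smul_mem _ he) h2
    · intro hx
      refine ⟨trivial, ?_⟩
      show LinearMap.inr F F V₀ x.2 ∈ W.1
      have h2 := key x
      have h3 : LinearMap.inr F F V₀ x.2 = x - x.1 • ((1 : F), (0 : V₀)) := by
        rw [eq_sub_iff_add_eq, add_comm]; exact h2.symm
      rw [h3]
      exact W.1.sub_mem hx (W.1.smul_mem _ he)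
  have hdimP : ∀ U : Submodule F V₀, finrank F ((⊤ : Submodule F F).prod U) = finrank F U + 1 := by
    intro U
    let e : (F × U) ≃ₗ[F] ((⊤ : Submodule F F).prod U) :=
      { toFun := fun x => ⟨(x.1, x.2), trivial, x.2.2⟩
        map_add' := fun x y => rfl
        map_smul' := fun c x => rfl
        invFun := fun x => (x.1.1, ⟨x.1.2, x.2.2⟩)
        left_inv := fun x => rfl
        right_inv := fun x => rfl }
    rw [← e.finrank_eq, finrank_prod, finrank_self, add_comm]
  let e : MulAction.fixedPoints (Multiplicative V₀) (TIset (dBf B₀) (m + 1)) ≃ TIset B₀ m :=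
    { toFun := fun W => ⟨W.1.1.comap (LinearMap.inr F F V₀), by
        constructor
        · have h2 := hdimP (W.1.1.comap (LinearMap.inr F F V₀))
          rw [hJ W.1 W.2, W.1.2.1] at h2
          omega
        · intro u hu v hv
          exact W.1.2.2 _ hu _ hv⟩
      invFun := fun U => ⟨⟨(⊤ : Submodule F F).prod U.1, by
        constructor
        · rw [hdimP, U.2.1]
        · rintro x ⟨-, hx⟩ y ⟨-, hy⟩
          exact U.2.2 _ hx _ hy⟩, by
        intro g
        apply Subtype.ext
        show ((⊤ : Submodule F F).prod U.1).map (sih h (Multiplicative.toAdd g)) = (⊤ : Submodule F F).prod U.1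
        have hle : ∀ y, ∀ x ∈ (⊤ : Submodule F F).prod U.1, sih h y x ∈ (⊤ : Submodule F F).prod U.1 := by
          rintro y x ⟨-, hx2⟩
          exact ⟨trivial, hx2⟩
        apply le_antisymm
        · rintro _ ⟨x, hx, rfl⟩
          exact hle _ x hx
        · intro x hx
          refine ⟨sih h (-(Multiplicative.toAdd g)) x, hle _ x hx, ?_⟩
          rw [← LinearMap.comp_apply, ← sih_add, add_neg_cancel, sih_zero]; rfl⟩
      left_inv := fun W => by
        apply Subtype.ext
        apply Subtype.ext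
        exact hJ W.1 W.2
      right_inv := fun U => by
        apply Subtype.ext
        ext v
        show LinearMap.inr F F V₀ v ∈ (⊤ : Submodule F F).prod U.1 ↔ v ∈ U.1
        rw [Submodule.mem_prod]
        exact ⟨fun h => h.2, fun h => ⟨trivial, h⟩⟩ }
  rw [Nat.card_congr e]

end siegel

section cnt

variable {F : Type u} [Field F] [Fintype F] {q : ℕ}

theorem tis_congr {V V' : Type*} [AddCommGroup V] [Module F V] [AddCommGroup V'] [Module F V'] {B : V → V → F} {B' : V' → V' → F}
    (e : V ≃ₗ[F] V') (he : ∀ u v, B' (e u) (e v) = B u v) (m : ℕ) : Nat.card (TIset B m) = Nat.card (TIset B' m) := by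
  have h1 : ∀ v, e (e.symm v) = v := fun v => e.apply_symm_apply v
  have he' : ∀ u v, B (e.symm u) (e.symm v) = B' u v := fun u v => by rw [← he, h1, h1]
  apply Nat.card_congr
  refine
    { toFun := fun W => ⟨W.1.map e.toLinearMap, ?_⟩
      invFun := fun W => ⟨W.1.map e.symm.toLinearMap, ?_⟩
      left_inv := fun W => ?_
      right_inv := fun W => ?_ }
  · refine ⟨(LinearEquiv.finrank_map_eq e _).trans W.2.1, ?_⟩
    rintro _ ⟨u, hu, rfl⟩ _ ⟨w, hw, rfl⟩
    show B' (e u) (e w) = 0
    rw [he]; exact W.2.2 u hu w hw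
  · refine ⟨(LinearEquiv.finrank_map_eq e.symm _).trans W.2.1, ?_⟩
    rintro _ ⟨u, hu, rfl⟩ _ ⟨w, hw, rfl⟩
    show B (e.symm u) (e.symm w) = 0
    rw [he']; exact W.2.2 u hu w hw
  · apply Subtype.ext
    show (W.1.map e.toLinearMap).map e.symm.toLinearMap = W.1
    rw [← Submodule.map_comp]
    have : e.symm.toLinearMap ∘ₗ e.toLinearMap = LinearMap.id := by
      apply LinearMap.ext; intro v; exact e.symm_apply_apply v
    rw [this, Submodule.map_id]
  · apply Subtype.ext
    show (W.1.map e.symm.toLinearMap).map e.toLinearMap = W.1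
    rw [← Submodule.map_comp]
    have : e.toLinearMap ∘ₗ e.symm.toLinearMap = LinearMap.id := by
      apply LinearMap.ext; intro v; exact e.apply_symm_apply v
    rw [this, Submodule.map_id]

/-- **the number of totally isotropic subspaces is one modulo `p`** -/
theorem ti_card_mod {p : ℕ} [Fact p.Prime] [CharP F p] (hK : Nat.card F = q ^ 2) (m : ℕ) : ∀ (V : Type u) [AddCommGroup V] [Module F V] [FiniteDimensional F V]
    (B : V → V → F), He (frob hK) B → (∀ u, (∀ v, B u v = 0) → u = 0) → 2 * m ≤ finrank F V → Nat.card (TIset B m) ≡ 1 [MOD p] := by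
  induction m with
  | zero =>
    intro V _ _ _ B h hN _
    have : TIset B 0 = {⊥} := by
      ext W
      rw [Set.mem_singleton_iff]
      constructor
      · intro h; exact Submodule.finrank_eq_zero.1 h.1
      · rintro rfl
        refine ⟨finrank_bot F V, ?_⟩
        intro w hw v hv
        rw [(Submodule.mem_bot F).1 hw]; exact h.zero_left _
    rw [this, Nat.card_unique]
  | succ m ih =>
    intro V _ _ _ B h hN hm
    have h₀ := std_he (F := F) hK (finrank F V - 2)
    have hN₀ := std_nd (F := F) hK (finrank F V - 2)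
    have h₁ := hpl_he (frob_frob hK) h₀
    have hN₁ := hpl_nd h₀ hN₀
    have hd : finrank F ((F × F) × (Fin (finrank F V - 2) → F)) = finrank F V := by
      rw [finrank_prod, finrank_prod, finrank_self, Module.finrank_fintype_fun_eq_card, Fintype.card_fin]; omega
    obtain ⟨e1, he1⟩ := exists_std hK h₁ hN₁ hd
    obtain ⟨e2, he2⟩ := exists_std hK h hN rfl
    rw [tis_congr e2 he2, ← tis_congr e1 he1]
    refine ((ti_step1 (frob_frob hK) (frob_ne hK) _ (m + 1)).trans (ti_step2 h₀ hN₀ m)).trans (ih _ _ h₀ hN₀ ?_)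
    rw [Module.finrank_fintype_fun_eq_card, Fintype.card_fin]; omega

theorem ti_not_p {p : ℕ} [Fact p.Prime] [CharP F p] (hK : Nat.card F = q ^ 2) {n m : ℕ} (hm : 2 * m ≤ n) : ¬ p ∣ Nat.card (TIset (Cfsg.hermForm n F q) m) := by
  intro h
  have h1 := ti_card_mod (p := p) hK m _ _ (std_he hK n) (std_nd hK n) (by rw [Module.finrank_fintype_fun_eq_card, Fintype.card_fin]; exact hm)
  have h2 := (Nat.modEq_zero_iff_dvd.2 h).symm.trans h1
  have hp : p.Prime := Fact.out
  have h3 : p ∣ 1 := Nat.modEq_zero_iff_dvd.1 h2.symm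
  exact hp.one_lt.ne' (Nat.dvd_one.1 h3)

end cnt

end H99.Un
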