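import Mathlib
import Cfsg.Agent.Lib.H99.Un9
import Cfsg.Agent.Lib.H99.Sub2

set_option autoImplicit false
set_option linter.unusedSimpArgs false
set_option linter.unusedSectionVars false
set_option linter.unusedVariables false
set_option maxHeartbeats 400000

/-! Diagonal and monomial elements of special unitary groups. -/

namespace H99.Un

open Module Submodule Polynomial H99.Iso H49.Unitary
open H99.Ti (Inv inv_sup compl_in inv_bot)

universe u

section pi

variable {F : Type u} [Field F] [Fintype F] {q : ℕ}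

/-- the standard form on an arbitrary index type -/
def piB (F : Type u) [Field F] (ι : Type) [Fintype ι] (q : ℕ) (u v : ι → F) : F := ∑ i, u i * (v i) ^ q

theorem piB_he (hK : Nat.card F = q ^ 2) (ι : Type) [Fintype ι] : He (frob hK) (piB F ι q) := by
  refine ⟨fun u v w => ?_, fun c u w => ?_, fun u v => ?_⟩
  · simp only [piB, Pi.add_apply, add_mul, Finset.sum_add_distrib]
  · simp only [piB, Pi.smul_apply, smul_eq_mul, mul_assoc, Finset.mul_sum]
  · rw [piB, piB, _root_.map_sum]
    refine Finset.sum_congr rfl fun i _ => ?_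
    rw [_root_.map_mul, ← frob_apply hK, ← frob_apply hK, frob_frob, mul_comm]

theorem piB_nd (hK : Nat.card F = q ^ 2) (ι : Type) [Fintype ι] [DecidableEq ι] (u : ι → F) (hu : ∀ v, piB F ι q u v = 0) : u = 0 := by
  funext i
  have h := hu (Pi.single i 1)
  rw [piB, Finset.sum_eq_single i] at h
  · rwa [Pi.single_eq_same, one_pow, mul_one] at h
  · intro j _ hj
    have h0 : (0 : F) ^ q = 0 := by rw [← frob_apply hK, _root_.map_zero]
    rw [Pi.single_eq_of_ne hj, h0, mul_zero]
  · intro hi; exact absurd (Finset.mem_univ i) hi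

end pi

section diag

variable {F : Type u} [Field F] [Fintype F] {n q : ℕ}

theorem toLin_diag (d : Fin n → F) (v : Fin n → F) (i : Fin n) : Matrix.toLin' (Matrix.diagonal d) v i = d i * v i := by
  rw [Matrix.toLin'_apply, Matrix.mulVec_diagonal]

/-- diagonal elements -/
theorem diag_su (hK : Nat.card F = q ^ 2) {d : Fin n → F} (h1 : ∏ i, d i = 1) (h2 : ∀ i, d i ^ (q + 1) = 1) :
    ∃ x : Matrix.SpecialLinearGroup (Fin n) F, x ∈ Cfsg.SU n F q ∧ (x : Matrix (Fin n) (Fin n) F) = Matrix.diagonal d := by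
  refine ⟨(⟨Matrix.diagonal d, by rw [Matrix.det_diagonal, h1]⟩ : Matrix.SpecialLinearGroup (Fin n) F), mem_SU.2 (fun u v => ?_), rfl⟩
  show Cfsg.hermForm n F q (Matrix.toLin' (Matrix.diagonal d) u) (Matrix.toLin' (Matrix.diagonal d) v) = _
  rw [Cfsg.hermForm, Cfsg.hermForm]
  refine Finset.sum_congr rfl fun i _ => ?_
  rw [toLin_diag, toLin_diag, mul_pow]
  have := h2 i
  rw [pow_succ] at this
  linear_combination u i * v i ^ q * this

theorem aeval_diag (d : Fin n → F) (p : F[X]) (v : Fin n → F) (i : Fin n) : aeval (Matrix.toLin' (Matrix.diagonal d)) p v i = p.eval (d i) * v i := by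
  induction p using Polynomial.induction_on' with
  | add p q hp hq => rw [_root_.map_add, LinearMap.add_apply, Pi.add_apply, hp, hq, eval_add, add_mul]
  | monomial k a =>
    rw [aeval_monomial, Module.End.mul_apply, Module.algebraMap_end_apply, Pi.smul_apply, eval_monomial, smul_eq_mul]
    have : ∀ k : ℕ, ((Matrix.toLin' (Matrix.diagonal d)) ^ k) v i = d i ^ k * v i := by
      intro k
      induction k with
      | zero => rw [pow_zero, pow_zero, one_mul]; rfl
      | succ k ih => rw [pow_succ', Module.End.mul_apply, toLin_diag, ih, pow_succ']; ring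
    rw [this]; ring

/-- coordinates with their own eigenvalue vanish on totally isotropic invariant subspaces -/
theorem diag_zero (hK : Nat.card F = q ^ 2) {d : Fin n → F} {j : Fin n} (hj : ∀ k, d k = d j → k = j) {W : Submodule F (Fin n → F)}
    (hW : Inv (Matrix.toLin' (Matrix.diagonal d)) W) (hWt : TIg (Cfsg.hermForm n F q) W) {v : Fin n → F} (hv : v ∈ W) : v j = 0 := by
  classical
  let p : F[X] := ∏ k ∈ Finset.univ.erase j, (Polynomial.X - C (d k))
  have hp : ∀ k, k ≠ j → p.eval (d k) = 0 := by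
    intro k hk
    show (∏ k ∈ Finset.univ.erase j, (Polynomial.X - C (d k))).eval (d k) = 0
    rw [eval_prod]
    apply Finset.prod_eq_zero (Finset.mem_erase.2 ⟨hk, Finset.mem_univ _⟩)
    rw [eval_sub, eval_X, eval_C, sub_self]
  have hpj : p.eval (d j) ≠ 0 := by
    show (∏ k ∈ Finset.univ.erase j, (Polynomial.X - C (d k))).eval (d j) ≠ 0
    rw [eval_prod, Finset.prod_ne_zero_iff]
    intro k hk
    rw [eval_sub, eval_X, eval_C, sub_ne_zero]
    intro h
    exact (Finset.mem_erase.1 hk).1 (hj k h.symm)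
  have h1 : aeval (Matrix.toLin' (Matrix.diagonal d)) p v ∈ W := aeval_mem _ W hW p v hv
  have h2 := hWt _ h1 _ h1
  rw [Cfsg.hermForm, Finset.sum_eq_single j] at h2
  · rw [aeval_diag] at h2
    rcases mul_eq_zero.1 h2 with h | h
    · exact (mul_eq_zero.1 h).resolve_left hpj
    · exact (mul_eq_zero.1 (pow_eq_zero_iff (by have := two_le hK; omega) |>.1 h)).resolve_left hpj
  · intro k _ hk
    rw [aeval_diag, hp k hk, zero_mul, zero_mul]
  · intro h; exact absurd (Finset.mem_univ _) h

/-- totally isotropic subspaces with vanishing coordinates -/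
theorem ti_coord (hK : Nat.card F = q ^ 2) (J : Finset (Fin n)) {W : Submodule F (Fin n → F)} (hWt : TIg (Cfsg.hermForm n F q) W)
    (hJ : ∀ v ∈ W, ∀ j ∈ J, v j = 0) : 2 * finrank F W + J.card ≤ n := by
  classical
  let ι := {k : Fin n // k ∉ J}
  let π : (Fin n → F) →ₗ[F] (ι → F) := LinearMap.funLeft F F (fun k : ι => (k : Fin n))
  have hπ : ∀ v k, π v k = v k := fun _ _ => rfl
  have hform : ∀ u ∈ W, ∀ v, piB F ι q (π u) (π v) = Cfsg.hermForm n F q u v := by
    intro u hu v
    rw [piB, Cfsg.hermForm, ← Fintype.sum_subtype_add_sum_subtype (fun k => k ∈ J) (fun i => u i * (v i) ^ q)]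
    have h1 : ∀ i : {x // x ∈ J}, u i * (v i) ^ q = 0 := fun i => by rw [hJ u hu i i.2, zero_mul]
    rw [Finset.sum_eq_zero (fun i _ => h1 i), zero_add]
    rfl
  have hinj : ∀ u ∈ W, π u = 0 → u = 0 := by
    intro u hu h0
    funext k
    by_cases hk : k ∈ J
    · exact hJ u hu k hk
    · exact congrFun h0 ⟨k, hk⟩
  have hdim : finrank F (W.map π : Submodule F (ι → F)) = finrank F W := by
    have h1 : finrank F (LinearMap.range (π.domRestrict W)) = finrank F W := by
      apply LinearMap.finrank_range_of_inj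
      rw [← LinearMap.ker_eq_bot, LinearMap.ker_eq_bot']
      intro u hu
      exact Subtype.ext (hinj u u.2 hu)
    rwa [LinearMap.range_domRestrict] at h1
  have h2 := (piB_he hK ι).ti_le (X := ⊤) (W := W.map π) (fun x _ hh => piB_nd hK ι x fun y => hh y trivial) (by
    rintro _ ⟨u, hu, rfl⟩ _ ⟨v, hv, rfl⟩
    rw [hform u hu v]
    exact hWt u hu v hv) le_top
  rw [hdim, finrank_top, Module.finrank_fintype_fun_eq_card] at h2
  have h3 : Fintype.card ι + J.card = n := by
    have h4 : Fintype.card ι = n - J.card := by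
      rw [Fintype.card_subtype_compl, Fintype.card_fin, Fintype.card_coe]
    have h5 : J.card ≤ n := by
      have := Finset.card_le_univ J
      rwa [Fintype.card_fin] at this
    omega
  omega

theorem diag_bad (hK : Nat.card F = q ^ 2) {d : Fin n → F} (J : Finset (Fin n)) (hJ : ∀ j ∈ J, ∀ k, d k = d j → k = j) {W : Submodule F (Fin n → F)}
    (hW : Inv (Matrix.toLin' (Matrix.diagonal d)) W) (hWt : TIg (Cfsg.hermForm n F q) W) : 2 * finrank F W + J.card ≤ n :=
  ti_coord hK J hWt fun v hv j hj => diag_zero hK (hJ j hj) hW hWt hv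

theorem diag_ns {d : Fin n → F} {i j : Fin n} (hij : d i ≠ d j) (z : F) : Matrix.diagonal d ≠ z • (1 : Matrix (Fin n) (Fin n) F) := by
  intro h
  apply hij
  have h1 := congrFun (congrFun h i) i
  have h2 := congrFun (congrFun h j) j
  rw [Matrix.diagonal_apply_eq, Matrix.smul_apply, Matrix.one_apply_eq, smul_eq_mul, mul_one] at h1 h2
  rw [h1, h2]

theorem diag_pow_eq {d : Fin n → F} {r : ℕ} {z : F} (h : ∀ i, d i ^ r = z) : (Matrix.diagonal d) ^ r = z • (1 : Matrix (Fin n) (Fin n) F) := by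
  rw [Matrix.diagonal_pow, ← Matrix.diagonal_one, ← Matrix.diagonal_smul]
  congr 1
  funext i
  rw [Pi.pow_apply, h i, Pi.smul_apply]
  simp

end diag

section cyc

variable {F : Type u} [Field F] [Fintype F]

theorem exists_order {d : ℕ} (hd : d ∣ Fintype.card F - 1) : ∃ w : F, w ≠ 0 ∧ orderOf w = d := by
  classical
  obtain ⟨g, hg⟩ := IsCyclic.exists_generator (α := Fˣ)
  have ho : orderOf g = Fintype.card F - 1 := by
    rw [orderOf_eq_card_of_forall_mem_zpowers hg, Nat.card_eq_fintype_card, Fintype.card_units]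
  have h1 := Fintype.one_lt_card (α := F)
  obtain ⟨e, he⟩ := hd
  have he0 : e ≠ 0 := by rintro rfl; rw [mul_zero] at he; omega
  refine ⟨((g ^ e : Fˣ) : F), Units.ne_zero _, ?_⟩
  rw [orderOf_units, orderOf_pow_of_dvd he0 (by rw [ho, he]; exact Dvd.intro_left d rfl), ho, he, Nat.mul_div_cancel _ (Nat.pos_of_ne_zero he0)]

theorem card_sub (q : ℕ) (hK : Nat.card F = q ^ 2) : Fintype.card F - 1 = (q + 1) * (q - 1) := by
  have := two_le hK
  rw [← Nat.card_eq_fintype_card, hK]
  obtain ⟨k, rfl⟩ : ∃ k, q = k + 1 := ⟨q - 1, by omega⟩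
  rw [show k + 1 - 1 = k by omega]
  have : (k + 1) ^ 2 = (k + 1 + 1) * k + 1 := by ring
  omega

/-- determinants of involutions -/
theorem det_inv {V : Type*} [AddCommGroup V] [Module F V] [FiniteDimensional F V] {T : V →ₗ[F] V} (hT : T ^ 2 = 1) :
    LinearMap.det T = (-1) ^ finrank F (LinearMap.range (T - 1)) := by
  have hTT : ∀ v, T (T v) = v := fun v => by
    have := congrArg (fun φ : V →ₗ[F] V => φ v) hT
    rwa [pow_two] at this
  have hW : LinearMap.ker (T - 1) ≤ (LinearMap.ker (T - 1)).comap T := by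
    intro v hv
    have h1 : T v = v := mem_ker_sub.1 hv
    show T v ∈ LinearMap.ker (T - 1)
    rw [h1]; exact hv
  rw [LinearMap.det_eq_det_mul_det _ T hW]
  have h1 : T.restrict (p := LinearMap.ker (T - 1)) (q := LinearMap.ker (T - 1)) (fun v hv => hW hv) = 1 := by
    apply LinearMap.ext
    intro v
    apply Subtype.ext
    exact mem_ker_sub.1 v.2
  have h2 : (LinearMap.ker (T - 1)).mapQ (LinearMap.ker (T - 1)) T hW = (-1 : F) • LinearMap.id := by
    apply LinearMap.ext
    intro x
    obtain ⟨v, rfl⟩ := Submodule.mkQ_surjective _ x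
    rw [LinearMap.smul_apply, LinearMap.id_apply, Submodule.mkQ_apply, Submodule.mapQ_apply, ← Submodule.Quotient.mk_smul, Submodule.Quotient.eq,
      mem_ker_sub, neg_one_smul, sub_neg_eq_add, _root_.map_add, hTT, add_comm]
  rw [h1, h2, _root_.map_one, one_mul, LinearMap.det_smul, LinearMap.det_id, mul_one]
  congr 1
  have h3 := Submodule.finrank_quotient_add_finrank (LinearMap.ker (T - 1))
  have h4 := LinearMap.finrank_range_add_finrank_ker (T - 1)
  omega

end cyc

section mono

variable {F : Type u} [Field F] [Fintype F] {q : ℕ}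

/-- the monomial shift -/
def mono (F : Type u) [Field F] {t r n : ℕ} [NeZero r] (e : Fin t × ZMod r ≃ Fin n) (z : F) : (Fin n → F) →ₗ[F] (Fin n → F) where
  toFun v := fun i => (if (e.symm i).2 = 0 then z else 1) * v (e ((e.symm i).1, (e.symm i).2 - 1))
  map_add' u v := by funext i; simp only [Pi.add_apply]; ring
  map_smul' c v := by funext i; simp only [Pi.smul_apply, smul_eq_mul, RingHom.id_apply]; ring

variable {t r n : ℕ} [NeZero r] (e : Fin t × ZMod r ≃ Fin n) (z : F)

theorem mono_apply (v : Fin n → F) (a : Fin t) (j : ZMod r) : mono F e z v (e (a, j)) = (if j = 0 then z else 1) * v (e (a, j - 1)) := by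
  show (if (e.symm (e (a, j))).2 = 0 then z else 1) * v (e ((e.symm (e (a, j))).1, (e.symm (e (a, j))).2 - 1)) = _
  rw [Equiv.symm_apply_apply]

theorem mono_pow (k : ℕ) (v : Fin n → F) (a : Fin t) (j : ZMod r) :
    ((mono F e z) ^ k) v (e (a, j)) = (∏ l ∈ Finset.range k, (if j - (l : ZMod r) = 0 then z else 1)) * v (e (a, j - (k : ZMod r))) := by
  induction k generalizing j with
  | zero => rw [Finset.prod_range_zero, one_mul, Nat.cast_zero, sub_zero]; rfl
  | succ k ih =>
    rw [pow_succ', Module.End.mul_apply, mono_apply, ih, Finset.prod_range_succ', Nat.cast_zero, sub_zero, ← mul_assoc]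
    congr 1
    · rw [mul_comm]
      congr 1
      refine Finset.prod_congr rfl fun l _ => ?_
      rw [Nat.cast_succ, sub_sub, add_comm (1 : ZMod r)]
    · rw [Nat.cast_succ, sub_sub, add_comm (1 : ZMod r)]

theorem mono_r (v : Fin n → F) : ((mono F e z) ^ r) v = z • v := by
  funext i
  obtain ⟨⟨a, j⟩, rfl⟩ := e.surjective i
  rw [mono_pow, CharP.cast_eq_zero, sub_zero, Pi.smul_apply, smul_eq_mul]
  congr 1
  rw [Finset.prod_eq_single (ZMod.val j)]
  · rw [ZMod.natCast_zmod_val, sub_self, if_pos rfl]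
  · intro l hl hne
    rw [if_neg]
    intro h
    apply hne
    rw [sub_eq_zero] at h
    rw [h, ZMod.val_natCast, Nat.mod_eq_of_lt (Finset.mem_range.1 hl)]
  · intro h
    exact absurd (Finset.mem_range.2 (ZMod.val_lt j)) h

theorem mono_iso (hz : z ^ (q + 1) = 1) (u v : Fin n → F) : Cfsg.hermForm n F q (mono F e z u) (mono F e z v) = Cfsg.hermForm n F q u v := by
  rw [Cfsg.hermForm, Cfsg.hermForm]
  rw [← Equiv.sum_comp e (fun i => mono F e z u i * (mono F e z v i) ^ q)]
  have h1 : ∀ x : Fin t × ZMod r, mono F e z u (e x) * (mono F e z v (e x)) ^ q = u (e (x.1, x.2 - 1)) * (v (e (x.1, x.2 - 1))) ^ q := by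
    rintro ⟨a, j⟩
    rw [mono_apply, mono_apply, mul_pow]
    split_ifs with hj
    · rw [pow_succ] at hz
      linear_combination u (e (a, j - 1)) * (v (e (a, j - 1))) ^ q * hz
    · rw [one_pow]; ring
  rw [Finset.sum_congr rfl (fun x _ => h1 x)]
  exact Equiv.sum_comp ((Equiv.prodCongr (Equiv.refl (Fin t)) (Equiv.subRight (1 : ZMod r))).trans e) (fun i => u i * (v i) ^ q)

end mono

section bad

variable {F : Type u} [Field F] [Fintype F] {n q r : ℕ}

theorem pow_sub_one_coprime (hr : r.Prime) (hr2 : r ≠ 2) (hq : 2 ≤ q) (hd : r ∣ q + 1) : ¬ r ∣ q - 1 := by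
  intro h
  have h2 : r ∣ 2 := by
    have := Nat.dvd_sub hd h
    rwa [show q + 1 - (q - 1) = 2 by omega] at this
  exact hr2 ((Nat.prime_dvd_prime_iff_eq hr Nat.prime_two).1 h2)

theorem val_card (hK : Nat.card F = q ^ 2) (hr : r.Prime) (hr2 : r ≠ 2) (hd : r ∣ q + 1) :
    padicValNat r (Fintype.card F - 1) = padicValNat r (q + 1) := by
  have : Fact r.Prime := ⟨hr⟩
  have hq := two_le hK
  rw [card_sub q hK, padicValNat.mul (by omega) (by omega), padicValNat.eq_zero_of_not_dvd (pow_sub_one_coprime hr hr2 hq hd), add_zero]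

/-- roots of norm one elements -/
theorem root_norm (hK : Nat.card F = q ^ 2) (hr : r.Prime) (hr2 : r ≠ 2) (hd : r ∣ q + 1) {z w : F} (hz : z ^ (q + 1) = 1) (hw : w ^ r = z) :
    ∃ w', w' ^ (q + 1) = 1 ∧ w' ^ r = z := by
  have hq := two_le hK
  have hcop : Nat.Coprime (q - 1) r := ((Nat.Prime.coprime_iff_not_dvd hr).2 (pow_sub_one_coprime hr hr2 hq hd)).symm
  obtain ⟨e, he⟩ := Nat.exists_mul_mod_eq_one_of_coprime hcop hr.one_lt
  have hw0 : w ≠ 0 := by
    rintro rfl
    rw [zero_pow hr.ne_zero] at hw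
    rw [← hw, zero_pow (by omega)] at hz
    exact zero_ne_one hz
  have hw1 : w ^ ((q + 1) * (q - 1)) = 1 := by
    rw [← card_sub q hK]; exact FiniteField.pow_card_sub_one_eq_one w hw0
  obtain ⟨t, ht⟩ : ∃ t, (q - 1) * e = 1 + r * t := ⟨(q - 1) * e / r, by
    have h1 := Nat.div_add_mod ((q - 1) * e) r
    rw [he.2] at h1
    omega⟩
  refine ⟨(w ^ (q - 1)) ^ e * z ^ (q * t), ?_, ?_⟩
  · have a1 : ((w ^ (q - 1)) ^ e) ^ (q + 1) = 1 := by
      rw [← pow_mul, ← pow_mul, show (q - 1) * (e * (q + 1)) = (q + 1) * (q - 1) * e by ring, pow_mul, hw1, one_pow]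
    have a2 : (z ^ (q * t)) ^ (q + 1) = 1 := by
      rw [← pow_mul, mul_comm, pow_mul, hz, one_pow]
    rw [mul_pow, a1, a2, one_mul]
  · have a1 : ((w ^ (q - 1)) ^ e) ^ r = z ^ (1 + r * t) := by
      rw [← pow_mul, ← pow_mul, show (q - 1) * (e * r) = r * ((q - 1) * e) by ring, pow_mul, hw, ht]
    rw [mul_pow, a1, ← pow_mul, ← pow_add, show 1 + r * t + q * t * r = 1 + (q + 1) * (r * t) by ring, pow_add, pow_mul, hz, one_pow, mul_one, pow_one]

theorem r_dvd (hr : r.Prime) (hr2 : r ≠ 2) (hd : r ∣ q + 1) : r * (q + 1) ∣ q ^ r + 1 := by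
  have hodd : Odd r := hr.odd_of_ne_two hr2
  have h1 : (q + 1 : ℤ) ∣ (q : ℤ) ^ r + 1 ^ r := hodd.add_dvd_pow_add_pow (q : ℤ) 1
  have h0 : Fact r.Prime := ⟨hr⟩
  have hq1 : q + 1 ∣ q ^ r + 1 := by
    have := hodd.nat_add_dvd_pow_add_pow q 1
    rwa [one_pow] at this
  obtain ⟨s, hs⟩ := hq1
  rw [hs, mul_comm]
  apply Nat.mul_dvd_mul_left
  -- s = sum of (-q)^j
  have h2 : (((Finset.range r).sum fun j => (-(q : ℤ)) ^ j)) * ((q : ℤ) + 1) = (q : ℤ) ^ r + 1 := by
    have := geom_sum_mul (-(q : ℤ)) r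
    rw [hodd.neg_pow] at this
    linear_combination -this
  have h3 : (s : ℤ) = (Finset.range r).sum fun j => (-(q : ℤ)) ^ j := by
    have h4 : ((q : ℤ) + 1) ≠ 0 := by positivity
    apply mul_right_cancel₀ h4
    rw [h2]
    have : ((q ^ r + 1 : ℕ) : ℤ) = (((q + 1) * s : ℕ) : ℤ) := by rw [hs]
    push_cast at this
    linear_combination -this
  have h5 : ((s : ℤ) : ZMod r) = 0 := by
    rw [h3]
    push_cast
    have h6 : (-(q : ZMod r)) = 1 := by
      have : ((q + 1 : ℕ) : ZMod r) = 0 := (ZMod.natCast_eq_zero_iff _ _).2 hd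
      push_cast at this
      linear_combination -this
    rw [h6]
    simp
  rw [Int.cast_natCast] at h5
  exact (ZMod.natCast_eq_zero_iff _ _).1 h5

/-- the bad element for `r ∣ q + 1` -/
theorem exists_bad (hK : Nat.card F = q ^ 2) (hn : 0 < n) (hr : r.Prime) (hr2 : r ≠ 2) (hd : r ∣ q + 1) (hv : padicValNat r (q + 1) < padicValNat r n) :
    ∃ x : Matrix.SpecialLinearGroup (Fin n) F, x ∈ Cfsg.SU n F q ∧
      (∃ z : F, ((x ^ r : Matrix.SpecialLinearGroup (Fin n) F) : Matrix (Fin n) (Fin n) F) = z • (1 : Matrix (Fin n) (Fin n) F)) ∧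
      (∀ z : F, (x : Matrix (Fin n) (Fin n) F) ≠ z • (1 : Matrix (Fin n) (Fin n) F)) ∧
      ∀ W : Submodule F (Fin n → F), W.map (Matrix.toLin' (x : Matrix (Fin n) (Fin n) F)) ≤ W → r ∣ finrank F W := by
  have hF : Fact r.Prime := ⟨hr⟩
  have hodd : Odd r := hr.odd_of_ne_two hr2
  have hq := two_le hK
  have hrn : r ∣ n := by
    by_contra h
    rw [padicValNat.eq_zero_of_not_dvd h] at hv
    omega
  obtain ⟨t, rfl⟩ := hrn
  have ht0 : t ≠ 0 := by rintro rfl; simp at hn
  have hvt : padicValNat r (q + 1) ≤ padicValNat r t := by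
    rw [padicValNat.mul hr.ne_zero ht0, padicValNat_self] at hv
    omega
  obtain ⟨z, hz0, hz⟩ := exists_order (F := F) (d := r ^ padicValNat r (q + 1)) (by
    rw [card_sub q hK]
    exact Dvd.dvd.mul_right pow_padicValNat_dvd _)
  have hz1 : z ^ (q + 1) = 1 := orderOf_dvd_iff_pow_eq_one.1 (by rw [hz]; exact pow_padicValNat_dvd)
  have hz2 : z ^ t = 1 := orderOf_dvd_iff_pow_eq_one.1 (by rw [hz]; exact (pow_dvd_pow r hvt).trans pow_padicValNat_dvd)
  have hv1 : 1 ≤ padicValNat r (q + 1) := one_le_padicValNat_of_dvd (by omega) hd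
  have hnr : ∀ w : F, w ^ r ≠ z := by
    intro w hw
    have hw0 : w ≠ 0 := by
      rintro rfl
      rw [zero_pow hr.ne_zero] at hw
      exact hz0 hw.symm
    have h1 : w ^ (Fintype.card F - 1) = 1 := FiniteField.pow_card_sub_one_eq_one w hw0
    have h2 : orderOf w ∣ Fintype.card F - 1 := orderOf_dvd_of_pow_eq_one h1
    have h3 : orderOf w = r ^ (padicValNat r (q + 1) + 1) := by
      apply orderOf_eq_prime_pow
      · intro h
        have h5 : z ^ (r ^ (padicValNat r (q + 1) - 1)) = 1 := by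
          rw [← hw, ← pow_mul, ← pow_succ', show padicValNat r (q + 1) - 1 + 1 = padicValNat r (q + 1) by omega]
          exact h
        have h6 := orderOf_dvd_of_pow_eq_one h5
        rw [hz] at h6
        have h7 := (Nat.pow_dvd_pow_iff_le_right hr.one_lt).1 h6
        omega
      · rw [pow_succ', pow_mul, hw, ← hz]; exact pow_orderOf_eq_one z
    rw [h3] at h2
    have h4 := (padicValNat_dvd_iff_le (p := r) (by have := Fintype.one_lt_card (α := F); omega)).1 h2
    rw [val_card hK hr hr2 hd] at h4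
    omega
  have hirr : Irreducible (Polynomial.X ^ r - C z : F[X]) := (X_pow_sub_C_irreducible_iff_of_prime hr).2 hnr
  have hNe : NeZero r := ⟨hr.ne_zero⟩
  let e : Fin t × ZMod r ≃ Fin (r * t) := (Fintype.equivFinOfCardEq (by rw [Fintype.card_prod, Fintype.card_fin, ZMod.card, mul_comm]))
  have hpow : (LinearMap.toMatrix' (mono F e z)) ^ r = z • (1 : Matrix (Fin (r * t)) (Fin (r * t)) F) := by
    apply Matrix.toLin'.injective
    rw [Matrix.toLin'_pow, Matrix.toLin'_toMatrix', _root_.map_smul, Matrix.toLin'_one]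
    apply LinearMap.ext
    intro v
    rw [mono_r]; rfl
  obtain ⟨m, hm, hdet⟩ := Sub2.pow_det hr hodd hpow hirr
  have hmt : m = t := by
    rw [mul_comm r t] at hm
    exact (Nat.eq_of_mul_eq_mul_right hr.pos hm).symm
  obtain ⟨x, x1, x2⟩ := exists_su (f := mono F e z) (mono_iso e z hz1) (by rw [hdet, hmt, hz2])
  have hxr : ((x ^ r : Matrix.SpecialLinearGroup (Fin (r * t)) F) : Matrix (Fin (r * t)) (Fin (r * t)) F) = z • (1 : Matrix (Fin (r * t)) (Fin (r * t)) F) := by
    apply Matrix.toLin'.injective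
    rw [← toLin_pow', x2, _root_.map_smul, Matrix.toLin'_one]
    apply LinearMap.ext
    intro v
    rw [mono_r]; rfl
  refine ⟨x, x1, ⟨z, hxr⟩, ?_, ?_⟩
  · intro y hy
    apply hnr y
    have : Nonempty (Fin (r * t)) := ⟨⟨0, hn⟩⟩
    have h1 : ∀ v, (mono F e z) v = y • v := fun v => by rw [← x2]; exact smul_mat hy v
    have h3 : ∀ k : ℕ, ∀ v, ((mono F e z) ^ k) v = y ^ k • v := by
      intro k
      induction k with
      | zero => intro v; rw [pow_zero, pow_zero, one_smul]; rfl
      | succ k ih => intro v; rw [pow_succ', Module.End.mul_apply, ih, h1, smul_smul, pow_succ']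
    obtain ⟨v, hv⟩ := exists_ne (0 : Fin (r * t) → F)
    have h4 := h3 r v
    rw [mono_r] at h4
    by_contra hne
    have h6 : (z - y ^ r) • v = 0 := by rw [sub_smul, h4, sub_self]
    rcases smul_eq_zero.1 h6 with h | h
    · exact hne (sub_eq_zero.1 h).symm
    · exact hv h
  · intro W hW
    rw [inv_map, x2] at hW
    have hk : aeval (mono F e z) (Polynomial.X ^ r - C z : F[X]) = 0 := by
      rw [_root_.map_sub, _root_.map_pow, aeval_X, aeval_C]
      apply LinearMap.ext
      intro v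
      rw [LinearMap.sub_apply, mono_r, Module.algebraMap_end_apply, sub_self]; rfl
    obtain ⟨s, s1, -⟩ := dims_gen (Module.End.isSemisimple_of_squarefree_aeval_eq_zero hirr.squarefree hk) hirr.squarefree (d := r) (by
      intro g hg hgd
      have h1 := (hirr.dvd_iff.1 hgd).resolve_left hg.not_isUnit
      rw [natDegree_eq_of_degree_eq (degree_eq_degree_of_associated h1.symm)]
      exact natDegree_X_pow_sub_C) _ W rfl hW (fun v _ => by rw [hk]; rfl)
    exact ⟨s, s1⟩

end bad

end H99.Un
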