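import Mathlib
import Cfsg.Agent.Lib.H99.Un10

set_option autoImplicit false
set_option linter.unusedSimpArgs false
set_option linter.unusedSectionVars false
set_option linter.unusedVariables false
set_option maxHeartbeats 400000

/-! Prime order elements of special unitary groups and totally isotropic subspaces. -/

namespace H99.Un

open Module Submodule Polynomial H99.Iso H49.Unitary
open H99.Ti (Inv inv_sup compl_in inv_bot)

universe u

variable {F : Type u} [Field F] [Fintype F] {n m q r : ℕ}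

/-- all elements of order `r` modulo scalars fix a subspace in the class -/
def AllFix (F : Type u) [Field F] [Fintype F] (n q r : ℕ) (P : Submodule F (Fin n → F) → Prop) : Prop :=
  ∀ x : Matrix.SpecialLinearGroup (Fin n) F, x ∈ Cfsg.SU n F q →
      (∃ z : F, ((x ^ r : Matrix.SpecialLinearGroup (Fin n) F) : Matrix (Fin n) (Fin n) F) = z • (1 : Matrix (Fin n) (Fin n) F)) →
      (∀ z : F, (x : Matrix (Fin n) (Fin n) F) ≠ z • (1 : Matrix (Fin n) (Fin n) F)) →
      ∃ W : Submodule F (Fin n → F), P W ∧ W.map (Matrix.toLin' (x : Matrix (Fin n) (Fin n) F)) ≤ W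

theorem dim_std : finrank F (Fin n → F) = n := by
  rw [Module.finrank_fintype_fun_eq_card, Fintype.card_fin]

theorem pow_scalar {V : Type*} [AddCommGroup V] [Module F V] {g : V →ₗ[F] V} {z : F} (hg : ∀ v, g v = z • v) (k : ℕ) (v : V) : (g ^ k) v = z ^ k • v := by
  induction k with
  | zero => rw [pow_zero, pow_zero, one_smul]; rfl
  | succ k ih => rw [pow_succ', Module.End.mul_apply, ih, hg, smul_smul, pow_succ']

/-- **generic case** -/
theorem ti_case_gen (hK : Nat.card F = q ^ 2) (hm : 1 ≤ m) (hmn : 2 * m ≤ n) (hr : r.Prime) (hrq : ¬ r ∣ q) (hrq1 : ¬ r ∣ q + 1)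
    (hΩ : r ∣ Nat.card (TIset (Cfsg.hermForm n F q) m)) :
    AllFix F n q r (fun W => W ∈ TIset (Cfsg.hermForm n F q) m) ↔
    (orderOf ((Fintype.card F : ℕ) : ZMod r) ≤ m ∧
      2 * (m % orderOf ((Fintype.card F : ℕ) : ZMod r)) ≤ n % orderOf (-((q : ℕ) : ZMod r)) ∧
      (Odd (orderOf (-((q : ℕ) : ZMod r))) → (r - 1) / orderOf ((Fintype.card F : ℕ) : ZMod r) + 2 * (m / orderOf ((Fintype.card F : ℕ) : ZMod r)) ≤
        n / orderOf ((Fintype.card F : ℕ) : ZMod r))) := by
  have hn : 0 < n := by omega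
  rw [AllFix, su_iff hK hn hr hrq1]
  constructor
  · intro H
    have := ti_nec hK (std_he hK n) (std_nd hK n) hr hrq hm (by rw [dim_std]; exact hmn) hΩ (fun T hT hTr hT1 => H T hT hTr hT1)
    rwa [dim_std] at this
  · rintro ⟨-, h2, h3⟩ f hf hfr -
    exact ti_suf hK (std_he hK n) (std_nd hK n) hr hrq hf hfr (by rw [dim_std]; exact hmn) (by rw [dim_std]; exact h2) (by rw [dim_std]; exact h3)

theorem ord_neg_one (hr : r.Prime) (hd : r ∣ q + 1) : orderOf (-((q : ℕ) : ZMod r)) = 1 := by
  rw [orderOf_eq_one_iff]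
  have : ((q + 1 : ℕ) : ZMod r) = 0 := (ZMod.natCast_eq_zero_iff _ _).2 hd
  push_cast at this
  linear_combination -this

theorem not_dvd_q (hr : r.Prime) (hd : r ∣ q + 1) : ¬ r ∣ q := by
  intro h
  have := (Nat.dvd_add_right h).1 hd
  exact hr.one_lt.ne' (Nat.dvd_one.1 this)

theorem ord_card_one (hK : Nat.card F = q ^ 2) (hr : r.Prime) (hd : r ∣ q + 1) : orderOf ((Fintype.card F : ℕ) : ZMod r) = 1 := by
  have h1 := (ord_bc hK hr (not_dvd_q hr hd)).1 (by rw [ord_neg_one hr hd]; exact odd_one)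
  rw [h1, ord_neg_one hr hd]

/-- data for elements whose `r`-th power is not an `r`-th power -/
theorem irr_data (hK : Nat.card F = q ^ 2) (hn : 0 < n) (hr : r.Prime) (hr2 : r ≠ 2) (hd : r ∣ q + 1) {x : Matrix.SpecialLinearGroup (Fin n) F} (hx : x ∈ Cfsg.SU n F q) {z : F}
    (hz : ((x ^ r : Matrix.SpecialLinearGroup (Fin n) F) : Matrix (Fin n) (Fin n) F) = z • (1 : Matrix (Fin n) (Fin n) F))
    (hno : ∀ w : F, w ^ (q + 1) = 1 → w ^ r ≠ z) :
    Irreducible (Polynomial.X ^ r - C z : F[X]) ∧ padicValNat r (q + 1) < padicValNat r n ∧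
      (Matrix.toLin' (x : Matrix (Fin n) (Fin n) F)) ^ (q ^ r + 1) = 1 ∧ aeval (Matrix.toLin' (x : Matrix (Fin n) (Fin n) F)) (Polynomial.X ^ r - C z : F[X]) = 0 := by
  have hF : Fact r.Prime := ⟨hr⟩
  have hodd : Odd r := hr.odd_of_ne_two hr2
  have hq := two_le hK
  obtain ⟨d1, d2, d3⟩ := su_data hK hn hx hz
  have hz0 : z ≠ 0 := by
    rintro rfl
    rw [zero_pow (by omega)] at d1
    exact zero_ne_one d1
  have hnr : ∀ w : F, w ^ r ≠ z := by
    intro w hw
    obtain ⟨w', w1, w2⟩ := root_norm hK hr hr2 hd d1 hw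
    exact hno w' w1 w2
  have hirr : Irreducible (Polynomial.X ^ r - C z : F[X]) := (X_pow_sub_C_irreducible_iff_of_prime hr).2 hnr
  have hpow : ((x : Matrix (Fin n) (Fin n) F)) ^ r = z • (1 : Matrix (Fin n) (Fin n) F) := by
    rw [← Matrix.SpecialLinearGroup.coe_pow]; exact hz
  obtain ⟨t, ht, hdet⟩ := Sub2.pow_det hr hodd hpow hirr
  have ht0 : t ≠ 0 := by rintro rfl; omega
  refine ⟨hirr, ?_, ?_, ?_⟩
  · by_contra hlt
    push Not at hlt
    rw [ht, padicValNat.mul ht0 hr.ne_zero, padicValNat_self] at hlt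
    obtain ⟨w, hw⟩ := Sub2.exists_root_of_pow hr (by rw [card_sub q hK]; exact Dvd.dvd.mul_right hd _) hz0 ht0 (by rw [← hdet]; exact x.2) (by
      rw [val_card hK hr hr2 hd]; omega)
    exact hnr w hw
  · obtain ⟨s, hs⟩ := r_dvd (q := q) hr hr2 hd
    rw [hs, pow_mul, pow_mul]
    apply LinearMap.ext
    intro v
    have h1 : (Matrix.toLin' (x : Matrix (Fin n) (Fin n) F) ^ r) ^ (q + 1) = 1 := by
      apply LinearMap.ext
      intro v
      rw [pow_scalar d3, d1, one_smul]; rfl
    rw [h1, one_pow]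
  · rw [_root_.map_sub, _root_.map_pow, aeval_X, aeval_C]
    apply LinearMap.ext
    intro v
    rw [LinearMap.sub_apply, d3, Module.algebraMap_end_apply, sub_self]; rfl

theorem deg_irr {z : F} (hirr : Irreducible (Polynomial.X ^ r - C z : F[X])) (hr : 0 < r) (g : F[X]) (hg : Irreducible g) (hgd : g ∣ Polynomial.X ^ r - C z) :
    g.natDegree = r := by
  have h1 := (hirr.dvd_iff.1 hgd).resolve_left hg.not_isUnit
  rw [natDegree_eq_of_degree_eq (degree_eq_degree_of_associated h1.symm)]
  exact natDegree_X_pow_sub_C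

/-- **case `r ∣ q + 1`** -/
theorem ti_case_two (hK : Nat.card F = q ^ 2) (hm : 1 ≤ m) (hmn : 2 * m ≤ n) (hn3 : 3 ≤ n) (hr : r.Prime) (hr2 : r ≠ 2) (hd : r ∣ q + 1) :
    AllFix F n q r (fun W => W ∈ TIset (Cfsg.hermForm n F q) m) ↔
    (r - 1 + 2 * m ≤ n ∧ (r ∣ m ∨ padicValNat r n ≤ padicValNat r (q + 1))) := by
  have hn : 0 < n := by omega
  have hrq := not_dvd_q hr hd
  have hodd : Odd r := hr.odd_of_ne_two hr2
  have hF : Fact r.Prime := ⟨hr⟩
  have hq := two_le hK
  have hr3 : 3 ≤ r := by have := hr.two_le; omega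
  constructor
  · intro H
    refine ⟨?_, ?_⟩
    · by_contra hlt
      push Not at hlt
      obtain ⟨e, he⟩ : ∃ e, e = min (n / 2) ((r - 1) / 2) := ⟨_, rfl⟩
      have he1 : 1 ≤ e := by rw [he, le_min_iff]; omega
      have he2 : 2 * e ≤ n := by have : e ≤ n / 2 := by rw [he]; exact min_le_left _ _
                                 omega
      have he3 : 2 * e ≤ r - 1 := by have : e ≤ (r - 1) / 2 := by rw [he]; exact min_le_right _ _
                                     omega
      obtain ⟨ζ, hζ0, hζ⟩ := exists_order (F := F) (d := r) (by rw [card_sub q hK]; exact Dvd.dvd.mul_right hd _)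
      have hζ1 : ζ ^ (q + 1) = 1 := orderOf_dvd_iff_pow_eq_one.1 (by rw [hζ]; exact hd)
      have hζr : ζ ^ r = 1 := by rw [← hζ]; exact pow_orderOf_eq_one ζ
      let f : ℕ → ℕ := fun j => if j < e then j + 1 else if j < 2 * e then r - (j - e + 1) else 0
      let d : Fin n → F := fun j => ζ ^ f j
      have hprod : ∏ i, d i = 1 := by
        show ∏ i : Fin n, ζ ^ f i = 1
        rw [Finset.prod_pow_eq_pow_sum, Fin.sum_univ_eq_sum_range f n]
        have h1 : ∑ j ∈ Finset.range n, f j = r * e := by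
          obtain ⟨k, hk⟩ : ∃ k, n = e + e + k := ⟨n - 2 * e, by omega⟩
          rw [hk, Finset.sum_range_add, Finset.sum_range_add]
          have a1 : ∑ x ∈ Finset.range k, f (e + e + x) = 0 := by
            apply Finset.sum_eq_zero
            intro x _
            show (if e + e + x < e then e + e + x + 1 else if e + e + x < 2 * e then r - (e + e + x - e + 1) else 0) = 0
            rw [if_neg (by omega), if_neg (by omega)]
          rw [a1, add_zero, ← Finset.sum_add_distrib, Finset.sum_congr rfl (g := fun _ => r), Finset.sum_const, Finset.card_range, smul_eq_mul, mul_comm]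
          intro x hx
          rw [Finset.mem_range] at hx
          show (if x < e then x + 1 else if x < 2 * e then r - (x - e + 1) else 0) + (if e + x < e then e + x + 1 else if e + x < 2 * e then r - (e + x - e + 1) else 0) = r
          rw [if_pos hx, if_neg (by omega), if_pos (by omega)]
          omega
        rw [h1, pow_mul, hζr, one_pow]
      have hlt : ∀ j, f j < r := by
        intro j
        show (if j < e then j + 1 else if j < 2 * e then r - (j - e + 1) else 0) < r
        split_ifs <;> omega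
      have hinj : ∀ j k : Fin n, d j = d k → f j = f k := by
        intro j k hjk
        exact pow_injOn_Iio_orderOf (by rw [hζ]; exact hlt j) (by rw [hζ]; exact hlt k) hjk
      obtain ⟨x, x1, x2⟩ := diag_su hK hprod (fun i => by
        show (ζ ^ f i) ^ (q + 1) = 1
        rw [← pow_mul, mul_comm, pow_mul, hζ1, one_pow])
      obtain ⟨W, W1, W2⟩ := H x x1 ⟨1, by
        rw [Matrix.SpecialLinearGroup.coe_pow, x2]
        apply diag_pow_eq
        intro i
        show (ζ ^ f i) ^ r = 1
        rw [← pow_mul, mul_comm, pow_mul, hζr, one_pow]⟩ (by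
        rw [x2]
        apply diag_ns (i := ⟨0, by omega⟩) (j := ⟨1, by omega⟩)
        intro h
        have h1 := hinj _ _ h
        have h2 : f 0 = f 1 := h1
        have h3 : (if 0 < e then 0 + 1 else if 0 < 2 * e then r - (0 - e + 1) else 0) = (if 1 < e then 1 + 1 else if 1 < 2 * e then r - (1 - e + 1) else 0) := h2
        rw [if_pos (by omega)] at h3
        split_ifs at h3 <;> omega)
      rw [inv_map, x2] at W2
      have hJ := diag_bad hK (Finset.univ.filter (fun j : Fin n => (j : ℕ) < 2 * e)) (fun j hj k hjk => by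
        have h1 := hinj _ _ hjk
        have hj' : (j : ℕ) < 2 * e := (Finset.mem_filter.1 hj).2
        apply Fin.ext
        have h3 : (if (k : ℕ) < e then (k : ℕ) + 1 else if (k : ℕ) < 2 * e then r - ((k : ℕ) - e + 1) else 0) =
          (if (j : ℕ) < e then (j : ℕ) + 1 else if (j : ℕ) < 2 * e then r - ((j : ℕ) - e + 1) else 0) := h1
        split_ifs at h3 <;> omega) W2 W1.2
      have hcard : (Finset.univ.filter (fun j : Fin n => (j : ℕ) < 2 * e)).card = 2 * e := by
        rw [Fin.card_filter_val_lt, min_eq_right he2]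
      rw [hcard, W1.1] at hJ
      rcases le_total (n / 2) ((r - 1) / 2) with hle | hle
      · rw [min_eq_left hle] at he
        omega
      · rw [min_eq_right hle] at he
        obtain ⟨k, hk⟩ := hodd
        omega
    · by_contra hcon
      push Not at hcon
      obtain ⟨x, x1, x2, x3, x4⟩ := exists_bad hK hn hr hr2 hd hcon.2
      obtain ⟨W, W1, W2⟩ := H x x1 x2 x3
      have := x4 W W2
      rw [W1.1] at this
      exact hcon.1 this
  · rintro ⟨h1, h2⟩ x hx ⟨z, hz⟩ hns
    obtain ⟨d1, d2, d3⟩ := su_data hK hn hx hz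
    by_cases hw : ∃ w : F, w ^ (q + 1) = 1 ∧ w ^ r = z
    · obtain ⟨w, w1, w2⟩ := hw
      have hw0 : w ≠ 0 := by
        rintro rfl
        rw [zero_pow (by omega)] at w1
        exact zero_ne_one w1
      obtain ⟨T, T1, T2, T3, T4, T5⟩ := su_scale hK hx hw0 w2 d3 hns
      obtain ⟨W, W1, W2⟩ := ti_suf hK (std_he hK n) (std_nd hK n) hr hrq (T := T) (fun u v => by rw [T3, w1, inv_one, one_mul]) T1 (m := m)
        (by rw [dim_std]; exact hmn) (by rw [ord_card_one hK hr hd, ord_neg_one hr hd, Nat.mod_one, Nat.mod_one])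
        (fun _ => by rw [ord_card_one hK hr hd, dim_std, Nat.div_one, Nat.div_one, Nat.div_one]; exact h1)
      exact ⟨W, W1, T5 W W2⟩
    · push Not at hw
      obtain ⟨i1, i2, i3, i4⟩ := irr_data hK hn hr hr2 hd hx hz hw
      have hrm : r ∣ m := h2.resolve_right (by omega)
      obtain ⟨m₁, rfl⟩ := hrm
      have h := std_he (F := F) hK n
      have hiso := mem_SU.1 hx
      have hss := Module.End.isSemisimple_of_squarefree_aeval_eq_zero i1.squarefree i4
      obtain ⟨L, H, A, a1, a2, a3, a4, a5, a6, a7, a8, a9, a10, a11, a12, a13, -⟩ := h.exists_hyp (Nat.succ_pos _) i3 hss hiso (X := ⊤) (fun v _ => trivial) (std_top hK n)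
      have hA := comp_leq hK h hodd i3 hiso a9 a13 i1 natDegree_X_pow_sub_C
      have hA' : A ⊓ LinearMap.ker (aeval (Matrix.toLin' (x : Matrix (Fin n) (Fin n) F)) (Polynomial.X ^ r - C z : F[X])) = A := by
        rw [i4, LinearMap.ker_zero, inf_top_eq]
      rw [hA'] at hA
      obtain ⟨s, s1, s2⟩ := dims_gen hss i1.squarefree (deg_irr i1 hr.pos) _ L rfl a4 (fun v _ => by rw [i4]; rfl)
      rw [finrank_top, dim_std, a8, s1] at a11
      have hle : m₁ ≤ s := by
        by_contra hlt
        push Not at hlt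
        have h3 : r * (s + 1) ≤ r * m₁ := Nat.mul_le_mul_left r hlt
        rw [mul_add, mul_one] at h3
        omega
      obtain ⟨W, W1, W2, W3⟩ := s2 m₁ hle
      exact ⟨W, ⟨W3, fun u hu v hv => a5 u (W1 hu) v (W1 hv)⟩, inv_map.2 W2⟩

end H99.Un
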