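import Mathlib
import Cfsg.Agent.Lib.H99.Un11
import Cfsg.Agent.Lib.H99.PowNegOne

set_option autoImplicit false
set_option linter.unusedSimpArgs false
set_option linter.unusedSectionVars false
set_option linter.unusedVariables false
set_option maxHeartbeats 400000

/-! Involutions modulo scalars in special unitary groups. -/

namespace H99.Un

open Module Submodule Polynomial H99.Iso H49.Unitary
open H99.Ti (Inv inv_sup compl_in inv_bot)

universe u

variable {F : Type u} [Field F] [Fintype F] {n m q : ℕ}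

theorem two_ne (hK : Nat.card F = q ^ 2) (h2 : ¬ 2 ∣ q) : (2 : F) ≠ 0 := by
  have := natCast_ne_zero (F := F) Nat.prime_two (not_dvd_card hK Nat.prime_two h2)
  exact_mod_cast this

/-- data of an involution modulo scalars -/
theorem inv_data (hK : Nat.card F = q ^ 2) (hn : 0 < n) (h2 : ¬ 2 ∣ q) {x : Matrix.SpecialLinearGroup (Fin n) F} (hx : x ∈ Cfsg.SU n F q) {z : F}
    (hz : ((x ^ 2 : Matrix.SpecialLinearGroup (Fin n) F) : Matrix (Fin n) (Fin n) F) = z • (1 : Matrix (Fin n) (Fin n) F))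
    (hns : ∀ z : F, (x : Matrix (Fin n) (Fin n) F) ≠ z • (1 : Matrix (Fin n) (Fin n) F)) :
    ∃ (w : F) (T : (Fin n → F) →ₗ[F] (Fin n → F)), w ≠ 0 ∧ (w ^ (q + 1) = 1 ∨ w ^ (q + 1) = -1) ∧ T ^ 2 = 1 ∧ (∀ a : F, T ≠ a • 1) ∧
      (∀ u v, Cfsg.hermForm n F q (T u) (T v) = (w ^ (q + 1))⁻¹ * Cfsg.hermForm n F q u v) ∧
      (∀ W, Inv T W → W.map (Matrix.toLin' (x : Matrix (Fin n) (Fin n) F)) ≤ W) ∧
      w ^ n * (-1) ^ finrank F (LinearMap.range (T - 1)) = 1 := by
  have hq := two_le hK
  obtain ⟨d1, d2, d3⟩ := su_data hK hn hx hz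
  have hz0 : z ≠ 0 := by
    rintro rfl
    rw [zero_pow (by omega)] at d1
    exact zero_ne_one d1
  have hq1 : 2 ∣ q - 1 := by omega
  have hF : Fact (Nat.Prime 2) := ⟨Nat.prime_two⟩
  obtain ⟨w, hw⟩ := Sub2.exists_root_of_pow Nat.prime_two (by rw [card_sub q hK]; exact Dvd.dvd.mul_left hq1 _) hz0 (show q + 1 ≠ 0 by omega) d1 (by
    rw [card_sub q hK, padicValNat.mul (by omega) (by omega)]
    have := one_le_padicValNat_of_dvd (p := 2) (n := q - 1) (by omega) hq1
    omega)
  have hw0 : w ≠ 0 := by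
    rintro rfl
    rw [zero_pow two_ne_zero] at hw
    exact hz0 hw.symm
  obtain ⟨T, T1, T2, T3, T4, T5⟩ := su_scale hK hx hw0 hw d3 hns
  refine ⟨w, T, hw0, ?_, T1, T2, T3, T5, ?_⟩
  · have h3 : (w ^ (q + 1)) ^ 2 = 1 := by rw [← pow_mul, mul_comm, pow_mul, hw, d1]
    exact mul_self_eq_one_iff.1 (by rw [← pow_two]; exact h3)
  · have h4 : Matrix.toLin' (x : Matrix (Fin n) (Fin n) F) = w • T := LinearMap.ext fun v => T4 v
    have h5 := congrArg LinearMap.det h4
    rw [LinearMap.det_toLin', LinearMap.det_smul, det_inv T1, dim_std] at h5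
    rw [← h5]; exact x.2

theorem range_neg {V : Type*} [AddCommGroup V] [Module F V] {T : V →ₗ[F] V} (hT : T ^ 2 = 1) {v : V} (hv : v ∈ LinearMap.range (T - 1)) : T v = -v := by
  obtain ⟨w, rfl⟩ := hv
  have hTT : T (T w) = w := by
    have := congrArg (fun φ : V →ₗ[F] V => φ w) hT
    rwa [pow_two] at this
  show T (T w - w) = -(T w - w)
  rw [_root_.map_sub, hTT, neg_sub]

theorem inv_ker {V : Type*} [AddCommGroup V] [Module F V] [FiniteDimensional F V] {T : V →ₗ[F] V} {W : Submodule F V} (hW : W ≤ LinearMap.ker (T - 1)) : Inv T W := by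
  intro v hv
  rw [mem_ker_sub.1 (hW hv)]; exact hv

theorem inv_range {V : Type*} [AddCommGroup V] [Module F V] {T : V →ₗ[F] V} (hT : T ^ 2 = 1) {W : Submodule F V} (hW : W ≤ LinearMap.range (T - 1)) : Inv T W := by
  intro v hv
  rw [range_neg hT (hW hv)]; exact W.neg_mem hv

/-- skew involutions -/
theorem skew_data (hK : Nat.card F = q ^ 2) (h2 : ¬ 2 ∣ q) {T : (Fin n → F) →ₗ[F] (Fin n → F)} (hT : T ^ 2 = 1)
    (hsk : ∀ u v, Cfsg.hermForm n F q (T u) (T v) = - Cfsg.hermForm n F q u v) :
    TIg (Cfsg.hermForm n F q) (LinearMap.ker (T - 1)) ∧ TIg (Cfsg.hermForm n F q) (LinearMap.range (T - 1)) ∧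
      2 * finrank F (LinearMap.ker (T - 1)) = n ∧ 2 * finrank F (LinearMap.range (T - 1)) = n := by
  have h2F := two_ne hK h2
  have h := std_he (F := F) hK n
  have t1 : TIg (Cfsg.hermForm n F q) (LinearMap.ker (T - 1)) := by
    intro u hu v hv
    have h3 := hsk u v
    rw [mem_ker_sub.1 hu, mem_ker_sub.1 hv] at h3
    have h4 : 2 * Cfsg.hermForm n F q u v = 0 := by linear_combination h3
    exact (mul_eq_zero.1 h4).resolve_left h2F
  have t2 : TIg (Cfsg.hermForm n F q) (LinearMap.range (T - 1)) := by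
    intro u hu v hv
    have h3 := hsk u v
    rw [range_neg hT hu, range_neg hT hv, h.neg_left, h.neg_right, neg_neg] at h3
    have h4 : 2 * Cfsg.hermForm n F q u v = 0 := by linear_combination h3
    exact (mul_eq_zero.1 h4).resolve_left h2F
  have l1 := h.ti_le (std_top hK n) t1 le_top
  have l2 := h.ti_le (std_top hK n) t2 le_top
  rw [finrank_top, dim_std] at l1 l2
  have l3 := LinearMap.finrank_range_add_finrank_ker (T - 1)
  rw [dim_std] at l3
  exact ⟨t1, t2, by omega, by omega⟩

/-- the two-part of an exponent -/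
theorem val_of_neg_one (hK : Nat.card F = q ^ 2) (h2 : ¬ 2 ∣ q) {w : F} {a b : ℕ} (ha : a ≠ 0) (hb : b ≠ 0) (h1 : w ^ a = -1) (h3 : w ^ b = 1) :
    padicValNat 2 a < padicValNat 2 b := by
  have hF : Fact (Nat.Prime 2) := ⟨Nat.prime_two⟩
  have h2F := two_ne hK h2
  have hne : (-1 : F) ≠ 1 := fun h => h2F (by linear_combination -h)
  by_contra hlt
  push Not at hlt
  obtain ⟨b', hb', hbb⟩ := PowNegOne.two_part hb
  obtain ⟨a', ha', haa⟩ := PowNegOne.two_part ha
  have h4 : (w ^ a) ^ b' = 1 := by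
    obtain ⟨c, hc⟩ := (pow_dvd_pow 2 hlt).trans (pow_padicValNat_dvd (p := 2) (n := a))
    have h5 : a * b' = b * c := by
      calc a * b' = (2 ^ padicValNat 2 b * c) * b' := by rw [← hc]
        _ = (2 ^ padicValNat 2 b * b') * c := by ring
        _ = b * c := by rw [← hbb]
    rw [← pow_mul, h5, pow_mul, h3, one_pow]
  rw [h1, hb'.neg_one_pow] at h4
  exact hne h4

/-- **involutions and totally isotropic subspaces** -/
theorem ti_case_inv (hK : Nat.card F = q ^ 2) (hm : 1 ≤ m) (hmn : 2 * m ≤ n) (h2 : ¬ 2 ∣ q) :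
    AllFix F n q 2 (fun W => W ∈ TIset (Cfsg.hermForm n F q) m) ↔ (2 * m < n ∨ padicValNat 2 (q + 1) ≤ padicValNat 2 n) := by
  have hn : 0 < n := by omega
  have hq := two_le hK
  have h := std_he (F := F) hK n
  have h2F := two_ne hK h2
  have hF2 : Fact (Nat.Prime 2) := ⟨Nat.prime_two⟩
  constructor
  · intro H
    by_contra hcon
    push Not at hcon
    obtain ⟨c1, c2⟩ := hcon
    obtain ⟨w, hw0, hw⟩ := exists_order (F := F) (d := 2 ^ (padicValNat 2 n + 1)) (by
      rw [card_sub q hK]
      exact Dvd.dvd.mul_right ((pow_dvd_pow 2 c2).trans pow_padicValNat_dvd) _)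
    have hw1 : w ^ (q + 1) = 1 := orderOf_dvd_iff_pow_eq_one.1 (by rw [hw]; exact (pow_dvd_pow 2 c2).trans pow_padicValNat_dvd)
    have hw2 : w ^ n = -1 := by
      obtain ⟨n', hn', hnn⟩ := PowNegOne.two_part (n := n) (by omega)
      have h3 : w ^ (2 ^ padicValNat 2 n) = -1 := by
        have h4 : (w ^ (2 ^ padicValNat 2 n)) ^ 2 = 1 := by
          rw [← pow_mul, ← pow_succ, ← hw]; exact pow_orderOf_eq_one w
        rcases mul_self_eq_one_iff.1 (show (w ^ 2 ^ padicValNat 2 n) * (w ^ 2 ^ padicValNat 2 n) = 1 by rw [← pow_two]; exact h4) with h5 | h5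
        · exfalso
          have h6 := orderOf_dvd_of_pow_eq_one h5
          rw [hw] at h6
          have h7 := (Nat.pow_dvd_pow_iff_le_right (by norm_num : 1 < 2)).1 h6
          omega
        · exact h5
      rw [hnn, pow_mul, h3, hn'.neg_one_pow]
    let i₀ : Fin n := ⟨0, hn⟩
    let d : Fin n → F := fun j => if j = i₀ then -w else w
    have hd0 : d i₀ = -w := if_pos rfl
    have hd1 : ∀ j, j ≠ i₀ → d j = w := fun j hj => if_neg hj
    have hprod : ∏ i, d i = 1 := by
      rw [← Finset.mul_prod_erase Finset.univ d (Finset.mem_univ i₀), hd0, Finset.prod_congr rfl (g := fun _ => w) (fun j hj => hd1 j (Finset.mem_erase.1 hj).1),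
        Finset.prod_const, Finset.card_erase_of_mem (Finset.mem_univ _), Finset.card_univ, Fintype.card_fin]
      have : w * w ^ (n - 1) = w ^ n := by rw [← pow_succ']; congr 1; omega
      rw [neg_mul, this, hw2, neg_neg]
    have hne : -w ≠ w := by
      intro h
      have h3 : 2 * w = 0 := by linear_combination -h
      rcases mul_eq_zero.1 h3 with h | h
      · exact h2F h
      · exact hw0 h
    have heven : Even (q + 1) := by rw [Nat.even_iff]; omega
    obtain ⟨x, x1, x2⟩ := diag_su hK hprod (fun i => by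
      by_cases hi : i = i₀
      · rw [hi, hd0, heven.neg_pow, hw1]
      · rw [hd1 i hi, hw1])
    obtain ⟨W, W1, W2⟩ := H x x1 ⟨w ^ 2, by
      rw [Matrix.SpecialLinearGroup.coe_pow, x2]
      apply diag_pow_eq
      intro i
      by_cases hi : i = i₀
      · rw [hi, hd0, neg_pow_two]
      · rw [hd1 i hi]⟩ (by
      rw [x2]
      apply diag_ns (i := i₀) (j := ⟨1, by omega⟩)
      rw [hd0, hd1 _ (by intro h; exact absurd (congrArg Fin.val h) (by norm_num))]
      exact hne)
    rw [inv_map, x2] at W2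
    have := diag_bad hK {i₀} (fun j hj k hjk => by
      rw [Finset.mem_singleton.1 hj] at hjk ⊢
      by_contra hk
      rw [hd0, hd1 k hk] at hjk
      exact hne hjk.symm) W2 W1.2
    rw [W1.1, Finset.card_singleton] at this
    omega
  · rintro hcond x hx ⟨z, hz⟩ hns
    obtain ⟨w, T, w1, w2, T1, T2, T3, T4, T5⟩ := inv_data hK hn h2 hx hz hns
    rcases w2 with w2 | w2
    · have hiso : ∀ u v, Cfsg.hermForm n F q (T u) (T v) = Cfsg.hermForm n F q u v := fun u v => by rw [T3, w2, inv_one, one_mul]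
      obtain ⟨n1, n2, n3, n4, n5, n6, n7⟩ := mov_top hK h (std_nd hK n) Nat.prime_two h2 T1 hiso
      rw [dim_std] at n6
      obtain ⟨t, t', ht, ht', htt⟩ : ∃ t t', 2 * t ≤ finrank F (LinearMap.range (T - 1)) ∧ 2 * t' ≤ finrank F (LinearMap.ker (T - 1)) ∧ t + t' = m := by
        refine ⟨min m (finrank F (LinearMap.range (T - 1)) / 2), m - min m (finrank F (LinearMap.range (T - 1)) / 2), by
          have := min_le_right m (finrank F (LinearMap.range (T - 1)) / 2); omega, ?_, by
          have := min_le_left m (finrank F (LinearMap.range (T - 1)) / 2); omega⟩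
        rcases le_total m (finrank F (LinearMap.range (T - 1)) / 2) with hle | hle
        · rw [min_eq_left hle]; omega
        · rw [min_eq_right hle]
          by_cases hpar : 2 * m < n ∨ Even (finrank F (LinearMap.range (T - 1)))
          · rcases hpar with hp | ⟨k, hk⟩
            · omega
            · omega
          · exfalso
            push Not at hpar
            obtain ⟨p1, p2⟩ := hpar
            have hodd : Odd (finrank F (LinearMap.range (T - 1))) := Nat.not_even_iff_odd.1 p2
            rw [hodd.neg_one_pow] at T5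
            have hwn : w ^ n = -1 := by linear_combination -T5
            have := val_of_neg_one hK h2 (by omega) (by omega) hwn w2
            rcases hcond with h | h
            · omega
            · omega
      obtain ⟨W, a1, a2, a3⟩ := exists_ti hK h n1 ht
      obtain ⟨W', b1, b2, b3⟩ := exists_ti hK h n2 ht'
      refine ⟨W ⊔ W', ⟨?_, h.ti_sup a2 b2 fun y hy z hz => n7 y (a1 hy) z (b1 hz)⟩, T4 _ (inv_sup (inv_range T1 a1) (inv_ker b1))⟩
      have hdis : W ⊓ W' = ⊥ := by
        rw [eq_bot_iff]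
        rintro v ⟨hv, hv'⟩
        exact (Submodule.mem_bot F).2 (n5 v (a1 hv) (mem_ker_sub.1 (b1 hv')))
      have := Submodule.finrank_sup_add_finrank_inf_eq W W'
      rw [hdis, finrank_bot, add_zero, a3, b3, htt] at this
      exact this
    · have hsk : ∀ u v, Cfsg.hermForm n F q (T u) (T v) = - Cfsg.hermForm n F q u v := fun u v => by rw [T3, w2, inv_neg_one, neg_one_mul]
      obtain ⟨s1, s2, s3, s4⟩ := skew_data hK h2 T1 hsk
      obtain ⟨W, a1, a2⟩ := exists_sub (LinearMap.ker (T - 1)) (show m ≤ finrank F (LinearMap.ker (T - 1)) by omega)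
      exact ⟨W, ⟨a2, fun u hu v hv => s1 u (a1 hu) v (a1 hv)⟩, T4 _ (inv_ker a1)⟩

end H99.Un
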