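import Mathlib
import Cfsg.Agent.Lib.H99.Un12

set_option autoImplicit false
set_option linter.unusedSimpArgs false
set_option linter.unusedSectionVars false
set_option linter.unusedVariables false
set_option maxHeartbeats 400000

/-! Unipotent isometries of hermitian spaces. -/

namespace H99.Un

open Module Submodule Polynomial H99.Iso H49.Unitary
open H99.Ti (Inv inv_sup compl_in inv_bot)

section nil

variable {F : Type*} [Field F] {V : Type*} [AddCommGroup V] [Module F V] {N : V →ₗ[F] V} {v : V} {a : ℕ}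

theorem nil_pow (h1 : (N ^ a) v = 0) {k : ℕ} (hk : a ≤ k) : (N ^ k) v = 0 := by
  obtain ⟨l, rfl⟩ := Nat.exists_eq_add_of_le hk
  rw [add_comm, pow_add, Module.End.mul_apply, h1, _root_.map_zero]

theorem nil_key (ha : 0 < a) (h1 : (N ^ a) v = 0) {p : F[X]} (hp : p ≠ 0) (hj : p.rootMultiplicity 0 < a) :
    ∃ c : F, c ≠ 0 ∧ (N ^ (a - 1 - p.rootMultiplicity 0)) (aeval N p v) = c • (N ^ (a - 1)) v := by
  obtain ⟨g, hg, hg'⟩ := Polynomial.exists_eq_pow_rootMultiplicity_mul_and_not_dvd p hp 0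
  rw [_root_.map_zero, sub_zero] at hg hg'
  generalize p.rootMultiplicity 0 = j at hg hj ⊢
  refine ⟨g.coeff 0, fun h => hg' (X_dvd_iff.2 h), ?_⟩
  have h2 : g = C (g.coeff 0) + g.divX * Polynomial.X := by
    rw [add_comm]; exact (divX_mul_X_add g).symm
  have h3 : aeval N g ((N ^ (a - 1)) v) = g.coeff 0 • (N ^ (a - 1)) v := by
    conv_lhs => rw [h2]
    rw [_root_.map_add, LinearMap.add_apply, aeval_C, Module.algebraMap_end_apply, _root_.map_mul, Module.End.mul_apply, aeval_X,
      ← Module.End.mul_apply N, ← pow_succ', show a - 1 + 1 = a by omega, h1, _root_.map_zero, add_zero]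
  conv_lhs => rw [hg]
  rw [← h3, _root_.map_mul, _root_.map_pow, aeval_X]
  have hcomm : Commute (aeval N g) (N ^ (a - 1)) := by
    have : Commute (aeval N g) N := by
      have := (Polynomial.commute_X g)
      have h4 := this.map (aeval N)
      rw [aeval_X] at h4
      exact h4.symm
    exact this.pow_right _
  rw [← Module.End.mul_apply, ← Module.End.mul_apply, ← mul_assoc, ← pow_add, show a - 1 - j + j = a - 1 by omega,
    hcomm.eq]

theorem nil_li (ha : 0 < a) (h1 : (N ^ a) v = 0) (h2 : (N ^ (a - 1)) v ≠ 0) : LinearIndependent F (fun j : Fin a => (N ^ (j : ℕ)) v) := by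
  rw [Fintype.linearIndependent_iff]
  intro c hc
  let h : F[X] := ∑ j : Fin a, C (c j) * (Polynomial.X : F[X]) ^ (j : ℕ)
  have hh : aeval N h v = 0 := by
    have : aeval N h v = ∑ j : Fin a, c j • (N ^ (j : ℕ)) v := by
      show aeval N (∑ j : Fin a, C (c j) * (Polynomial.X : F[X]) ^ (j : ℕ)) v = _
      rw [_root_.map_sum, LinearMap.sum_apply]
      refine Finset.sum_congr rfl fun j _ => ?_
      rw [_root_.map_mul, aeval_C, _root_.map_pow, aeval_X, Module.End.mul_apply, Module.algebraMap_end_apply]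
    rw [this]; exact hc
  have hcoe : ∀ j : Fin a, h.coeff j = c j := by
    intro j
    show (∑ i : Fin a, C (c i) * (Polynomial.X : F[X]) ^ (i : ℕ)).coeff j = c j
    rw [Polynomial.finsetSum_coeff, Finset.sum_eq_single j]
    · rw [coeff_C_mul_X_pow, if_pos rfl]
    · intro i _ hi
      rw [coeff_C_mul_X_pow, if_neg (fun h => hi (Fin.ext h.symm))]
    · intro h; exact absurd (Finset.mem_univ _) h
  have h0 : h = 0 := by
    by_contra hne
    have hd : h.natDegree < a := by
      have h5 : h.degree < a := by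
        apply lt_of_le_of_lt (Polynomial.degree_sum_le _ _)
        rw [Finset.sup_lt_iff (by exact WithBot.bot_lt_coe _)]
        intro j _
        refine lt_of_le_of_lt (degree_C_mul_X_pow_le _ _) ?_
        have hj : (j : ℕ) < a := j.2
        exact_mod_cast hj
      exact (natDegree_lt_iff_degree_lt hne).2 h5
    have hr : h.rootMultiplicity 0 < a := by
      have h6 := natDegree_le_of_dvd (pow_rootMultiplicity_dvd h 0) hne
      rw [natDegree_pow, natDegree_X_sub_C, mul_one] at h6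
      omega
    obtain ⟨c, hc0, hc1⟩ := nil_key ha h1 hne hr
    rw [hh, _root_.map_zero] at hc1
    exact (smul_ne_zero hc0 h2) hc1.symm
  intro j
  rw [← hcoe, h0, coeff_zero]

theorem nil_dim (h1 : (N ^ a) v = 0) (h2 : 0 < a → (N ^ (a - 1)) v ≠ 0) : finrank F (cyc N v a) = a := by
  rcases Nat.eq_zero_or_pos a with rfl | ha
  · have : cyc N v 0 = ⊥ := by
      rw [cyc]
      have : Set.range (fun j : Fin 0 => (N ^ (j : ℕ)) v) = ∅ := Set.range_eq_empty _
      rw [this, Submodule.span_empty]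
    rw [this, finrank_bot]
  · have := finrank_span_eq_card (nil_li ha h1 (h2 ha))
    rw [Fintype.card_fin] at this
    exact this

theorem cyc_map (h1 : (N ^ a) v = 0) (j : ℕ) : (cyc N v a).map (N ^ j) = cyc N ((N ^ j) v) (a - j) := by
  rw [cyc, cyc, Submodule.map_span]
  apply le_antisymm
  · rw [Submodule.span_le]
    rintro _ ⟨_, ⟨i, rfl⟩, rfl⟩
    by_cases hi : (i : ℕ) < a - j
    · apply Submodule.subset_span
      refine ⟨⟨i, hi⟩, ?_⟩
      show (N ^ (i : ℕ)) ((N ^ j) v) = (N ^ j) ((N ^ (i : ℕ)) v)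
      rw [← Module.End.mul_apply, ← Module.End.mul_apply, ← pow_add, ← pow_add, add_comm]
    · show (N ^ j) ((N ^ (i : ℕ)) v) ∈ _
      rw [← Module.End.mul_apply, ← pow_add, nil_pow h1 (k := j + i) (by omega)]
      exact Submodule.zero_mem _
  · rw [Submodule.span_le]
    rintro _ ⟨i, rfl⟩
    apply Submodule.subset_span
    refine ⟨(N ^ (i : ℕ)) v, ⟨⟨i, by have := i.2; omega⟩, rfl⟩, ?_⟩
    show (N ^ j) ((N ^ (i : ℕ)) v) = (N ^ (i : ℕ)) ((N ^ j) v)
    rw [← Module.End.mul_apply, ← Module.End.mul_apply, ← pow_add, ← pow_add, add_comm]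

theorem cyc_ex {y : V} (hy : y ∈ cyc N v a) : ∃ p : F[X], y = aeval N p v := by
  induction hy using Submodule.span_induction with
  | mem x hx =>
    obtain ⟨j, rfl⟩ := hx
    exact ⟨Polynomial.X ^ (j : ℕ), by rw [_root_.map_pow, aeval_X]⟩
  | zero => exact ⟨0, by rw [_root_.map_zero]; rfl⟩
  | add x y _ _ hx hy =>
    obtain ⟨h, rfl⟩ := hx
    obtain ⟨h', rfl⟩ := hy
    exact ⟨h + h', by rw [_root_.map_add]; rfl⟩
  | smul a x _ hx =>
    obtain ⟨h, rfl⟩ := hx
    exact ⟨C a * h, by rw [_root_.map_mul, Module.End.mul_apply, aeval_C, Module.algebraMap_end_apply]⟩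

end nil

section uni

variable {F : Type*} [Field F] [Fintype F] {V : Type*} [AddCommGroup V] [Module F V] [FiniteDimensional F V] {σ : F →+* F} {B : V → V → F}

theorem inv_sub {T : V →ₗ[F] V} {X : Submodule F V} (hX : Inv T X) : Inv (T - 1) X := fun v hv => X.sub_mem (hX v hv) hv

theorem inv_add {T : V →ₗ[F] V} {X : Submodule F V} (hX : Inv (T - 1) X) : Inv T X := by
  intro v hv
  have h1 : T v = (T - 1) v + v := by
    show T v = (T v - v) + v
    abel
  rw [h1]
  exact X.add_mem (hX v hv) hv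

theorem inv_pow {T : V →ₗ[F] V} {X : Submodule F V} (hX : Inv T X) (k : ℕ) : Inv (T ^ k) X := by
  intro v hv
  have := aeval_mem T X hX (Polynomial.X ^ k) v hv
  rwa [_root_.map_pow, aeval_X] at this

/-- **nondegenerate Jordan blocks** -/
theorem uni_block (hσ1 : ∃ a, σ a ≠ a) (h : He σ B) {T : V →ₗ[F] V} {k : ℕ} (hk0 : 0 < k) (hT : T ^ k = 1) (hiso : ∀ u v, B (T u) (T v) = B u v)
    {X : Submodule F V} (hX : Inv T X) (hXn : NDg B X) (hX0 : X ≠ ⊥) {p : ℕ} (hnil : ∀ v ∈ X, ((T - 1) ^ p) v = 0) :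
    ∃ a, 1 ≤ a ∧ a ≤ p ∧ ∃ Y ≤ X, Inv T Y ∧ NDg B Y ∧ finrank F Y = a ∧ ∀ j, finrank F (Y.map ((T - 1) ^ j) : Submodule F V) = a - j := by
  classical
  set N := T - 1 with hN
  have hNi : Inv N X := inv_sub hX
  have hex : ∃ a, ∀ v ∈ X, (N ^ a) v = 0 := ⟨p, hnil⟩
  obtain ⟨a, ha⟩ : ∃ a, a = Nat.find hex := ⟨_, rfl⟩
  have ha1 : ∀ v ∈ X, (N ^ a) v = 0 := by rw [ha]; exact Nat.find_spec hex
  have ha2 : a ≤ p := by rw [ha]; exact Nat.find_min' hex hnil
  have ha0 : 0 < a := by
    rcases Nat.eq_zero_or_pos a with h0 | h0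
    · exfalso
      obtain ⟨x, hx, hx0⟩ := Submodule.exists_mem_ne_zero_of_ne_bot hX0
      have := ha1 x hx
      rw [h0] at this
      exact hx0 this
    · exact h0
  have ha3 : ∃ v ∈ X, (N ^ (a - 1)) v ≠ 0 := by
    have := Nat.find_min hex (m := a - 1) (by rw [← ha]; omega)
    push Not at this
    exact this
  obtain ⟨v, hv, hvv⟩ : ∃ v ∈ X, B ((N ^ (a - 1)) v) v ≠ 0 := by
    by_contra hcon
    push Not at hcon
    obtain ⟨s, hs⟩ := hσ1
    obtain ⟨x, hx, hx0⟩ := ha3
    apply hx0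
    apply hXn _ (inv_pow hNi _ x hx)
    intro y hy
    have e1 : B ((N ^ (a - 1)) x) y + B ((N ^ (a - 1)) y) x = 0 := by
      have := hcon (x + y) (X.add_mem hx hy)
      rw [_root_.map_add, h.add_left, h.add_right, h.add_right, hcon x hx, hcon y hy] at this
      linear_combination this
    have e2 : s * B ((N ^ (a - 1)) x) y + σ s * B ((N ^ (a - 1)) y) x = 0 := by
      have := hcon (s • x + y) (X.add_mem (X.smul_mem s hx) hy)
      have h9 := hcon (s • x) (X.smul_mem s hx)
      rw [_root_.map_add, h.add_left, h.add_right, h.add_right, h9, hcon y hy, _root_.map_smul, h.smul_left, h.smul_right] at this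
      linear_combination this
    have e3 : (s - σ s) * B ((N ^ (a - 1)) x) y = 0 := by linear_combination e2 - σ s * e1
    exact (mul_eq_zero.1 e3).resolve_left (sub_ne_zero.2 (fun h => hs h.symm))
  have hv0 : (N ^ (a - 1)) v ≠ 0 := by
    intro h0
    rw [h0, h.zero_left] at hvv
    exact hvv rfl
  have hYi : Inv N (cyc N v a) := by
    have := cyc_inv N v (Polynomial.X ^ a) (pow_ne_zero _ X_ne_zero) (by rw [_root_.map_pow, aeval_X]; exact ha1 v hv)
    rwa [natDegree_X_pow] at this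
  have hYT : Inv T (cyc N v a) := inv_add hYi
  have hvY : v ∈ cyc N v a := mem_cyc N v a ha0
  refine ⟨a, ha0, ha2, cyc N v a, cyc_le N v a X hNi hv, hYT, ?_, nil_dim (ha1 v hv) (fun _ => hv0), fun j => ?_⟩
  · intro y hy hyY
    by_contra hy0
    obtain ⟨p, rfl⟩ := cyc_ex hy
    have hp0 : p ≠ 0 := by
      rintro rfl
      rw [_root_.map_zero] at hy0
      exact hy0 rfl
    by_cases hj : p.rootMultiplicity 0 < a
    · obtain ⟨c, hc0, hc⟩ := nil_key ha0 (ha1 v hv) hp0 hj
      have h1 : aeval N p v ∈ h.orth (cyc N v a) := hyY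
      have h2 := inv_pow (inv_sub (h.orth_inv hk0 hT hiso hYT)) (a - 1 - p.rootMultiplicity 0) _ h1
      rw [← hN, hc] at h2
      have h3 := h2 v hvY
      rw [h.smul_left] at h3
      exact hvv ((mul_eq_zero.1 h3).resolve_left hc0)
    · apply hy0
      obtain ⟨g, hg, -⟩ := Polynomial.exists_eq_pow_rootMultiplicity_mul_and_not_dvd p hp0 0
      rw [_root_.map_zero, sub_zero] at hg
      rw [hg, mul_comm, _root_.map_mul, Module.End.mul_apply, _root_.map_pow, aeval_X, nil_pow (ha1 v hv) (by omega), _root_.map_zero]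
  · rw [cyc_map (ha1 v hv)]
    apply nil_dim
    · rw [← Module.End.mul_apply, ← pow_add]
      exact nil_pow (ha1 v hv) (by omega)
    · intro hpos
      rw [← Module.End.mul_apply, ← pow_add, show a - j - 1 + j = a - 1 by omega]
      exact hv0

/-- **the Jordan type** -/
theorem uni_type (hσ1 : ∃ a, σ a ≠ a) (h : He σ B) {T : V →ₗ[F] V} {k : ℕ} (hk0 : 0 < k) (hT : T ^ k = 1) (hiso : ∀ u v, B (T u) (T v) = B u v)
    {p : ℕ} (hnil : (T - 1) ^ p = 0) : ∀ n : ℕ, ∀ X : Submodule F V, finrank F X = n → Inv T X → NDg B X →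
    ∃ μ : Multiset ℕ, (∀ a ∈ μ, 0 < a ∧ a ≤ p) ∧ (∀ j, finrank F (X.map ((T - 1) ^ j) : Submodule F V) = (μ.map (fun a => a - j)).sum) ∧
      ∀ ν ≤ μ, ∃ Y ≤ X, Inv T Y ∧ NDg B Y ∧ finrank F Y = ν.sum := by
  intro n
  induction n using Nat.strong_induction_on with
  | _ n ih =>
    intro X hn hX hXn
    by_cases hX0 : X = ⊥
    · refine ⟨0, fun a ha => absurd ha (Multiset.notMem_zero a), fun j => ?_, fun ν hν => ⟨⊥, bot_le, inv_bot T, fun x hx _ => (Submodule.mem_bot F).1 hx, ?_⟩⟩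
      · rw [hX0, Submodule.map_bot, finrank_bot, Multiset.map_zero, Multiset.sum_zero]
      · rw [finrank_bot, Multiset.le_zero.1 hν, Multiset.sum_zero]
    · obtain ⟨a, a1, a2, Y, y1, y2, y3, y4, y5⟩ := uni_block hσ1 h hk0 hT hiso hX hXn hX0 (p := p) (fun v _ => by rw [hnil]; rfl)
      obtain ⟨s1, s2, s3, s4⟩ := h.split hXn y3 y1
      have hZi := h.inf_orth_inv hk0 hT hiso hX y2
      obtain ⟨μ, m1, m2, m3⟩ := ih (finrank F (X ⊓ h.orth Y : Submodule F V)) (by omega) _ rfl hZi s1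
      refine ⟨a ::ₘ μ, ?_, fun j => ?_, fun ν hν => ?_⟩
      · intro b hb
        rcases Multiset.mem_cons.1 hb with rfl | hb
        · exact ⟨a1, a2⟩
        · exact m1 b hb
      · rw [Multiset.map_cons, Multiset.sum_cons, ← m2, ← y5 j]
        have hle : ∀ W : Submodule F V, Inv T W → W.map ((T - 1) ^ j) ≤ W := by
          rintro W hW _ ⟨w, hw, rfl⟩
          exact inv_pow (inv_sub hW) j w hw
        have hd : Y.map ((T - 1) ^ j) ⊓ (X ⊓ h.orth Y).map ((T - 1) ^ j) = ⊥ := by
          rw [eq_bot_iff, ← s4.eq_bot]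
          exact inf_le_inf (hle Y y2) (hle _ hZi)
        have := Submodule.finrank_sup_add_finrank_inf_eq (Y.map ((T - 1) ^ j)) ((X ⊓ h.orth Y).map ((T - 1) ^ j))
        rw [hd, finrank_bot, add_zero, ← Submodule.map_sup, s3] at this
        exact this
      · by_cases haν : a ∈ ν
        · obtain ⟨ν', rfl⟩ := Multiset.exists_cons_of_mem haν
          obtain ⟨Y', g1, g2, g3, g4⟩ := m3 ν' ((Multiset.cons_le_cons_iff a).1 hν)
          obtain ⟨u1, u2⟩ := h.nd_sup y3 g3 (fun y hy z hz => h.symm0 ((g1 hz).2 y hy))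
          exact ⟨Y ⊔ Y', sup_le y1 (g1.trans inf_le_left), inv_sup y2 g2, u1, by rw [u2, y4, g4, Multiset.sum_cons]⟩
        · obtain ⟨Y', g1, g2, g3, g4⟩ := m3 ν ((Multiset.le_cons_of_notMem haν).1 hν)
          exact ⟨Y', g1.trans inf_le_left, g2, g3, g4⟩

end uni

section mset

theorem count_eq (μ : Multiset ℕ) (j : ℕ) :
    (μ.map (fun a => a - j)).sum + (μ.map (fun a => a - (j + 2))).sum = 2 * (μ.map (fun a => a - (j + 1))).sum + μ.count (j + 1) := by
  induction μ using Multiset.induction_on with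
  | empty => simp
  | cons a μ ih =>
    rw [Multiset.map_cons, Multiset.map_cons, Multiset.map_cons, Multiset.sum_cons, Multiset.sum_cons, Multiset.sum_cons, Multiset.count_cons]
    split_ifs with h
    · omega
    · omega

theorem mset_unique {μ μ' : Multiset ℕ} (h0 : ∀ a ∈ μ, 0 < a) (h0' : ∀ a ∈ μ', 0 < a)
    (h : ∀ j, (μ.map (fun a => a - j)).sum = (μ'.map (fun a => a - j)).sum) : μ = μ' := by
  ext a
  rcases Nat.eq_zero_or_pos a with rfl | ha
  · rw [Multiset.count_eq_zero_of_notMem (fun hm => absurd (h0 0 hm) (lt_irrefl 0)), Multiset.count_eq_zero_of_notMem (fun hm => absurd (h0' 0 hm) (lt_irrefl 0))]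
  · obtain ⟨j, rfl⟩ : ∃ j, a = j + 1 := ⟨a - 1, by omega⟩
    have h1 := count_eq μ j
    have h2 := count_eq μ' j
    rw [h, h, h] at h1
    omega

end mset

end H99.Un
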