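import Mathlib
import Cfsg.Agent.Lib.H99.Un12

set_option autoImplicit false
set_option linter.unusedSimpArgs false
set_option linter.unusedSectionVars false
set_option linter.unusedVariables false
set_option maxHeartbeats 400000

/-! Prime order elements of special unitary groups and nondegenerate subspaces. -/

namespace H99.Un

open Module Submodule Polynomial H99.Iso H49.Unitary
open H99.Ti (Inv inv_sup compl_in inv_bot)

universe u

section gen

variable {F : Type*} [Field F] [Fintype F] {q r : ℕ} {V : Type*} [AddCommGroup V] [Module F V] [FiniteDimensional F V] {B : V → V → F}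

/-- sufficiency -/
theorem nd_suf (hK : Nat.card F = q ^ 2) (h : He (frob hK) B) (hN : ∀ u, (∀ v, B u v = 0) → u = 0) (hr : r.Prime) (hrq : ¬ r ∣ q) {T : V →ₗ[F] V}
    (hiso : ∀ u v, B (T u) (T v) = B u v) (hT : T ^ r = 1) {m : ℕ} (hm : m ≤ finrank F V)
    (h2 : m % orderOf (-((q : ℕ) : ZMod r)) ≤ finrank F V % orderOf (-((q : ℕ) : ZMod r))) : ∃ W ∈ NDset B m, Inv T W := by
  obtain ⟨n1, n2, n3, n4, n5, n6, n7⟩ := mov_top hK h hN hr hrq hT hiso
  obtain ⟨s, s1, s4⟩ := nd_dims hK h hr hrq hT hiso n3 n1 n5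
  have hc := ord_pos hr hrq
  set c := orderOf (-((q : ℕ) : ZMod r)) with hcdef
  set n := finrank F V with hn
  set d := finrank F (LinearMap.ker (T - 1)) with hd
  rw [s1] at n6
  have hmb := Nat.div_add_mod m c
  have key : m - c * min s (m / c) ≤ d := by
    rcases le_total (m / c) s with hle | hle
    · rw [min_eq_right hle]
      have h4 : m - c * (m / c) = m % c := by omega
      rw [h4]
      refine h2.trans ?_
      rw [← n6, Nat.mul_add_mod]; exact Nat.mod_le _ _
    · rw [min_eq_left hle]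
      omega
  obtain ⟨L, l1, l2, l3, l4⟩ := s4 (min s (m / c)) (min_le_left _ _)
  obtain ⟨W, w1, w2, w3⟩ := exists_nd hK h n2 key
  obtain ⟨u1, u2⟩ := h.nd_sup l3 w2 (fun y hy z hz => n7 y (l1 hy) z (w1 hz))
  refine ⟨L ⊔ W, ⟨?_, u1⟩, inv_sup l2 fun v hv => ?_⟩
  · rw [u2, l4, w3]
    have h5 : c * min s (m / c) ≤ c * (m / c) := Nat.mul_le_mul_left c (min_le_right _ _)
    omega
  · have := mem_ker_sub.1 (w1 hv)
    rw [this]; exact hv

/-- **necessity** -/
theorem nd_nec (hK : Nat.card F = q ^ 2) (h : He (frob hK) B) (hN : ∀ u, (∀ v, B u v = 0) → u = 0) (hr : r.Prime) (hrq : ¬ r ∣ q)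
    {m : ℕ} (hmn : m ≤ finrank F V) (hΩ : r ∣ Nat.card (NDset B m))
    (H : ∀ T : V →ₗ[F] V, (∀ u v, B (T u) (T v) = B u v) → T ^ r = 1 → T ≠ 1 → ∃ W ∈ NDset B m, Inv T W) :
    orderOf (-((q : ℕ) : ZMod r)) ≤ m ∧ m % orderOf (-((q : ℕ) : ZMod r)) ≤ finrank F V % orderOf (-((q : ℕ) : ZMod r)) := by
  have hrF := not_dvd_card hK hr hrq
  have hcn := c_le_of_nd hK h hN hr hrq hmn hΩ
  obtain ⟨T, t1, t2, t3⟩ := exists_full hK h hN hr hrq
  have hT1 : T ≠ 1 := by
    rintro rfl
    rw [sub_self, LinearMap.ker_zero, finrank_top] at t3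
    omega
  have hdim := full_dim hK h hN hr hrq t1 t2 t3
  obtain ⟨n1, n2, n3, n4, n5, n6, n7⟩ := mov_top hK h hN hr hrq t2 t1
  obtain ⟨W, w1, w2⟩ := H T t1 t2 hT1
  have hpart : ∀ W ∈ NDset B m, Inv T W → ∃ s, orderOf (-((q : ℕ) : ZMod r)) * s + finrank F (W ⊓ LinearMap.ker (T - 1) : Submodule F V) = m := by
    intro W hW hWi
    obtain ⟨a1, a2, a3, -, -⟩ := nd_mov hr hrF h t2 t1 hWi hW.2
    obtain ⟨s, s1, -⟩ := nd_dims hK h hr hrq t2 t1 (X := W ⊓ LinearMap.range (T - 1)) (fun v hv => ⟨hWi v hv.1, n3 v hv.2⟩) a1 (fun v hv => n5 v hv.2)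
    exact ⟨s, by rw [← s1, a3, hW.1]⟩
  constructor
  · by_contra hlt
    push Not at hlt
    refine nd_count hK h hN hr hrq t1 t2 ?_ t3 ⟨W, w1, w2⟩ hΩ
    intro W hW hWi
    obtain ⟨s, s1⟩ := hpart W hW hWi
    have hs : s = 0 := by
      by_contra hs
      have : orderOf (-((q : ℕ) : ZMod r)) ≤ orderOf (-((q : ℕ) : ZMod r)) * s := Nat.le_mul_of_pos_right _ (by omega)
      omega
    rw [hs, mul_zero, zero_add] at s1
    have h4 : W ⊓ LinearMap.ker (T - 1) = W := Submodule.eq_of_le_of_finrank_eq inf_le_left (by rw [s1, hW.1])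
    exact inf_eq_left.1 h4
  · obtain ⟨s, s1⟩ := hpart W w1 w2
    have h3 := Submodule.finrank_mono (inf_le_right : W ⊓ LinearMap.ker (T - 1) ≤ LinearMap.ker (T - 1))
    rw [hdim] at h3
    refine le_trans ?_ h3
    rw [← s1, Nat.mul_add_mod]
    exact Nat.mod_le _ _

end gen

variable {F : Type u} [Field F] [Fintype F] {n m q r : ℕ}

theorem nd_case_gen (hK : Nat.card F = q ^ 2) (hn : 0 < n) (hmn : m ≤ n) (hr : r.Prime) (hrq : ¬ r ∣ q) (hrq1 : ¬ r ∣ q + 1)
    (hΩ : r ∣ Nat.card (NDset (Cfsg.hermForm n F q) m)) :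
    AllFix F n q r (fun W => W ∈ NDset (Cfsg.hermForm n F q) m) ↔
    (orderOf (-((q : ℕ) : ZMod r)) ≤ m ∧ m % orderOf (-((q : ℕ) : ZMod r)) ≤ n % orderOf (-((q : ℕ) : ZMod r))) := by
  rw [AllFix, su_iff hK hn hr hrq1]
  constructor
  · intro H
    have := nd_nec hK (std_he hK n) (std_nd hK n) hr hrq (m := m) (by rw [dim_std]; exact hmn) hΩ (fun T hT hTr hT1 => H T hT hTr hT1)
    rwa [dim_std] at this
  · rintro ⟨-, h2⟩ f hf hfr -
    exact nd_suf hK (std_he hK n) (std_nd hK n) hr hrq hf hfr (by rw [dim_std]; exact hmn) (by rw [dim_std]; exact h2)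

theorem nd_case_two (hK : Nat.card F = q ^ 2) (hn : 0 < n) (hmn : m ≤ n) (hr : r.Prime) (hr2 : r ≠ 2) (hd : r ∣ q + 1) :
    AllFix F n q r (fun W => W ∈ NDset (Cfsg.hermForm n F q) m) ↔ (r ∣ m ∨ padicValNat r n ≤ padicValNat r (q + 1)) := by
  have hrq := not_dvd_q hr hd
  have hodd : Odd r := hr.odd_of_ne_two hr2
  have hF : Fact r.Prime := ⟨hr⟩
  have hq := two_le hK
  constructor
  · intro H
    by_contra hcon
    push Not at hcon
    obtain ⟨x, x1, x2, x3, x4⟩ := exists_bad hK hn hr hr2 hd hcon.2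
    obtain ⟨W, W1, W2⟩ := H x x1 x2 x3
    have := x4 W W2
    rw [W1.1] at this
    exact hcon.1 this
  · rintro h2 x hx ⟨z, hz⟩ hns
    obtain ⟨d1, d2, d3⟩ := su_data hK hn hx hz
    by_cases hw : ∃ w : F, w ^ (q + 1) = 1 ∧ w ^ r = z
    · obtain ⟨w, w1, w2⟩ := hw
      have hw0 : w ≠ 0 := by
        rintro rfl
        rw [zero_pow (by omega)] at w1
        exact zero_ne_one w1
      obtain ⟨T, T1, T2, T3, T4, T5⟩ := su_scale hK hx hw0 w2 d3 hns
      obtain ⟨W, W1, W2⟩ := nd_suf hK (std_he hK n) (std_nd hK n) hr hrq (T := T) (fun u v => by rw [T3, w1, inv_one, one_mul]) T1 (m := m)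
        (by rw [dim_std]; exact hmn) (by rw [ord_neg_one hr hd, Nat.mod_one, Nat.mod_one])
      exact ⟨W, W1, T5 W W2⟩
    · push Not at hw
      obtain ⟨i1, i2, i3, i4⟩ := irr_data hK hn hr hr2 hd hx hz hw
      have hrm : r ∣ m := h2.resolve_right (by omega)
      obtain ⟨m₁, rfl⟩ := hrm
      have h := std_he (F := F) hK n
      have hiso := mem_SU.1 hx
      obtain ⟨s, s1, s2⟩ := nd_chain h (Nat.succ_pos _) i3 hiso (c := r) (P := fun _ => True) (fun _ _ _ _ => trivial) (by
        intro X hX hXn _ hX0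
        obtain ⟨g, hg, hgd, Y, y1, y2, y3, y4⟩ := exists_block_sd (frob_ne hK) h (Nat.succ_pos _) i3 hiso (N := q ^ r)
          (by positivity) (adjq hK h hodd i3 hiso) hX hXn i1.squarefree (fun v _ => by rw [i4]; rfl) hX0
        exact ⟨Y, y1, y2, y3, by rw [y4, deg_irr i1 hr.pos g hg hgd]⟩) hr.pos _ ⊤ rfl (fun v _ => trivial) (std_top hK n) trivial
      rw [finrank_top, dim_std] at s1
      have hle : m₁ ≤ s := by
        rw [s1] at hmn
        exact Nat.le_of_mul_le_mul_left hmn hr.pos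
      obtain ⟨W, -, W1, W2, W3⟩ := s2 m₁ hle
      exact ⟨W, ⟨W3, W2⟩, inv_map.2 W1⟩

section skew

variable {V₀ : Type u}

/-- the hyperbolic form -/
def hyp (F : Type u) [Field F] (h : ℕ) (σ : F →+* F) (x y : (Fin h → F) × (Fin h → F)) : F := ∑ i, (x.1 i * σ (y.2 i) + x.2 i * σ (y.1 i))

theorem hyp_he {σ : F →+* F} (hσ : ∀ a, σ (σ a) = a) (h : ℕ) : He σ (hyp F h σ) := by
  refine ⟨fun u v w => ?_, fun c u w => ?_, fun u v => ?_⟩
  · rw [hyp, hyp, hyp, ← Finset.sum_add_distrib]
    refine Finset.sum_congr rfl fun i _ => ?_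
    simp only [Prod.fst_add, Prod.snd_add, Pi.add_apply]; ring
  · rw [hyp, hyp, Finset.mul_sum]
    refine Finset.sum_congr rfl fun i _ => ?_
    simp only [Prod.smul_fst, Prod.smul_snd, Pi.smul_apply, smul_eq_mul]; ring
  · rw [hyp, hyp, _root_.map_sum]
    refine Finset.sum_congr rfl fun i _ => ?_
    rw [_root_.map_add, _root_.map_mul, _root_.map_mul, hσ, hσ]; ring

theorem hyp_nd {σ : F →+* F} (h : ℕ) (x : (Fin h → F) × (Fin h → F)) (hx : ∀ y, hyp F h σ x y = 0) : x = 0 := by
  refine Prod.ext ?_ ?_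
  · funext i
    have h1 := hx (0, Pi.single i 1)
    rw [hyp, Finset.sum_eq_single i] at h1
    · simpa using h1
    · intro j _ hj
      simp [Pi.single_eq_of_ne hj]
    · intro h; exact absurd (Finset.mem_univ _) h
  · funext i
    have h1 := hx (Pi.single i 1, 0)
    rw [hyp, Finset.sum_eq_single i] at h1
    · simpa using h1
    · intro j _ hj
      simp [Pi.single_eq_of_ne hj]
    · intro h; exact absurd (Finset.mem_univ _) h

/-- a skew involution -/
theorem exists_skew (hK : Nat.card F = q ^ 2) (h : ℕ) : ∃ T : (Fin (2 * h) → F) →ₗ[F] (Fin (2 * h) → F), T ^ 2 = 1 ∧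
    ∀ u v, Cfsg.hermForm (2 * h) F q (T u) (T v) = - Cfsg.hermForm (2 * h) F q u v := by
  obtain ⟨e, he⟩ := exists_std hK (hyp_he (frob_frob hK) h) (hyp_nd h) (n := 2 * h) (by
    rw [finrank_prod, Module.finrank_fintype_fun_eq_card, Fintype.card_fin]; ring)
  let S : ((Fin h → F) × (Fin h → F)) →ₗ[F] ((Fin h → F) × (Fin h → F)) := LinearMap.prodMap LinearMap.id (-LinearMap.id)
  have hS : ∀ x, S x = (x.1, -x.2) := fun x => rfl
  have hSS : ∀ x, S (S x) = x := fun x => by rw [hS, hS, neg_neg]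
  have hsk : ∀ x y, hyp F h (frob hK) (S x) (S y) = - hyp F h (frob hK) x y := by
    intro x y
    rw [hyp, hyp, hS, hS, ← Finset.sum_neg_distrib]
    refine Finset.sum_congr rfl fun i _ => ?_
    show x.1 i * frob hK ((-y.2) i) + (-x.2) i * frob hK (y.1 i) = _
    rw [Pi.neg_apply, Pi.neg_apply, _root_.map_neg]; ring
  let T : (Fin (2 * h) → F) →ₗ[F] (Fin (2 * h) → F) := e.toLinearMap ∘ₗ S ∘ₗ e.symm.toLinearMap
  have hT : ∀ x, T (e x) = e (S x) := by
    intro x
    show e (S (e.symm (e x))) = _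
    rw [LinearEquiv.symm_apply_apply]
  refine ⟨T, ?_, ?_⟩
  · apply LinearMap.ext
    intro v
    obtain ⟨x, rfl⟩ := e.surjective v
    rw [pow_two, Module.End.mul_apply, hT, hT, hSS]; rfl
  · intro u v
    obtain ⟨x, rfl⟩ := e.surjective u
    obtain ⟨y, rfl⟩ := e.surjective v
    rw [hT, hT, he, he, hsk]

end skew

/-- **involutions and nondegenerate subspaces** -/
theorem nd_case_inv (hK : Nat.card F = q ^ 2) (hn : 3 ≤ n) (hmn : m ≤ n) (h2 : ¬ 2 ∣ q) :
    AllFix F n q 2 (fun W => W ∈ NDset (Cfsg.hermForm n F q) m) ↔ (Odd n ∨ Even m ∨ (padicValNat 2 n ≤ padicValNat 2 (q + 1) ∧ q % 4 = 3)) := by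
  have hn0 : 0 < n := by omega
  have hq := two_le hK
  have h := std_he (F := F) hK n
  have h2F := two_ne hK h2
  have hF2 : Fact (Nat.Prime 2) := ⟨Nat.prime_two⟩
  have hne1 : (-1 : F) ≠ 1 := fun h => h2F (by linear_combination -h)
  constructor
  · intro H
    by_contra hcon
    push Not at hcon
    obtain ⟨c1, c2, c3⟩ := hcon
    rw [Nat.not_odd_iff_even] at c1
    rw [Nat.not_even_iff_odd] at c2
    obtain ⟨h', hh'⟩ := c1
    have hn2 : n = 2 * h' := by omega
    obtain ⟨w, hw0, w1, w2⟩ : ∃ w : F, w ≠ 0 ∧ w ^ (q + 1) = -1 ∧ (-(w ^ 2)) ^ h' = 1 := by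
      by_cases hq4 : q % 4 = 3
      · have hv : padicValNat 2 (q + 1) < padicValNat 2 n := by
          by_contra hlt
          push Not at hlt
          exact c3 hlt hq4
        have hs : 2 ≤ padicValNat 2 (q + 1) := by
          have : 2 ^ 2 ∣ q + 1 := by
            have : 4 ∣ q + 1 := by omega
            exact this
          exact (padicValNat_dvd_iff_le (by omega)).1 this
        obtain ⟨o', ho', hoo⟩ := PowNegOne.two_part (n := q + 1) (by omega)
        obtain ⟨w, hw0, hw⟩ := exists_order (F := F) (d := 2 ^ (padicValNat 2 (q + 1) + 1)) (by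
          rw [card_sub q hK, pow_succ]
          exact Nat.mul_dvd_mul pow_padicValNat_dvd (by omega))
        have h3 : w ^ (2 ^ padicValNat 2 (q + 1)) = -1 := by
          have h4 : (w ^ (2 ^ padicValNat 2 (q + 1))) ^ 2 = 1 := by
            rw [← pow_mul, ← pow_succ, ← hw]; exact pow_orderOf_eq_one w
          rcases mul_self_eq_one_iff.1 (show (w ^ 2 ^ padicValNat 2 (q + 1)) * (w ^ 2 ^ padicValNat 2 (q + 1)) = 1 by rw [← pow_two]; exact h4) with h5 | h5
          · exfalso
            have h6 := orderOf_dvd_of_pow_eq_one h5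
            rw [hw] at h6
            have h7 := (Nat.pow_dvd_pow_iff_le_right (by norm_num : 1 < 2)).1 h6
            omega
          · exact h5
        refine ⟨w, hw0, ?_, ?_⟩
        · rw [hoo, pow_mul, h3, ho'.neg_one_pow]
        · have h4 : 2 ^ padicValNat 2 (q + 1) ∣ h' := by
            have hh0 : h' ≠ 0 := by omega
            rw [padicValNat_dvd_iff_le hh0]
            rw [hn2, padicValNat.mul (by norm_num) hh0, padicValNat_self] at hv
            omega
          obtain ⟨c, hc⟩ := h4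
          rw [hc, pow_mul]
          have h5 : (-(w ^ 2)) ^ (2 ^ padicValNat 2 (q + 1)) = 1 := by
            have h6 : Even (2 ^ padicValNat 2 (q + 1)) := by
              rw [Nat.even_pow]; exact ⟨by norm_num, by omega⟩
            rw [h6.neg_pow, ← pow_mul, mul_comm 2, pow_mul, h3]; ring
          rw [h5, one_pow]
      · have hq41 : q % 4 = 1 := by omega
        obtain ⟨w, hw0, hw⟩ := exists_order (F := F) (d := 4) (by
          rw [card_sub q hK]
          have : 4 ∣ q - 1 := by omega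
          exact Dvd.dvd.mul_left this _)
        have h3 : w ^ 2 = -1 := by
          have h4 : (w ^ 2) * (w ^ 2) = 1 := by
            have h8 := pow_orderOf_eq_one w
            rw [hw] at h8
            linear_combination h8
          rcases mul_self_eq_one_iff.1 h4 with h5 | h5
          · exfalso
            have := Nat.le_of_dvd (by norm_num) (orderOf_dvd_of_pow_eq_one h5)
            omega
          · exact h5
        refine ⟨w, hw0, ?_, ?_⟩
        · obtain ⟨k, hk⟩ : ∃ k, q + 1 = 2 * (2 * k + 1) := ⟨(q - 1) / 4, by omega⟩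
          rw [hk, pow_mul, h3, Odd.neg_one_pow ⟨k, rfl⟩]
        · rw [h3, neg_neg, one_pow]
    subst hn2
    obtain ⟨T, T1, T2⟩ := exists_skew (F := F) hK h'
    obtain ⟨s1, s2, s3, s4⟩ := skew_data hK h2 T1 T2
    have hdet : (LinearMap.toMatrix' (w • T)).det = 1 := by
      rw [LinearMap.det_toMatrix', LinearMap.det_smul, det_inv T1, dim_std, show finrank F (LinearMap.range (T - 1)) = h' by omega, pow_mul, ← mul_pow, mul_neg_one]
      exact w2
    obtain ⟨x, x1, x2⟩ := exists_su (f := w • T) (fun u v => by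
      rw [LinearMap.smul_apply, LinearMap.smul_apply, h.smul_left, h.smul_right, frob_apply, T2]
      rw [pow_succ] at w1
      linear_combination -(Cfsg.hermForm (2 * h') F q u v) * w1) hdet
    obtain ⟨W, W1, W2⟩ := H x x1 ⟨w ^ 2, by
      apply mat_smul
      intro v
      rw [← toLin_pow', x2, _root_.smul_pow, T1]; rfl⟩ (by
      intro a ha
      have h3 : ∀ v, w • T v = a • v := fun v => by
        have := smul_mat ha v
        rw [x2] at this
        exact this
      have h4 : ∀ v, T v = (w⁻¹ * a) • v := by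
        intro v
        rw [← smul_smul, ← h3, smul_smul, inv_mul_cancel₀ hw0, one_smul]
      have hk0 : LinearMap.ker (T - 1) ≠ ⊥ := by
        intro h0
        rw [h0, finrank_bot] at s3
        omega
      obtain ⟨v, hv, hv0⟩ := Submodule.exists_mem_ne_zero_of_ne_bot hk0
      have h5 : (w⁻¹ * a) • v = v := by rw [← h4]; exact mem_ker_sub.1 hv
      have h6 : w⁻¹ * a = 1 := by
        by_contra hne
        have h7 : (w⁻¹ * a - 1) • v = 0 := by rw [sub_smul, h5, one_smul, sub_self]
        rcases smul_eq_zero.1 h7 with h | h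
        · exact hne (sub_eq_zero.1 h)
        · exact hv0 h
      have h7 : LinearMap.range (T - 1) = ⊥ := by
        rw [LinearMap.range_eq_bot]
        apply LinearMap.ext
        intro v
        rw [LinearMap.sub_apply, h4, h6, one_smul]
        exact sub_self v
      rw [h7, finrank_bot] at s4
      omega)
    rw [inv_map, x2] at W2
    have hWT : Inv T W := by
      intro v hv
      have h3 := W.smul_mem w⁻¹ (W2 v hv)
      rw [LinearMap.smul_apply, smul_smul, inv_mul_cancel₀ hw0, one_smul] at h3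
      exact h3
    have e1 := inv_split hK Nat.prime_two h2 T1 hWT
    have e2 := h.ti_le W1.2 (W := W ⊓ LinearMap.range (T - 1)) (fun u hu v hv => s2 u hu.2 v hv.2) inf_le_left
    have e3 := h.ti_le W1.2 (W := W ⊓ LinearMap.ker (T - 1)) (fun u hu v hv => s1 u hu.2 v hv.2) inf_le_left
    rw [W1.1] at e1 e2 e3
    obtain ⟨k, hk⟩ := c2
    omega
  · rintro hcond x hx ⟨z, hz⟩ hns
    obtain ⟨w, T, w1, w2, T1, T2, T3, T4, T5⟩ := inv_data hK hn0 h2 hx hz hns
    rcases w2 with w2 | w2
    · have hiso : ∀ u v, Cfsg.hermForm n F q (T u) (T v) = Cfsg.hermForm n F q u v := fun u v => by rw [T3, w2, inv_one, one_mul]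
      obtain ⟨n1, n2, n3, n4, n5, n6, n7⟩ := mov_top hK h (std_nd hK n) Nat.prime_two h2 T1 hiso
      rw [dim_std] at n6
      obtain ⟨t, t', ht, ht', htt⟩ : ∃ t t', t ≤ finrank F (LinearMap.range (T - 1)) ∧ t' ≤ finrank F (LinearMap.ker (T - 1)) ∧ t + t' = m := by
        refine ⟨min m (finrank F (LinearMap.range (T - 1))), m - min m (finrank F (LinearMap.range (T - 1))), min_le_right _ _, ?_, by
          have := min_le_left m (finrank F (LinearMap.range (T - 1))); omega⟩
        rcases le_total m (finrank F (LinearMap.range (T - 1))) with hle | hle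
        · rw [min_eq_left hle]; omega
        · rw [min_eq_right hle]; omega
      obtain ⟨W, a1, a2, a3⟩ := exists_nd hK h n1 ht
      obtain ⟨W', b1, b2, b3⟩ := exists_nd hK h n2 ht'
      obtain ⟨u1, u2⟩ := h.nd_sup a2 b2 (fun y hy z hz => n7 y (a1 hy) z (b1 hz))
      exact ⟨W ⊔ W', ⟨by rw [u2, a3, b3, htt], u1⟩, T4 _ (inv_sup (inv_range T1 a1) (inv_ker b1))⟩
    · have hsk : ∀ u v, Cfsg.hermForm n F q (T u) (T v) = - Cfsg.hermForm n F q u v := fun u v => by rw [T3, w2, inv_neg_one, neg_one_mul]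
      obtain ⟨s1, s2, s3, s4⟩ := skew_data hK h2 T1 hsk
      have hmeven : Even m := by
        rcases hcond with ho | he | ⟨hv, hq4⟩
        · exfalso
          obtain ⟨k, hk⟩ := ho
          omega
        · exact he
        · exfalso
          obtain ⟨h', hh'⟩ : ∃ h', h' = finrank F (LinearMap.range (T - 1)) := ⟨_, rfl⟩
          rw [← hh'] at T5 s4
          have e1 : (-(w ^ 2)) ^ h' = 1 := by
            rw [neg_pow, ← pow_mul, s4, mul_comm]; exact T5
          have e2 : (-(w ^ 2)) ^ ((q + 1) / 2) = -1 := by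
            obtain ⟨k, hk⟩ : ∃ k, (q + 1) / 2 = 2 * k := ⟨(q + 1) / 4, by omega⟩
            have hk2 : 2 * ((q + 1) / 2) = q + 1 := by omega
            have heven : Even ((q + 1) / 2) := ⟨k, by omega⟩
            rw [heven.neg_pow, ← pow_mul, hk2, w2]
          have e3 := val_of_neg_one hK h2 (a := (q + 1) / 2) (b := h') (by omega) (by omega) e2 e1
          have e4 : padicValNat 2 n = 1 + padicValNat 2 h' := by
            rw [← s4, padicValNat.mul (by norm_num) (by omega), padicValNat_self]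
          have e5 : padicValNat 2 (q + 1) = 1 + padicValNat 2 ((q + 1) / 2) := by
            have hk2 : 2 * ((q + 1) / 2) = q + 1 := by omega
            conv_lhs => rw [← hk2]
            rw [padicValNat.mul (by norm_num) (by omega), padicValNat_self]
          omega
      obtain ⟨j, hj⟩ := hmeven
      obtain ⟨U, a1, a2⟩ := exists_sub (LinearMap.ker (T - 1)) (show j ≤ finrank F (LinearMap.ker (T - 1)) by omega)
      -- the isometry `w T`
      have hiso : ∀ u v, Cfsg.hermForm n F q ((w • T) u) ((w • T) v) = Cfsg.hermForm n F q u v := by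
        intro u v
        rw [LinearMap.smul_apply, LinearMap.smul_apply, h.smul_left, h.smul_right, frob_apply, hsk]
        rw [pow_succ] at w2
        linear_combination -(Cfsg.hermForm n F q u v) * w2
      have hpow : (w • T) ^ (2 * (q + 1)) = 1 := by
        rw [pow_mul, _root_.smul_pow, T1, _root_.smul_pow, one_pow, ← pow_mul, mul_comm 2, pow_mul, w2, neg_one_sq, one_smul]
      have hss : Module.End.IsSemisimple (w • T) := by
        apply Module.End.isSemisimple_of_squarefree_aeval_eq_zero (p := (Polynomial.X ^ 2 - C (w ^ 2) : F[X]))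
        · exact (separable_X_pow_sub_C (w ^ 2) (by exact_mod_cast h2F) (pow_ne_zero 2 w1)).squarefree
        · rw [_root_.map_sub, _root_.map_pow, aeval_X, aeval_C, _root_.smul_pow, T1, Algebra.algebraMap_eq_smul_one, sub_self]
      have hUi : Inv (w • T) U := by
        intro v hv
        rw [LinearMap.smul_apply]
        exact U.smul_mem _ (inv_ker a1 v hv)
      obtain ⟨W, -, -, W1, W2, W3⟩ := h.hull (by omega) hpow hss hiso (X := ⊤) (fun v _ => trivial) (std_top hK n) le_top hUi
        (fun u hu v hv => s1 u (a1 hu) v (a1 hv))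
      refine ⟨W, ⟨by rw [W3, a2]; omega, W2⟩, T4 _ fun v hv => ?_⟩
      have h3 := W.smul_mem w⁻¹ (W1 v hv)
      rw [LinearMap.smul_apply, smul_smul, inv_mul_cancel₀ w1, one_smul] at h3
      exact h3

end H99.Un
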