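import Mathlib
import Cfsg.Agent.Lib.H99.Un13
import Cfsg.Agent.Lib.H49.GUUnip
import Cfsg.Agent.Lib.H48.JTForm2
import Cfsg.Agent.Lib.H48.Jordan

set_option autoImplicit false
set_option linter.unusedSimpArgs false
set_option linter.unusedSectionVars false
set_option linter.unusedVariables false
set_option maxHeartbeats 400000

/-! Unipotent elements of special unitary groups and nondegenerate subspaces. -/

namespace H99.Un

open Module Submodule Polynomial H99.Iso H49.Unitary
open H99.Ti (Inv inv_sup compl_in inv_bot)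

universe u

section sub

variable {F : Type*} [Field F] {V : Type*} [AddCommGroup V] [Module F V]

theorem sub_one_pow {p : ℕ} [Fact p.Prime] [CharP F p] (T : V →ₗ[F] V) : (T - 1) ^ p = T ^ p - 1 := by
  have h1 : (Polynomial.X - 1 : F[X]) ^ p = Polynomial.X ^ p - 1 := by
    rw [sub_pow_char, one_pow]
  have h2 := congrArg (aeval T) h1
  rwa [_root_.map_pow, _root_.map_sub, _root_.map_sub, _root_.map_pow, aeval_X, _root_.map_one] at h2

end sub

theorem sum_get (μ : Multiset ℕ) (f : ℕ → ℕ) : ∑ k : Fin μ.toList.length, f (μ.toList.get k) = (μ.map f).sum := by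
  have h1 : (μ.map f).sum = (μ.toList.map f).sum := by
    conv_lhs => rw [← Multiset.coe_toList μ]
    rw [Multiset.map_coe, Multiset.sum_coe]
  rw [h1, ← List.sum_ofFn]
  congr 1
  conv_rhs => rw [← List.ofFn_get μ.toList]
  rw [List.map_ofFn]
  rfl

variable {F : Type u} [Field F] [Fintype F] {n m q : ℕ}

open Matrix in
/-- unipotent isometries of a given Jordan type -/
theorem exists_uni (hK : Nat.card F = q ^ 2) {p : ℕ} [Fact p.Prime] [CharP F p] (hn0 : 0 < n) (μ : Multiset ℕ) (h1 : ∀ a ∈ μ, 0 < a ∧ a ≤ p) (hn : μ.sum = n) :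
    ∃ T : (Fin n → F) →ₗ[F] (Fin n → F), (∀ u v, Cfsg.hermForm n F q (T u) (T v) = Cfsg.hermForm n F q u v) ∧ T ^ p = 1 ∧
      ∀ j, finrank F (LinearMap.range ((T - 1) ^ j)) = (μ.map (fun a => a - j)).sum := by
  classical
  let t := μ.toList.length
  let d : Fin t → ℕ := fun k => μ.toList.get k
  have hdm : ∀ k, d k ∈ μ := fun k => Multiset.mem_toList.1 (List.get_mem _ _)
  have hcard : Fintype.card ((k : Fin t) × Fin (d k)) = n := by
    rw [Fintype.card_sigma]
    have h2 := sum_get μ (fun a => a)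
    rw [Multiset.map_id'] at h2
    rw [← hn, ← h2]
    exact Finset.sum_congr rfl fun k _ => Fintype.card_fin _
  let e : ((k : Fin t) × Fin (d k)) ≃ Fin n := Fintype.equivFinOfCardEq hcard
  let J : Matrix (Fin n) (Fin n) F := Matrix.reindex e e (Cfsg.jordanTypeMatrix d F)
  let A : Matrix (Fin n) (Fin n) F := Matrix.reindex e e (H49.GUUnip.G0 d F)
  have hct : ct hK J = Jᵀ := by
    show ct hK (Matrix.reindex e e (Cfsg.jordanTypeMatrix d F)) = (Matrix.reindex e e (Cfsg.jordanTypeMatrix d F))ᵀ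
    have h3 : ct hK (Matrix.reindex e e (Cfsg.jordanTypeMatrix d F)) = Matrix.reindex e e (ct hK (Cfsg.jordanTypeMatrix d F)) := rfl
    rw [h3, H49.GUUnip.ct_jt, Matrix.transpose_reindex]
  have hJA : Jᵀ * A * J = A := H48.JTForm.reindex_invariant e (H49.GUUnip.G0_inv (K := F) d)
  have hAdet : A.det ≠ 0 := by
    show (Matrix.reindex e e (H49.GUUnip.G0 d F)).det ≠ 0
    rw [Matrix.det_reindex_self]
    exact H49.GUUnip.G0_det (K := F) d
  have hJdet : J.det ≠ 0 := by
    intro h0
    have h2 := congrArg Matrix.det hJA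
    rw [Matrix.det_mul, h0, mul_zero] at h2
    exact hAdet h2.symm
  let g : GL (Fin n) F := Matrix.GeneralLinearGroup.mkOfDetNeZero J hJdet
  have hg : (g : Matrix (Fin n) (Fin n) F) = J := rfl
  obtain ⟨y, hy⟩ := exists_conj_mem_GU hK g A ((Matrix.isUnit_iff_isUnit_det A).2 (isUnit_iff_ne_zero.2 hAdet)) (by rw [hg, hct, hJA])
  obtain ⟨M, hM⟩ : ∃ M : Matrix (Fin n) (Fin n) F, M = ((y * g * y⁻¹ : GL (Fin n) F) : Matrix (Fin n) (Fin n) F) := ⟨_, rfl⟩
  have hconj : IsConj J M := by
    refine ⟨y, ?_⟩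
    show (y : Matrix (Fin n) (Fin n) F) * J = M * (y : Matrix (Fin n) (Fin n) F)
    have h2 : ((y * g * y⁻¹ * y : GL (Fin n) F) : Matrix (Fin n) (Fin n) F) = ((y * g : GL (Fin n) F) : Matrix (Fin n) (Fin n) F) := by
      rw [inv_mul_cancel_right]
    rw [Units.val_mul, ← hM, Units.val_mul, hg] at h2
    exact h2.symm
  have hrank : ∀ j, ((M - 1) ^ j).rank = (μ.map (fun a => a - j)).sum := by
    intro j
    rw [← H48.JTForm.isConj_rank hconj j, ← sum_get μ (fun a => a - j)]
    exact H48.JTForm.rank_reindex_jt e j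
  have hpow : ∀ j, (Matrix.toLin' M - 1) ^ j = Matrix.toLin' ((M - 1) ^ j) := by
    intro j
    rw [Matrix.toLin'_pow, _root_.map_sub, Matrix.toLin'_one]; rfl
  have hr : ∀ j, finrank F (LinearMap.range ((Matrix.toLin' M - 1) ^ j)) = (μ.map (fun a => a - j)).sum := by
    intro j
    rw [← hrank, hpow]; rfl
  refine ⟨Matrix.toLin' M, ?_, ?_, hr⟩
  · intro u v
    rw [hM]
    exact hy u v
  · have h2 : (Matrix.toLin' M - 1) ^ p = 0 := by
      rw [← LinearMap.range_eq_bot, ← Submodule.finrank_eq_zero (R := F), hr]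
      apply Multiset.sum_eq_zero
      intro x hx
      obtain ⟨a, ha, rfl⟩ := Multiset.mem_map.1 hx
      have := h1 a ha
      omega
    rw [sub_one_pow, sub_eq_zero] at h2
    exact h2

theorem p_dvd_q (hK : Nat.card F = q ^ 2) {p : ℕ} [Fact p.Prime] [hcp : CharP F p] : p ∣ q := by
  obtain ⟨ℓ, k, h1, h2, rfl⟩ := exists_l hK
  have h3 : ℓ = p := CharP.eq F h2 hcp
  subst h3
  have hq := two_le hK
  rcases Nat.eq_zero_or_pos k with rfl | hk
  · rw [pow_zero] at hq; omega
  · exact dvd_pow_self _ (by omega)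

/-- **unipotent case** -/
theorem nd_case_p (hK : Nat.card F = q ^ 2) {p : ℕ} [Fact p.Prime] [CharP F p] (hn : 0 < n) (hmn : m ≤ n) :
    AllFix F n q p (fun W => W ∈ NDset (Cfsg.hermForm n F q) m) ↔
      ∀ μ : Multiset ℕ, (∀ a ∈ μ, 0 < a ∧ a ≤ p) → μ.sum = n → ∃ ν : Multiset ℕ, ν ≤ μ ∧ ν.sum = m := by
  have hp : p.Prime := Fact.out
  have hpq : p ∣ q := p_dvd_q hK
  have hpq1 : ¬ p ∣ q + 1 := by
    intro h
    exact hp.one_lt.ne' (Nat.dvd_one.1 ((Nat.dvd_add_right hpq).1 h))
  have h := std_he (F := F) hK n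
  rw [AllFix, su_iff hK hn hp hpq1]
  constructor
  · intro H μ h1 h2
    obtain ⟨T, t1, t2, t3⟩ := exists_uni hK hn μ h1 h2
    by_cases hT1 : T = 1
    · have h3 := t3 1
      rw [hT1, sub_self, pow_one, LinearMap.range_zero, finrank_bot] at h3
      have h4 : ∀ a ∈ μ, a = 1 := by
        intro a ha
        have h5 : a - 1 ∈ μ.map (fun a => a - 1) := Multiset.mem_map_of_mem _ ha
        have h6 := Multiset.single_le_sum (fun _ _ => Nat.zero_le _) _ h5
        have := h1 a ha
        omega
      have h5 := Multiset.eq_replicate_card.2 h4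
      have h6 : Multiset.card μ = n := by
        rw [← h2, h5, Multiset.sum_replicate, Multiset.card_replicate, smul_eq_mul, mul_one]
      refine ⟨Multiset.replicate m 1, ?_, by rw [Multiset.sum_replicate, smul_eq_mul, mul_one]⟩
      rw [h5, h6]
      exact (Multiset.replicate_le_replicate 1).2 hmn
    · obtain ⟨W, w1, w2⟩ := H T t1 t2 hT1
      have hnil : (T - 1) ^ p = 0 := by rw [sub_one_pow, t2, sub_self]
      obtain ⟨μ₁, a1, a2, -⟩ := uni_type (frob_ne hK) h hp.pos t2 t1 hnil _ W rfl w2 w1.2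
      have ho := h.orth_inv hp.pos t2 t1 w2
      have hond : NDg (Cfsg.hermForm n F q) (h.orth W) := by
        have := (h.split (std_top hK n) w1.2 le_top).1
        rwa [top_inf_eq] at this
      obtain ⟨μ₂, b1, b2, -⟩ := uni_type (frob_ne hK) h hp.pos t2 t1 hnil _ (h.orth W) rfl ho hond
      have hc := h.isCompl w1.2
      have hle : ∀ j, ∀ X : Submodule F (Fin n → F), Inv T X → X.map ((T - 1) ^ j) ≤ X := by
        rintro j X hX _ ⟨x, hx, rfl⟩
        exact inv_pow (inv_sub hX) j x hx
      have hsum : μ = μ₁ + μ₂ := by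
        apply mset_unique (fun a ha => (h1 a ha).1)
        · intro a ha
          rcases Multiset.mem_add.1 ha with ha | ha
          · exact (a1 a ha).1
          · exact (b1 a ha).1
        · intro j
          rw [Multiset.map_add, Multiset.sum_add, ← a2, ← b2, ← t3]
          have hd : W.map ((T - 1) ^ j) ⊓ (h.orth W).map ((T - 1) ^ j) = ⊥ := by
            rw [eq_bot_iff, ← hc.disjoint.eq_bot]
            exact inf_le_inf (hle j W w2) (hle j _ ho)
          have := Submodule.finrank_sup_add_finrank_inf_eq (W.map ((T - 1) ^ j)) ((h.orth W).map ((T - 1) ^ j))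
          rw [hd, finrank_bot, add_zero, ← Submodule.map_sup, codisjoint_iff.1 hc.codisjoint, Submodule.map_top] at this
          exact this
      refine ⟨μ₁, by rw [hsum]; exact Multiset.le_add_right _ _, ?_⟩
      have h3 := a2 0
      rw [pow_zero, show (1 : (Fin n → F) →ₗ[F] (Fin n → F)) = LinearMap.id from rfl, Submodule.map_id, w1.1] at h3
      simp only [Nat.sub_zero, Multiset.map_id'] at h3
      exact h3.symm
  · intro hQ f hf hfr _
    have hnil : (f - 1) ^ p = 0 := by rw [sub_one_pow, hfr, sub_self]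
    obtain ⟨μ, a1, a2, a3⟩ := uni_type (frob_ne hK) h hp.pos hfr hf hnil _ ⊤ rfl (fun v _ => trivial) (std_top hK n)
    have h3 := a2 0
    rw [pow_zero, show (1 : (Fin n → F) →ₗ[F] (Fin n → F)) = LinearMap.id from rfl, Submodule.map_id, finrank_top, dim_std] at h3
    simp only [Nat.sub_zero, Multiset.map_id'] at h3
    obtain ⟨ν, n1, n2⟩ := hQ μ a1 h3.symm
    obtain ⟨Y, -, y1, y2, y3⟩ := a3 ν n1
    exact ⟨Y, ⟨by rw [y3, n2], y2⟩, y1⟩

/-- the partition condition for `p = 2` -/
theorem part_two (hmn : 2 * m < n) : (∀ μ : Multiset ℕ, (∀ a ∈ μ, 0 < a ∧ a ≤ 2) → μ.sum = n → ∃ ν : Multiset ℕ, ν ≤ μ ∧ ν.sum = m) ↔ (Odd n ∨ Even m) := by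
  constructor
  · intro H
    by_contra hcon
    push Not at hcon
    obtain ⟨c1, c2⟩ := hcon
    rw [Nat.not_odd_iff_even] at c1
    obtain ⟨k, hk⟩ := c1
    obtain ⟨ν, h1, h2⟩ := H (Multiset.replicate k 2) (fun a ha => by rw [Multiset.eq_of_mem_replicate ha]; norm_num) (by
      rw [Multiset.sum_replicate, smul_eq_mul]; omega)
    obtain ⟨j, -, rfl⟩ := Multiset.le_replicate_iff.1 h1
    rw [Multiset.sum_replicate, smul_eq_mul] at h2
    exact c2 ⟨j, by omega⟩
  · intro hcond μ h1 h2
    have hμ : μ = Multiset.replicate (μ.count 2) 2 + Multiset.replicate (μ.count 1) 1 := by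
      ext a
      rw [Multiset.count_add, Multiset.count_replicate, Multiset.count_replicate]
      by_cases ha : a ∈ μ
      · have h3 := h1 a ha
        have h4 : a = 1 ∨ a = 2 := by omega
        rcases h4 with rfl | rfl
        · rw [if_neg (by norm_num), if_pos rfl, zero_add]
        · rw [if_pos rfl, if_neg (by norm_num), add_zero]
      · rw [Multiset.count_eq_zero_of_notMem ha]
        have e1 : (if 2 = a then μ.count 2 else 0) = 0 := by
          split_ifs with h
          · rw [h]; exact Multiset.count_eq_zero_of_notMem ha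
          · rfl
        have e2 : (if 1 = a then μ.count 1 else 0) = 0 := by
          split_ifs with h
          · rw [h]; exact Multiset.count_eq_zero_of_notMem ha
          · rfl
        rw [e1, e2]
    have hs : 2 * μ.count 2 + μ.count 1 = n := by
      have := congrArg Multiset.sum hμ
      rw [h2, Multiset.sum_add, Multiset.sum_replicate, Multiset.sum_replicate, smul_eq_mul, smul_eq_mul] at this
      omega
    obtain ⟨j, k, hj, hk, hjk⟩ : ∃ j k, j ≤ μ.count 2 ∧ k ≤ μ.count 1 ∧ 2 * j + k = m := by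
      rcases hcond with ⟨a, ha⟩ | ⟨b, hb⟩
      · by_cases hle : m / 2 ≤ μ.count 2
        · exact ⟨m / 2, m % 2, hle, by omega, by omega⟩
        · exact ⟨μ.count 2, m - 2 * μ.count 2, le_rfl, by omega, by omega⟩
      · by_cases hle : m / 2 ≤ μ.count 2
        · exact ⟨m / 2, 0, hle, Nat.zero_le _, by omega⟩
        · exact ⟨μ.count 2, m - 2 * μ.count 2, le_rfl, by omega, by omega⟩
    refine ⟨Multiset.replicate j 2 + Multiset.replicate k 1, ?_, ?_⟩
    · rw [hμ]
      exact add_le_add ((Multiset.replicate_le_replicate 2).2 hj) ((Multiset.replicate_le_replicate 1).2 hk)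
    · rw [Multiset.sum_add, Multiset.sum_replicate, Multiset.sum_replicate, smul_eq_mul, smul_eq_mul]; omega

end H99.Un
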